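import Cfsg.Agent.Lib.H1.PQb
import Cfsg.Agent.Lib.H1.ThmB

/-!
The Hall–Higman dichotomy for an operator of prime order `p` in any characteristic, at a weight of the centre.
-/

set_option autoImplicit false

open Subgroup H1.Coprime2 H1.Coprime H1.StrLem
open scoped commutatorElement Pointwise

namespace H1.DL

universe u

section grp

variable {Γ : Type u} [Group Γ] [Finite Γ] {F : Type*} [Field F]

omit [Finite Γ] in
theorem St_comm {Z : Subgroup Γ} {χ : Z →* Fˣ} {y z : Γ} (hy : y ∈ St Z χ) (hz : z ∈ Z) : y * z * y⁻¹ * z⁻¹ ∈ kr Z χ := by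
  obtain ⟨h1, h2⟩ := id hy
  have hz' : y * z * y⁻¹ ∈ Z := (Subgroup.mem_normalizer_iff.mp h1 z).mp hz
  rw [mem_kr]
  refine ⟨Z.mul_mem hz' (Z.inv_mem hz), ?_⟩
  have h3 := DFunLike.congr_fun h2 ⟨y * z * y⁻¹, hz'⟩
  rw [cch_apply] at h3
  have h4 : (⟨y⁻¹ * (⟨y * z * y⁻¹, hz'⟩ : Z) * y, conj_mem h1 hz'⟩ : Z) = ⟨z, hz⟩ := Subtype.ext (by simp only; group)
  rw [h4] at h3
  have h5 : (⟨y * z * y⁻¹ * z⁻¹, Z.mul_mem hz' (Z.inv_mem hz)⟩ : Z) = ⟨y * z * y⁻¹, hz'⟩ * ⟨z, hz⟩⁻¹ := Subtype.ext rfl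
  rw [h5, map_mul, map_inv, ← h3, mul_inv_cancel]

omit [Finite Γ] in
theorem comm_mul_left {Q Z : Subgroup Γ} (hQZ : Q ≤ centralizer (Z : Set Γ)) (hab : ∀ a ∈ Q, ∀ b ∈ Q, a * b * a⁻¹ * b⁻¹ ∈ Z)
    {a b c : Γ} (ha : a ∈ Q) (hb : b ∈ Q) (hc : c ∈ Q) :
    (a * b) * c * (a * b)⁻¹ * c⁻¹ = (a * c * a⁻¹ * c⁻¹) * (b * c * b⁻¹ * c⁻¹) := by
  have h1 := hab b hb c hc
  have h2 := mem_centralizer_iff.mp (hQZ ha) _ h1
  have h3 : (a * b) * c * (a * b)⁻¹ * c⁻¹ = (b * c * b⁻¹ * c⁻¹) * (a * c * a⁻¹ * c⁻¹) := by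
    calc (a * b) * c * (a * b)⁻¹ * c⁻¹ = a * (b * c * b⁻¹ * c⁻¹) * (c * a⁻¹ * c⁻¹) := by group
      _ = ((b * c * b⁻¹ * c⁻¹) * a) * (c * a⁻¹ * c⁻¹) := by rw [h2]
      _ = _ := by group
  have h4 := mem_centralizer_iff.mp (hQZ (mul_mem (mul_mem (mul_mem ha hc) (inv_mem ha)) (inv_mem hc))) _ h1
  rw [h3, h4]

/-- `[[Q, D], C_Q(D)] ≤ ker χ` -/
theorem orth {Q Z D : Subgroup Γ} {χ : Z →* Fˣ} (hQZ : Q ≤ centralizer (Z : Set Γ)) (hab : ∀ a ∈ Q, ∀ b ∈ Q, a * b * a⁻¹ * b⁻¹ ∈ Z)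
    (hDQ : D ≤ normalizer (Q : Set Γ)) (hD : D ≤ St Z χ) :
    ∀ k ∈ ⁅Q, D⁆, ∀ c ∈ Q ⊓ centralizer (D : Set Γ), k * c * k⁻¹ * c⁻¹ ∈ kr Z χ := by
  intro k hk c hc
  let R : Subgroup Γ :=
    { carrier := {k | k ∈ Q ∧ k * c * k⁻¹ * c⁻¹ ∈ kr Z χ}
      one_mem' := ⟨one_mem _, by simp [one_mem]⟩
      mul_mem' := by
        rintro a b ⟨ha, ha'⟩ ⟨hb, hb'⟩
        exact ⟨mul_mem ha hb, by rw [comm_mul_left hQZ hab ha hb hc.1]; exact mul_mem ha' hb'⟩
      inv_mem' := by
        rintro a ⟨ha, ha'⟩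
        refine ⟨inv_mem ha, ?_⟩
        have h1 := comm_mul_left hQZ hab (inv_mem ha) ha hc.1
        have h2 : (a⁻¹ * a) * c * (a⁻¹ * a)⁻¹ * c⁻¹ = 1 := by group
        rw [h2] at h1
        have h3 : a⁻¹ * c * a⁻¹⁻¹ * c⁻¹ = (a * c * a⁻¹ * c⁻¹)⁻¹ := eq_inv_of_mul_eq_one_left h1.symm
        rw [h3]; exact inv_mem ha' }
  have h1 : ⁅Q, D⁆ ≤ R := by
    rw [Subgroup.commutator_le]
    intro a ha y hy
    have hyQ := hDQ hy
    have hay' : y * a⁻¹ * y⁻¹ ∈ Q := (Subgroup.mem_normalizer_iff.mp hyQ _).mp (inv_mem ha)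
    have h2 : ⁅a, y⁆ = a * (y * a⁻¹ * y⁻¹) := by rw [commutatorElement_def]; group
    refine ⟨?_, ?_⟩
    · rw [h2]; exact mul_mem ha hay'
    · rw [h2, comm_mul_left hQZ hab ha hay' hc.1]
      have h7 : y * c = c * y := mem_centralizer_iff.mp hc.2 y hy
      have h8 : (y * a⁻¹ * y⁻¹) * c * (y * a⁻¹ * y⁻¹)⁻¹ * c⁻¹ = y * (a⁻¹ * c * a⁻¹⁻¹ * c⁻¹) * y⁻¹ := by
        have h9 : y⁻¹ * c = c * y⁻¹ := by
          rw [inv_mul_eq_iff_eq_mul, ← mul_assoc, h7, mul_inv_cancel_right]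
        have h10 : y⁻¹ * c⁻¹ = c⁻¹ * y⁻¹ := by rw [← mul_inv_rev, ← mul_inv_rev, h7]
        calc (y * a⁻¹ * y⁻¹) * c * (y * a⁻¹ * y⁻¹)⁻¹ * c⁻¹ = y * a⁻¹ * (y⁻¹ * c) * y * a * y⁻¹ * c⁻¹ := by group
          _ = y * a⁻¹ * c * a * (y⁻¹ * c⁻¹) := by rw [h9]; group
          _ = _ := by rw [h10]; group
      have h11 := hab a⁻¹ (inv_mem ha) c hc.1
      have h12 := St_comm (hD hy) h11
      have h13 := comm_mul_left hQZ hab ha (inv_mem ha) hc.1
      have h14 : (a * a⁻¹) * c * (a * a⁻¹)⁻¹ * c⁻¹ = 1 := by group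
      rw [h14] at h13
      have h15 : (a * c * a⁻¹ * c⁻¹) = (a⁻¹ * c * a⁻¹⁻¹ * c⁻¹)⁻¹ := eq_inv_of_mul_eq_one_left h13.symm
      rw [h8, h15]
      set w := a⁻¹ * c * a⁻¹⁻¹ * c⁻¹ with hw
      -- w⁻¹ * (y w y⁻¹)
      have h16 : w⁻¹ * (y * w * y⁻¹) = (y * w * y⁻¹) * w⁻¹ := by
        have h17 : y * w * y⁻¹ ∈ Z := (Subgroup.mem_normalizer_iff.mp (hD hy).1 w).mp h11
        have h18 : w⁻¹ ∈ Q := by
          rw [hw]
          exact inv_mem (mul_mem (mul_mem (mul_mem (inv_mem ha) hc.1) (inv_mem (inv_mem ha))) (inv_mem hc.1))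
        exact (mem_centralizer_iff.mp (hQZ h18) _ h17).symm
      rw [h16]
      exact h12
  exact (h1 hk).2

end grp

section rep

variable {Γ : Type u} [Group Γ] [Finite Γ] {F : Type*} [Field F] [IsAlgClosed F] {V : Type*} [AddCommGroup V] [Module F V]
  [FiniteDimensional F V]

theorem dichV (ρ : Γ →* Module.End F V) {d q : ℕ} [hd : Fact d.Prime] [hq : Fact q.Prime] (hdq : d ≠ q) (hqF : (q : F) ≠ 0)
    {x : Γ} (hx : orderOf x = d) (Q Z : Subgroup Γ) (hQ : IsPGroup q Q) (hxQ : x ∈ normalizer (Q : Set Γ)) (hZQ : Z ≤ Q)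
    (hQZ : Q ≤ centralizer (Z : Set Γ)) (hab : ∀ a ∈ Q, ∀ b ∈ Q, a * b * a⁻¹ * b⁻¹ ∈ Z)
    (χ : Z →* Fˣ) (hwt : H30.Wts.wt (ρ.comp Z.subtype) χ ≠ ⊥) (hxχ : x ∈ St Z χ)
    (hT : ∀ v : V, ∑ j ∈ Finset.range d, ρ (x ^ j) v = 0) :
    ⁅Q, zpowers x⁆ ≤ cmod Q (kr Z χ) (le_normalizer_kr χ hQZ) ∨
      ((∃ m, 1 ≤ m ∧ d - 1 = q ^ m) ∧ (cmod Q (kr Z χ) (le_normalizer_kr χ hQZ)).relIndex ⁅Q, zpowers x⁆ = (d - 1) ^ 2) := by
  classical
  by_cases hcase : ⁅Q, zpowers x⁆ ≤ cmod Q (kr Z χ) (le_normalizer_kr χ hQZ)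
  · exact Or.inl hcase
  right
  have hxZ : x ∈ normalizer (Z : Set Γ) := hxχ.1
  have hQs : Group.IsSolvable Q := by have := hQ.isNilpotent; infer_instance
  set D := zpowers x with hD
  have hDQ : D ≤ normalizer (Q : Set Γ) := by rw [hD, zpowers_le]; exact hxQ
  have hDZ : D ≤ normalizer (Z : Set Γ) := by rw [hD, zpowers_le]; exact hxZ
  have hDχ : D ≤ St Z χ := by rw [hD, zpowers_le]; exact hxχ
  have hcop : (Nat.card D).Coprime (Nat.card Q) := by
    rw [hD, Nat.card_zpowers, hx]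
    obtain ⟨n, hn⟩ := IsPGroup.iff_card.mp hQ
    rw [hn]
    exact Nat.Coprime.pow_right _ ((Nat.coprime_primes hd.out hq.out).2 hdq)
  set K := ⁅Q, D⁆ with hK
  have hKQ : K ≤ Q := commutator_le_left hDQ
  set Y := K ⊔ Z with hY
  have hYQ : Y ≤ Q := sup_le hKQ hZQ
  have hxK : x ∈ normalizer (K : Set Γ) := (le_normalizer_commutator hDQ Subgroup.le_normalizer) (mem_zpowers x)
  have hxY : x ∈ normalizer (Y : Set Γ) :=
    (le_normalizer_sup (B := D) (by rw [hD, zpowers_le]; exact hxK) hDZ) (mem_zpowers x)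
  have hZn : Q ≤ normalizer (Z : Set Γ) := hQZ.trans (Subgroup.centralizer_le_normalizer _)
  have hS : Setup ρ d q 0 x Y Z :=
    { hpq := hdq
      hqF := hqF
      hx := by rw [zero_add, pow_one]; exact hx
      hQ := hQ.to_le hYQ
      hxQ := hxY
      hZQ := le_sup_right
      hxZ := hxZ
      hQZ := hYQ.trans hQZ
      hab := fun a ha b hb => hab a (hYQ ha) b (hYQ hb)
      hy := by
        intro g hg hxg
        rw [pow_zero, pow_one] at hxg
        have h1 : K ≤ normalizer (Z : Set Γ) := hKQ.trans hZn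
        obtain ⟨k, hk, z, hz, rfl⟩ := H37.Syl.exists_mul_of_mem_sup h1 hg
        apply Z.mul_mem ?_ hz
        apply H1.PQ.lemF hDQ hcop hab hk
        have h2 : D ≤ H1.PQ.stabC Z k := by
          rw [hD, zpowers_le]
          refine ⟨hxZ, ?_⟩
          have h3 : x * k * x⁻¹ * k⁻¹ = k * z * (x * z⁻¹ * x⁻¹) * k⁻¹ := by
            have h4 : x * k = k * z * x * z⁻¹ := by
              calc x * k = x * (k * z) * z⁻¹ := by group
                _ = k * z * x * z⁻¹ := by rw [hxg]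
            rw [h4]; group
          rw [h3]
          have h5 : x * z⁻¹ * x⁻¹ ∈ Z := (Subgroup.mem_normalizer_iff.mp hxZ _).mp (Z.inv_mem hz)
          have h6 := (Subgroup.mem_normalizer_iff.mp (h1 hk) _).mp (Z.mul_mem hz h5)
          have h7 : k * (z * (x * z⁻¹ * x⁻¹)) * k⁻¹ = k * z * (x * z⁻¹ * x⁻¹) * k⁻¹ := by group
          rwa [h7] at h6
        exact fun a ha => (h2 ha).2
      hT := by
        intro v
        rw [zero_add, pow_one]
        exact hT v }
  have horth := orth (χ := χ) hQZ hab hDQ hDχ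
  have hkrn := le_normalizer_kr χ hQZ
  have hne : ∃ a ∈ Y, ∃ b ∈ Y, a * b * a⁻¹ * b⁻¹ ∉ kr Z χ := by
    by_contra hcon
    push Not at hcon
    apply hcase
    intro k hk
    rw [mem_cmod]
    refine ⟨hKQ hk, ?_⟩
    intro v hv
    obtain ⟨k', hk', c, hc, rfl⟩ := exists_mul_of_mem D Q hDQ hcop (Or.inr hQs) hv
    have h1 := hcon k (le_sup_left (b := Z) hk) k' (le_sup_left (b := Z) hk')
    have h2 := horth k hk c hc
    have h3 : k * (k' * c) * k⁻¹ * (k' * c)⁻¹ = (k * k' * k⁻¹ * k'⁻¹) * (k' * (k * c * k⁻¹ * c⁻¹) * k'⁻¹) := by group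
    rw [h3]
    exact mul_mem h1 ((Subgroup.mem_normalizer_iff.mp (hkrn (hKQ hk')) _).mp h2)
  obtain ⟨k, hk0, _, _, hsq, hm, _⟩ := H1.StrLem.main hS χ hwt hne
  obtain rfl : k = 0 := by omega
  rw [zero_add, Nat.sub_zero, pow_one] at hsq hm
  refine ⟨hm, ?_⟩
  set N := cmod Q (kr Z χ) (le_normalizer_kr χ hQZ) with hN
  have hZN : Z ≤ N := by
    intro z hz
    rw [hN, mem_cmod]
    refine ⟨hZQ hz, fun v hv => ?_⟩
    have := mem_centralizer_iff.mp (hQZ hv) z hz
    rw [this]; simp [one_mem]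
  have hNQ : N ≤ Q := cmod_le _ _ _
  have hQN : Q ≤ normalizer (N : Set Γ) := by
    apply le_normalizer_of_conj_mem
    intro g hg n hn
    have h1 := hZN (hab g hg n (hNQ hn))
    have := N.mul_mem h1 hn
    rwa [inv_mul_cancel_right] at this
  rw [← H1.PQ.relIndex_sup_of_le (Z := Z) hZN hKQ hZQ hQN, hsq, ← hY]
  have heq : N ⊓ Y = cmod Y (kr Z χ) (le_normalizer_kr χ hS.hQZ) ⊓ Y := by
    ext y
    rw [Subgroup.mem_inf, Subgroup.mem_inf, mem_cmod, mem_cmod]
    constructor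
    · rintro ⟨⟨hyQ, hy⟩, hyY⟩
      exact ⟨⟨hyY, fun h hh => hy h (hYQ hh)⟩, hyY⟩
    · rintro ⟨⟨_, hy⟩, hyY⟩
      refine ⟨⟨hYQ hyY, fun v hv => ?_⟩, hyY⟩
      obtain ⟨k', hk', c, hc, rfl⟩ := exists_mul_of_mem D Q hDQ hcop (Or.inr hQs) hv
      have h1 := hy k' (le_sup_left (b := Z) hk')
      have h2 : y * c * y⁻¹ * c⁻¹ ∈ kr Z χ := by
        have h3 : K ≤ normalizer (Z : Set Γ) := hKQ.trans hZn
        obtain ⟨k, hk, z, hz, rfl⟩ := H37.Syl.exists_mul_of_mem_sup h3 hyY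
        rw [comm_mul_left hQZ hab (hKQ hk) (hZQ hz) hc.1]
        have h4 := mem_centralizer_iff.mp (hQZ hc.1) z hz
        have h5 : z * c * z⁻¹ * c⁻¹ = 1 := by rw [h4]; group
        rw [h5, mul_one]
        exact horth k hk c hc
      have h3 : y * (k' * c) * y⁻¹ * (k' * c)⁻¹ = (y * k' * y⁻¹ * k'⁻¹) * (k' * (y * c * y⁻¹ * c⁻¹) * k'⁻¹) := by group
      rw [h3]
      exact mul_mem h1 ((Subgroup.mem_normalizer_iff.mp (hkrn (hKQ hk')) _).mp h2)
  rw [← Subgroup.inf_relIndex_right N, heq, Subgroup.inf_relIndex_right]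

end rep

section four

variable {Γ : Type u} [Group Γ] [Finite Γ]

/-- `A` an abelian `3`-group acting on an abelian group `X = [X, A]` of order prime to `3` such that `|[X, c]| ∈ {1, 4}` for
all `c`: then `|X| ∈ {1, 4}`. -/
theorem four (X A : Subgroup Γ) (hAX : A ≤ normalizer (X : Set Γ)) (hX : ∀ a ∈ X, ∀ b ∈ X, a * b = b * a)
    (hA : ∀ a ∈ A, ∀ b ∈ A, a * b = b * a) (hA3 : IsPGroup 3 A) (hcop : (Nat.card A).Coprime (Nat.card X))
    (hXA : ⁅X, A⁆ = X) (h4 : ∀ c ∈ A, Nat.card (⁅X, zpowers c⁆ : Subgroup Γ) = 1 ∨ Nat.card (⁅X, zpowers c⁆ : Subgroup Γ) = 4) :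
    Nat.card X = 1 ∨ Nat.card X = 4 := by
  classical
  haveI : Fact (Nat.Prime 3) := ⟨Nat.prime_three⟩
  by_cases hX1 : X = ⊥
  · left; rw [hX1, Subgroup.card_bot]
  right
  have hXs : Group.IsSolvable X := Group.isSolvable_of_comm (fun a b => Subtype.ext (hX a a.2 b b.2))
  have hz : ∀ c ∈ A, zpowers c ≤ normalizer (X : Set Γ) := fun c hc => by rw [zpowers_le]; exact hAX hc
  have hcopz : ∀ c ∈ A, (Nat.card (zpowers c)).Coprime (Nat.card X) := fun c hc =>
    Nat.Coprime.coprime_dvd_left (Subgroup.card_dvd_of_le (by rw [zpowers_le]; exact hc)) hcop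
  -- `c` not centralising X
  obtain ⟨c, hc, hc1⟩ : ∃ c ∈ A, ⁅X, zpowers c⁆ ≠ ⊥ := by
    by_contra hcon
    push Not at hcon
    apply hX1
    rw [← hXA, Subgroup.commutator_eq_bot_iff_le_centralizer, Subgroup.le_centralizer_iff]
    intro c hc
    have := Subgroup.commutator_eq_bot_iff_le_centralizer.1 (hcon c hc)
    rw [Subgroup.le_centralizer_iff] at this
    exact this (mem_zpowers c)
  set K := ⁅X, zpowers c⁆ with hK
  have hKX : K ≤ X := commutator_le_left (hz c hc)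
  have hKc : Nat.card K = 4 := (h4 c hc).resolve_left (fun h => hc1 (Subgroup.eq_bot_of_card_eq _ h))
  set L := X ⊓ centralizer (zpowers c : Set Γ) with hL
  have hKL : K ⊔ L = X := commutator_sup_centralizer (zpowers c) X (hz c hc) (hcopz c hc) (Or.inr hXs)
  have hAcz : A ≤ normalizer (zpowers c : Set Γ) := by
    refine le_trans ?_ (Subgroup.centralizer_le_normalizer _)
    intro a ha
    rw [mem_centralizer_iff]
    rintro _ ⟨j, rfl⟩
    have : Commute c a := hA c hc a ha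
    exact (this.zpow_left j)
  have hAK : A ≤ normalizer (K : Set Γ) := le_normalizer_commutator hAX hAcz
  have hAL : A ≤ normalizer (L : Set Γ) := le_normalizer_inf hAX (le_normalizer_centralizer hAcz)
  -- K ⊓ L = ⊥
  have hinf : K ⊓ L = ⊥ := by
    rw [eq_bot_iff]
    intro u hu
    have := H1.PQ.lemF (N := ⊥) (hz c hc) (hcopz c hc) (by
      intro a ha b hb
      rw [Subgroup.mem_bot, hX a ha b hb]; group) hu.1 (by
      intro a ha
      have h1 := mem_centralizer_iff.mp hu.2.2 a ha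
      rw [Subgroup.mem_bot, h1]; group)
    exact this
  by_cases hLA : ∃ c' ∈ A, ⁅L, zpowers c'⁆ ≠ ⊥
  · exfalso
    obtain ⟨c', hc', hc'1⟩ := hLA
    set M := ⁅L, zpowers c'⁆ with hM
    have hc'L : zpowers c' ≤ normalizer (L : Set Γ) := by rw [zpowers_le]; exact hAL hc'
    have hML : M ≤ L := commutator_le_left hc'L
    have hMX : M ≤ ⁅X, zpowers c'⁆ := Subgroup.commutator_mono inf_le_left le_rfl
    have hXc' : Nat.card (⁅X, zpowers c'⁆ : Subgroup Γ) = 4 := by
      rcases h4 c' hc' with h | h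
      · exfalso
        apply hc'1
        rw [eq_bot_iff, ← Subgroup.eq_bot_of_card_eq _ h]
        exact hMX
      · exact h
    -- c' acts without fixed points on M, so |M| ≡ 1 mod 3
    have hc'M : zpowers c' ≤ normalizer (M : Set Γ) := le_normalizer_commutator hc'L Subgroup.le_normalizer
    have hLXs : L ≤ X := inf_le_left
    have hcopL : (Nat.card (zpowers c')).Coprime (Nat.card L) := Nat.Coprime.coprime_dvd_right (Subgroup.card_dvd_of_le hLXs) (hcopz c' hc')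
    have hMcard : Nat.card M = 4 := by
      have h1 : Nat.card M ∣ 4 := by rw [← hXc']; exact Subgroup.card_dvd_of_le hMX
      have h2 : Nat.card M ≠ 1 := fun h => hc'1 (Subgroup.eq_bot_of_card_eq _ h)
      have h3 : Nat.card M ≠ 2 := by
        intro h
        -- an element of order 2 is fixed
        obtain ⟨u, huM, hu1⟩ := M.bot_or_exists_ne_one.resolve_left hc'1
        have hall : ∀ w ∈ M, w ≠ 1 → w = u := by
          intro w hw hw1
          by_contra hne
          have h5 : ({1, ⟨u, huM⟩, ⟨w, hw⟩} : Finset M).card = 3 := by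
            rw [Finset.card_insert_of_notMem, Finset.card_pair]
            · intro h; exact hne (congrArg Subtype.val h).symm
            · simp only [Finset.mem_insert, Finset.mem_singleton, not_or]
              exact ⟨fun h => hu1 (congrArg Subtype.val h).symm, fun h => hw1 (congrArg Subtype.val h).symm⟩
          haveI := Fintype.ofFinite M
          have h6 := Finset.card_le_univ ({1, ⟨u, huM⟩, ⟨w, hw⟩} : Finset M)
          rw [h5, ← Nat.card_eq_fintype_card, h] at h6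
          omega
        apply hu1
        have := H1.PQ.lemF (N := ⊥) hc'L hcopL (by
          intro a ha b hb
          rw [Subgroup.mem_bot, hX a (hLXs ha) b (hLXs hb)]; group) huM (by
          intro a ha
          have h7 : a * u * a⁻¹ ∈ M := (Subgroup.mem_normalizer_iff.mp (hc'M ha) u).mp huM
          have h8 : a * u * a⁻¹ = u := hall _ h7 (fun h => hu1 (by
            have : u = a⁻¹ * (a * u * a⁻¹) * a := by group
            rw [this, h]; group))
          rw [h8, mul_inv_cancel]; exact one_mem _)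
        exact (Subgroup.mem_bot).mp this
      have h5 : Nat.card M ≤ 4 := Nat.le_of_dvd (by norm_num) h1
      have h6 : 0 < Nat.card M := Nat.card_pos
      interval_cases h7 : Nat.card M
      · exact absurd rfl h2
      · exact absurd rfl h3
      · norm_num at h1
      · rfl
    have hMeq : ⁅X, zpowers c'⁆ = M := by
      symm
      apply Subgroup.eq_of_le_of_card_ge hMX
      rw [hXc', hMcard]
    -- c' centralises K
    have hc'K : ⁅K, zpowers c'⁆ = ⊥ := by
      rw [eq_bot_iff, ← hinf]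
      refine le_inf ?_ ?_
      · exact commutator_le_left (by rw [zpowers_le]; exact hAK hc')
      · refine le_trans ?_ hML
        rw [← hMeq]
        exact Subgroup.commutator_mono hKX le_rfl
    have hcc : ∀ k ∈ K, c' * k = k * c' := by
      intro k hk
      have := Subgroup.commutator_eq_bot_iff_le_centralizer.1 hc'K hk
      exact mem_centralizer_iff.1 this c' (mem_zpowers c')
    have hcL : ∀ k ∈ L, c * k = k * c := by
      intro k hk
      exact mem_centralizer_iff.1 hk.2 c (mem_zpowers c)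
    -- the element c c'
    have hcc' : c * c' ∈ A := mul_mem hc hc'
    have hle1 : K ≤ ⁅X, zpowers (c * c')⁆ := by
      have h1 : ⁅K, zpowers c⁆ = K := commutator_commutator_eq (zpowers c) X (hz c hc) (hcopz c hc) (Or.inr hXs)
      have h2 : ⁅K, zpowers c⁆ ≤ ⁅X, zpowers (c * c')⁆ := by
        rw [Subgroup.commutator_le]
        rintro k hk _ ⟨j, rfl⟩
        have h3 : ⁅k, c ^ j⁆ = ⁅k, (c * c') ^ j⁆ := by
          have h4 : Commute c c' := hA c hc c' hc'
          rw [h4.mul_zpow, commutatorElement_def, commutatorElement_def]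
          have h5 : Commute c' k := hcc k hk
          have h6 := (h5.zpow_left j).inv_right
          have h6' : c' ^ j * k⁻¹ = k⁻¹ * c' ^ j := h6
          calc k * c ^ j * k⁻¹ * (c ^ j)⁻¹ = k * c ^ j * (k⁻¹ * c' ^ j) * (c' ^ j)⁻¹ * (c ^ j)⁻¹ := by group
            _ = k * (c ^ j * c' ^ j) * k⁻¹ * (c ^ j * c' ^ j)⁻¹ := by rw [← h6']; group
        rw [h3]
        exact Subgroup.commutator_mem_commutator (hKX hk) (zpow_mem (mem_zpowers _) j)
      rwa [h1] at h2
    have hle2 : M ≤ ⁅X, zpowers (c * c')⁆ := by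
      have h1 : ⁅M, zpowers c'⁆ = M := commutator_commutator_eq (zpowers c') L hc'L hcopL (Or.inl (by infer_instance))
      have h2 : ⁅M, zpowers c'⁆ ≤ ⁅X, zpowers (c * c')⁆ := by
        rw [Subgroup.commutator_le]
        rintro k hk _ ⟨j, rfl⟩
        have h3 : ⁅k, c' ^ j⁆ = ⁅k, (c * c') ^ j⁆ := by
          have h4 : Commute c c' := hA c hc c' hc'
          rw [h4.mul_zpow, (h4.zpow_zpow j j).eq, commutatorElement_def, commutatorElement_def]
          have h5 : Commute c k := hcL k (hML hk)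
          have h6 := (h5.zpow_left j).inv_right
          have h6' : c ^ j * k⁻¹ = k⁻¹ * c ^ j := h6
          calc k * c' ^ j * k⁻¹ * (c' ^ j)⁻¹ = k * c' ^ j * (k⁻¹ * c ^ j) * (c ^ j)⁻¹ * (c' ^ j)⁻¹ := by group
            _ = k * (c' ^ j * c ^ j) * k⁻¹ * (c' ^ j * c ^ j)⁻¹ := by rw [← h6']; group
        rw [h3]
        exact Subgroup.commutator_mem_commutator (hLXs (hML hk)) (zpow_mem (mem_zpowers _) j)
      rwa [h1] at h2
    have h5 : Nat.card (⁅X, zpowers (c * c')⁆ : Subgroup Γ) = 4 := by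
      rcases h4 _ hcc' with h | h
      · exfalso
        apply hc1
        rw [eq_bot_iff, ← Subgroup.eq_bot_of_card_eq _ h]
        exact hle1
      · exact h
    have h6 : K = ⁅X, zpowers (c * c')⁆ := Subgroup.eq_of_le_of_card_ge hle1 (by rw [h5, hKc])
    have h7 : M ≤ K ⊓ L := le_inf (by rw [h6]; exact hle2) hML
    rw [hinf, le_bot_iff] at h7
    exact hc'1 h7
  · push Not at hLA
    -- L is centralised by A, hence X = K
    have hLcA : L ≤ centralizer (A : Set Γ) := by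
      rw [Subgroup.le_centralizer_iff]
      intro c' hc'
      have := Subgroup.commutator_eq_bot_iff_le_centralizer.1 (hLA c' hc')
      rw [Subgroup.le_centralizer_iff] at this
      exact this (mem_zpowers c')
    have hLbot : L = ⊥ := by
      rw [eq_bot_iff]
      intro u hu
      have huX : u ∈ ⁅X, A⁆ := by rw [hXA]; exact hu.1
      have := H1.PQ.lemF (N := ⊥) hAX hcop (by
        intro a ha b hb
        rw [Subgroup.mem_bot, hX a ha b hb]; group) huX (by
        intro a ha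
        have h1 := mem_centralizer_iff.mp (hLcA hu) a ha
        rw [Subgroup.mem_bot, h1]; group)
      exact this
    rw [hLbot, sup_bot_eq] at hKL
    rw [← hKL]; exact hKc

/-- a `3`-group acts on a group of order `4` as an abelian group -/
theorem commutator_centralizes (X H : Subgroup Γ) (hHX : H ≤ normalizer (X : Set Γ)) (hH : IsPGroup 3 H) (hX : Nat.card X = 4) :
    ⁅H, H⁆ ≤ centralizer (X : Set Γ) := by
  classical
  haveI : Fact (Nat.Prime 3) := ⟨Nat.prime_three⟩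
  let φ : H →* MulAut X := (MulAut.conjNormal (H := X.subgroupOf (normalizer (X : Set Γ)))).comp (Subgroup.inclusion hHX) |> fun f =>
    ((MulAut.congr (Subgroup.subgroupOfEquivOfLe (Subgroup.le_normalizer (H := X)))).toMonoidHom.comp f)
  have hφ : ∀ (h : H) (x : X), ((φ h x : X) : Γ) = h * x * (h : Γ)⁻¹ := fun h x => rfl
  -- order of the image
  have hfin : Finite (MulAut X) := inferInstance
  have hcard : Nat.card (MulAut X) ≤ 6 := by
    haveI := Fintype.ofFinite X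
    let e : MulAut X → Equiv.Perm {x : X // x ≠ 1} := fun f => f.toEquiv.subtypeEquiv (fun a => by
      change a ≠ 1 ↔ f a ≠ 1
      rw [Ne, Ne, not_iff_not]
      exact (map_eq_one_iff f f.injective).symm)
    have he : Function.Injective e := by
      intro f g hfg
      ext1 x
      by_cases hx : x = 1
      · rw [hx, map_one, map_one]
      · have := congrArg (fun p : Equiv.Perm {x : X // x ≠ 1} => ((p ⟨x, hx⟩ : {x : X // x ≠ 1}) : X)) hfg
        exact this
    have h1 := Nat.card_le_card_of_injective e he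
    rw [Nat.card_perm] at h1
    have h2 : Nat.card {x : X // x ≠ 1} = 3 := by
      have h3 : Fintype.card {x : X // x ≠ 1} = Fintype.card X - 1 := by
        rw [Fintype.card_subtype_compl, Fintype.card_subtype_eq]
      rw [Nat.card_eq_fintype_card, h3, ← Nat.card_eq_fintype_card, hX]
    rw [h2] at h1
    exact h1
  have hr : IsPGroup 3 φ.range := by
    exact hH.of_surjective φ.rangeRestrict φ.rangeRestrict_surjective
  obtain ⟨n, hn⟩ := IsPGroup.iff_card.mp hr
  have hn1 : n ≤ 1 := by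
    by_contra hcon
    have h2 : 3 ^ 2 ≤ 3 ^ n := Nat.pow_le_pow_right (by norm_num) (by omega)
    have h3 : Nat.card φ.range ≤ Nat.card (MulAut X) := Subgroup.card_le_card_group _
    omega
  have hcomm : ∀ a b : φ.range, a * b = b * a := by
    rcases Nat.le_one_iff_eq_zero_or_eq_one.mp hn1 with h | h
    · rw [h, pow_zero] at hn
      haveI := (Nat.card_eq_one_iff_unique.mp hn).1
      intro a b; exact Subsingleton.elim _ _
    · rw [h, pow_one] at hn
      haveI : IsCyclic φ.range := isCyclic_of_prime_card hn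
      letI := IsCyclic.commGroup (α := φ.range)
      intro a b; exact mul_comm a b
  rw [Subgroup.commutator_le]
  intro a ha b hb
  rw [mem_centralizer_iff]
  intro x hx
  have h1 : φ (⟨a, ha⟩ * ⟨b, hb⟩) = φ (⟨b, hb⟩ * ⟨a, ha⟩) := by
    rw [map_mul, map_mul]
    exact congrArg Subtype.val (hcomm ⟨_, ⟨_, rfl⟩⟩ ⟨_, ⟨_, rfl⟩⟩)
  have h2 : φ ⁅(⟨a, ha⟩ : H), ⟨b, hb⟩⁆ = 1 := by
    rw [commutatorElement_def, mul_assoc, ← mul_inv_rev, map_mul, h1, ← map_mul, mul_inv_cancel, map_one]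
  have h3 : ((φ ⁅(⟨a, ha⟩ : H), ⟨b, hb⟩⁆ ⟨x, hx⟩ : X) : Γ) = x := by rw [h2]; rfl
  rw [hφ] at h3
  have h4 : ((⁅(⟨a, ha⟩ : H), ⟨b, hb⟩⁆ : H) : Γ) = ⁅a, b⁆ := rfl
  rw [h4, mul_inv_eq_iff_eq_mul] at h3
  exact h3.symm

end four

end H1.DL
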