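import Cfsg.Agent.Lib.H1.DLa

/-!
Quadratic action of the derived group of a `3`-group on a `q`-group in characteristic `3`.
-/

set_option autoImplicit false

open Subgroup H1.Coprime2 H1.Coprime H1.StrLem H1.ThmB
open scoped commutatorElement Pointwise

namespace H1.DL

universe u

section grp

variable {Γ : Type u} [Group Γ] [Finite Γ]

theorem final (N T H : Subgroup Γ) [N.Normal] (hHT : H ≤ normalizer (T : Set Γ))
    (hTT : ∀ a ∈ T, ∀ b ∈ T, a * b * a⁻¹ * b⁻¹ ∈ N) (hH : IsPGroup 3 H) (hAab : ∀ a ∈ ⁅H, H⁆, ∀ b ∈ ⁅H, H⁆, a * b = b * a)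
    (hcop : (Nat.card T).Coprime 3) (hTA : ⁅T, ⁅H, H⁆⁆ = T)
    (h4 : ∀ c ∈ ⁅H, H⁆, ⁅T, zpowers c⁆ ≤ N ∨ N.relIndex ⁅T, zpowers c⁆ = 4) : T ≤ N := by
  haveI : Fact (Nat.Prime 3) := ⟨Nat.prime_three⟩
  set π := QuotientGroup.mk' N with hπ
  have hker : π.ker = N := QuotientGroup.ker_mk' N
  have hAH : ⁅H, H⁆ ≤ H := Subgroup.commutator_le_self H
  set X := T.map π with hX
  set A := (⁅H, H⁆).map π with hA
  have hAeq : A = ⁅H.map π, H.map π⁆ := Subgroup.map_commutator _ _ _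
  have hHX : H.map π ≤ normalizer (X : Set (Γ ⧸ N)) := by
    apply le_normalizer_of_conj_mem
    rintro _ ⟨h, hh, rfl⟩ _ ⟨t, ht, rfl⟩
    exact ⟨h * t * h⁻¹, (Subgroup.mem_normalizer_iff.mp (hHT hh) t).mp ht, by rw [map_mul, map_mul, map_inv]⟩
  have hAX : A ≤ normalizer (X : Set (Γ ⧸ N)) := (Subgroup.map_mono hAH).trans hHX
  have hXc : ∀ a ∈ X, ∀ b ∈ X, a * b = b * a := by
    rintro _ ⟨a, ha, rfl⟩ _ ⟨b, hb, rfl⟩
    have h1 := hTT a ha b hb
    rw [← hker, MonoidHom.mem_ker, map_mul, map_mul, map_mul, map_inv, map_inv, mul_inv_eq_one, mul_inv_eq_iff_eq_mul] at h1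
    exact h1
  have hAc : ∀ a ∈ A, ∀ b ∈ A, a * b = b * a := by
    rintro _ ⟨a, ha, rfl⟩ _ ⟨b, hb, rfl⟩
    rw [← map_mul, ← map_mul, hAab a ha b hb]
  have hA3 : IsPGroup 3 A := (hH.to_le hAH).map π
  have hcopX : (Nat.card X).Coprime 3 := Nat.Coprime.coprime_dvd_left (Subgroup.card_map_dvd T π) hcop
  have hcopAX : (Nat.card A).Coprime (Nat.card X) := by
    obtain ⟨k, hk⟩ := IsPGroup.iff_card.mp hA3
    rw [hk]
    exact Nat.Coprime.pow_left _ hcopX.symm
  have hXA : ⁅X, A⁆ = X := by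
    rw [hX, hA, ← Subgroup.map_commutator, hTA]
  have key : X = ⊥ → T ≤ N := by
    intro h
    rw [hX, Subgroup.map_eq_bot_iff, hker] at h
    exact h
  have h4' : ∀ c ∈ A, Nat.card (⁅X, zpowers c⁆ : Subgroup (Γ ⧸ N)) = 1 ∨ Nat.card (⁅X, zpowers c⁆ : Subgroup (Γ ⧸ N)) = 4 := by
    rintro _ ⟨c, hc, rfl⟩
    have h1 : ⁅X, zpowers (π c)⁆ = (⁅T, zpowers c⁆).map π := by
      rw [Subgroup.map_commutator, MonoidHom.map_zpowers]
    rw [h1]
    rcases h4 c hc with h | h
    · left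
      rw [(Subgroup.map_eq_bot_iff _).mpr (hker.symm ▸ h), Subgroup.card_bot]
    · right
      rw [← Subgroup.relIndex_ker, hker, h]
  rcases four X A hAX hXc hAc hA3 hcopAX hXA h4' with h | h
  · exact key (Subgroup.card_eq_one.mp h)
  · have h1 := commutator_centralizes X (H.map π) hHX (hH.map π) h
    rw [← hAeq] at h1
    apply key
    rw [← hXA, Subgroup.commutator_comm]
    exact Subgroup.commutator_eq_bot_iff_le_centralizer.mpr h1

end grp

section rep

variable {Γ : Type u} [Group Γ] [Finite Γ] {F : Type*} [Field F] [IsAlgClosed F] [CharP F 3] {V : Type*} [AddCommGroup V] [Module F V]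
  [FiniteDimensional F V]

omit [Finite Γ] [IsAlgClosed F] [FiniteDimensional F V] in
theorem sum_three (ρ : Γ →* Module.End F V) (x : Γ) (v : V) :
    ∑ j ∈ Finset.range 3, ρ (x ^ j) v = (ρ x - 1) ((ρ x - 1) v) := by
  have h3 : (3 : F) = 0 := by
    have := CharP.cast_eq_zero F 3
    exact_mod_cast this
  have h1 : ∀ w : V, w + w + w = 0 := by
    intro w
    have : w + w + w = (3 : F) • w := by
      rw [show (3 : F) = 1 + 1 + 1 by norm_num, add_smul, add_smul, one_smul]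
    rw [this, h3, zero_smul]
  simp only [Finset.sum_range_succ, Finset.sum_range_zero, zero_add, pow_zero, pow_one, map_one, pow_two, map_mul,
    LinearMap.sub_apply, Module.End.one_apply, Module.End.mul_apply, map_sub]
  have h2 := h1 (ρ x v)
  have h4 : v + (ρ x) v + (ρ x) ((ρ x) v) - ((ρ x) ((ρ x) v) - (ρ x) v - ((ρ x) v - v)) = ρ x v + ρ x v + ρ x v := by abel
  rw [h2] at h4
  exact sub_eq_zero.mp h4

theorem quad3_min (ρ : Γ →* Module.End F V) {q : ℕ} [hq : Fact q.Prime] (hq3 : q ≠ 3) (H T : Subgroup Γ)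
    (hHT : H ≤ normalizer (T : Set Γ)) (hH : IsPGroup 3 H) (hT : IsPGroup q T) (htop : T ⊔ H = ⊤)
    (hfT : ∀ t ∈ T, ρ t = 1 → t = 1) (hfA : ∀ a ∈ ⁅H, H⁆, ρ a = 1 → a = 1)
    (hqu : ∀ a ∈ ⁅H, H⁆, ∀ b ∈ ⁅H, H⁆, ∀ v : V, (ρ a - 1) ((ρ b - 1) v) = 0)
    (hcu : ∀ h ∈ H, ∀ a ∈ ⁅H, H⁆, ∀ v : V, (ρ h - 1) ((ρ h - 1) ((ρ a - 1) v)) = 0)
    (hmin : ∀ K ≤ T, H ≤ normalizer (K : Set Γ) → K ≠ T → ⁅H, H⁆ ≤ centralizer (K : Set Γ)) :
    ⁅H, H⁆ ≤ centralizer (T : Set Γ) := by
  classical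
  haveI h3p : Fact (Nat.Prime 3) := ⟨Nat.prime_three⟩
  by_contra hnot
  set A := ⁅H, H⁆ with hAdef
  have hAH : A ≤ H := Subgroup.commutator_le_self H
  have hAT : A ≤ normalizer (T : Set Γ) := hAH.trans hHT
  have hHA : H ≤ normalizer (A : Set Γ) := le_normalizer_commutator Subgroup.le_normalizer Subgroup.le_normalizer
  have hA3 : IsPGroup 3 A := hH.to_le hAH
  have hqF : (q : F) ≠ 0 := by
    intro h
    have := (CharP.cast_eq_zero_iff F 3 q).mp h
    exact hq3 ((Nat.prime_dvd_prime_iff_eq Nat.prime_three hq.out).mp this).symm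
  have hcopT : (Nat.card T).Coprime 3 := by
    obtain ⟨k, hk⟩ := IsPGroup.iff_card.mp hT
    rw [hk]
    exact Nat.Coprime.pow_left _ ((Nat.coprime_primes hq.out Nat.prime_three).2 hq3)
  have hcop : (Nat.card A).Coprime (Nat.card T) := by
    obtain ⟨k, hk⟩ := IsPGroup.iff_card.mp hA3
    rw [hk]
    exact Nat.Coprime.pow_left _ hcopT.symm
  have hTs : Group.IsSolvable T := by have := hT.isNilpotent; infer_instance
  have hT1 : T ≠ ⊥ := by
    rintro rfl
    apply hnot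
    intro a _
    rw [mem_centralizer_iff]
    intro b hb
    rw [SetLike.mem_coe, Subgroup.mem_bot] at hb
    rw [hb, one_mul, mul_one]
  -- `A` is elementary abelian
  have hAab : ∀ a ∈ A, ∀ b ∈ A, a * b = b * a := by
    intro a ha b hb
    have h1 : ρ (a * b * a⁻¹ * b⁻¹) = 1 := by
      have h2 : ρ a * ρ b = ρ b * ρ a := by
        refine LinearMap.ext fun v => ?_
        have h3 := hqu a ha b hb v
        have h4 := hqu b hb a ha v
        simp only [LinearMap.sub_apply, Module.End.one_apply, map_sub] at h3 h4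
        rw [Module.End.mul_apply, Module.End.mul_apply]
        have h5 : ρ a (ρ b v) = ρ a v + ρ b v - v := by
          have : ρ a (ρ b v) = (ρ a (ρ b v) - ρ b v - (ρ a v - v)) + (ρ a v + ρ b v - v) := by abel
          rw [this, h3, zero_add]
        have h6 : ρ b (ρ a v) = ρ a v + ρ b v - v := by
          have : ρ b (ρ a v) = (ρ b (ρ a v) - ρ a v - (ρ b v - v)) + (ρ a v + ρ b v - v) := by abel
          rw [this, h4, zero_add]
        rw [h5, h6]
      have h3 : a * b * a⁻¹ * b⁻¹ = a * b * (b * a)⁻¹ := by group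
      rw [h3, map_mul, map_mul, h2, ← map_mul, ← map_mul, mul_inv_cancel, map_one]
    have h2 : a * b * a⁻¹ * b⁻¹ ∈ A := mul_mem (mul_mem (mul_mem ha hb) (inv_mem ha)) (inv_mem hb)
    have h3 := hfA _ h2 h1
    rwa [mul_inv_eq_one, mul_inv_eq_iff_eq_mul] at h3
  have hsum : ∀ a ∈ A, ∀ v : V, ∑ j ∈ Finset.range 3, ρ (a ^ j) v = 0 := fun a ha v => by
    rw [sum_three, hqu a ha a ha]
  have hA1 : ∀ a ∈ A, a ^ 3 = 1 := by
    intro a ha
    apply hfA _ (pow_mem ha 3)
    refine LinearMap.ext fun v => ?_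
    have h1 := hsum a ha v
    have h2 : ρ a (∑ j ∈ Finset.range 3, ρ (a ^ j) v) - ∑ j ∈ Finset.range 3, ρ (a ^ j) v = ρ (a ^ 3) v - v := by
      rw [map_sum]
      have : ∀ j, ρ a (ρ (a ^ j) v) = ρ (a ^ (j + 1)) v := fun j => by
        rw [pow_succ', map_mul, Module.End.mul_apply]
      simp only [this]
      rw [← Finset.sum_sub_distrib, Finset.sum_range_sub (fun j => ρ (a ^ j) v), pow_zero, map_one, Module.End.one_apply]
    rw [h1, map_zero, sub_zero] at h2
    rw [Module.End.one_apply]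
    exact (sub_eq_zero.mp h2.symm)
  have hord : ∀ a ∈ A, a ≠ 1 → orderOf a = 3 := fun a ha ha1 => orderOf_eq_prime (hA1 a ha) ha1
  have hcen : ∀ {a : Γ} {K : Subgroup Γ}, a ∈ centralizer (K : Set Γ) ↔ zpowers a ≤ centralizer (K : Set Γ) := by
    intro a K; rw [zpowers_le]
  -- `[T, A] = T`
  have hTA : ⁅T, A⁆ = T := by
    by_contra hne
    have h1 := hmin ⁅T, A⁆ (commutator_le_left hAT) (le_normalizer_commutator hHT hHA) hne
    apply hnot
    have h2 : ⁅⁅T, A⁆, A⁆ = ⊥ := by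
      rw [Subgroup.commutator_comm]
      exact Subgroup.commutator_eq_bot_iff_le_centralizer.2 h1
    have h3 := commutator_eq_bot_of A T hAT hcop (Or.inr hTs) h2
    rw [Subgroup.commutator_comm] at h3
    exact Subgroup.commutator_eq_bot_iff_le_centralizer.1 h3
  have hcentral : ∀ K ≤ T, H ≤ normalizer (K : Set Γ) → T ≤ normalizer (K : Set Γ) → K ≠ T → T ≤ centralizer (K : Set Γ) := by
    intro K hKT hHK hTK hne
    have h1 := hmin K hKT hHK hne
    have h2 : ⁅⁅A, K⁆, T⁆ = ⊥ := by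
      rw [Subgroup.commutator_eq_bot_iff_le_centralizer.2 h1, Subgroup.commutator_bot_left]
    have h3 : ⁅⁅K, T⁆, A⁆ = ⊥ := by
      rw [Subgroup.commutator_comm]
      apply Subgroup.commutator_eq_bot_iff_le_centralizer.2
      refine h1.trans (Subgroup.centralizer_le ?_)
      exact commutator_le_left hTK
    have h4 := Subgroup.commutator_commutator_eq_bot_of_rotate h2 h3
    rw [hTA] at h4
    exact Subgroup.commutator_eq_bot_iff_le_centralizer.1 h4
  -- `T` is nonabelian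
  have hna : ∃ a ∈ T, ∃ b ∈ T, a * b * a⁻¹ * b⁻¹ ≠ 1 := by
    by_contra hcon
    push Not at hcon
    apply hnot
    intro a ha
    by_contra ha'
    have ha1 : a ≠ 1 := by rintro rfl; exact ha' (one_mem _)
    have ho : orderOf a = 3 ^ (0 + 1) := by rw [zero_add, pow_one]; exact hord a ha ha1
    obtain ⟨g, hg, hg'⟩ : ∃ g ∈ T, a * g * a⁻¹ * g⁻¹ ≠ 1 := by
      by_contra hcon'
      push Not at hcon'
      apply ha'
      rw [mem_centralizer_iff]
      intro h hh
      have := hcon' h hh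
      rw [mul_inv_eq_one, mul_inv_eq_iff_eq_mul] at this
      exact this.symm
    obtain ⟨v, hv⟩ := abelian_regular ρ ho T (card_ne q hqF hT) (hAT ha) (by
      intro c hc d hd
      rw [hcon c hc d hd, map_one]) ⟨g, hg, fun h => hg' (by
        rw [pow_zero, pow_one] at h
        exact hfT _ (mul_mem ((Subgroup.mem_normalizer_iff.1 (hAT ha) g).1 hg) (inv_mem hg)) h)⟩
    rw [zero_add, pow_one] at hv
    exact hv (hsum a ha v)
  set Z := T ⊓ centralizer (T : Set Γ) with hZ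
  have hZT : Z ≤ T := inf_le_left
  have hTZ : T ≤ centralizer (Z : Set Γ) := by
    rw [Subgroup.le_centralizer_iff]; exact inf_le_right
  have hHZ : H ≤ normalizer (Z : Set Γ) := le_normalizer_inf hHT (le_normalizer_centralizer hHT)
  have hZne : Z ≠ T := by
    intro h
    obtain ⟨a, ha, b, hb, hab⟩ := hna
    apply hab
    have h1 : a ∈ centralizer (T : Set Γ) := (h.symm ▸ ha : a ∈ Z).2
    have := mem_centralizer_iff.mp h1 b hb
    rw [← this]; group
  have hAZ := hmin Z hZT hHZ hZne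
  have hDlt : ⁅T, T⁆ < T := commutator_lt_of_isPGroup hT hT T.le_normalizer hT1
  have hHD : H ≤ normalizer ((⁅T, T⁆ : Subgroup Γ) : Set Γ) := le_normalizer_commutator hHT hHT
  have hDc := hcentral ⁅T, T⁆ hDlt.le hHD (le_normalizer_commutator_left T T) hDlt.ne
  have hcom : ∀ a ∈ T, ∀ b ∈ T, a * b * a⁻¹ * b⁻¹ ∈ Z := by
    intro a ha b hb
    have h2 : a * b * a⁻¹ * b⁻¹ ∈ ⁅T, T⁆ := by
      rw [← commutatorElement_def]; exact Subgroup.commutator_mem_commutator ha hb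
    refine ⟨hDlt.le h2, ?_⟩
    refine mem_centralizer_iff.2 ?_
    intro g hg
    exact (mem_centralizer_iff.1 (hDc hg) _ h2).symm
  obtain ⟨a, ha, b, hb, hab⟩ := hna
  have hZF : (Nat.card Z : F) ≠ 0 := card_ne q hqF (hT.to_le hZT)
  have hZc : ∀ c ∈ commutator Z, (ρ.comp Z.subtype) c = 1 := by
    apply hcomm_of_ab
    intro c hc d hd
    have h4 := mem_centralizer_iff.1 hd.2 c hc.1
    rw [h4]; group
  obtain ⟨χ, hχ, v, hv, hv0⟩ := H30.Wts.exists_weight hZF (ρ.comp Z.subtype) hZc (a := ⟨_, hcom a ha b hb⟩)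
    (fun h => hab (hfT _ (hcom a ha b hb).1 h))
  -- `H` stabilises `χ`
  have hHχ : H ≤ St Z χ := by
    intro h hh
    by_contra hSt
    obtain ⟨n, hn⟩ : ∃ n, orderOf h = 3 ^ n := by
      obtain ⟨n, hn⟩ := (IsPGroup.iff_orderOf.mp hH) ⟨h, hh⟩
      exact ⟨n, by rw [← hn, Subgroup.orderOf_mk]⟩
    obtain ⟨k, hk, hk1, hk2⟩ := exists_first 3 n Nat.prime_three h hn (St Z χ)
    have hk0 : 3 ≤ 3 ^ k := by
      rcases Nat.eq_zero_or_pos k with rfl | hk0
      · rw [pow_zero, pow_one] at hk1; exact absurd hk1 hSt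
      · calc 3 = 3 ^ 1 := (pow_one 3).symm
          _ ≤ 3 ^ k := Nat.pow_le_pow_right (by norm_num) hk0
    have hzero : ∀ c ∈ A, ∀ w ∈ H30.Wts.wt (ρ.comp Z.subtype) χ, ρ c w = w := by
      intro c hc w hw
      have hcZ : c ∈ normalizer (Z : Set Γ) := hHZ (hAH hc)
      have hcw : ρ c w ∈ H30.Wts.wt (ρ.comp Z.subtype) χ := by
        intro z
        show ρ (z : Γ) (ρ c w) = _
        have h1 : (z : Γ) * c = c * z := mem_centralizer_iff.mp (hAZ hc) z z.2
        rw [← Module.End.mul_apply, ← map_mul, h1, map_mul, Module.End.mul_apply]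
        have h2 : ρ (z : Γ) w = (χ z : F) • w := hw z
        rw [h2, map_smul]
      set u : V := ρ c w - w with hu
      have huw : u ∈ H30.Wts.wt (ρ.comp Z.subtype) χ := Submodule.sub_mem _ hcw hw
      have h1 := hcu h hh c hc w
      have h2 : (ρ c - 1) w = u := by rw [LinearMap.sub_apply, Module.End.one_apply]
      rw [h2] at h1
      have h3 := regular ρ Z hZF h (hHZ hh) χ 3 (fun j hj hj3 => hk2 j hj (by omega)) (fun _ => u)
        (fun _ _ => huw) (by rw [sum_three, h1]) 0 (by norm_num)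
      exact sub_eq_zero.mp h3
    -- `T = [T, A]` acts trivially on the weight space
    let S : Subgroup Γ :=
      { carrier := {g | ∀ w ∈ H30.Wts.wt (ρ.comp Z.subtype) χ, ρ g w = w}
        one_mem' := fun v _ => by rw [map_one]; rfl
        mul_mem' := by
          intro a b ha hb v hv
          rw [map_mul, Module.End.mul_apply, hb v hv, ha v hv]
        inv_mem' := by
          intro a ha v hv
          have h1 : ρ a⁻¹ (ρ a v) = v := by
            rw [← Module.End.mul_apply, ← map_mul, inv_mul_cancel, map_one]; rfl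
          rwa [ha v hv] at h1 }
    have hTS : T ≤ S := by
      rw [← hTA, Subgroup.commutator_le]
      intro t ht c hc w hw
      have htw : ∀ t ∈ T, ∀ w ∈ H30.Wts.wt (ρ.comp Z.subtype) χ, ρ t w ∈ H30.Wts.wt (ρ.comp Z.subtype) χ := by
        intro t ht w hw z
        show ρ (z : Γ) (ρ t w) = _
        have h1 : (z : Γ) * t = t * z := mem_centralizer_iff.mp (hTZ ht) z z.2
        rw [← Module.End.mul_apply, ← map_mul, h1, map_mul, Module.End.mul_apply]
        have h2 : ρ (z : Γ) w = (χ z : F) • w := hw z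
        rw [h2, map_smul]
      have h1 : ⁅t, c⁆ = t * (c * t⁻¹ * c⁻¹) := by rw [commutatorElement_def]; group
      have hi : ρ c⁻¹ w = w := hzero c⁻¹ (inv_mem hc) w hw
      have ht' := htw t⁻¹ (inv_mem ht) w hw
      rw [h1, map_mul, map_mul, map_mul, Module.End.mul_apply, Module.End.mul_apply, Module.End.mul_apply, hi, hzero c hc _ ht',
        ← Module.End.mul_apply, ← map_mul, mul_inv_cancel, map_one]
      rfl
    have h5 := hTS (hZT (hcom a ha b hb)) v hv
    have h6 : ρ (a * b * a⁻¹ * b⁻¹) v = (χ ⟨_, hcom a ha b hb⟩ : F) • v := hv ⟨_, hcom a ha b hb⟩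
    rw [h6] at h5
    apply hχ
    apply Units.ext
    have h7 : ((χ ⟨_, hcom a ha b hb⟩ : F) - 1) • v = 0 := by rw [sub_smul, h5, one_smul, sub_self]
    rcases smul_eq_zero.1 h7 with h8 | h8
    · rw [Units.val_one]; exact sub_eq_zero.1 h8
    · exact absurd h8 hv0
  have hkrn : T ≤ normalizer (kr Z χ : Set Γ) := le_normalizer_kr χ hTZ
  set N := cmod T (kr Z χ) hkrn with hN
  have hNn : N.Normal := by
    rw [← Subgroup.normalizer_eq_top_iff, eq_top_iff, ← htop]
    apply sup_le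
    · intro g hg
      exact le_normalizer_cmod T _ hkrn g (T.le_normalizer hg) (hkrn hg)
    · intro g hg
      exact le_normalizer_cmod T _ hkrn g (hHT hg) (St_le_normalizer_kr Z χ (hHχ hg))
  have hZN : Z ≤ N := by
    intro z hz
    rw [hN, mem_cmod]
    refine ⟨hZT hz, fun v hv => ?_⟩
    have := mem_centralizer_iff.mp (hTZ hv) z hz
    rw [this]; simp [one_mem]
  have hTN : T ≤ N := by
    apply final N T H hHT (fun c hc d hd => hZN (hcom c hc d hd)) hH hAab hcopT hTA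
    intro c hc
    by_cases hc1 : c = 1
    · left
      rw [hc1, Subgroup.zpowers_one_eq_bot, Subgroup.commutator_bot_right]
      exact bot_le
    · rcases dichV (d := 3) (q := q) ρ (Ne.symm hq3) hqF (hord c hc hc1) T Z hT (hAT hc) hZT hTZ hcom χ
        (fun h => hv0 ((Submodule.mem_bot F).1 (h ▸ hv))) (hHχ (hAH hc)) (hsum c hc) with h | h
      · exact Or.inl h
      · right
        exact h.2.trans (by norm_num)
  have h9 := (mem_cmod.mp (hTN ha)).2 b hb
  obtain ⟨h10, h11⟩ := mem_kr.1 h9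
  exact hχ h11

/-- the reduction to the minimal situation -/
theorem quad3 (ρ : Γ →* Module.End F V) {q : ℕ} [hq : Fact q.Prime] (hq3 : q ≠ 3) (H T : Subgroup Γ)
    (hHT : H ≤ normalizer (T : Set Γ)) (hH : IsPGroup 3 H) (hT : IsPGroup q T)
    (hfT : ∀ t ∈ T, ρ t = 1 → t = 1) (hfA : ∀ a ∈ ⁅H, H⁆, ρ a = 1 → a = 1)
    (hqu : ∀ a ∈ ⁅H, H⁆, ∀ b ∈ ⁅H, H⁆, ∀ v : V, (ρ a - 1) ((ρ b - 1) v) = 0)
    (hcu : ∀ h ∈ H, ∀ a ∈ ⁅H, H⁆, ∀ v : V, (ρ h - 1) ((ρ h - 1) ((ρ a - 1) v)) = 0) :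
    ⁅H, H⁆ ≤ centralizer (T : Set Γ) := by
  classical
  by_contra hnot
  obtain ⟨T₁, hT₁, hmin⟩ : ∃ T₁ : Subgroup Γ, (T₁ ≤ T ∧ H ≤ normalizer (T₁ : Set Γ) ∧ ¬ ⁅H, H⁆ ≤ centralizer (T₁ : Set Γ)) ∧
      ∀ K ≤ T₁, H ≤ normalizer (K : Set Γ) → K ≠ T₁ → ⁅H, H⁆ ≤ centralizer (K : Set Γ) := by
    obtain ⟨T₁, hT₁⟩ := (Set.toFinite {K : Subgroup Γ | K ≤ T ∧ H ≤ normalizer (K : Set Γ) ∧ ¬ ⁅H, H⁆ ≤ centralizer (K : Set Γ)}).exists_minimal
      ⟨T, le_rfl, hHT, hnot⟩
    refine ⟨T₁, hT₁.prop, fun K hK hHK hne => ?_⟩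
    by_contra hcon
    exact hne (le_antisymm hK (hT₁.le_of_le ⟨hK.trans hT₁.prop.1, hHK, hcon⟩ hK))
  obtain ⟨hT₁T, hHT₁, hT₁n⟩ := hT₁
  set M := T₁ ⊔ H with hM
  have hTM : T₁ ≤ M := le_sup_left
  have hHM : H ≤ M := le_sup_right
  set H' := H.subgroupOf M with hH'
  set T' := T₁.subgroupOf M with hT'
  have hmapH : H'.map M.subtype = H := Subgroup.map_subgroupOf_eq_of_le hHM
  have hmapT : T'.map M.subtype = T₁ := Subgroup.map_subgroupOf_eq_of_le hTM
  have hmapA : (⁅H', H'⁆).map M.subtype = ⁅H, H⁆ := by rw [Subgroup.map_commutator, hmapH]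
  have hA : ∀ a ∈ ⁅H', H'⁆, (a : Γ) ∈ ⁅H, H⁆ := fun a ha => by
    rw [← hmapA]; exact Subgroup.mem_map_of_mem _ ha
  have h1 := quad3_min (ρ.comp M.subtype) hq3 H' T' (by
      apply le_normalizer_of_conj_mem
      intro h hh t ht
      rw [hT', Subgroup.mem_subgroupOf] at ht ⊢
      exact (Subgroup.mem_normalizer_iff.mp (hHT₁ (Subgroup.mem_subgroupOf.mp hh)) _).mp ht)
    (hH.of_equiv (Subgroup.subgroupOfEquivOfLe hHM).symm) ((hT.to_le hT₁T).of_equiv (Subgroup.subgroupOfEquivOfLe hTM).symm)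
    (by rw [hT', hH', ← Subgroup.subgroupOf_sup hTM hHM, Subgroup.subgroupOf_self])
    (fun t ht h => Subtype.ext (hfT t (hT₁T (Subgroup.mem_subgroupOf.mp ht)) h))
    (fun a ha h => Subtype.ext (hfA a (hA a ha) h))
    (fun a ha b hb v => hqu a (hA a ha) b (hA b hb) v)
    (fun h hh a ha v => hcu h (Subgroup.mem_subgroupOf.mp hh) a (hA a ha) v)
    (by
      intro K hK hHK hne
      have h2 := hmin (K.map M.subtype) (by rw [← hmapT]; exact Subgroup.map_mono hK) (by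
        apply le_normalizer_of_conj_mem
        rintro h hh _ ⟨k, hk, rfl⟩
        refine ⟨⟨h, hHM hh⟩ * k * ⟨h, hHM hh⟩⁻¹, ?_, rfl⟩
        exact (Subgroup.mem_normalizer_iff.mp (hHK (show (⟨h, hHM hh⟩ : M) ∈ H' from Subgroup.mem_subgroupOf.mpr hh)) k).mp hk) (by
        intro h
        rw [← hmapT] at h
        exact hne (Subgroup.map_injective M.subtype_injective h))
      intro a ha
      rw [mem_centralizer_iff]
      intro k hk
      exact Subtype.ext (mem_centralizer_iff.mp (h2 (hA a ha)) k (Subgroup.mem_map_of_mem _ hk)))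
  apply hT₁n
  rw [← hmapA, ← hmapT]
  rintro _ ⟨a, ha, rfl⟩
  rw [mem_centralizer_iff]
  rintro _ ⟨t, ht, rfl⟩
  exact congrArg Subtype.val (mem_centralizer_iff.mp (h1 ha) t ht)

end rep

end H1.DL
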