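import Cfsg.Agent.Lib.H66.HomMod
import Cfsg.Agent.Lib.H66.PRed
import Cfsg.Agent.Lib.H1.Cores

/-!
`X` p-soluble with `O_{p'}(X) = 1`, `R = O_p(X)`: the action of `X ⧸ R` on `Hom(R, K)`, `K` of characteristic `p`.
-/

set_option autoImplicit false

open Subgroup Cfsg
open scoped commutatorElement

namespace H1.PModV

variable {X : Type*} [Group X] (R : Subgroup X) [hRn : R.Normal] (K : Type*) [Field K]

theorem rep_of_mem {x : X} (hx : x ∈ R) : H66.HomMod.rep R K x = 1 := by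
  refine LinearMap.ext fun f => DFunLike.ext _ _ fun r => ?_
  have h1 : H66.HomMod.rep R K x f r = f (Additive.ofMul (H66.HomMod.cj R x r.toMul)) := rfl
  rw [h1, Module.End.one_apply]
  have h2 : H66.HomMod.cj R x r.toMul = (⟨x, hx⟩ : R)⁻¹ * r.toMul * ⟨x, hx⟩ := by
    apply Subtype.ext
    rfl
  rw [h2, ofMul_mul, ofMul_mul, ofMul_inv, map_add, map_add, map_neg]
  change -f (Additive.ofMul ⟨x, hx⟩) + f r + f (Additive.ofMul ⟨x, hx⟩) = f r
  abel

/-- the representation of `X ⧸ R`. -/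
def qrep : X ⧸ R →* Module.End K (H66.HomMod.V R K) :=
  QuotientGroup.lift R (H66.HomMod.rep R K) (fun _ hx => rep_of_mem R K hx)

theorem qrep_mk (x : X) : qrep R K (QuotientGroup.mk' R x) = H66.HomMod.rep R K x := rfl

theorem norm_mem (x : X) (r : R) (m : ℕ) : ((r : X) * x⁻¹) ^ m * x ^ m ∈ R := by
  induction m with
  | zero => simp
  | succ m ih =>
    have h1 : ((r : X) * x⁻¹) ^ (m + 1) * x ^ (m + 1) =
        (((r : X) * x⁻¹) ^ m * x ^ m) * ((x ^ m)⁻¹ * r * x ^ m) := by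
      rw [pow_succ, pow_succ' x]; group
    rw [h1]
    refine R.mul_mem ih ?_
    have := hRn.conj_mem r r.2 (x ^ m)⁻¹
    rwa [inv_inv] at this

theorem norm_apply (x : X) (f : H66.HomMod.V R K) (r : R) (m : ℕ) :
    (∑ j ∈ Finset.range m, qrep R K (QuotientGroup.mk' R x ^ j) f) (Additive.ofMul r) =
      f (Additive.ofMul ⟨((r : X) * x⁻¹) ^ m * x ^ m, norm_mem R x r m⟩) := by
  induction m with
  | zero =>
    rw [Finset.sum_range_zero]
    have : (⟨((r : X) * x⁻¹) ^ 0 * x ^ 0, norm_mem R x r 0⟩ : R) = 1 := by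
      apply Subtype.ext; simp
    rw [this, ofMul_one, map_zero]; rfl
  | succ m ih =>
    rw [Finset.sum_range_succ, AddMonoidHom.add_apply, ih, ← map_pow, qrep_mk, H66.HomMod.rep_apply, ← map_add,
      ← ofMul_mul]
    congr 2
    apply Subtype.ext
    change ((r : X) * x⁻¹) ^ m * x ^ m * ((x ^ m)⁻¹ * r * x ^ m) = ((r : X) * x⁻¹) ^ (m + 1) * x ^ (m + 1)
    rw [pow_succ, pow_succ' x]; group

/-- lifting `p'`-elements -/
theorem exists_lift {p : ℕ} [hp : Fact p.Prime] [Finite X] (g : X ⧸ R) (hg : (orderOf g).Coprime p) :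
    ∃ a : X, QuotientGroup.mk' R a = g ∧ (orderOf a).Coprime p := by
  obtain ⟨a, rfl⟩ := QuotientGroup.mk'_surjective R g
  obtain ⟨s, t, ht, hst⟩ := Nat.exists_eq_pow_mul_and_not_dvd (orderOf_pos a).ne' p hp.out.ne_one
  have hcop : Nat.Coprime (p ^ s) t := Nat.Coprime.pow_left _ ((Nat.Prime.coprime_iff_not_dvd hp.out).2 ht)
  obtain ⟨c, hc1, hc2⟩ := Nat.chineseRemainder hcop 0 1
  refine ⟨a ^ c, ?_, ?_⟩
  · rw [map_pow]
    have h1 : orderOf (QuotientGroup.mk' R a) ∣ t := by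
      have h2 : orderOf (QuotientGroup.mk' R a) ∣ p ^ s * t := by rw [← hst]; exact orderOf_map_dvd _ a
      exact Nat.Coprime.dvd_of_dvd_mul_left (hg.pow_right s) h2
    have h3 : c ≡ 1 [MOD orderOf (QuotientGroup.mk' R a)] := hc2.of_dvd h1
    rw [(pow_eq_pow_iff_modEq).2 h3, pow_one]
  · have h1 : (a ^ c) ^ t = 1 := by
      rw [← pow_mul]
      apply orderOf_dvd_iff_pow_eq_one.mp
      rw [hst]
      exact Nat.mul_dvd_mul ((Nat.modEq_zero_iff_dvd).1 hc1) (dvd_refl t)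
    have h2 := orderOf_dvd_of_pow_eq_one h1
    exact Nat.Coprime.coprime_dvd_left h2 ((Nat.Prime.coprime_iff_not_dvd hp.out).2 ht).symm

theorem faithful {p : ℕ} [hp : Fact p.Prime] [Finite X] [CharP K p] (hG : IsPSolvable p X)
    (hcore : pPrimeCore p X = ⊥) (g : X ⧸ pCore p X) (hg : (orderOf g).Coprime p)
    (h1 : qrep (pCore p X) K g = 1) : g = 1 := by
  obtain ⟨a, rfl, ha⟩ := exists_lift (pCore p X) g hg
  rw [qrep_mk] at h1
  have h2 : zpowers a ≤ centralizer (pCore p X : Set X) := by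
    refine H66.HomMod.le_centralizer (pCore p X) K (H1.Cores.isPGroup_pCore p) (zpowers a) (by rwa [Nat.card_zpowers]) ?_
    intro b hb f
    have h3 : zpowers a ≤ (H66.HomMod.rep (pCore p X) K).ker := by
      rw [zpowers_le]; exact h1
    have h4 : H66.HomMod.rep (pCore p X) K b = 1 := h3 hb
    rw [h4]; rfl
  have h3 := h2.trans (H37.PSolv.centralizer_pCore_le hG hcore)
  exact (QuotientGroup.eq_one_iff _).mpr (h3 (mem_zpowers a))

theorem exists_q {p : ℕ} [hp : Fact p.Prime] [Finite X] (hG : IsPSolvable p X)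
    (x : X) (k : ℕ) (hx : x ^ p ^ k = 1) (n : ℕ) (hz : x ^ p ^ n ∉ pCore p X) :
    ∃ q : ℕ, q.Prime ∧ q ≠ p ∧ ∃ Q : Subgroup (X ⧸ pCore p X), IsPGroup q Q ∧
      QuotientGroup.mk' (pCore p X) x ∈ normalizer (Q : Set (X ⧸ pCore p X)) ∧
      (QuotientGroup.mk' (pCore p X) x) ^ p ^ n ∉ centralizer (Q : Set (X ⧸ pCore p X)) := by
  set Γ := X ⧸ pCore p X with hΓ
  set y : Γ := QuotientGroup.mk' (pCore p X) x with hy
  have hyk : y ^ p ^ k = 1 := by rw [hy, ← map_pow, hx, map_one]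
  have hΓs : IsPSolvable p Γ := H37.PSolv.quotient hG _
  have hc : pCore p Γ = ⊥ := H1.Cores.pCore_quotient_pCore p
  have hcent := H66.PRed.centralizer_pPrimeCore_le hΓs hc
  have hyp : IsPGroup p (zpowers y) := by
    obtain ⟨j, _, hj⟩ := (Nat.dvd_prime_pow hp.out).1 (orderOf_dvd_of_pow_eq_one hyk)
    exact IsPGroup.of_card (n := j) (by rw [Nat.card_zpowers, hj])
  have hMn : (pPrimeCore p Γ).Normal := inferInstance
  obtain ⟨q, hq, hqp, Q, hQM, hQ, hAQ, hzQ⟩ := H66.PRed.exists_invariant_qgroup (p := p) (zpowers y) (pPrimeCore p Γ) hyp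
    (by rw [Subgroup.normalizer_eq_top]; exact le_top) (H1.Cores.coprime_card_pPrimeCore p) (y ^ p ^ n) (by
      intro h
      have h1 : zpowers (y ^ p ^ n) ≤ pPrimeCore p Γ := by rw [zpowers_le]; exact hcent h
      have h2 : zpowers (y ^ p ^ n) ≤ zpowers y := by rw [zpowers_le]; exact Subgroup.pow_mem _ (mem_zpowers y) _
      have h3 : zpowers (y ^ p ^ n) ≤ zpowers y ⊓ pPrimeCore p Γ := le_inf h2 h1
      rw [H1.Cores.disjoint_of_isPGroup hyp (H1.Cores.coprime_card_pPrimeCore p), le_bot_iff, zpowers_eq_bot] at h3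
      apply hz
      rw [hy, ← map_pow] at h3
      exact (QuotientGroup.eq_one_iff _).mp h3)
  exact ⟨q, hq, hqp, Q, hQ, hAQ (mem_zpowers y), hzQ⟩

end H1.PModV
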