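import Cfsg.Agent.Lib.H1.DLb
import Cfsg.Agent.Lib.H1.PModV
import Cfsg.Agent.Lib.H66.PLen2

/-!
`p`-length and derived length, `p` odd: in a `p`-soluble group with `O_{p'} = 1` the last term of the derived
series of a `p`-subgroup containing `O_p` lies in `O_p`.
-/

set_option autoImplicit false

open Subgroup Cfsg
open scoped commutatorElement

namespace H1.DLc

universe u

section V

variable {X : Type u} [Group X] (R : Subgroup X) [hRn : R.Normal] (K : Type*) [Field K]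

theorem sub_one_apply (x : X) (f : H66.HomMod.V R K) (r : R) :
    ((H1.PModV.qrep R K (QuotientGroup.mk' R x) - 1) f) (Additive.ofMul r) =
      f (Additive.ofMul (r⁻¹ * H66.HomMod.cj R x r)) := by
  have h1 : ((H1.PModV.qrep R K (QuotientGroup.mk' R x) - 1) f) (Additive.ofMul r) =
      f (Additive.ofMul (H66.HomMod.cj R x r)) - f (Additive.ofMul r) := rfl
  rw [h1, ofMul_mul, ofMul_inv, map_add, map_neg]
  abel

/-- quadratic action -/
theorem quad {P A : Subgroup X} (hRP : R ≤ P) (hAn : ∀ g ∈ P, ∀ a ∈ A, g * a * g⁻¹ ∈ A)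
    (hab : ∀ a ∈ A, ∀ b ∈ A, a * b = b * a) {a b : X} (ha : a ∈ A) (hb : b ∈ A) (f : H66.HomMod.V R K) :
    (H1.PModV.qrep R K (QuotientGroup.mk' R a) - 1) ((H1.PModV.qrep R K (QuotientGroup.mk' R b) - 1) f) = 0 := by
  refine DFunLike.ext _ _ fun r => ?_
  obtain ⟨r, rfl⟩ : ∃ r' : R, Additive.ofMul r' = r := ⟨r.toMul, rfl⟩
  rw [sub_one_apply, sub_one_apply]
  have hc : ((r⁻¹ * H66.HomMod.cj R a r : R) : X) ∈ A := by
    change (r : X)⁻¹ * (a⁻¹ * r * a) ∈ A
    have h1 := hAn (r : X)⁻¹ (P.inv_mem (hRP r.2)) a⁻¹ (A.inv_mem ha)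
    rw [inv_inv] at h1
    have h2 : (r : X)⁻¹ * (a⁻¹ * r * a) = ((r : X)⁻¹ * a⁻¹ * r) * a := by group
    rw [h2]
    exact A.mul_mem h1 ha
  set c : R := r⁻¹ * H66.HomMod.cj R a r with hcdef
  have h3 : c⁻¹ * H66.HomMod.cj R b c = 1 := by
    apply Subtype.ext
    change (c : X)⁻¹ * (b⁻¹ * c * b) = 1
    have h4 := hab _ hc _ hb
    rw [mul_assoc b⁻¹, h4]
    group
  rw [h3, ofMul_one, map_zero]
  rfl

/-- cubic action -/
theorem cub {P A B : Subgroup X} (hRP : R ≤ P) (hBn : ∀ g ∈ P, ∀ a ∈ B, g * a * g⁻¹ ∈ B)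
    (hBA : ⁅B, B⁆ = A)
    (hab : ∀ a ∈ A, ∀ b ∈ A, a * b = b * a) {h a : X} (hh : h ∈ B) (ha : a ∈ A) (f : H66.HomMod.V R K) :
    (H1.PModV.qrep R K (QuotientGroup.mk' R h) - 1) ((H1.PModV.qrep R K (QuotientGroup.mk' R h) - 1)
      ((H1.PModV.qrep R K (QuotientGroup.mk' R a) - 1) f)) = 0 := by
  refine DFunLike.ext _ _ fun r => ?_
  obtain ⟨r, rfl⟩ : ∃ r' : R, Additive.ofMul r' = r := ⟨r.toMul, rfl⟩
  rw [sub_one_apply, sub_one_apply, sub_one_apply]
  have hc : ((r⁻¹ * H66.HomMod.cj R h r : R) : X) ∈ B := by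
    change (r : X)⁻¹ * (h⁻¹ * r * h) ∈ B
    have h1 := hBn (r : X)⁻¹ (P.inv_mem (hRP r.2)) h⁻¹ (B.inv_mem hh)
    rw [inv_inv] at h1
    have h2 : (r : X)⁻¹ * (h⁻¹ * r * h) = ((r : X)⁻¹ * h⁻¹ * r) * h := by group
    rw [h2]
    exact B.mul_mem h1 hh
  set c : R := r⁻¹ * H66.HomMod.cj R h r with hcdef
  have hc2 : ((c⁻¹ * H66.HomMod.cj R h c : R) : X) ∈ A := by
    change (c : X)⁻¹ * (h⁻¹ * c * h) ∈ A
    have h2 : (c : X)⁻¹ * (h⁻¹ * c * h) = ⁅(c : X)⁻¹, h⁻¹⁆ := by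
      rw [commutatorElement_def]; group
    rw [h2, ← hBA]
    exact commutator_mem_commutator (B.inv_mem hc) (B.inv_mem hh)
  set e : R := c⁻¹ * H66.HomMod.cj R h c with hedef
  have h3 : e⁻¹ * H66.HomMod.cj R a e = 1 := by
    apply Subtype.ext
    change (e : X)⁻¹ * (a⁻¹ * e * a) = 1
    have h4 := hab _ hc2 _ ha
    rw [mul_assoc a⁻¹, h4]
    group
  rw [h3, ofMul_one, map_zero]
  rfl

/-- the kernel is trivial -/
theorem qrep_inj [Finite X] {p : ℕ} [hp : Fact p.Prime] (K : Type*) [Field K] [CharP K p] (hG : IsPSolvable p X)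
    (hcore : pPrimeCore p X = ⊥) (g : X ⧸ pCore p X) (h1 : H1.PModV.qrep (pCore p X) K g = 1) : g = 1 := by
  set ρ := H1.PModV.qrep (pCore p X) K with hρ
  have h2 : ρ.ker ≤ pCore p (X ⧸ pCore p X) := by
    apply H1.Cores.le_pCore (p := p) (N := ρ.ker) inferInstance
    rintro ⟨z, hz⟩
    obtain ⟨s, t, ht, hst⟩ := Nat.exists_eq_pow_mul_and_not_dvd (orderOf_pos z).ne' p hp.out.ne_one
    refine ⟨s, Subtype.ext ?_⟩
    change z ^ p ^ s = 1
    apply H1.PModV.faithful K hG hcore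
    · have h3 : (z ^ p ^ s) ^ t = 1 := by rw [← pow_mul, ← hst, pow_orderOf_eq_one]
      exact Nat.Coprime.coprime_dvd_left (orderOf_dvd_of_pow_eq_one h3) ((Nat.Prime.coprime_iff_not_dvd hp.out).2 ht).symm
    · have h4 : ρ z = 1 := hz
      rw [← hρ, map_pow, h4, one_pow]
  rw [H1.Cores.pCore_quotient_pCore p, le_bot_iff] at h2
  have h3 : g ∈ ρ.ker := h1
  rw [h2] at h3
  exact h3

end V

/-- key step, `d ≥ 1`. -/
theorem key_succ {p : ℕ} [hp : Fact p.Prime] (hp2 : p ≠ 2) {X : Type u} [Group X] [Finite X] (hX : IsPSolvable p X)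
    (hcore : pPrimeCore p X = ⊥) {P A B : Subgroup X} (hP : IsPGroup p P) (hRP : pCore p X ≤ P) (hAP : A ≤ P) (hBP : B ≤ P)
    (hAn : ∀ g ∈ P, ∀ a ∈ A, g * a * g⁻¹ ∈ A) (hBn : ∀ g ∈ P, ∀ a ∈ B, g * a * g⁻¹ ∈ B)
    (hBA : ⁅B, B⁆ = A) (hab : ∀ a ∈ A, ∀ b ∈ A, a * b = b * a) : A ≤ pCore p X := by
  intro a ha
  by_contra haR
  set R := pCore p X with hR
  let K := AlgebraicClosure (ZMod p)
  haveI hcharK : CharP K p := charP_of_injective_algebraMap (algebraMap (ZMod p) K).injective p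
  set ρ := H1.PModV.qrep R K with hρ
  set z : X ⧸ R := QuotientGroup.mk' R a with hz
  have hz1 : z ≠ 1 := fun h => haR ((QuotientGroup.eq_one_iff _).mp h)
  have hsq : ∀ v, (ρ z - 1) ((ρ z - 1) v) = 0 := fun v => quad R K hRP hAn hab ha ha v
  have hsq2 : (ρ z - 1) ^ 2 = 0 := by
    rw [pow_two]; exact LinearMap.ext fun v => hsq v
  have hpow : ∀ k, 2 ≤ k → (ρ z - 1) ^ k = 0 := by
    intro k hk
    rw [← Nat.sub_add_cancel hk, pow_add, hsq2, mul_zero]
  have h2p := hp.out.two_le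
  have hzp : z ^ p = 1 := by
    apply qrep_inj K hX hcore
    have h1 := H1.Crit.sub_one_pow' (F := K) p 1 (ρ z)
    rw [pow_one, hpow p h2p] at h1
    rw [← hρ, map_pow]
    exact (sub_eq_zero.mp h1.symm)
  have hzo : orderOf z = p := orderOf_eq_prime hzp hz1
  by_cases hp3 : p = 3
  · subst hp3
    set H : Subgroup (X ⧸ R) := B.map (QuotientGroup.mk' R) with hH
    have hΓs : IsPSolvable 3 (X ⧸ R) := H37.PSolv.quotient hX _
    have hc : pCore 3 (X ⧸ R) = ⊥ := H1.Cores.pCore_quotient_pCore 3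
    have hcent := H66.PRed.centralizer_pPrimeCore_le hΓs hc
    have hHp : IsPGroup 3 H := (hP.to_le hBP).map _
    have hMn : (pPrimeCore 3 (X ⧸ R)).Normal := inferInstance
    have hzH : z ∈ ⁅H, H⁆ := by
      rw [hH, ← Subgroup.map_commutator, hBA]
      exact ⟨a, ha, rfl⟩
    have hzH' : z ∈ H := (Subgroup.commutator_le_self H) hzH
    obtain ⟨q, hq, hqp, Q, hQM, hQ, hAQ, hzQ⟩ := H66.PRed.exists_invariant_qgroup (p := 3) H (pPrimeCore 3 (X ⧸ R)) hHp
      (by rw [Subgroup.normalizer_eq_top]; exact le_top) (H1.Cores.coprime_card_pPrimeCore 3) z (by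
        intro h
        have h1 : zpowers z ≤ pPrimeCore 3 (X ⧸ R) := by rw [zpowers_le]; exact hcent h
        have h2 : zpowers z ≤ H := by rw [zpowers_le]; exact hzH'
        have h3 : zpowers z ≤ H ⊓ pPrimeCore 3 (X ⧸ R) := le_inf h2 h1
        rw [H1.Cores.disjoint_of_isPGroup hHp (H1.Cores.coprime_card_pPrimeCore 3), le_bot_iff, zpowers_eq_bot] at h3
        exact hz1 h3)
    haveI := Fact.mk hq
    refine hzQ (H1.DL.quad3 ρ hqp H Q hAQ hHp hQ (fun t _ h1 => qrep_inj K hX hcore t h1)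
      (fun t _ h1 => qrep_inj K hX hcore t h1) ?_ ?_ hzH)
    · intro a₁ ha₁ b₁ hb₁ v
      rw [hH, ← Subgroup.map_commutator, hBA] at ha₁ hb₁
      obtain ⟨a₂, ha₂, rfl⟩ := ha₁
      obtain ⟨b₂, hb₂, rfl⟩ := hb₁
      exact quad R K hRP hAn hab ha₂ hb₂ v
    · intro h₁ hh₁ a₁ ha₁ v
      rw [hH, ← Subgroup.map_commutator, hBA] at ha₁
      obtain ⟨a₂, ha₂, rfl⟩ := ha₁
      obtain ⟨h₂, hh₂, rfl⟩ := hh₁
      exact cub R K hRP hBn hBA hab hh₂ ha₂ v
  · have hp5 : 5 ≤ p := by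
      have h4 : p ≠ 4 := fun h => absurd (h ▸ hp.out : Nat.Prime 4) (by norm_num)
      omega
    obtain ⟨⟨k, hk⟩⟩ : Nonempty {k // a ^ p ^ k = 1} := by
      obtain ⟨k, hk⟩ := hP ⟨a, hAP ha⟩
      exact ⟨⟨k, congrArg Subtype.val hk⟩⟩
    obtain ⟨q, hq, hqp, Q, hQ, hxQ, hzQ⟩ := H1.PModV.exists_q hX a k hk 0 (by rwa [pow_zero, pow_one])
    haveI := Fact.mk hq
    have hqF : (q : K) ≠ 0 := by
      intro h
      rw [CharP.cast_eq_zero_iff K p q] at h
      exact hqp ((Nat.prime_dvd_prime_iff_eq hp.out hq).mp h).symm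
    obtain ⟨_, k', hk', _, hv⟩ := H1.ThmB.exceptional ρ (p := p) (q := q) (n := 0) (Ne.symm hqp) hqF
      (by rw [zero_add, pow_one]; exact hzo) Q hQ hxQ hzQ (fun g _ h1 => qrep_inj K hX hcore g h1) (by
        intro v
        have h1 := H1.Crit.sub_one_pow (F := K) p (0 + 1) (ρ z)
        rw [hpow _ (by rw [zero_add, pow_one]; omega)] at h1
        have h2 := congrArg (fun T : Module.End K (H66.HomMod.V R K) => T v) h1
        simp only [LinearMap.zero_apply, LinearMap.sum_apply] at h2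
        rw [h2]
        refine Finset.sum_congr rfl fun j _ => ?_
        rw [map_pow])
    obtain ⟨v, hv⟩ := hv (CharP.cast_eq_zero K p)
    obtain rfl : k' = 0 := by omega
    rw [hpow] at hv
    · exact hv rfl
    · simp only [pow_zero, one_mul, zero_add, tsub_zero, pow_one]
      omega

theorem key {p : ℕ} [hp : Fact p.Prime] (hp2 : p ≠ 2) {X : Type u} [Group X] [Finite X] (hX : IsPSolvable p X)
    (hcore : pPrimeCore p X = ⊥) {P : Subgroup X} (hP : IsPGroup p P) (hRP : pCore p X ≤ P) (d : ℕ)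
    (hd : derivedSeries P (d + 1) = ⊥) : (derivedSeries P d).map P.subtype ≤ pCore p X := by
  have hn : ∀ e, ∀ g ∈ P, ∀ a ∈ (derivedSeries P e).map P.subtype, g * a * g⁻¹ ∈ (derivedSeries P e).map P.subtype := by
    rintro e g hg _ ⟨a, ha, rfl⟩
    exact ⟨⟨g, hg⟩ * a * ⟨g, hg⟩⁻¹, (derivedSeries_normal P e).conj_mem a ha _, rfl⟩
  have hle : ∀ e, (derivedSeries P e).map P.subtype ≤ P := fun e => Subgroup.map_subtype_le _
  have hab : ∀ a ∈ (derivedSeries P d).map P.subtype, ∀ b ∈ (derivedSeries P d).map P.subtype, a * b = b * a := by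
    rintro _ ⟨a, ha, rfl⟩ _ ⟨b, hb, rfl⟩
    rw [derivedSeries_succ] at hd
    have h1 : ⁅a, b⁆ ∈ (⊥ : Subgroup P) := by rw [← hd]; exact commutator_mem_commutator ha hb
    rw [Subgroup.mem_bot, commutatorElement_eq_one_iff_mul_comm] at h1
    exact congrArg Subtype.val h1
  cases d with
  | zero =>
    refine le_trans ?_ (H37.PSolv.centralizer_pCore_le hX hcore)
    intro a ha
    rw [mem_centralizer_iff]
    intro r hr
    exact hab r ⟨⟨r, hRP hr⟩, by simp, rfl⟩ a ha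
  | succ e =>
    exact key_succ hp2 hX hcore hP hRP (hle _) (hle e) (hn _) (hn e) (by
      rw [derivedSeries_succ, Subgroup.map_commutator]) hab

theorem main {p : ℕ} [hp : Fact p.Prime] (hp2 : p ≠ 2) (d : ℕ) : ∀ (G : Type u) [Group G] [Finite G],
    IsPSolvable p G → (∀ P : Sylow p G, derivedSeries P d = ⊥) → PLengthLE p d G := by
  induction d with
  | zero =>
    intro G _ _ hG hd
    rw [H66.PLen.pLengthLE_zero_iff, Nat.coprime_comm, hp.out.coprime_iff_not_dvd]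
    intro hdvd
    obtain ⟨y, hy⟩ := exists_prime_orderOf_dvd_card' (G := G) p hdvd
    have h1 : IsPGroup p (zpowers y) := IsPGroup.of_card (n := 1) (by rw [Nat.card_zpowers, hy, pow_one])
    obtain ⟨P, hP⟩ := h1.exists_le_sylow
    have h2 := hd P
    rw [derivedSeries_zero] at h2
    have h3 : (⟨y, hP (mem_zpowers y)⟩ : (P : Subgroup G)) ∈ (⊥ : Subgroup (P : Subgroup G)) := by
      rw [← h2]; trivial
    have h4 : y = 1 := congrArg Subtype.val (Subgroup.mem_bot.mp h3)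
    rw [h4, orderOf_one] at hy
    exact hp.out.one_lt.ne hy
  | succ d ih =>
    intro G _ _ hG hd
    set N := pPrimeCore p G with hN
    have hNn : N.Normal := inferInstance
    apply H66.PLen.pLengthLE_of_quotient_coprime N (H1.Cores.coprime_card_pPrimeCore p)
    have hX : Cfsg.IsPSolvable p (G ⧸ N) := H37.PSolv.quotient hG N
    have hcore : pPrimeCore p (G ⧸ N) = ⊥ := H1.Cores.pPrimeCore_quotient_pPrimeCore p
    refine H66.PLen.pLengthLE_succ_of (⊥ : Subgroup (G ⧸ N)) (pCore p (G ⧸ N)) bot_le (by simp) ?_ ?_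
    · rw [Subgroup.relIndex_bot_left]
      exact IsPGroup.iff_card.mp (H1.Cores.isPGroup_pCore p)
    · apply ih _ (H37.PSolv.quotient hX _)
      intro T
      obtain ⟨S, hS⟩ := H66.PLen2.exists_pgroup_lift (pCore p (G ⧸ N)) (T : Subgroup _) T.2
      obtain ⟨S₀, hS₀⟩ := H66.PLen2.exists_pgroup_lift N (S : Subgroup _) S.2
      have h1 : derivedSeries (S : Subgroup (G ⧸ N)) (d + 1) = ⊥ := by
        have h2 : derivedSeries ((S₀ : Subgroup G).map (QuotientGroup.mk' N)) (d + 1) = ⊥ :=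
          H66.PLen2.ds_of_surjective ((QuotientGroup.mk' N).subgroupMap (S₀ : Subgroup G))
            ((QuotientGroup.mk' N).subgroupMap_surjective _) (hd S₀)
        exact H66.PLen2.ds_of_injective (Subgroup.inclusion hS₀) (Subgroup.inclusion_injective hS₀) h2
      have hRS : pCore p (G ⧸ N) ≤ (S : Subgroup (G ⧸ N)) := H1.Cores.pCore_le_sylow S
      have h2 := key hp2 hX hcore S.2 hRS d h1
      have h3 : derivedSeries ((S : Subgroup (G ⧸ N)).map (QuotientGroup.mk' (pCore p (G ⧸ N)))) d = ⊥ := by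
        rw [← map_derivedSeries_eq ((QuotientGroup.mk' (pCore p (G ⧸ N))).subgroupMap_surjective (S : Subgroup (G ⧸ N))),
          Subgroup.map_eq_bot_iff]
        intro s hs
        apply Subtype.ext
        exact (QuotientGroup.eq_one_iff _).mpr (h2 ⟨s, hs, rfl⟩)
      exact H66.PLen2.ds_of_injective (Subgroup.inclusion hS) (Subgroup.inclusion_injective hS) h3

end H1.DLc
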