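import Cfsg.Agent.Lib.H1.FGh
import Cfsg.Agent.Lib.H91.XSExtra

set_option autoImplicit false

/-!
Case B: the extraspecial group of order 32.
-/

namespace H1.FG19

open Subgroup

variable {S : Type*} [Group S] {E : Type*} [AddCommGroup E] [Module (ZMod 3) E]
  {ρ : Representation (ZMod 3) S E}

/-- relation `g a = x a g`, `g u = y u g`. -/
def Rel (a u g x y : S) : Prop := g * a = x * (a * g) ∧ g * u = y * (u * g)

structure CB (ρ : Representation (ZMod 3) S E) (R : Subgroup S) (b a u z g1 : S) (e : E) :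
    Prop where
  hρ : Function.Injective ρ
  hP : Pair b a u
  he : Q4R (ρ a) (ρ u) (ρ b) e
  h3 : (Nat.card R).Coprime 3
  hR : R ≤ ⁅R, zpowers b⁆
  hbR : ∀ x ∈ R, b * x * b⁻¹ ∈ R
  ha : a ∈ R
  hu : u ∈ R
  hzR : z ∈ R
  hzc : ∀ g ∈ R, g * z = z * g
  hzb : b * z = z * b
  hz2 : z * z = 1
  hz1 : z ≠ 1
  hzF : ∀ v ∈ F0 ρ R, ρ z v = -v
  rel : ∀ g ∈ R, ∃ x y : S, (x = 1 ∨ x = z) ∧ (y = 1 ∨ y = z) ∧ Rel a u g x y
  g1R : g1 ∈ R
  g1r : Rel a u g1 1 z

namespace CB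

variable {R : Subgroup S} {b a u z g1 : S} {e : E} (D : CB ρ R b a u z g1 e)
include D

/-- the subgroup commuting with `a` and `u`. -/
def C (_ : CB ρ R b a u z g1 e) : Subgroup S :=
  (R ⊓ centralizer ({a} : Set S)) ⊓ centralizer ({u} : Set S)

theorem memC {x : S} : x ∈ D.C ↔ x ∈ R ∧ a * x = x * a ∧ u * x = x * u := by
  change x ∈ (R ⊓ centralizer ({a} : Set S)) ⊓ centralizer ({u} : Set S) ↔ _
  rw [Subgroup.mem_inf, Subgroup.mem_inf, Subgroup.mem_centralizer_iff,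
    Subgroup.mem_centralizer_iff]
  simp only [Set.mem_singleton_iff, forall_eq, and_assoc]

theorem memC_of_rel {x : S} (hx : x ∈ R) (h : Rel a u x 1 1) : x ∈ D.C := by
  rw [D.memC]
  exact ⟨hx, by rw [h.1, one_mul], by rw [h.2, one_mul]⟩

theorem zcan (x : S) : z * (z * x) = x := by rw [← mul_assoc, D.hz2, one_mul]

theorem rel_mul {g h x y x' y' : S} (hg : g ∈ R) (hx' : x' = 1 ∨ x' = z) (hy' : y' = 1 ∨ y' = z)
    (h1 : Rel a u g x y) (h2 : Rel a u h x' y') : Rel a u (g * h) (x * x') (y * y') := by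
  have hgx : g * x' = x' * g := by
    rcases hx' with rfl | rfl
    · rw [mul_one, one_mul]
    · exact D.hzc g hg
  have hgy : g * y' = y' * g := by
    rcases hy' with rfl | rfl
    · rw [mul_one, one_mul]
    · exact D.hzc g hg
  have hax : a * x' = x' * a := by
    rcases hx' with rfl | rfl
    · rw [mul_one, one_mul]
    · exact D.hzc a D.ha
  have hay : u * y' = y' * u := by
    rcases hy' with rfl | rfl
    · rw [mul_one, one_mul]
    · exact D.hzc u D.hu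
  constructor
  · calc g * h * a = g * (h * a) := by group
      _ = (g * x') * a * h := by rw [h2.1]; group
      _ = x' * (g * a) * h := by rw [hgx]; group
      _ = x' * (x * (a * g)) * h := by rw [h1.1]
      _ = (x' * x) * (a * (g * h)) := by group
      _ = x * x' * (a * (g * h)) := by
        congr 1
        -- x, x' in {1, z}
        rcases hx' with rfl | rfl
        · rw [one_mul, mul_one]
        · have h3 := D.hzc (g * a * g⁻¹ * a⁻¹) (mul_mem (mul_mem (mul_mem hg D.ha) (inv_mem hg))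
            (inv_mem D.ha))
          have h4 : x = g * a * g⁻¹ * a⁻¹ := by rw [h1.1]; group
          rw [← h4] at h3
          exact h3.symm
  · calc g * h * u = g * (h * u) := by group
      _ = (g * y') * u * h := by rw [h2.2]; group
      _ = y' * (g * u) * h := by rw [hgy]; group
      _ = y' * (y * (u * g)) * h := by rw [h1.2]
      _ = (y' * y) * (u * (g * h)) := by group
      _ = y * y' * (u * (g * h)) := by
        congr 1
        rcases hy' with rfl | rfl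
        · rw [one_mul, mul_one]
        · have h3 := D.hzc (g * u * g⁻¹ * u⁻¹) (mul_mem (mul_mem (mul_mem hg D.hu) (inv_mem hg))
            (inv_mem D.hu))
          have h4 : y = g * u * g⁻¹ * u⁻¹ := by rw [h1.2]; group
          rw [← h4] at h3
          exact h3.symm

end CB

/-- conjugation by `b` shifts the relation. -/
theorem rel_conj {b a u z g x y : S} (hP : Pair b a u) (hbz : b * z = z * b) (hgz : g * z = z * g)
    (haz : a * z = z * a) (huz : u * z = z * u) (hz2 : z * z = 1)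
    (hx : x = 1 ∨ x = z) (hy : y = 1 ∨ y = z)
    (h : Rel a u g x y) : Rel a u (b * g * b⁻¹) (x * y) x := by
  have hbi : b⁻¹ * u = a * b⁻¹ := by
    have := hP.bt
    calc b⁻¹ * u = b⁻¹ * (u * b) * b⁻¹ := by group
      _ = a * b⁻¹ := by rw [← this]; group
  have hbx : b * x = x * b := by
    rcases hx with rfl | rfl
    · rw [mul_one, one_mul]
    · exact hbz
  have hby : b * y = y * b := by
    rcases hy with rfl | rfl
    · rw [mul_one, one_mul]
    · exact hbz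
  have hu2 : b * g * b⁻¹ * u = x * (u * (b * g * b⁻¹)) := by
    calc b * g * b⁻¹ * u = b * g * (b⁻¹ * u) := by group
      _ = b * (g * a) * b⁻¹ := by rw [hbi]; group
      _ = (b * x) * a * g * b⁻¹ := by rw [h.1]; group
      _ = x * (b * a) * g * b⁻¹ := by rw [hbx]; group
      _ = _ := by rw [hP.bt]; group
  refine ⟨?_, hu2⟩
  -- b⁻¹ a = (a u) b⁻¹, i.e. b⁻¹ (t u) = u b⁻¹
  have hbi2 : b⁻¹ * (a * u) = u * b⁻¹ := by
    have := hP.bu
    calc b⁻¹ * (a * u) = b⁻¹ * (a * u * b) * b⁻¹ := by group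
      _ = u * b⁻¹ := by rw [← this]; group
  have hau2 : b * g * b⁻¹ * (a * u) = y * (a * u * (b * g * b⁻¹)) := by
    calc b * g * b⁻¹ * (a * u) = b * g * (b⁻¹ * (a * u)) := by group
      _ = b * (g * u) * b⁻¹ := by rw [hbi2]; group
      _ = (b * y) * u * g * b⁻¹ := by rw [h.2]; group
      _ = y * (b * u) * g * b⁻¹ := by rw [hby]; group
      _ = _ := by rw [hP.bu]; group
  have hux : u * x = x * u := by
    rcases hx with rfl | rfl
    · rw [mul_one, one_mul]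
    · exact huz
  have hax : a * x = x * a := by
    rcases hx with rfl | rfl
    · rw [mul_one, one_mul]
    · exact haz
  have hxx : x * x = 1 := by
    rcases hx with rfl | rfl
    · rw [one_mul]
    · exact hz2
  have hxy : x * y = y * x := by
    rcases hx with rfl | rfl
    · rw [one_mul, mul_one]
    · rcases hy with rfl | rfl
      · rw [one_mul, mul_one]
      · rfl
  have huu : u * u = 1 := hP.uu
  generalize b * g * b⁻¹ = k at *
  calc k * a = k * (a * u) * u := by rw [mul_assoc, mul_assoc, huu, mul_one]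
    _ = y * (a * u * k) * u := by rw [hau2]
    _ = y * a * u * (k * u) := by group
    _ = y * a * (u * x) * u * k := by rw [hu2]; group
    _ = y * (a * x) * (u * u) * k := by rw [hux]; group
    _ = (x * y) * (a * k) := by rw [hax, huu, hxy]; group

namespace CB

variable {R : Subgroup S} {b a u z g1 : S} {e : E} (D : CB ρ R b a u z g1 e)
include D

theorem g2r : Rel a u (b * g1 * b⁻¹) z 1 := by
  have := rel_conj D.hP D.hzb (D.hzc g1 D.g1R) (D.hzc a D.ha) (D.hzc u D.hu) D.hz2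
    (Or.inl rfl) (Or.inr rfl) D.g1r
  rwa [one_mul] at this

theorem g3r : Rel a u (b * (b * g1 * b⁻¹) * b⁻¹) z z := by
  have := rel_conj D.hP D.hzb (D.hzc _ (D.hbR _ D.g1R)) (D.hzc a D.ha) (D.hzc u D.hu) D.hz2
    (Or.inr rfl) (Or.inl rfl) D.g2r
  rwa [mul_one] at this

theorem g2R : b * g1 * b⁻¹ ∈ R := D.hbR _ D.g1R
theorem g3R : b * (b * g1 * b⁻¹) * b⁻¹ ∈ R := D.hbR _ D.g2R

/-- coset decomposition. -/
theorem dec {g : S} (hg : g ∈ R) : g ∈ D.C ∨ g1 * g ∈ D.C ∨ (b * g1 * b⁻¹) * g ∈ D.C ∨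
    (b * (b * g1 * b⁻¹) * b⁻¹) * g ∈ D.C := by
  obtain ⟨x, y, hx, hy, h⟩ := D.rel g hg
  rcases hx with rfl | hx
  · rcases hy with rfl | hy
    · left; exact D.memC_of_rel hg h
    · right; left
      rw [hy] at h
      apply D.memC_of_rel (mul_mem D.g1R hg)
      have := D.rel_mul D.g1R (Or.inl rfl) (Or.inr rfl) D.g1r h
      rwa [one_mul, D.hz2] at this
  · rw [hx] at h
    rcases hy with rfl | hy
    · right; right; left
      apply D.memC_of_rel (mul_mem D.g2R hg)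
      have := D.rel_mul D.g2R (Or.inr rfl) (Or.inl rfl) D.g2r h
      rwa [one_mul, D.hz2] at this
    · right; right; right
      rw [hy] at h
      apply D.memC_of_rel (mul_mem D.g3R hg)
      have := D.rel_mul D.g3R (Or.inr rfl) (Or.inr rfl) D.g3r h
      rwa [D.hz2] at this

theorem eF : e ∈ F0 ρ R := e_mem_F0 D.he D.hu

/-- the vector `e0`. -/
theorem e0F : ρ g1 e ∈ F0 ρ R :=
  F0_inv (fun _ hx => mul_mem (mul_mem D.g1R hx) (inv_mem D.g1R)) D.eF

theorem e0a : ρ a (ρ g1 e) = ρ g1 e := by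
  have h := D.g1r.1
  rw [one_mul] at h
  rw [← rmul, ← h, rmul, D.he.te]

theorem e0u : ρ u (ρ g1 e) = ρ g1 e := by
  have h := D.g1r.2
  have h2 : u * g1 = z * (g1 * u) := by rw [h, D.zcan]
  rw [← rmul, h2, rmul, rmul, D.he.ue, map_neg, map_neg, D.hzF _ D.e0F, neg_neg]

theorem e0b : ρ b (ρ g1 e) = ρ g1 e := D.he.fix _ D.e0a D.e0u

theorem e0ne : ρ g1 e ≠ 0 := by
  intro h
  apply D.he.ne
  rw [← rinv ρ g1 e, h, map_zero]

theorem g2e2 : ρ (b * g1 * b⁻¹) (ρ b e) = ρ g1 e := by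
  rw [rmul, rmul, rinv, D.e0b]

theorem g3e3 : ρ (b * (b * g1 * b⁻¹) * b⁻¹) (ρ b (ρ b e)) = ρ g1 e := by
  rw [rmul, rmul, rinv, D.g2e2, D.e0b]

theorem C_line {c : S} (hc : c ∈ D.C) : ∃ s0 s1 s2 s3 : ZMod 3, ρ c (ρ g1 e) = s0 • ρ g1 e ∧
    ρ c e = s1 • e ∧ ρ c (ρ b e) = s2 • ρ b e ∧ ρ c (ρ b (ρ b e)) = s3 • ρ b (ρ b e) := by
  have hline : ∀ g, a * g = g * a → u * g = g * u → ∃ c1 c2 c3 : ZMod 3, ρ g e = c1 • e ∧
      ρ g (ρ b e) = c2 • ρ b e ∧ ρ g (ρ b (ρ b e)) = c3 • ρ b (ρ b e) := by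
    intro g hga hgu
    have c1 : ∀ v, ρ a (ρ g v) = ρ g (ρ a v) := fun v => by rw [← rmul, ← rmul, hga]
    have c2 : ∀ v, ρ u (ρ g v) = ρ g (ρ u v) := fun v => by rw [← rmul, ← rmul, hgu]
    obtain ⟨x, hx⟩ := D.he.l1 (ρ g e) (by rw [c1, D.he.te]) (by rw [c2, D.he.ue, map_neg])
    obtain ⟨y, hy⟩ := D.he.l2 (ρ g (ρ b e)) (by rw [c1, D.he.t2, map_neg]) (by rw [c2, D.he.u2])
    obtain ⟨z, hz⟩ := D.he.l3 (ρ g (ρ b (ρ b e))) (by rw [c1, D.he.t3, map_neg])
      (by rw [c2, D.he.u3, map_neg])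
    exact ⟨x, y, z, hx, hy, hz⟩
  have hc' := D.memC.mp hc
  obtain ⟨s1, s2, s3, h1, h2, h3⟩ := hline c hc'.2.1 hc'.2.2
  -- the conjugate g1⁻¹ c g1
  have hi : Rel a u g1⁻¹ 1 z := by
    have h := D.g1r
    constructor
    · have := h.1
      rw [one_mul] at this ⊢
      calc g1⁻¹ * a = g1⁻¹ * (a * g1) * g1⁻¹ := by group
        _ = a * g1⁻¹ := by rw [← this]; group
    · have h4 : u * g1 = z * (g1 * u) := by rw [h.2, D.zcan]
      have h5 := D.hzc _ (inv_mem D.g1R)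
      calc g1⁻¹ * u = g1⁻¹ * (u * g1) * g1⁻¹ := by group
        _ = (g1⁻¹ * z) * g1 * u * g1⁻¹ := by rw [h4]; group
        _ = z * (u * g1⁻¹) := by rw [h5]; group
  have hcr : Rel a u c 1 1 := ⟨by rw [one_mul, hc'.2.1], by rw [one_mul, hc'.2.2]⟩
  have hr := D.rel_mul (mul_mem (inv_mem D.g1R) hc'.1) (Or.inl rfl) (Or.inr rfl)
    (D.rel_mul (inv_mem D.g1R) (Or.inl rfl) (Or.inl rfl) hi hcr) D.g1r
  rw [one_mul, one_mul, mul_one, D.hz2] at hr
  obtain ⟨s0, _, _, h0, _, _⟩ := hline (g1⁻¹ * c * g1) (by rw [hr.1, one_mul])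
    (by rw [hr.2, one_mul])
  refine ⟨s0, s1, s2, s3, ?_, h1, h2, h3⟩
  have : ρ c (ρ g1 e) = ρ g1 (ρ (g1⁻¹ * c * g1) e) := by
    rw [← rmul, ← rmul]; congr 2; group
  rw [this, h0, map_smul]

theorem F0_eq [Finite S] : F0 ρ R = Submodule.span (ZMod 3) {ρ g1 e, e, ρ b e, ρ b (ρ b e)} := by
  have h4 := D.hP.q4 D.hρ
  set N := Submodule.span (ZMod 3) {ρ g1 e, e, ρ b e, ρ b (ρ b e)} with hN
  have n0 : ρ g1 e ∈ N := Submodule.subset_span (by simp)
  have n1 : e ∈ N := Submodule.subset_span (by simp)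
  have n2 : ρ b e ∈ N := Submodule.subset_span (by simp)
  have n3 : ρ b (ρ b e) ∈ N := Submodule.subset_span (by simp)
  have hle : N ≤ F0 ρ R := by
    rw [hN, Submodule.span_le]
    rintro v (rfl | rfl | rfl | rfl)
    · exact D.e0F
    · exact D.eF
    · exact F0_inv D.hbR D.eF
    · exact F0_inv D.hbR (F0_inv D.hbR D.eF)
  have hinv : ∀ g : S, ρ g (ρ g1 e) ∈ N → ρ g e ∈ N → ρ g (ρ b e) ∈ N →
      ρ g (ρ b (ρ b e)) ∈ N → ∀ v ∈ N, ρ g v ∈ N := by
    intro g i0 i1 i2 i3 v hv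
    have : N ≤ N.comap (ρ g) := by
      rw [hN, Submodule.span_le]
      rintro w (rfl | rfl | rfl | rfl)
      · exact i0
      · exact i1
      · exact i2
      · exact i3
    exact this hv
  have hC : ∀ c ∈ D.C, ∀ v ∈ N, ρ c v ∈ N := by
    intro c hc
    obtain ⟨s0, s1, s2, s3, h0, h1, h2, h3⟩ := D.C_line hc
    apply hinv
    · rw [h0]; exact N.smul_mem _ n0
    · rw [h1]; exact N.smul_mem _ n1
    · rw [h2]; exact N.smul_mem _ n2
    · rw [h3]; exact N.smul_mem _ n3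
  have hb : ∀ v ∈ N, ρ b v ∈ N := by
    apply hinv
    · rw [D.e0b]; exact n0
    · exact n2
    · exact n3
    · rw [h4.bb]; exact n1
  have hbinv : ∀ v ∈ N, ρ b⁻¹ v ∈ N := by
    intro v hv
    have : b⁻¹ = b * b := inv_eq_of_mul_eq_one_left D.hP.b3
    rw [this, rmul]
    exact hb _ (hb _ hv)
  have hg1 : ∀ v ∈ N, ρ g1 v ∈ N := by
    have hg11 : g1 * g1 ∈ D.C := by
      apply D.memC_of_rel (mul_mem D.g1R D.g1R)
      have := D.rel_mul D.g1R (Or.inl rfl) (Or.inr rfl) D.g1r D.g1r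
      rwa [one_mul, D.hz2] at this
    have r1 := D.g1r.1
    rw [one_mul] at r1
    have r2 : u * g1 = z * (g1 * u) := by rw [D.g1r.2, D.zcan]
    have hF : ∀ v ∈ F0 ρ R, ρ g1 v ∈ F0 ρ R := fun v hv =>
      F0_inv (fun _ hx => mul_mem (mul_mem D.g1R hx) (inv_mem D.g1R)) hv
    apply hinv
    · rw [← rmul]; exact hC _ hg11 _ n1
    · exact n0
    · -- g1 e2 ∈ E3
      obtain ⟨c, hc⟩ := D.he.l3 (ρ g1 (ρ b e)) (by rw [← rmul, ← r1, rmul, D.he.t2, map_neg])
        (by rw [← rmul, r2, rmul, rmul, D.he.u2, D.hzF _ (hF _ (hle n2))])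
      rw [hc]; exact N.smul_mem _ n3
    · obtain ⟨c, hc⟩ := D.he.l2 (ρ g1 (ρ b (ρ b e)))
        (by rw [← rmul, ← r1, rmul, D.he.t3, map_neg])
        (by rw [← rmul, r2, rmul, rmul, D.he.u3, map_neg, map_neg, D.hzF _ (hF _ (hle n3)),
          neg_neg])
      rw [hc]; exact N.smul_mem _ n2
  -- finiteness: inverse of g1 preserves N as well
  have hg1i : ∀ v ∈ N, ρ g1⁻¹ v ∈ N := by
    intro v hv
    have hg11 : (g1 * g1)⁻¹ ∈ D.C := by
      apply inv_mem
      apply D.memC_of_rel (mul_mem D.g1R D.g1R)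
      have := D.rel_mul D.g1R (Or.inl rfl) (Or.inr rfl) D.g1r D.g1r
      rwa [one_mul, D.hz2] at this
    have : g1⁻¹ = g1 * (g1 * g1)⁻¹ := by group
    rw [this, rmul]
    exact hg1 _ (hC _ hg11 _ hv)
  have hg2i : ∀ v ∈ N, ρ (b * g1 * b⁻¹)⁻¹ v ∈ N := by
    intro v hv
    have : (b * g1 * b⁻¹)⁻¹ = b * g1⁻¹ * b⁻¹ := by group
    rw [this, rmul, rmul]
    exact hb _ (hg1i _ (hbinv _ hv))
  have hg3i : ∀ v ∈ N, ρ (b * (b * g1 * b⁻¹) * b⁻¹)⁻¹ v ∈ N := by
    intro v hv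
    have hgen : ∀ k : S, (b * k * b⁻¹)⁻¹ = b * k⁻¹ * b⁻¹ := fun k => by group
    rw [hgen (b * g1 * b⁻¹), rmul, rmul]
    exact hb _ (hg2i _ (hbinv _ hv))
  have hRN : ∀ g ∈ R, ∀ v ∈ N, ρ g v ∈ N := by
    intro g hg v hv
    rcases D.dec hg with h | h | h | h
    · exact hC g h v hv
    · have : g = g1⁻¹ * (g1 * g) := by group
      rw [this, rmul]
      exact hg1i _ (hC _ h _ hv)
    · have : g = (b * g1 * b⁻¹)⁻¹ * (b * g1 * b⁻¹ * g) := by group
      rw [this, rmul]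
      exact hg2i _ (hC _ h _ hv)
    · have : g = (b * (b * g1 * b⁻¹) * b⁻¹)⁻¹ * (b * (b * g1 * b⁻¹) * b⁻¹ * g) := by group
      rw [this, rmul]
      exact hg3i _ (hC _ h _ hv)
  rcases irred D.hρ D.hP D.he D.h3 D.hR D.ha D.hu hle hRN hb with h | ⟨_, h⟩
  · exfalso
    rw [h, Submodule.mem_bot] at n1
    exact D.he.ne n1
  · exact h.symm

end CB

end H1.FG19
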