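import Cfsg.Agent.Lib.H1.FGi

set_option autoImplicit false

/-!
Case B: no reflections, the structure of `C`, the order 32, and extraspeciality.
-/

namespace H1.FG19

open Subgroup
open scoped commutatorElement

variable {S : Type*} [Group S] {E : Type*} [AddCommGroup E] [Module (ZMod 3) E]
  {ρ : Representation (ZMod 3) S E}

theorem det_one {R : Subgroup S} {b : S} (hR : R ≤ ⁅R, zpowers b⁆) {x : S} (hx : x ∈ R) :
    LinearMap.det (ρ x) = 1 := by
  have hm : ∀ g h : S, LinearMap.det (ρ (g * h)) = LinearMap.det (ρ g) * LinearMap.det (ρ h) := by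
    intro g h
    rw [map_mul, map_mul]
  have h1 : LinearMap.det (ρ (1 : S)) = 1 := by rw [map_one, map_one]
  have hi : ∀ g : S, LinearMap.det (ρ g) * LinearMap.det (ρ g⁻¹) = 1 := by
    intro g
    rw [← hm, mul_inv_cancel, h1]
  let K : Subgroup S :=
    { carrier := {g | LinearMap.det (ρ g) = 1}
      one_mem' := h1
      mul_mem' := by
        intro g h hg hh
        change LinearMap.det (ρ (g * h)) = 1
        rw [hm, hg, hh, one_mul]
      inv_mem' := by
        intro g hg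
        change LinearMap.det (ρ g⁻¹) = 1
        have := hi g
        rw [hg, one_mul] at this
        exact this }
  have hle : ⁅R, zpowers b⁆ ≤ K := by
    rw [Subgroup.commutator_le]
    intro g _ h _
    change LinearMap.det (ρ ⁅g, h⁆) = 1
    rw [commutatorElement_def, hm, hm, hm]
    calc _ = (LinearMap.det (ρ g) * LinearMap.det (ρ g⁻¹)) *
          (LinearMap.det (ρ h) * LinearMap.det (ρ h⁻¹)) := by ring
      _ = 1 := by rw [hi, hi, one_mul]
  exact hle (hR hx)

theorem no_refl [Finite E] {x : S} (hdet : LinearMap.det (ρ x) = 1) {e0 : E} (h0 : e0 ≠ 0)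
    (hx0 : ρ x e0 = -e0) (hx : ∀ v, ρ x v - v ∈ Submodule.span (ZMod 3) {e0}) : False := by
  obtain ⟨φ, hφ⟩ : ∃ φ : Module.Dual (ZMod 3) E, φ e0 ≠ 0 := by
    by_contra hcon
    push Not at hcon
    exact h0 ((Module.forall_dual_apply_eq_zero_iff (ZMod 3) e0).mp hcon)
  have hcc : φ e0 * φ e0 = 1 := by
    rcases zcases (φ e0) with h | h | h
    · exact absurd h hφ
    · rw [h]; rfl
    · rw [h]; rfl
  let f : Module.Dual (ZMod 3) E := φ e0 • (φ ∘ₗ (ρ x - LinearMap.id))
  have hf : ∀ v, f v = φ e0 * φ (ρ x v - v) := by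
    intro v
    simp only [f, LinearMap.smul_apply, LinearMap.comp_apply, LinearMap.sub_apply,
      LinearMap.id_apply, smul_eq_mul]
  have heq : ρ x = LinearMap.transvection f e0 := by
    ext v
    have h1 : LinearMap.transvection f e0 v = v + f v • e0 := rfl
    rw [h1, hf]
    obtain ⟨k, hk⟩ := Submodule.mem_span_singleton.mp (hx v)
    have h2 : φ e0 * φ (ρ x v - v) = k := by
      rw [← hk, map_smul, smul_eq_mul]
      calc φ e0 * (k * φ e0) = k * (φ e0 * φ e0) := by ring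
        _ = k := by rw [hcc, mul_one]
    rw [h2, hk]; abel
  rw [heq, LinearMap.transvection.det, hf, hx0] at hdet
  have h3 : -e0 - e0 = e0 := by
    have := three e0
    linear_combination (norm := module) -this
  rw [h3, hcc] at hdet
  exact absurd hdet (by decide)

namespace CB

variable {R : Subgroup S} {b a u z g1 : S} {e : E} (D : CB ρ R b a u z g1 e)
include D

theorem fourC : four D.hP ≤ D.C := by
  have h := D.hP.tu
  rintro x (rfl | rfl | rfl | rfl)
  · exact one_mem _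
  · rw [D.memC]; exact ⟨D.ha, rfl, h⟩
  · rw [D.memC]; exact ⟨D.hu, h.symm, rfl⟩
  · rw [D.memC]
    refine ⟨mul_mem D.ha D.hu, ?_, ?_⟩
    · rw [mul_assoc, h]
    · rw [← mul_assoc, h]

theorem zC : z ∈ D.C := by
  rw [D.memC]
  exact ⟨D.hzR, D.hzc a D.ha, D.hzc u D.hu⟩

theorem CR : D.C ≤ R := fun _ hx => (D.memC.mp hx).1

theorem eq_on [Finite S] {g h : S} (hg : g ∈ R) (hh : h ∈ R)
    (h0 : ρ g (ρ g1 e) = ρ h (ρ g1 e)) (h1 : ρ g e = ρ h e) (h2 : ρ g (ρ b e) = ρ h (ρ b e))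
    (h3 : ρ g (ρ b (ρ b e)) = ρ h (ρ b (ρ b e))) : g = h := by
  apply eq_of_F0 D.hρ D.h3 hg hh
  intro v hv
  rw [D.F0_eq] at hv
  refine LinearMap.eqOn_span (f := ρ g) (g := ρ h) ?_ hv
  rintro w (rfl | rfl | rfl | rfl)
  · exact h0
  · exact h1
  · exact h2
  · exact h3

/-- elements of the four-group with prescribed signs. -/
theorem ex_four {s1 s2 s3 : ZMod 3} (hs : s1 * s2 * s3 = 1) : ∃ y ∈ four D.hP,
    ρ y (ρ g1 e) = ρ g1 e ∧ ρ y e = s1 • e ∧ ρ y (ρ b e) = s2 • ρ b e ∧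
      ρ y (ρ b (ρ b e)) = s3 • ρ b (ρ b e) := by
  have hcases : ∀ c1 c2 c3 : ZMod 3, c1 * c2 * c3 = 1 → (c1 = 1 ∧ c2 = 1 ∧ c3 = 1) ∨
      (c1 = 1 ∧ c2 = -1 ∧ c3 = -1) ∨ (c1 = -1 ∧ c2 = 1 ∧ c3 = -1) ∨
      (c1 = -1 ∧ c2 = -1 ∧ c3 = 1) := by decide
  have he := D.he
  rcases hcases s1 s2 s3 hs with ⟨rfl, rfl, rfl⟩ | ⟨rfl, rfl, rfl⟩ | ⟨rfl, rfl, rfl⟩ |
    ⟨rfl, rfl, rfl⟩
  · exact ⟨1, Or.inl rfl, rone _ _, by rw [rone, one_smul], by rw [rone, one_smul],
      by rw [rone, one_smul]⟩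
  · exact ⟨a, Or.inr (Or.inl rfl), D.e0a, by rw [he.te, one_smul],
      by rw [he.t2, neg_smul, one_smul], by rw [he.t3, neg_smul, one_smul]⟩
  · exact ⟨u, Or.inr (Or.inr (Or.inl rfl)), D.e0u, by rw [he.ue, neg_smul, one_smul],
      by rw [he.u2, one_smul], by rw [he.u3, neg_smul, one_smul]⟩
  · exact ⟨a * u, Or.inr (Or.inr (Or.inr rfl)), by rw [rmul, D.e0u, D.e0a],
      by rw [rmul, he.ue, map_neg, he.te, neg_smul, one_smul],
      by rw [rmul, he.u2, he.t2, neg_smul, one_smul],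
      by rw [rmul, he.u3, map_neg, he.t3, neg_neg, one_smul]⟩

theorem norefl [Finite S] [Finite E] {x : S} (hx : x ∈ R) (h0 : ρ x (ρ g1 e) = -ρ g1 e)
    (h1 : ρ x e = e) (h2 : ρ x (ρ b e) = ρ b e) (h3 : ρ x (ρ b (ρ b e)) = ρ b (ρ b e)) :
    False := by
  apply no_refl (det_one (ρ := ρ) D.hR hx) D.e0ne h0
  let N : Submodule (ZMod 3) E :=
    (Submodule.span (ZMod 3) {ρ g1 e}).comap (ρ x - LinearMap.id)
  have hN : ∀ v, v ∈ N ↔ ρ x v - v ∈ Submodule.span (ZMod 3) {ρ g1 e} := fun v => Iff.rfl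
  have hle : F0 ρ R ≤ N := by
    rw [D.F0_eq, Submodule.span_le]
    rintro w (rfl | rfl | rfl | rfl)
    · change _ ∈ N
      rw [hN, h0]
      have : -ρ g1 e - ρ g1 e = ρ g1 e := by
        have := three (ρ g1 e)
        linear_combination (norm := module) -this
      rw [this]
      exact Submodule.mem_span_singleton_self _
    · change _ ∈ N
      rw [hN, h1, sub_self]; exact Submodule.zero_mem _
    · change _ ∈ N
      rw [hN, h2, sub_self]; exact Submodule.zero_mem _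
    · change _ ∈ N
      rw [hN, h3, sub_self]; exact Submodule.zero_mem _
  have hle1 : F1 ρ R ≤ N := by
    intro v hv
    rw [hN, hv x hx, sub_self]; exact Submodule.zero_mem _
  have htop : (⊤ : Submodule (ZMod 3) E) ≤ N := by
    rw [← (F0_F1 ρ D.h3).2]
    exact sup_le hle hle1
  intro v
  exact (hN v).mp (htop trivial)

theorem sign {c : S} {s : ZMod 3} {v : E} (hv : v ≠ 0) (h : ρ c v = s • v) : s = 1 ∨ s = -1 := by
  rcases zcases s with h' | h' | h'
  · exfalso
    apply hv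
    rw [h', zero_smul] at h
    rw [← rinv ρ c v, h, map_zero]
  · exact Or.inl h'
  · exact Or.inr h'

theorem C_cases [Finite S] [Finite E] {c : S} (hc : c ∈ D.C) :
    c ∈ four D.hP ∨ z * c ∈ four D.hP := by
  obtain ⟨s0, s1, s2, s3, h0, h1, h2, h3⟩ := D.C_line hc
  have ne1 := D.he.ne
  have ne2 : ρ b e ≠ 0 := by
    intro h; apply ne1; rw [← rinv ρ b e, h, map_zero]
  have ne3 : ρ b (ρ b e) ≠ 0 := by
    intro h; apply ne2; rw [← rinv ρ b (ρ b e), h, map_zero]
  have q0 := D.sign D.e0ne h0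
  have q1 := D.sign ne1 h1
  have q2 := D.sign ne2 h2
  have q3 := D.sign ne3 h3
  have hcR := D.CR hc
  have hz0 := D.hzF _ D.e0F
  have hz1 := D.hzF _ D.eF
  have hz2 := D.hzF _ (F0_inv D.hbR D.eF)
  have hz3 := D.hzF _ (F0_inv D.hbR (F0_inv D.hbR D.eF))
  -- product of the signs
  have hf2 : ∀ (s : ZMod 3), s = 1 ∨ s = -1 → s * s = 1 := by
    rintro s (rfl | rfl) <;> rfl
  have hcase : ∀ s1 s2 s3 : ZMod 3, (s1 = 1 ∨ s1 = -1) → (s2 = 1 ∨ s2 = -1) → (s3 = 1 ∨ s3 = -1) →
      s1 * s2 * s3 = 1 ∨ (-s1) * (-s2) * (-s3) = 1 := by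
    rintro s1 s2 s3 (rfl | rfl) (rfl | rfl) (rfl | rfl) <;> decide
  -- if `s1 s2 s3 = 1` then `s0 = 1`
  have key : ∀ x ∈ R, ∀ t0 t1 t2 t3 : ZMod 3, (t0 = 1 ∨ t0 = -1) → (t1 = 1 ∨ t1 = -1) →
      (t2 = 1 ∨ t2 = -1) → (t3 = 1 ∨ t3 = -1) → ρ x (ρ g1 e) = t0 • ρ g1 e → ρ x e = t1 • e →
      ρ x (ρ b e) = t2 • ρ b e → ρ x (ρ b (ρ b e)) = t3 • ρ b (ρ b e) → t1 * t2 * t3 = 1 →
      x ∈ four D.hP := by
    intro x hx t0 t1 t2 t3 p0 p1 p2 p3 k0 k1 k2 k3 hprod
    obtain ⟨y, hy, y0, y1, y2, y3⟩ := D.ex_four hprod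
    have hyR : y ∈ R := D.CR (D.fourC hy)
    rcases p0 with rfl | rfl
    · have : x = y := D.eq_on hx hyR (by rw [k0, y0, one_smul]) (by rw [k1, y1])
        (by rw [k2, y2]) (by rw [k3, y3])
      rw [this]; exact hy
    · exfalso
      apply D.norefl (x := y * x) (mul_mem hyR hx)
      · rw [rmul, k0, map_smul, y0, neg_smul, one_smul]
      · rw [rmul, k1, map_smul, y1, smul_smul, hf2 _ p1, one_smul]
      · rw [rmul, k2, map_smul, y2, smul_smul, hf2 _ p2, one_smul]
      · rw [rmul, k3, map_smul, y3, smul_smul, hf2 _ p3, one_smul]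
  have hneg : ∀ s : ZMod 3, (s = 1 ∨ s = -1) → (-s = 1 ∨ -s = -1) := by
    rintro s (rfl | rfl) <;> decide
  rcases hcase s1 s2 s3 q1 q2 q3 with h | h
  · left
    exact key c hcR s0 s1 s2 s3 q0 q1 q2 q3 h0 h1 h2 h3 h
  · right
    refine key (z * c) (mul_mem D.hzR hcR) (-s0) (-s1) (-s2) (-s3) (hneg _ q0) (hneg _ q1)
      (hneg _ q2) (hneg _ q3) ?_ ?_ ?_ ?_ h
    · rw [rmul, h0, map_smul, hz0, smul_neg, neg_smul]
    · rw [rmul, h1, map_smul, hz1, smul_neg, neg_smul]
    · rw [rmul, h2, map_smul, hz2, smul_neg, neg_smul]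
    · rw [rmul, h3, map_smul, hz3, smul_neg, neg_smul]

theorem z_not_four : z ∉ four D.hP := by
  intro h
  have h0 := D.hzF _ D.e0F
  have hf : ρ z (ρ g1 e) = ρ g1 e := by
    rcases h with rfl | rfl | rfl | rfl
    · exact rone _ _
    · exact D.e0a
    · exact D.e0u
    · rw [rmul, D.e0u, D.e0a]
  rw [hf] at h0
  exact D.e0ne (eq_zero_of_neg h0)

theorem C_elem [Finite S] [Finite E] : Cfsg.IsElementaryAbelian 2 D.C := by
  have h4 := four_elem D.hP
  have hcomm4 : ∀ x ∈ four D.hP, ∀ y ∈ four D.hP, x * y = y * x := by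
    intro x hx y hy
    have := h4.1.1.comm ⟨x, hx⟩ ⟨y, hy⟩
    exact congrArg Subtype.val this
  have hz := D.hzc
  have hzi : z⁻¹ = z := inv_eq_of_mul_eq_one_left D.hz2
  have hrep : ∀ x ∈ D.C, ∃ y ∈ four D.hP, x = y ∨ x = z * y := by
    intro x hx
    rcases D.C_cases hx with h | h
    · exact ⟨x, h, Or.inl rfl⟩
    · exact ⟨z * x, h, Or.inr (D.zcan x).symm⟩
  constructor
  · refine ⟨⟨fun x y => Subtype.ext ?_⟩⟩
    change (x : S) * y = y * x
    obtain ⟨x', hx', hx⟩ := hrep x x.2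
    obtain ⟨y', hy', hy⟩ := hrep y y.2
    have hc := hcomm4 x' hx' y' hy'
    have zx := hz x' (D.CR (D.fourC hx'))
    have zy := hz y' (D.CR (D.fourC hy'))
    rcases hx with hx | hx <;> rcases hy with hy | hy
    · rw [hx, hy, hc]
    · rw [hx, hy, ← mul_assoc, zx, mul_assoc, hc, mul_assoc]
    · rw [hx, hy, mul_assoc, hc, ← mul_assoc, ← zy, mul_assoc]
    · rw [hx, hy]
      calc z * x' * (z * y') = z * (x' * z) * y' := by group
        _ = z * z * (x' * y') := by rw [zx]; group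
        _ = z * z * (y' * x') := by rw [hc]
        _ = z * (z * y') * x' := by group
        _ = z * (y' * z) * x' := by rw [zy]
        _ = _ := by group
  · intro x hx
    obtain ⟨y, hy, hxy⟩ := hrep x hx
    have h2 := h4.2 y hy
    rw [pow_two] at h2 ⊢
    rcases hxy with rfl | rfl
    · exact h2
    · have zy := hz y (D.CR (D.fourC hy))
      calc z * y * (z * y) = z * (y * z) * y := by group
        _ = z * z * (y * y) := by rw [zy]; group
        _ = 1 := by rw [D.hz2, h2, one_mul]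

end CB

theorem card_double [Finite S] {H K : Subgroup S} (hHK : H ≤ K) {g : S} (hg : g ∈ K) (hgH : g ∉ H)
    (h : ∀ x ∈ K, x ∈ H ∨ g * x ∈ H) : Nat.card K = 2 * Nat.card H := by
  have h2 : H.relIndex K = 2 := by
    rw [Subgroup.relIindex_eq_two_iff']
    refine ⟨g, hg, ?_⟩
    intro x hx
    rcases h x hx with h1 | h1
    · right
      refine ⟨h1, ?_⟩
      intro hc
      apply hgH
      have : g = (g * x) * x⁻¹ := by group
      rw [this]
      exact mul_mem hc (inv_mem h1)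
    · left
      refine ⟨h1, ?_⟩
      intro hc
      apply hgH
      have : g = (g * x) * x⁻¹ := by group
      rw [this]
      exact mul_mem h1 (inv_mem hc)
  have h3 := Subgroup.card_mul_index (H.subgroupOf K)
  rw [← Subgroup.relIndex, h2, Nat.card_congr (Subgroup.subgroupOfEquivOfLe hHK).toEquiv] at h3
  omega

namespace CB

variable {R : Subgroup S} {b a u z g1 : S} {e : E} (D : CB ρ R b a u z g1 e)
include D

theorem card_C [Finite S] [Finite E] : Nat.card D.C = 8 := by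
  have := card_double D.fourC D.zC D.z_not_four (fun x hx => D.C_cases hx)
  rw [this, card_four]

theorem card_R [Finite S] [Finite E] : Nat.card R = 32 := by
  let C1 : Subgroup S := R ⊓ centralizer ({a} : Set S)
  have memC1 : ∀ x, x ∈ C1 ↔ x ∈ R ∧ a * x = x * a := by
    intro x
    change x ∈ R ⊓ centralizer ({a} : Set S) ↔ _
    rw [Subgroup.mem_inf, Subgroup.mem_centralizer_iff]
    simp only [Set.mem_singleton_iff, forall_eq]
  have hC1 : D.C ≤ C1 := fun x hx => (memC1 x).mpr ⟨D.CR hx, (D.memC.mp hx).2.1⟩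
  have hzu : ∀ g, g * u = z * (u * g) → g * u ≠ u * g := by
    intro g h1 h2
    rw [h2] at h1
    exact D.hz1 (right_eq_mul.mp h1)
  have hza : ∀ g, g * a = z * (a * g) → g * a ≠ a * g := by
    intro g h1 h2
    rw [h2] at h1
    exact D.hz1 (right_eq_mul.mp h1)
  have h1 : Nat.card C1 = 2 * Nat.card D.C := by
    apply card_double hC1 (g := g1)
    · rw [memC1]; exact ⟨D.g1R, by rw [D.g1r.1, one_mul]⟩
    · intro h
      exact hzu g1 D.g1r.2 (D.memC.mp h).2.2.symm
    · intro x hx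
      rw [memC1] at hx
      obtain ⟨p, q, hp, hq, hr⟩ := D.rel x hx.1
      have hp1 : p = 1 := by
        rcases hp with h | h
        · exact h
        · exfalso
          have := hr.1
          rw [h] at this
          exact hza x this hx.2.symm
      rw [hp1] at hr
      rcases hq with rfl | hq
      · left; exact D.memC_of_rel hx.1 hr
      · right
        rw [hq] at hr
        apply D.memC_of_rel (mul_mem D.g1R hx.1)
        have := D.rel_mul D.g1R (Or.inl rfl) (Or.inr rfl) D.g1r hr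
        rwa [one_mul, D.hz2] at this
  have h2 : Nat.card R = 2 * Nat.card C1 := by
    apply card_double inf_le_left (g := b * g1 * b⁻¹)
    · exact D.g2R
    · intro h
      exact hza _ D.g2r.1 ((memC1 _).mp h).2.symm
    · intro x hx
      obtain ⟨p, q, hp, hq, hr⟩ := D.rel x hx
      rcases hp with rfl | hp
      · left
        rw [memC1]; exact ⟨hx, by rw [hr.1, one_mul]⟩
      · right
        rw [memC1]
        rw [hp] at hr
        refine ⟨mul_mem D.g2R hx, ?_⟩
        have := D.rel_mul D.g2R (Or.inr rfl) hq D.g2r hr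
        rw [D.hz2] at this
        rw [this.1, one_mul]
  rw [h2, h1, D.card_C]

end CB

end H1.FG19
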