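import Cfsg.Agent.Lib.H1.FGj
import Cfsg.Agent.Lib.H1.FGf

set_option autoImplicit false

/-!
Case B: extraspeciality; the final alternative.
-/

namespace H1.FG19

open Subgroup
open scoped commutatorElement

variable {S : Type*} [Group S] {E : Type*} [AddCommGroup E] [Module (ZMod 3) E]
  {ρ : Representation (ZMod 3) S E}

/-- commutators in `{1, z}`. -/
def Rz (z g x : S) : Prop := g * x = x * g ∨ g * x = z * (x * g)

namespace CB

variable {R : Subgroup S} {b a u z g1 : S} {e : E} (D : CB ρ R b a u z g1 e)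
include D

theorem rz_symm {g x : S} (h : Rz z g x) : Rz z x g := by
  rcases h with h | h
  · exact Or.inl h.symm
  · right; rw [h, D.zcan]

/-- the subgroup of elements commuting with `x` modulo `z`. -/
def K (x : S) : Subgroup S where
  carrier := {g | g ∈ R ∧ Rz z g x}
  one_mem' := ⟨one_mem _, Or.inl (by rw [one_mul, mul_one])⟩
  mul_mem' := by
    rintro g h ⟨hg, h1⟩ ⟨hh, h2⟩
    refine ⟨mul_mem hg hh, ?_⟩
    have zg := D.hzc g hg
    rcases h1 with h1 | h1 <;> rcases h2 with h2 | h2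
    · left
      rw [mul_assoc, h2, ← mul_assoc, h1, mul_assoc]
    · right
      calc g * h * x = g * (h * x) := by group
        _ = (g * z) * x * h := by rw [h2]; group
        _ = z * (g * x) * h := by rw [zg]; group
        _ = _ := by rw [h1]; group
    · right
      calc g * h * x = g * (h * x) := by group
        _ = (g * x) * h := by rw [h2]; group
        _ = _ := by rw [h1]; group
    · left
      calc g * h * x = g * (h * x) := by group
        _ = (g * z) * x * h := by rw [h2]; group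
        _ = z * (g * x) * h := by rw [zg]; group
        _ = (z * z) * x * (g * h) := by rw [h1]; group
        _ = _ := by rw [D.hz2, one_mul]
  inv_mem' := by
    rintro g ⟨hg, h1⟩
    refine ⟨inv_mem hg, ?_⟩
    rcases h1 with h1 | h1
    · left
      calc g⁻¹ * x = g⁻¹ * (x * g) * g⁻¹ := by group
        _ = x * g⁻¹ := by rw [← h1]; group
    · right
      have h2 : x * g = z * (g * x) := by rw [h1, D.zcan]
      have zg := D.hzc _ (inv_mem hg)
      calc g⁻¹ * x = g⁻¹ * (x * g) * g⁻¹ := by group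
        _ = (g⁻¹ * z) * g * x * g⁻¹ := by rw [h2]; group
        _ = z * (x * g⁻¹) := by rw [zg]; group

theorem C_rep [Finite S] [Finite E] {x : S} (hx : x ∈ D.C) : ∃ y ∈ four D.hP, x = y ∨ x = z * y := by
  rcases D.C_cases hx with h | h
  · exact ⟨x, h, Or.inl rfl⟩
  · exact ⟨z * x, h, Or.inr (D.zcan x).symm⟩

theorem C_rz [Finite S] [Finite E] {c g : S} (hc : c ∈ D.C) (hg : g ∈ R) : Rz z g c := by
  have hza := D.hzc a D.ha
  have hzg := D.hzc g hg
  have hfour : ∀ y ∈ four D.hP, Rz z g y := by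
    obtain ⟨p, q, hp, hq, hr⟩ := D.rel g hg
    have ra : Rz z g a := by
      rcases hp with h | h
      · left; rw [hr.1, h, one_mul]
      · right; rw [hr.1, h]
    have ru : Rz z g u := by
      rcases hq with h | h
      · left; rw [hr.2, h, one_mul]
      · right; rw [hr.2, h]
    have sa := D.rz_symm ra
    have su := D.rz_symm ru
    rintro y (rfl | rfl | rfl | rfl)
    · left; rw [mul_one, one_mul]
    · exact ra
    · exact ru
    · exact D.rz_symm ((D.K g).mul_mem ⟨D.ha, sa⟩ ⟨D.hu, su⟩).2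
  obtain ⟨y, hy, h⟩ := D.C_rep hc
  rcases h with rfl | rfl
  · exact hfour _ hy
  · have hz : Rz z z g := Or.inl hzg.symm
    exact D.rz_symm ((D.K g).mul_mem ⟨D.hzR, hz⟩ ⟨D.CR (D.fourC hy), D.rz_symm (hfour _ hy)⟩).2

theorem fixC [Finite S] [Finite E] {c : S} (hc : c ∈ D.C)
    (h : b * c * b⁻¹ = c ∨ b * c * b⁻¹ = z * c) : c = 1 ∨ c = z := by
  have hb4 : ∀ y ∈ four D.hP, b * y * b⁻¹ ∈ four D.hP ∧ (b * y * b⁻¹ = y → y = 1) := by
    have e1 : b * a * b⁻¹ = u := by rw [D.hP.bt]; group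
    have e2 : b * u * b⁻¹ = a * u := by rw [D.hP.bu]; group
    have e3 : b * (a * u) * b⁻¹ = a := by
      have : b * (a * u) * b⁻¹ = (b * a * b⁻¹) * (b * u * b⁻¹) := by group
      rw [this, e1, e2, ← mul_assoc, D.hP.tu, mul_assoc, D.hP.uu, mul_one]
    rintro y (rfl | rfl | rfl | rfl)
    · exact ⟨by left; group, fun _ => rfl⟩
    · refine ⟨by rw [e1]; right; right; left; rfl, ?_⟩
      intro hh
      rw [e1] at hh
      exfalso
      apply D.hP.rot.rot.ne
      rw [hh]; exact D.hP.tt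
    · refine ⟨by rw [e2]; right; right; right; rfl, ?_⟩
      intro hh
      rw [e2] at hh
      exfalso
      exact D.hP.ne (mul_eq_right.mp hh)
    · refine ⟨by rw [e3]; right; left; rfl, ?_⟩
      intro hh
      rw [e3] at hh
      exfalso
      exact D.hP.rot.ne (left_eq_mul.mp hh)
  obtain ⟨y, hy, hcy⟩ := D.C_rep hc
  have hy1 : y = 1 := by
    have hby : b * y * b⁻¹ = y ∨ b * y * b⁻¹ = z * y := by
      rcases hcy with rfl | rfl
      · exact h
      · have e1 : b * (z * y) * b⁻¹ = z * (b * y * b⁻¹) := by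
          calc b * (z * y) * b⁻¹ = (b * z) * y * b⁻¹ := by group
            _ = _ := by rw [D.hzb]; group
        rw [e1] at h
        rcases h with h | h
        · left; exact mul_left_cancel h
        · right; exact mul_left_cancel h
    rcases hby with h | h
    · exact (hb4 y hy).2 h
    · exfalso
      apply D.z_not_four
      have h1 := (hb4 y hy).1
      have h2 : z = (b * y * b⁻¹) * y⁻¹ := by rw [h]; group
      have h3 := mul_mem h1 (inv_mem hy)
      rw [← h2] at h3
      exact h3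
  rw [hy1] at hcy
  rcases hcy with h | h
  · left; exact h
  · right; rw [h, mul_one]

theorem gen [Finite S] [Finite E] (M : Subgroup S) (hC : D.C ≤ M) (h1 : g1 ∈ M)
    (h2 : b * g1 * b⁻¹ ∈ M) : R ≤ M ∧ Rz z g1 (b * g1 * b⁻¹) := by
  obtain ⟨g2, hg2⟩ : ∃ g2, g2 = b * g1 * b⁻¹ := ⟨_, rfl⟩
  obtain ⟨g3, hg3⟩ : ∃ g3, g3 = b * g2 * b⁻¹ := ⟨_, rfl⟩
  have r1 := D.g1r
  have r2 := D.g2r
  have r3 := D.g3r
  have R2 := D.g2R
  have R3 := D.g3R
  rw [← hg2] at r2 R2 h2 r3 R3
  rw [← hg3] at r3 R3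
  have hb3 : b * g3 * b⁻¹ = g1 := by
    rw [hg3, hg2]
    calc b * (b * (b * g1 * b⁻¹) * b⁻¹) * b⁻¹ = (b * b * b) * g1 * (b * b * b)⁻¹ := by group
      _ = g1 := by rw [D.hP.b3, one_mul, inv_one, mul_one]
  have hp : g1 * g2 * g3 ∈ D.C := by
    apply D.memC_of_rel (mul_mem (mul_mem D.g1R R2) R3)
    have := D.rel_mul (mul_mem D.g1R R2) (Or.inr rfl) (Or.inr rfl)
      (D.rel_mul D.g1R (Or.inr rfl) (Or.inl rfl) r1 r2) r3
    rw [one_mul, mul_one, D.hz2] at this
    exact this
  have hp' : g1 * g3 * g2 ∈ D.C := by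
    apply D.memC_of_rel (mul_mem (mul_mem D.g1R R3) R2)
    have := D.rel_mul (mul_mem D.g1R R3) (Or.inr rfl) (Or.inl rfl)
      (D.rel_mul D.g1R (Or.inr rfl) (Or.inr rfl) r1 r3) r2
    rw [one_mul, mul_one, D.hz2] at this
    exact this
  have cp : g1 * g2 * g3 = 1 ∨ g1 * g2 * g3 = z := by
    apply D.fixC hp
    have e1 : b * (g1 * g2 * g3) * b⁻¹ = g1⁻¹ * (g1 * g2 * g3) * g1 := by
      calc b * (g1 * g2 * g3) * b⁻¹ = (b * g1 * b⁻¹) * (b * g2 * b⁻¹) * (b * g3 * b⁻¹) := by group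
        _ = g2 * g3 * g1 := by rw [hb3, ← hg2, ← hg3]
        _ = _ := by group
    rw [e1]
    rcases D.C_rz hp (inv_mem D.g1R) with h | h
    · left; rw [h]; group
    · right; rw [h]; group
  have cp' : g1 * g3 * g2 = 1 ∨ g1 * g3 * g2 = z := by
    apply D.fixC hp'
    have e1 : b * (g1 * g3 * g2) * b⁻¹ = g2 * (g1 * g3 * g2) * g2⁻¹ := by
      calc b * (g1 * g3 * g2) * b⁻¹ = (b * g1 * b⁻¹) * (b * g3 * b⁻¹) * (b * g2 * b⁻¹) := by group
        _ = g2 * g1 * g3 := by rw [hb3, ← hg2, ← hg3]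
        _ = _ := by group
    rw [e1]
    rcases D.C_rz hp' R2 with h | h
    · left; rw [h]; group
    · right; rw [h]; group
  have hzi : z⁻¹ = z := inv_eq_of_mul_eq_one_left D.hz2
  have h23 : Rz z g2 g3 := by
    have e1 : g2 * g3 = g1⁻¹ * (g1 * g2 * g3) := by group
    have e2 : g3 * g2 = g1⁻¹ * (g1 * g3 * g2) := by group
    have zg := D.hzc _ (inv_mem D.g1R)
    rcases cp with h | h <;> rcases cp' with h' | h'
    · left; rw [e1, e2, h, h']
    · right; rw [e1, e2, h, h', mul_one, zg, D.zcan]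
    · right; rw [e1, e2, h, h', mul_one, zg]
    · left; rw [e1, e2, h, h']
  have h12 : Rz z g1 g2 := by
    have e1 : g1 = b⁻¹ * g2 * b := by rw [hg2]; group
    have e2 : g2 = b⁻¹ * g3 * b := by rw [hg3]; group
    have hzb' : b⁻¹ * z = z * b⁻¹ := by
      calc b⁻¹ * z = b⁻¹ * (z * b) * b⁻¹ := by group
        _ = z * b⁻¹ := by rw [← D.hzb]; group
    rcases h23 with h | h
    · left
      rw [e1]; nth_rw 2 [e2]; nth_rw 2 [e2]
      calc b⁻¹ * g2 * b * (b⁻¹ * g3 * b) = b⁻¹ * (g2 * g3) * b := by group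
        _ = _ := by rw [h]; group
    · right
      rw [e1]; nth_rw 2 [e2]; nth_rw 2 [e2]
      calc b⁻¹ * g2 * b * (b⁻¹ * g3 * b) = b⁻¹ * (g2 * g3) * b := by group
        _ = (b⁻¹ * z) * g3 * g2 * b := by rw [h]; group
        _ = _ := by rw [hzb']; group
  refine ⟨?_, by rw [← hg2]; exact h12⟩
  have h3 : g3 ∈ M := by
    have e3 : g3 = g2⁻¹ * g1⁻¹ * (g1 * g2 * g3) := by group
    rw [e3]
    exact mul_mem (mul_mem (inv_mem h2) (inv_mem h1)) (hC hp)
  intro g hg
  rcases D.dec hg with h | h | h | h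
  · exact hC h
  · have : g = g1⁻¹ * (g1 * g) := by group
    rw [this]; exact mul_mem (inv_mem h1) (hC h)
  · rw [← hg2] at h
    have : g = g2⁻¹ * (g2 * g) := by group
    rw [this]; exact mul_mem (inv_mem h2) (hC h)
  · rw [← hg2, ← hg3] at h
    have : g = g3⁻¹ * (g3 * g) := by group
    rw [this]; exact mul_mem (inv_mem h3) (hC h)

theorem rz_all [Finite S] [Finite E] {g x : S} (hg : g ∈ R) (hx : x ∈ R) : Rz z g x := by
  have h12 : Rz z g1 (b * g1 * b⁻¹) :=
    (D.gen ⊤ le_top trivial trivial).2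
  have hCx : ∀ x ∈ R, D.C ≤ D.K x := fun x hx c hc => ⟨D.CR hc, D.rz_symm (D.C_rz hc hx)⟩
  have k1 : R ≤ D.K g1 := (D.gen _ (hCx g1 D.g1R) ⟨D.g1R, Or.inl rfl⟩
    ⟨D.g2R, D.rz_symm h12⟩).1
  have k2 : R ≤ D.K (b * g1 * b⁻¹) := (D.gen _ (hCx _ D.g2R) ⟨D.g1R, h12⟩
    ⟨D.g2R, Or.inl rfl⟩).1
  have k : R ≤ D.K x := (D.gen _ (hCx x hx) ⟨D.g1R, D.rz_symm (k1 hx).2⟩
    ⟨D.g2R, D.rz_symm (k2 hx).2⟩).1
  exact (k hg).2

theorem center_eq [Finite S] [Finite E] {x : S} (hx : x ∈ R) (h : ∀ g ∈ R, g * x = x * g) :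
    x = 1 ∨ x = z := by
  have hxC : x ∈ D.C := by
    rw [D.memC]
    exact ⟨hx, h a D.ha, h u D.hu⟩
  have hza : ∀ g w, g * w = z * (w * g) → g * w ≠ w * g := by
    intro g w h1 h2
    rw [h2] at h1
    exact D.hz1 (right_eq_mul.mp h1)
  obtain ⟨y, hy, hxy⟩ := D.C_rep hxC
  have hyc : ∀ g ∈ R, g * y = y * g := by
    intro g hg
    rcases hxy with rfl | rfl
    · exact h g hg
    · have h1 := h g hg
      have zg := D.hzc g hg
      have h2 : z * (g * y) = z * (y * g) := by
        calc z * (g * y) = (z * g) * y := by group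
          _ = g * (z * y) := by rw [← zg]; group
          _ = _ := by rw [h1]; group
      exact mul_left_cancel h2
  have hy1 : y = 1 := by
    rcases hy with h | h | h | h
    · exact h
    · exfalso
      rw [h] at hyc
      exact hza _ _ D.g2r.1 (hyc _ D.g2R)
    · exfalso
      rw [h] at hyc
      exact hza _ _ D.g1r.2 (hyc _ D.g1R)
    · exfalso
      rw [h] at hyc
      apply hza g1 (a * u) _ (hyc _ D.g1R)
      have h1 := D.g1r.1
      rw [one_mul] at h1
      have zc := D.hzc a D.ha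
      calc g1 * (a * u) = (g1 * a) * u := by group
        _ = a * (g1 * u) := by rw [h1]; group
        _ = (a * z) * u * g1 := by rw [D.g1r.2]; group
        _ = _ := by rw [zc]; group
  rw [hy1] at hxy
  rcases hxy with h | h
  · exact Or.inl h
  · right; rw [h, mul_one]

theorem extra [Finite S] [Finite E] (h2 : IsPGroup 2 R) : Cfsg.IsExtraspecial 2 R := by
  have X : H91.MonsterForm.XS R ⟨z, D.hzR⟩ := by
    refine ⟨?_, ?_, ?_, ?_, ?_, ?_⟩
    · intro h; exact D.hz1 (congrArg Subtype.val h)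
    · exact Subtype.ext D.hz2
    · intro x; exact Subtype.ext (D.hzc x x.2)
    · intro x
      rw [Subgroup.mem_center_iff]
      constructor
      · intro h
        rcases D.center_eq x.2 (fun g hg => congrArg Subtype.val (h ⟨g, hg⟩)) with h | h
        · left; exact Subtype.ext h
        · right; exact Subtype.ext h
      · rintro (rfl | rfl)
        · intro g; rw [one_mul, mul_one]
        · intro g; exact Subtype.ext (D.hzc g g.2)
    · intro x
      have : (x : S) * x = 1 ∨ (x : S) * x = z := by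
        apply D.center_eq (mul_mem x.2 x.2)
        intro g hg
        have zx := D.hzc x x.2
        rcases D.rz_all hg x.2 with h | h
        · rw [← mul_assoc, h, mul_assoc, h, mul_assoc]
        · calc g * ((x : S) * x) = (g * x) * x := by group
            _ = z * x * (g * x) := by nth_rw 1 [h]; group
            _ = z * (x * z) * x * g := by rw [h]; group
            _ = (z * z) * (x * x * g) := by rw [zx]; group
            _ = _ := by rw [D.hz2, one_mul]
      rcases this with h | h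
      · left; exact Subtype.ext h
      · right; exact Subtype.ext h
    · intro x y
      rcases D.rz_all y.2 x.2 with h | h
      · left; exact Subtype.ext h
      · right; exact Subtype.ext h
  apply H91.XSExtra.extraspecial_of_XS h2 X
  refine ⟨⟨_, D.g2R⟩, ⟨a, D.ha⟩, ?_⟩
  intro h
  have h1 : b * g1 * b⁻¹ * a = a * (b * g1 * b⁻¹) := congrArg Subtype.val h
  have h2 := D.g2r.1
  rw [h1] at h2
  exact D.hz1 (right_eq_mul.mp h2)

end CB

theorem final [Finite S] [Finite E] (hρ : Function.Injective ρ) {b t u : S} (hP : Pair b t u)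
    {w1 w2 : E} (hB : Blk (ρ b) w1 w2) {R : Subgroup S} (h3 : (Nat.card R).Coprime 3)
    (hR : R ≤ ⁅R, zpowers b⁆) (hbR : ∀ x ∈ R, b * x * b⁻¹ ∈ R) (ht : t ∈ R) (hu : u ∈ R)
    (h2 : IsPGroup 2 R) :
    (Cfsg.IsElementaryAbelian 2 R ∧ Nat.card R = 4) ∨
      (Cfsg.IsExtraspecial 2 R ∧ Nat.card R = 32 ∧
        ∃ A : Subgroup S, A ≤ R ∧ Cfsg.IsElementaryAbelian 2 A ∧ Nat.card A = 8) := by
  obtain ⟨e, he⟩ := q4 (hP.q4 hρ) hB
  obtain ⟨z, hzZ, hz, hzz, hzF⟩ := exists_z hρ hP he h3 hR hbR ht hu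
  have hbt : b * t ≠ t * b := by
    intro h
    have h1 := hP.bt
    rw [h] at h1
    apply hP.rot.rot.ne
    have h2 : t = u := mul_right_cancel h1
    rw [h2]; exact hP.uu
  obtain ⟨a, ha, haZ, hPa, hcom⟩ := exists_a h2 hP.b3 hbR hR hz ht hP.tt hbt
  have hPa' := hPa
  obtain ⟨e', he'⟩ := q4 (hPa.q4 hρ) hB
  have hu' : b * a * b⁻¹ ∈ R := hbR a ha
  have hcom' : ∀ g ∈ R, g * (b * a * b⁻¹) * g⁻¹ * (b * a * b⁻¹)⁻¹ ∈ Zc R b := by
    have haY : a ∈ Yc R b := ⟨ha, by rw [hPa.tt]; exact one_mem _, hcom⟩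
    exact (Yc_b hP.b3 hbR haY).2.2
  have hz' := mem_Zc.mp hzZ
  have hrel : ∀ g ∈ R, ∃ x y : S, (x = 1 ∨ x = z) ∧ (y = 1 ∨ y = z) ∧
      Rel a (b * a * b⁻¹) g x y := by
    intro g hg
    refine ⟨_, _, hz _ (hcom g hg), hz _ (hcom' g hg), ?_, ?_⟩
    · group
    · group
  by_cases hcen : ∀ g ∈ R, g * a = a * g
  · left
    have hcen' : ∀ g ∈ R, g * (b * a * b⁻¹) = (b * a * b⁻¹) * g := by
      intro g hg
      have h1 := hcen _ (binv hP.b3 hbR g hg)
      calc g * (b * a * b⁻¹) = b * (b⁻¹ * g * b * a) * b⁻¹ := by group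
        _ = b * (a * (b⁻¹ * g * b)) * b⁻¹ := by rw [h1]
        _ = _ := by group
    have hfour := caseA hρ hPa he' h3 hR hbR ha hu' hcen hcen'
    rw [hfour]
    exact ⟨four_elem hPa, card_four hPa⟩
  · right
    push Not at hcen
    obtain ⟨g0, hg0, hne⟩ := hcen
    obtain ⟨x, y, hx, hy, hr⟩ := hrel g0 hg0
    have hxz : x = z := by
      rcases hx with h | h
      · exfalso
        apply hne
        rw [hr.1, h, one_mul]
      · exact h
    have hz1 : z ≠ 1 := by
      intro h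
      apply hne
      rw [hr.1, hxz, h, one_mul]
    rw [hxz] at hr
    have hg1 : ∃ g1 ∈ R, Rel a (b * a * b⁻¹) g1 1 z := by
      have c1 := rel_conj hPa hz'.2.2 (hz'.2.1 g0 hg0) (hz'.2.1 a ha) (hz'.2.1 _ hu') hzz
        (Or.inr rfl) hy hr
      rcases hy with rfl | rfl
      · rw [mul_one] at c1
        have c2 := rel_conj hPa hz'.2.2 (hz'.2.1 _ (hbR _ hg0)) (hz'.2.1 a ha) (hz'.2.1 _ hu') hzz
          (Or.inr rfl) (Or.inr rfl) c1
        rw [hzz] at c2
        exact ⟨_, hbR _ (hbR _ hg0), c2⟩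
      · rw [hzz] at c1
        exact ⟨_, hbR _ hg0, c1⟩
    obtain ⟨g1, g1R, g1r⟩ := hg1
    have D : CB ρ R b a (b * a * b⁻¹) z g1 e' :=
      { hρ := hρ, hP := hPa, he := he', h3 := h3, hR := hR, hbR := hbR, ha := ha, hu := hu'
        hzR := hz'.1, hzc := hz'.2.1, hzb := hz'.2.2, hz2 := hzz, hz1 := hz1, hzF := hzF hz1
        rel := hrel, g1R := g1R, g1r := g1r }
    exact ⟨D.extra h2, D.card_R, D.C, D.CR, D.C_elem, D.card_C⟩

/-- `R` is a 2-group. -/
theorem two_group [Finite S] [Group.IsSolvable S] [Finite E] (hρ : Function.Injective ρ)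
    {b t u : S} (hP : Pair b t u)
    {w1 w2 : E} (hB : Blk (ρ b) w1 w2)
    {R : Subgroup S} (h3 : (Nat.card R).Coprime 3) (hR : R ≤ ⁅R, zpowers b⁆)
    (hbR : ∀ x ∈ R, b * x * b⁻¹ ∈ R) (ht : t ∈ R) (hu : u ∈ R) : IsPGroup 2 R := by
  have hf2 : Fact (Nat.Prime 2) := ⟨Nat.prime_two⟩
  have hbn : zpowers b ≤ normalizer (R : Set S) := bnorm hP.b3 hbR
  have hbcard : Nat.card (zpowers b) ∣ 3 := by
    rw [Nat.card_zpowers]
    exact orderOf_dvd_of_pow_eq_one (by rw [pow_succ, pow_two, hP.b3])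
  have hcop : (Nat.card (zpowers b)).Coprime (Nat.card R) :=
    Nat.Coprime.coprime_dvd_left hbcard h3.symm
  have hsol : Group.IsSolvable (zpowers b) ∨ Group.IsSolvable R := Or.inr inferInstance
  obtain ⟨T, hT, hbT⟩ := H1.Coprime2.exists_invariant_sylow (zpowers b) R hbn hcop hsol 2
  obtain ⟨R0, hR0⟩ := hT.exists_sylow
  have hle := H13.CoprimeHyper.comm_le_sylow (A := zpowers b) (Q := R) R0 (by rw [hR0]; exact hbT) (by
    intro r hr hr2
    have hfr : Fact r.Prime := ⟨hr⟩
    obtain ⟨Y, hY, hbY⟩ := H1.Coprime2.exists_invariant_sylow (zpowers b) R hbn hcop hsol r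
    obtain ⟨R1, hR1⟩ := hY.exists_sylow
    refine ⟨R1, ?_⟩
    rw [hR1]
    have hYR : Y ≤ R := hY.1
    have hYp : IsPGroup r Y := hY.isPGroup
    by_cases hr3 : r = 3
    · have : Y = ⊥ := by
        obtain ⟨k, hk⟩ := IsPGroup.iff_card.mp hYp
        have h4 : Nat.card Y ∣ Nat.card R := Subgroup.card_dvd_of_le hYR
        have h6 : (Nat.card Y).Coprime (Nat.card Y) := by
          apply Nat.Coprime.coprime_dvd_left h4
          rw [hk, hr3]
          exact Nat.Coprime.pow_right k h3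
        exact Subgroup.card_eq_one.mp ((Nat.coprime_self _).mp h6)
      rw [this]; exact bot_le
    · have h5 : 5 ≤ r := by
        have := hr.two_le
        by_contra hlt
        have h4 : r = 4 := by omega
        rw [h4] at hr
        exact absurd hr (by norm_num)
      have hbY' : ∀ y ∈ Y, b * y * b⁻¹ ∈ Y := fun y hy =>
        (Subgroup.mem_normalizer_iff.mp (hbY (mem_zpowers b)) y).mp hy
      intro y hy
      have h6 := cent_r hρ hP hB h3 hbR ht hu hr h5 Y hYp hYR hbY' hy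
      have hcomm : y * b = b * y := by
        calc y * b = (y * b * y⁻¹ * b⁻¹) * b * y := by group
          _ = b * y := by rw [h6, one_mul]
      have hmem : b ∈ centralizer ({y} : Set S) := by
        refine Subgroup.mem_centralizer_iff.2 ?_
        intro h hh
        rw [Set.mem_singleton_iff] at hh
        rw [hh]; exact hcomm
      refine Subgroup.mem_centralizer_iff.2 ?_
      intro x hx
      have := (zpowers_le.mpr hmem) hx
      exact (Subgroup.mem_centralizer_iff.mp this y rfl).symm)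
  rw [hR0] at hle
  exact hT.isPGroup.to_le (hR.trans hle)

end H1.FG19
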