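import Cfsg.Agent.Lib.H1.FGk

set_option autoImplicit false

/-!
The block vectors and the permuted four-group from the hypotheses of the statement.
-/

namespace H1.FG19

open Subgroup

theorem exists_blk {S : Type*} [Group S] {E : Type*} [AddCommGroup E] [Module (ZMod 3) E]
    [Finite E] (ρ : Representation (ZMod 3) S E) {b : S} (hb3 : b * b * b = 1)
    (E₀ E₁ : Submodule (ZMod 3) E) (hE01' : E₀ ⊔ E₁ = ⊤)
    (hE1 : ∀ v ∈ E₁, ρ b v = v) (hE0inv : ∀ v ∈ E₀, ρ b v ∈ E₀) (hE0 : Nat.card ↥E₀ = 27)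
    (hind : ∃ v ∈ E₀, ρ b (ρ b v - v) - (ρ b v - v) ≠ 0) :
    ∃ w1 w2 : E, Blk (ρ b) w1 w2 := by
  obtain ⟨v0, hv0, hne⟩ := hind
  obtain ⟨w1, hw1⟩ : ∃ w1, w1 = ρ b v0 - v0 := ⟨_, rfl⟩
  obtain ⟨w2, hw2⟩ : ∃ w2, w2 = ρ b w1 - w1 := ⟨_, rfl⟩
  have hw2ne : w2 ≠ 0 := by rw [hw2, hw1]; exact hne
  have hw3 : ρ b w2 - w2 = 0 := by
    have h1 : ρ b (ρ b (ρ b v0)) = v0 := by rw [← rmul, ← rmul, hb3, rone]
    rw [hw2, hw1]
    simp only [map_sub]
    rw [h1]
    have t1 := three (ρ b (ρ b v0))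
    have t2 := three (ρ b v0)
    linear_combination (norm := module) -t1 + t2
  have hw3' : ρ b w2 = w2 := sub_eq_zero.mp hw3
  have hw1' : ρ b w1 = w1 + w2 := by rw [hw2]; abel
  have hv0' : ρ b v0 = v0 + w1 := by rw [hw1]; abel
  have hw1m : w1 ∈ E₀ := by rw [hw1]; exact E₀.sub_mem (hE0inv _ hv0) hv0
  have hw2m : w2 ∈ E₀ := by rw [hw2]; exact E₀.sub_mem (hE0inv _ hw1m) hw1m
  have hz : ∀ (c : ZMod 3) (v : E), v ≠ 0 → c • v = 0 → c = 0 := by
    intro c v hv h
    rcases zcases c with h' | h' | h'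
    · exact h'
    · rw [h', one_smul] at h; exact absurd h hv
    · rw [h', neg_smul, one_smul, neg_eq_zero] at h; exact absurd h hv
  let f : (ZMod 3 × ZMod 3 × ZMod 3) → E₀ := fun p =>
    ⟨p.1 • v0 + p.2.1 • w1 + p.2.2 • w2,
      E₀.add_mem (E₀.add_mem (E₀.smul_mem _ hv0) (E₀.smul_mem _ hw1m)) (E₀.smul_mem _ hw2m)⟩
  have hinj : Function.Injective f := by
    rintro ⟨x, y, z⟩ ⟨x', y', z'⟩ h
    have h1 : x • v0 + y • w1 + z • w2 = x' • v0 + y' • w1 + z' • w2 := congrArg Subtype.val h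
    have h2 : (x - x') • v0 + (y - y') • w1 + (z - z') • w2 = 0 := by
      linear_combination (norm := module) h1
    have h3 := congrArg (ρ b) h2
    simp only [map_add, map_smul, map_zero, hv0', hw1', hw3'] at h3
    have h4 : (x - x') • w1 + (y - y') • w2 = 0 := by
      linear_combination (norm := module) h3 - h2
    have h5 := congrArg (ρ b) h4
    simp only [map_add, map_smul, map_zero, hw1', hw3'] at h5
    have h6 : (x - x') • w2 = 0 := by
      linear_combination (norm := module) h5 - h4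
    have e1 := hz _ _ hw2ne h6
    rw [e1, zero_smul, zero_add] at h4
    have e2 := hz _ _ hw2ne h4
    rw [e1, e2, zero_smul, zero_smul, zero_add, zero_add] at h2
    have e3 := hz _ _ hw2ne h2
    rw [sub_eq_zero.mp e1, sub_eq_zero.mp e2, sub_eq_zero.mp e3]
  have hcard : Nat.card E₀ ≤ Nat.card (ZMod 3 × ZMod 3 × ZMod 3) := by
    rw [hE0, Nat.card_prod, Nat.card_prod, Nat.card_zmod]
  have hbij := hinj.bijective_of_nat_card_le hcard
  refine ⟨w1, w2, hw2ne, ?_⟩
  intro v
  have hv : v ∈ E₀ ⊔ E₁ := by rw [hE01']; trivial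
  obtain ⟨a0, ha0, a1, ha1, rfl⟩ := Submodule.mem_sup.mp hv
  obtain ⟨⟨x, y, z⟩, hxyz⟩ := hbij.2 ⟨a0, ha0⟩
  have hx : x • v0 + y • w1 + z • w2 = a0 := congrArg Subtype.val hxyz
  have key : ρ b (a0 + a1) - (a0 + a1) = x • w1 + y • w2 := by
    rw [map_add, hE1 a1 ha1, ← hx]
    simp only [map_add, map_smul, hv0', hw1', hw3']
    module
  refine ⟨x, y, key, ?_⟩
  rw [key]
  simp only [map_add, map_smul, hw1', hw3']
  module

theorem exists_pair {S : Type*} [Group S] [Finite S] {b : S} (hb3 : b * b * b = 1)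
    (Q : Subgroup S) (hQ : Cfsg.IsElementaryAbelian 2 Q) (hQ4 : Nat.card ↥Q = 4)
    (hbQ : ∀ x ∈ Q, b * x * b⁻¹ ∈ Q) (hne : ∃ t ∈ Q, b * t ≠ t * b) :
    ∃ t u, t ∈ Q ∧ u ∈ Q ∧ Pair b t u := by
  classical
  obtain ⟨t, ht, hbt⟩ := hne
  obtain ⟨u, hu⟩ : ∃ u, u = b * t * b⁻¹ := ⟨_, rfl⟩
  have huQ : u ∈ Q := hu ▸ hbQ t ht
  have hsq : ∀ x ∈ Q, x * x = 1 := fun x hx => by rw [← pow_two]; exact hQ.2 x hx
  have hcomm : ∀ x ∈ Q, ∀ y ∈ Q, x * y = y * x := by
    intro x hx y hy
    have := hQ.1.1.comm ⟨x, hx⟩ ⟨y, hy⟩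
    exact congrArg Subtype.val this
  have ht1 : t ≠ 1 := by
    intro h; apply hbt; rw [h, mul_one, one_mul]
  have hut : u ≠ t := by
    intro h
    apply hbt
    calc b * t = (b * t * b⁻¹) * b := by group
      _ = t * b := by rw [← hu, h]
  have hu1 : u ≠ 1 := by
    intro h
    apply ht1
    have : t = b⁻¹ * u * b := by rw [hu]; group
    rw [this, h]; group
  have htu1 : t * u ≠ 1 := by
    intro h
    apply hut
    have h1 := hsq t ht
    exact mul_left_cancel (h.trans h1.symm)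
  have htut : t * u ≠ t := by
    intro h; exact hu1 (mul_eq_left.mp h)
  have htuu : t * u ≠ u := by
    intro h; exact ht1 (mul_eq_right.mp h)
  have hset : ((Q : Subgroup S) : Set S) = ({1, t, u, t * u} : Finset S) := by
    symm
    refine Set.eq_of_subset_of_ncard_le ?_ ?_ (Set.toFinite _)
    · intro x hx
      simp only [Finset.coe_insert, Finset.coe_singleton, Set.mem_insert_iff,
        Set.mem_singleton_iff] at hx
      rcases hx with rfl | rfl | rfl | rfl
      · exact Q.one_mem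
      · exact ht
      · exact huQ
      · exact Q.mul_mem ht huQ
    · rw [Set.ncard_coe_finset]
      have h1 : Set.ncard (Q : Set S) = 4 := by
        rw [← hQ4]; exact (Nat.card_coe_set_eq _).symm
      rw [h1, Finset.card_insert_of_notMem, Finset.card_insert_of_notMem,
        Finset.card_insert_of_notMem, Finset.card_singleton]
      · simp only [Finset.mem_singleton]; exact fun h => htuu h.symm
      · simp only [Finset.mem_insert, Finset.mem_singleton, not_or]
        exact ⟨fun h => hut h.symm, fun h => htut h.symm⟩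
      · simp only [Finset.mem_insert, Finset.mem_singleton, not_or]
        exact ⟨fun h => ht1 h.symm, fun h => hu1 h.symm, fun h => htu1 h.symm⟩
  have hw : b * u * b⁻¹ = t * u := by
    have h1 : b * u * b⁻¹ ∈ ((Q : Subgroup S) : Set S) := hbQ u huQ
    rw [hset] at h1
    simp only [Finset.coe_insert, Finset.coe_singleton, Set.mem_insert_iff,
        Set.mem_singleton_iff] at h1
    rcases h1 with h | h | h | h
    · exfalso
      apply hu1
      have : u = b⁻¹ * (b * u * b⁻¹) * b := by group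
      rw [this, h]; group
    · exfalso
      apply hut
      have h2 : b * t * b⁻¹ = t := by
        calc b * t * b⁻¹ = b * (b * u * b⁻¹) * b⁻¹ := by rw [h]
          _ = b * (b * (b * t * b⁻¹) * b⁻¹) * b⁻¹ := by rw [hu]
          _ = (b * b * b) * t * (b * b * b)⁻¹ := by group
          _ = t := by rw [hb3, one_mul, inv_one, mul_one]
      rw [hu, h2]
    · exfalso
      apply hut
      have h2 : b * u * b⁻¹ = b * t * b⁻¹ := by rw [h, hu]
      exact mul_left_cancel (mul_right_cancel h2)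
    · exact h
  refine ⟨t, u, ht, huQ, hb3, hsq t ht, hsq u huQ, hcomm u huQ t ht, ht1, ?_, ?_⟩
  · rw [hu]; group
  · calc b * u = (b * u * b⁻¹) * b := by group
      _ = t * u * b := by rw [hw]

end H1.FG19
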