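import Cfsg.Agent.Lib.H1.DLa

/-!
The Hall–Higman dichotomy at a weight of the centre, for an operator of order `p ^ (n + 1)`.
-/

set_option autoImplicit false

open Subgroup H1.Coprime2 H1.Coprime H1.StrLem
open scoped commutatorElement Pointwise

namespace H1.Gr

universe u

section rep

variable {Γ : Type u} [Group Γ] [Finite Γ] {F : Type*} [Field F] [IsAlgClosed F] {V : Type*} [AddCommGroup V] [Module F V]
  [FiniteDimensional F V]

theorem dichE (ρ : Γ →* Module.End F V) {p q n : ℕ} [hp : Fact p.Prime] [hq : Fact q.Prime] (hpq : p ≠ q) (hqF : (q : F) ≠ 0)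
    {x : Γ} (hx : orderOf x = p ^ (n + 1)) (Q Z : Subgroup Γ) (hQ : IsPGroup q Q) (hxQ : x ∈ normalizer (Q : Set Γ)) (hZQ : Z ≤ Q)
    (hxZ : x ∈ normalizer (Z : Set Γ))
    (hQZ : Q ≤ centralizer (Z : Set Γ)) (hab : ∀ a ∈ Q, ∀ b ∈ Q, a * b * a⁻¹ * b⁻¹ ∈ Z)
    (χ : Z →* Fˣ) (hwt : H30.Wts.wt (ρ.comp Z.subtype) χ ≠ ⊥) (hyχ : x ^ p ^ n ∈ St Z χ)
    (hT : ∀ v : V, ∑ j ∈ Finset.range (p ^ (n + 1)), ρ (x ^ j) v = 0) :
    ⁅Q, zpowers (x ^ p ^ n)⁆ ≤ cmod Q (kr Z χ) (le_normalizer_kr χ hQZ) ∨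
      (∃ b, 1 ≤ b ∧ (∃ m, 1 ≤ m ∧ p ^ b - 1 = q ^ m) ∧
        (cmod Q (kr Z χ) (le_normalizer_kr χ hQZ)).relIndex ⁅Q, zpowers (x ^ p ^ n)⁆ = (p ^ b - 1) ^ 2) := by
  classical
  by_cases hcase : ⁅Q, zpowers (x ^ p ^ n)⁆ ≤ cmod Q (kr Z χ) (le_normalizer_kr χ hQZ)
  · exact Or.inl hcase
  right
  have hQs : Group.IsSolvable Q := by have := hQ.isNilpotent; infer_instance
  set y := x ^ p ^ n with hy
  set D := zpowers y with hD
  have hyQ : y ∈ normalizer (Q : Set Γ) := pow_mem hxQ _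
  have hyZ : y ∈ normalizer (Z : Set Γ) := pow_mem hxZ _
  have hDQ : D ≤ normalizer (Q : Set Γ) := by rw [hD, zpowers_le]; exact hyQ
  have hDZ : D ≤ normalizer (Z : Set Γ) := by rw [hD, zpowers_le]; exact hyZ
  have hDχ : D ≤ St Z χ := by rw [hD, zpowers_le]; exact hyχ
  have hyo : orderOf y = p := H1.ThmB.orderOf_y hx
  have hcop : (Nat.card D).Coprime (Nat.card Q) := by
    rw [hD, Nat.card_zpowers, hyo]
    obtain ⟨n, hn⟩ := IsPGroup.iff_card.mp hQ
    rw [hn]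
    exact Nat.Coprime.pow_right _ ((Nat.coprime_primes hp.out hq.out).2 hpq)
  set K := ⁅Q, D⁆ with hK
  have hKQ : K ≤ Q := commutator_le_left hDQ
  set Y := K ⊔ Z with hY
  have hYQ : Y ≤ Q := sup_le hKQ hZQ
  have hxx : zpowers x ≤ normalizer (D : Set Γ) := H1.ThmB.zpowers_le_normalizer_pow x _
  have hzQ : zpowers x ≤ normalizer (Q : Set Γ) := by rw [zpowers_le]; exact hxQ
  have hzZ : zpowers x ≤ normalizer (Z : Set Γ) := by rw [zpowers_le]; exact hxZ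
  have hxK : zpowers x ≤ normalizer (K : Set Γ) := le_normalizer_commutator hzQ hxx
  have hxY : x ∈ normalizer (Y : Set Γ) := (le_normalizer_sup (B := zpowers x) hxK hzZ) (mem_zpowers x)
  have hZn : Q ≤ normalizer (Z : Set Γ) := hQZ.trans (Subgroup.centralizer_le_normalizer _)
  have hS : Setup ρ p q n x Y Z :=
    { hpq := hpq
      hqF := hqF
      hx := hx
      hQ := hQ.to_le hYQ
      hxQ := hxY
      hZQ := le_sup_right
      hxZ := hxZ
      hQZ := hYQ.trans hQZ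
      hab := fun a ha b hb => hab a (hYQ ha) b (hYQ hb)
      hy := by
        intro g hg hxg
        rw [← hy] at hxg
        have h1 : K ≤ normalizer (Z : Set Γ) := hKQ.trans hZn
        obtain ⟨k, hk, z, hz, rfl⟩ := H37.Syl.exists_mul_of_mem_sup h1 hg
        apply Z.mul_mem ?_ hz
        apply H1.PQ.lemF hDQ hcop hab hk
        have h2 : D ≤ H1.PQ.stabC Z k := by
          rw [hD, zpowers_le]
          refine ⟨hyZ, ?_⟩
          have h3 : y * k * y⁻¹ * k⁻¹ = k * z * (y * z⁻¹ * y⁻¹) * k⁻¹ := by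
            have h4 : y * k = k * z * y * z⁻¹ := by
              calc y * k = y * (k * z) * z⁻¹ := by group
                _ = k * z * y * z⁻¹ := by rw [hxg]
            rw [h4]; group
          rw [h3]
          have h5 : y * z⁻¹ * y⁻¹ ∈ Z := (Subgroup.mem_normalizer_iff.mp hyZ _).mp (Z.inv_mem hz)
          have h6 := (Subgroup.mem_normalizer_iff.mp (h1 hk) _).mp (Z.mul_mem hz h5)
          have h7 : k * (z * (y * z⁻¹ * y⁻¹)) * k⁻¹ = k * z * (y * z⁻¹ * y⁻¹) * k⁻¹ := by group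
          rwa [h7] at h6
        exact fun a ha => (h2 ha).2
      hT := hT }
  have horth := H1.DL.orth (χ := χ) hQZ hab hDQ hDχ
  have hkrn := le_normalizer_kr χ hQZ
  have hne : ∃ a ∈ Y, ∃ b ∈ Y, a * b * a⁻¹ * b⁻¹ ∉ kr Z χ := by
    by_contra hcon
    push Not at hcon
    apply hcase
    intro k hk
    rw [mem_cmod]
    refine ⟨hKQ hk, ?_⟩
    intro v hv
    obtain ⟨k', hk', c, hc, rfl⟩ := exists_mul_of_mem D Q hDQ hcop (Or.inr hQs) hv
    have h1 := hcon k (le_sup_left (b := Z) hk) k' (le_sup_left (b := Z) hk')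
    have h2 := horth k hk c hc
    have h3 : k * (k' * c) * k⁻¹ * (k' * c)⁻¹ = (k * k' * k⁻¹ * k'⁻¹) * (k' * (k * c * k⁻¹ * c⁻¹) * k'⁻¹) := by group
    rw [h3]
    exact mul_mem h1 ((Subgroup.mem_normalizer_iff.mp (hkrn (hKQ hk')) _).mp h2)
  obtain ⟨k, hk0, _, _, hsq, hm, _⟩ := H1.StrLem.main hS χ hwt hne
  refine ⟨n + 1 - k, by omega, hm, ?_⟩
  set N := cmod Q (kr Z χ) (le_normalizer_kr χ hQZ) with hN
  have hZN : Z ≤ N := by
    intro z hz
    rw [hN, mem_cmod]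
    refine ⟨hZQ hz, fun v hv => ?_⟩
    have := mem_centralizer_iff.mp (hQZ hv) z hz
    rw [this]; simp [one_mem]
  have hNQ : N ≤ Q := cmod_le _ _ _
  have hQN : Q ≤ normalizer (N : Set Γ) := by
    apply le_normalizer_of_conj_mem
    intro g hg n hn
    have h1 := hZN (hab g hg n (hNQ hn))
    have := N.mul_mem h1 hn
    rwa [inv_mul_cancel_right] at this
  rw [← H1.PQ.relIndex_sup_of_le (Z := Z) hZN hKQ hZQ hQN, hsq, ← hY]
  have heq : N ⊓ Y = cmod Y (kr Z χ) (le_normalizer_kr χ hS.hQZ) ⊓ Y := by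
    ext y
    rw [Subgroup.mem_inf, Subgroup.mem_inf, mem_cmod, mem_cmod]
    constructor
    · rintro ⟨⟨hyQ, hy⟩, hyY⟩
      exact ⟨⟨hyY, fun h hh => hy h (hYQ hh)⟩, hyY⟩
    · rintro ⟨⟨_, hy⟩, hyY⟩
      refine ⟨⟨hYQ hyY, fun v hv => ?_⟩, hyY⟩
      obtain ⟨k', hk', c, hc, rfl⟩ := exists_mul_of_mem D Q hDQ hcop (Or.inr hQs) hv
      have h1 := hy k' (le_sup_left (b := Z) hk')
      have h2 : y * c * y⁻¹ * c⁻¹ ∈ kr Z χ := by
        have h3 : K ≤ normalizer (Z : Set Γ) := hKQ.trans hZn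
        obtain ⟨k, hk, z, hz, rfl⟩ := H37.Syl.exists_mul_of_mem_sup h3 hyY
        rw [H1.DL.comm_mul_left hQZ hab (hKQ hk) (hZQ hz) hc.1]
        have h4 := mem_centralizer_iff.mp (hQZ hc.1) z hz
        have h5 : z * c * z⁻¹ * c⁻¹ = 1 := by rw [h4]; group
        rw [h5, mul_one]
        exact horth k hk c hc
      have h3 : y * (k' * c) * y⁻¹ * (k' * c)⁻¹ = (y * k' * y⁻¹ * k'⁻¹) * (k' * (y * c * y⁻¹ * c⁻¹) * k'⁻¹) := by group
      rw [h3]
      exact mul_mem h1 ((Subgroup.mem_normalizer_iff.mp (hkrn (hKQ hk')) _).mp h2)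
  rw [← Subgroup.inf_relIndex_right N, heq, Subgroup.inf_relIndex_right]

end rep

/-- `2 ^ b - 1` is a proper power of a prime only if it is a prime -/
theorem mersenne {b m q : ℕ} (hq : q.Prime) (hb : 1 ≤ b) (hm : 1 ≤ m) (h : 2 ^ b - 1 = q ^ m) : m = 1 := by
  have h2b : 1 ≤ 2 ^ b := Nat.one_le_two_pow
  have hodd : Odd q := by
    rcases hq.eq_two_or_odd' with rfl | ho
    · exfalso
      obtain ⟨c, rfl⟩ : ∃ c, b = c + 1 := ⟨b - 1, by omega⟩
      obtain ⟨d, rfl⟩ : ∃ d, m = d + 1 := ⟨m - 1, by omega⟩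
      rw [pow_succ, pow_succ] at h
      omega
    · exact ho
  have h1 : q ^ m + 1 = 2 ^ b := by omega
  rcases Nat.even_or_odd m with he | ho
  · exfalso
    obtain ⟨d, rfl⟩ := he
    have h4 : q ^ (d + d) % 4 = 1 := by
      rw [← two_mul, pow_mul, Nat.pow_mod]
      have h5 : q ^ 2 % 4 = 1 := by
        obtain ⟨t, rfl⟩ := hodd
        have : (2 * t + 1) ^ 2 = 4 * (t ^ 2 + t) + 1 := by ring
        omega
      rw [h5, one_pow]; norm_num
    obtain ⟨c, rfl⟩ : ∃ c, b = c + 1 := ⟨b - 1, by omega⟩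
    have h6 : c = 0 := by
      by_contra hc
      obtain ⟨e, rfl⟩ : ∃ e, c = e + 1 := ⟨c - 1, by omega⟩
      rw [pow_succ, pow_succ] at h1
      omega
    subst h6
    have h7 : 1 < q ^ (d + d) := Nat.one_lt_pow (by omega) hq.one_lt
    rw [zero_add, pow_one] at h1
    omega
  · by_contra hm1
    have h3 : 3 ≤ m := by
      obtain ⟨d, rfl⟩ := ho
      omega
    -- (q + 1) divides q ^ m + 1, with odd cofactor
    have hdvd : q + 1 ∣ q ^ m + 1 := by
      have := Odd.nat_add_dvd_pow_add_pow q 1 ho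
      rwa [one_pow] at this
    rw [h1] at hdvd
    obtain ⟨c, hc, hqc⟩ := (Nat.dvd_prime_pow Nat.prime_two).mp hdvd
    -- `q = 2^c - 1`, so `q^m ≡ -1 + m 2^c mod 2^(c+1)`...
    have hc2 : 2 ≤ c := by
      have : 3 ≤ q := by
        have := hq.two_le
        rcases hodd with ⟨t, rfl⟩
        omega
      by_contra hcon
      have : c ≤ 1 := by omega
      have h8 : 2 ^ c ≤ 2 ^ 1 := Nat.pow_le_pow_right (by norm_num) this
      omega
    have hcb : c < b := by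
      by_contra hcon
      have h8 : 2 ^ b ≤ 2 ^ c := Nat.pow_le_pow_right (by norm_num) (by omega)
      have h9 : q ^ 1 < q ^ m := Nat.pow_lt_pow_right hq.one_lt (by omega)
      rw [pow_one] at h9
      omega
    -- work in ℤ modulo 2^(c+1)
    have h10 : ((2 : ℤ) ^ (c + 1)) ∣ (q : ℤ) ^ m + 1 := by
      have : ((q : ℤ) ^ m + 1) = 2 ^ b := by exact_mod_cast h1
      rw [this]
      exact pow_dvd_pow 2 hcb
    have h11 : (q : ℤ) = 2 ^ c - 1 := by
      have : (q : ℤ) + 1 = 2 ^ c := by exact_mod_cast hqc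
      linarith
    have h12 : ((2 : ℤ) ^ (c + 1)) ∣ (q : ℤ) ^ 2 - 1 := by
      rw [h11]
      refine ⟨2 ^ (c - 1) - 1, ?_⟩
      obtain ⟨d, rfl⟩ : ∃ d, c = d + 1 := ⟨c - 1, by omega⟩
      rw [Nat.add_sub_cancel]
      ring
    obtain ⟨d, rfl⟩ := ho
    have h13 : ((2 : ℤ) ^ (c + 1)) ∣ (q : ℤ) ^ (2 * d) - 1 := by
      rw [pow_mul]
      exact h12.trans (sub_one_dvd_pow_sub_one _ _)
    have h14 : ((2 : ℤ) ^ (c + 1)) ∣ 2 ^ c := by
      have h15 : (2 : ℤ) ^ c = ((q : ℤ) ^ (2 * d + 1) + 1) - (q : ℤ) * ((q : ℤ) ^ (2 * d) - 1) := by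
        rw [pow_succ, h11]; ring
      rw [h15]
      exact dvd_sub h10 (h13.mul_left _)
    have h16 : (2 : ℤ) ^ (c + 1) ≤ 2 ^ c := Int.le_of_dvd (by positivity) h14
    have h17 : (2 : ℤ) ^ c < 2 ^ (c + 1) := by
      rw [pow_succ]
      have : (0 : ℤ) < 2 ^ c := by positivity
      linarith
    linarith

end H1.Gr
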