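import Cfsg.Agent.Lib.H1.GrA

/-!
Orbits of a `q`-group on which the derived group has no fixed point.
-/

set_option autoImplicit false

open Subgroup H1.Coprime2 H1.Coprime H1.StrLem
open scoped commutatorElement Pointwise

namespace H1.Gr

universe u v

section act

/-- a subgroup of a `q`-group not containing the derived group has index divisible by `q ^ 2` -/
theorem sq_dvd_index {T : Type u} [Group T] [Finite T] {q : ℕ} [hq : Fact q.Prime] (hT : IsPGroup q T) (S : Subgroup T)
    (hS : ¬ commutator T ≤ S) : q ^ 2 ∣ S.index := by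
  haveI := hT.isNilpotent
  obtain ⟨j, hj⟩ := hT.index S
  rw [hj]
  apply pow_dvd_pow
  by_contra hcon
  have hS1 : S ≠ ⊤ := fun h => hS (h ▸ le_top)
  obtain ⟨M, hM, hSM⟩ := (eq_top_or_exists_le_coatom S).resolve_left hS1
  have hMi := H1.Frat.index_eq_of_isCoatom hT hM
  have h1 : S.index ≤ q := by
    rw [hj]
    calc q ^ j ≤ q ^ 1 := Nat.pow_le_pow_right hq.out.pos (by omega)
      _ = q := pow_one q
  have h2 : S = M := by
    refine le_antisymm hSM ?_
    have h3 := Subgroup.relIndex_mul_index hSM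
    rw [hMi] at h3
    have h4 : S.relIndex M ≤ 1 := by
      have h5 : S.relIndex M * q ≤ 1 * q := by rw [h3, one_mul]; exact h1
      exact Nat.le_of_mul_le_mul_right h5 hq.out.pos
    have h5 : S.relIndex M ≠ 0 := by
      intro h0
      rw [h0, zero_mul] at h3
      exact Subgroup.index_ne_zero_of_finite h3.symm
    rw [← Subgroup.relIndex_eq_one]; omega
  exact hS (h2 ▸ H1.Frat.commutator_le_of_isCoatom hM)

/-- orbit version -/
theorem sq_dvd_card {T : Type u} [Group T] [Finite T] {q : ℕ} [hq : Fact q.Prime] (hT : IsPGroup q T)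
    {X : Type v} [MulAction T X] [Finite X] (hX : ∀ ω : X, ¬ commutator T ≤ MulAction.stabilizer T ω) :
    q ^ 2 ∣ Nat.card X := by
  classical
  haveI := Fintype.ofFinite X
  haveI : Finite (MulAction.orbitRel.Quotient T X) := Quotient.finite _
  haveI := Fintype.ofFinite (MulAction.orbitRel.Quotient T X)
  rw [Nat.card_congr (MulAction.selfEquivSigmaOrbits T X), Nat.card_sigma]
  apply Finset.dvd_sum
  intro ω _
  rw [Nat.card_congr (MulAction.orbitEquivQuotientStabilizer T ω.out)]
  exact sq_dvd_index hT _ (hX _)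

end act

section perm

variable {G : Type u} [Group G] [Finite G] {X : Type v} [MulAction G X]

omit [Finite G] in
theorem card_orbit_eq (T : Subgroup G) (ω : X) :
    (MulAction.orbit T ω).ncard = (MulAction.stabilizer G ω).relIndex T := by
  rw [← Nat.card_coe_set_eq, Nat.card_congr (MulAction.orbitEquivQuotientStabilizer T ω)]
  have h1 : MulAction.stabilizer T ω = (MulAction.stabilizer G ω).subgroupOf T := by
    ext t
    rw [MulAction.mem_stabilizer_iff, Subgroup.mem_subgroupOf, MulAction.mem_stabilizer_iff]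
    rfl
  rw [h1]
  rfl

/-- If `T = [T, y]` is a `q`-group and `T'` does not fix `ω₀`, then `y` moves at least five points of the orbit of `ω₀`. -/
theorem five_le (T : Subgroup G) (y : G) {q : ℕ} [hq : Fact q.Prime] (hq2 : q ≠ 2) (hT : IsPGroup q T)
    (hyT : y ∈ normalizer (T : Set G)) (hyy : y * y = 1) (hTy : ⁅T, zpowers y⁆ = T) (ω₀ : X)
    (hω : ¬ ⁅T, T⁆ ≤ MulAction.stabilizer G ω₀) :
    5 ≤ Set.ncard {ω : X | ω ∈ MulAction.orbit T ω₀ ∧ y • ω ≠ ω} := by
  classical
  have hq3 : 3 ≤ q := by
    have := hq.out.two_le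
    omega
  have hfin : (MulAction.orbit T ω₀).Finite := Set.finite_range _
  -- all points of the orbit behave alike
  have hall : ∀ ω ∈ MulAction.orbit T ω₀, ¬ ⁅T, T⁆ ≤ MulAction.stabilizer G ω := by
    rintro _ ⟨t, rfl⟩ hcon
    apply hω
    intro g hg
    have h1 : (t : G) * g * (t : G)⁻¹ ∈ ⁅T, T⁆ :=
      (Subgroup.mem_normalizer_iff.mp (le_normalizer_commutator_left T T t.2) g).mp hg
    have h2 := MulAction.mem_stabilizer_iff.mp (hcon h1)
    rw [MulAction.mem_stabilizer_iff]
    have h3 : ((t : G) * g * (t : G)⁻¹) • (t : G) • ω₀ = (t : G) • g • ω₀ := by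
      rw [smul_smul, smul_smul]; congr 1; group
    change ((t : G) * g * (t : G)⁻¹) • (t : G) • ω₀ = (t : G) • ω₀ at h2
    rw [h3] at h2
    exact (MulAction.injective (t : G)) h2
  have hbig : ∀ ω ∈ MulAction.orbit T ω₀, q ^ 2 ∣ (MulAction.stabilizer G ω).relIndex T := by
    intro ω hω1
    have h1 := sq_dvd_index hT ((MulAction.stabilizer G ω).subgroupOf T) (by
      intro hcon
      apply hall ω hω1
      have h2 := Subgroup.map_mono (f := T.subtype) hcon
      rw [commutator_def, Subgroup.map_commutator, ← MonoidHom.range_eq_map, Subgroup.range_subtype] at h2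
      exact h2.trans (Subgroup.map_le_iff_le_comap.mpr le_rfl))
    exact h1
  by_cases hfix : ∃ ω ∈ MulAction.orbit T ω₀, y • ω = ω
  · obtain ⟨ω, hω1, hyω⟩ := hfix
    have horb : MulAction.orbit T ω = MulAction.orbit T ω₀ := MulAction.orbit_eq_iff.mpr hω1
    set S := T ⊓ MulAction.stabilizer G ω with hS
    have hyS : y ∈ normalizer (S : Set G) := by
      have hst : zpowers y ≤ MulAction.stabilizer G ω := by
        rw [zpowers_le]; exact hyω
      have h1 : zpowers y ≤ normalizer (T : Set G) := by rw [zpowers_le]; exact hyT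
      exact le_normalizer_inf h1 (hst.trans Subgroup.le_normalizer) (mem_zpowers y)
    set M := S ⊔ ⁅T, T⁆ with hM
    have hTTT : ⁅T, T⁆ ≤ T := Subgroup.commutator_le_self T
    have hMT : M ≤ T := sup_le inf_le_left hTTT
    have hyM : zpowers y ≤ normalizer (M : Set G) := by
      have h1 : zpowers y ≤ normalizer (T : Set G) := by rw [zpowers_le]; exact hyT
      exact le_normalizer_sup (by rw [zpowers_le]; exact hyS) (le_normalizer_commutator h1 h1)
    have hTM : T ≤ normalizer (M : Set G) := by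
      apply le_normalizer_of_conj_mem
      intro t ht m hm
      have h1 : t * m * t⁻¹ = ⁅t, m⁆ * m := by rw [commutatorElement_def]; group
      rw [h1]
      exact mul_mem ((le_sup_right : ⁅T, T⁆ ≤ M) (commutator_mem_commutator ht (hMT hm))) hm
    -- `M` is proper
    have hMne : M ≠ T := by
      intro h
      -- `S ⊔ T' = T` forces `S = T`
      have h1 : (MulAction.stabilizer G ω).subgroupOf T = ⊤ := by
        by_contra hne
        obtain ⟨C, hC, hSC⟩ := (eq_top_or_exists_le_coatom ((MulAction.stabilizer G ω).subgroupOf T)).resolve_left hne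
        haveI := hT.isNilpotent
        have h2 := H1.Frat.commutator_le_of_isCoatom hC
        have h3 : M ≤ C.map T.subtype := by
          rw [hM]
          apply sup_le
          · rintro s ⟨hs1, hs2⟩
            exact ⟨⟨s, hs1⟩, hSC hs2, rfl⟩
          · have h4 := Subgroup.map_mono (f := T.subtype) h2
            rwa [commutator_def, Subgroup.map_commutator, ← MonoidHom.range_eq_map, Subgroup.range_subtype] at h4
        apply hC.1
        rw [eq_top_iff]
        rintro t _
        obtain ⟨c, hc, hct⟩ := h3 (h.ge t.2)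
        have : c = t := Subtype.ext hct
        rwa [← this]
      apply hall ω hω1
      intro g hg
      have h2 : (⟨g, hTTT hg⟩ : T) ∈ (MulAction.stabilizer G ω).subgroupOf T := by rw [h1]; trivial
      exact h2
    have hcop : (Nat.card (zpowers y)).Coprime (Nat.card T) := by
      obtain ⟨k, hk⟩ := IsPGroup.iff_card.mp hT
      rw [hk, Nat.card_zpowers]
      apply Nat.Coprime.pow_right
      have h1 : orderOf y ∣ 2 := orderOf_dvd_of_pow_eq_one (by rw [pow_two, hyy])
      exact Nat.Coprime.coprime_dvd_left h1 ((Nat.coprime_primes Nat.prime_two hq.out).2 (Ne.symm hq2))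
    have hyTz : zpowers y ≤ normalizer (T : Set G) := by rw [zpowers_le]; exact hyT
    -- fixed points lie in the orbit of `M`
    have hfixM : ∀ ω' ∈ MulAction.orbit T ω, y • ω' = ω' → ω' ∈ MulAction.orbit M ω := by
      rintro _ ⟨t, rfl⟩ hy'
      change y • (t : G) • ω = (t : G) • ω at hy'
      refine ⟨⟨t, ?_⟩, rfl⟩
      apply H1.PQ.lemF (N := M) hyTz hcop (by
        intro a ha b hb
        apply (le_sup_right : ⁅T, T⁆ ≤ M)
        rw [← commutatorElement_def]; exact commutator_mem_commutator ha hb) (hTy.symm ▸ t.2)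
      have h2 : zpowers y ≤ H1.PQ.stabC M t := by
        rw [zpowers_le]
        refine ⟨hyM (mem_zpowers y), ?_⟩
        have h3 : (t : G)⁻¹ * (y * t * y⁻¹) ∈ S := by
          refine Subgroup.mem_inf.mpr ⟨mul_mem (inv_mem t.2) ((Subgroup.mem_normalizer_iff.mp hyT _).mp t.2), ?_⟩
          rw [MulAction.mem_stabilizer_iff]
          have h4 : y⁻¹ • ω = ω := by rw [inv_smul_eq_iff]; exact hyω.symm
          rw [mul_smul, mul_smul, mul_smul, h4, hy', inv_smul_smul]
        have h4 : (t : G)⁻¹ * (y * t * y⁻¹) ∈ M := (le_sup_left : S ≤ M) h3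
        have h5 := (Subgroup.mem_normalizer_iff.mp (hTM t.2) _).mp h4
        have h6 : (t : G) * ((t : G)⁻¹ * (y * t * y⁻¹)) * (t : G)⁻¹ = y * t * y⁻¹ * (t : G)⁻¹ := by group
        rwa [h6] at h5
      exact fun a ha => (h2 ha).2
    -- counting
    have hsub : MulAction.orbit T ω ⊆ {ω' : X | ω' ∈ MulAction.orbit T ω₀ ∧ y • ω' ≠ ω'} ∪ MulAction.orbit M ω := by
      intro ω' hω'
      by_cases h : y • ω' = ω'
      · exact Or.inr (hfixM ω' hω' h)
      · exact Or.inl ⟨horb ▸ hω', h⟩
    have hc1 := Set.ncard_le_ncard hsub ((hfin.subset (fun _ h => h.1)).union (Set.finite_range _))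
    have hc2 := Set.ncard_union_le {ω' : X | ω' ∈ MulAction.orbit T ω₀ ∧ y • ω' ≠ ω'} (MulAction.orbit M ω)
    rw [card_orbit_eq] at hc1 hc2
    have h1 := hbig ω hω1
    have h2 : (MulAction.stabilizer G ω).relIndex T = (MulAction.stabilizer G ω).relIndex M * M.relIndex T := by
      have hSM : S ≤ M := le_sup_left
      have h3 := Subgroup.relIndex_mul_relIndex S M T hSM hMT
      have h4 : S.relIndex T = (MulAction.stabilizer G ω).relIndex T := by
        rw [hS, Subgroup.inf_relIndex_left]
      have h5 : S.relIndex M = (MulAction.stabilizer G ω).relIndex M := by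
        have : S ⊓ M = MulAction.stabilizer G ω ⊓ M := by
          rw [hS, inf_assoc, inf_comm, inf_assoc, inf_of_le_left hMT]
        rw [← Subgroup.inf_relIndex_right S M, this, Subgroup.inf_relIndex_right]
      rw [← h4, ← h3, h5]
    have h3 : 3 ≤ M.relIndex T := by
      haveI : Finite T := inferInstance
      obtain ⟨k, hk⟩ := hT.index (M.subgroupOf T)
      have hk' : M.relIndex T = q ^ k := hk
      rw [hk']
      have hk0 : k ≠ 0 := by
        rintro rfl
        rw [pow_zero] at hk'
        exact hMne (le_antisymm hMT (Subgroup.relIndex_eq_one.mp hk'))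
      calc 3 ≤ q := hq3
        _ = q ^ 1 := (pow_one q).symm
        _ ≤ q ^ k := Nat.pow_le_pow_right hq.out.pos (by omega)
    have h4 : (MulAction.stabilizer G ω).relIndex T ≠ 0 := Subgroup.index_ne_zero_of_finite
    have h5 : 9 ≤ (MulAction.stabilizer G ω).relIndex T := by
      calc 9 = 3 ^ 2 := by norm_num
        _ ≤ q ^ 2 := Nat.pow_le_pow_left hq3 2
        _ ≤ _ := Nat.le_of_dvd (Nat.pos_of_ne_zero h4) h1
    rw [h2] at hc1 h5
    set A := (MulAction.stabilizer G ω).relIndex M
    set B := M.relIndex T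
    nlinarith
  · push Not at hfix
    have h1 : {ω : X | ω ∈ MulAction.orbit T ω₀ ∧ y • ω ≠ ω} = MulAction.orbit T ω₀ := by
      ext ω
      exact ⟨fun h => h.1, fun h => ⟨h, hfix ω h⟩⟩
    rw [h1, card_orbit_eq]
    have h2 := hbig ω₀ (MulAction.mem_orbit_self ω₀)
    have h4 : (MulAction.stabilizer G ω₀).relIndex T ≠ 0 := Subgroup.index_ne_zero_of_finite
    have h5 : 9 ≤ (MulAction.stabilizer G ω₀).relIndex T := by
      calc 9 = 3 ^ 2 := by norm_num
        _ ≤ q ^ 2 := Nat.pow_le_pow_left hq3 2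
        _ ≤ _ := Nat.le_of_dvd (Nat.pos_of_ne_zero h4) h2
    omega

/-- three points, disjoint from their images -/
theorem exists_three (T : Subgroup G) (y : G) {q : ℕ} [hq : Fact q.Prime] (hq2 : q ≠ 2) (hT : IsPGroup q T)
    (hyT : y ∈ normalizer (T : Set G)) (hyy : y * y = 1) (hTy : ⁅T, zpowers y⁆ = T) (ω₀ : X)
    (hω : ¬ ⁅T, T⁆ ≤ MulAction.stabilizer G ω₀) :
    ∃ f : Fin 3 → X, Function.Injective f ∧ (∀ i, f i ∈ MulAction.orbit T ω₀) ∧ ∀ i j, y • f i ≠ f j := by
  classical
  have h5 := five_le T y hq2 hT hyT hyy hTy ω₀ hω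
  set 𝓜 := {ω : X | ω ∈ MulAction.orbit T ω₀ ∧ y • ω ≠ ω} with hM
  have hyy' : ∀ ω : X, y • y • ω = ω := fun ω => by rw [smul_smul, hyy, one_smul]
  have hfin : 𝓜.Finite := by
    apply Set.finite_of_ncard_ne_zero; omega
  have hex : ∀ s : Finset X, s.card ≤ 4 → ∃ a ∈ 𝓜, a ∉ s := by
    intro s hs
    by_contra hcon
    push Not at hcon
    have h1 : 𝓜 ⊆ s := fun a ha => hcon a ha
    have h2 := Set.ncard_le_ncard h1 (Finset.finite_toSet s)
    rw [Set.ncard_coe_finset] at h2
    omega
  obtain ⟨a, ha, -⟩ := hex ∅ (by simp)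
  obtain ⟨b, hb, hb'⟩ := hex {a, y • a} ((Finset.card_le_two).trans (by norm_num))
  obtain ⟨c, hc, hc'⟩ := hex {a, y • a, b, y • b} Finset.card_le_four
  simp only [Finset.mem_insert, Finset.mem_singleton, not_or] at hb' hc'
  have ha2 : y • a ≠ a := ha.2
  have hb2 : y • b ≠ b := hb.2
  have hc2 : y • c ≠ c := hc.2
  have e1 : ∀ u v : X, u ≠ y • v → y • u ≠ v := by
    intro u v h h'
    apply h
    rw [← h', hyy']
  refine ⟨![a, b, c], ?_, ?_, ?_⟩
  · intro i j hij
    fin_cases i <;> fin_cases j <;> simp at hij ⊢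
    · exact hb'.1 hij.symm
    · exact hc'.1 hij.symm
    · exact hb'.1 hij
    · exact hc'.2.2.1 hij.symm
    · exact hc'.1 hij
    · exact hc'.2.2.1 hij
  · intro i
    fin_cases i
    · exact ha.1
    · exact hb.1
    · exact hc.1
  · intro i j
    fin_cases i <;> fin_cases j <;> simp
    · exact ha2
    · exact fun h => hb'.2 h.symm
    · exact fun h => hc'.2.1 h.symm
    · exact e1 b a hb'.2
    · exact hb2
    · exact fun h => hc'.2.2.2 h.symm
    · exact e1 c a hc'.2.1
    · exact e1 c b hc'.2.2.2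
    · exact hc2

end perm

end H1.Gr
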