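import Cfsg.Agent.Lib.H1.GrB

/-!
Operators of small rank normalising a `2`-group acted on by a `q`-group without large abelian quotients.
-/

set_option autoImplicit false

open Subgroup Module H1.Coprime2 H1.Coprime H1.StrLem H1.CritSub H30.Wts H30.FixRep H30.EndRep
open scoped commutatorElement Pointwise

namespace H1.Gr

universe u

variable {F : Type*} [Field F] {U : Type*} [AddCommGroup U] [Module F U] [FiniteDimensional F U] {H : Type u} [Group H] [Finite H]

/-- weights moved by `y` bound the rank of `y - 1` -/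
theorem rank_ge (σ : H →* Module.End F U) (A : Subgroup H) (hA : (Nat.card A : F) ≠ 0) (y : H)
    (hy : y ∈ normalizer (A : Set H)) {k : ℕ} (ζ : Fin k → (A →* Fˣ)) (hinj : Function.Injective ζ)
    (hw : ∀ i, wt (σ.comp A.subtype) (ζ i) ≠ ⊥) (hmv : ∀ i j, cch A y hy (ζ i) ≠ ζ j) :
    k ≤ finrank F (LinearMap.range (σ y - 1)) := by
  classical
  haveI := Fintype.ofFinite A
  have hA' : (Fintype.card A : F) ≠ 0 := by rwa [← Nat.card_eq_fintype_card]
  have h1 : ∀ i, ∃ w, w ∈ wt (σ.comp A.subtype) (ζ i) ∧ w ≠ 0 := fun i => by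
    obtain ⟨w, hw1, hw2⟩ := Submodule.exists_mem_ne_zero_of_ne_bot (hw i)
    exact ⟨w, hw1, hw2⟩
  choose w hw1 hw2 using h1
  have hli : LinearIndependent F (fun i : Fin k => (⟨(σ y - 1) (w i), ⟨w i, rfl⟩⟩ : LinearMap.range (σ y - 1))) := by
    rw [Fintype.linearIndependent_iff]
    intro c hc j
    have h2 : ∑ i, c i • ((σ y - 1) (w i)) = 0 := by
      have := congrArg Subtype.val hc
      rw [AddSubmonoidClass.coe_finsetSum] at this
      exact this
    have h3 := congrArg (proj (σ.comp A.subtype) (ζ j)) h2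
    rw [map_sum, map_zero, Finset.sum_eq_single j] at h3
    · rw [map_smul, LinearMap.sub_apply, Module.End.one_apply, map_sub,
        proj_of_mem_ne (σ.comp A.subtype) (Ne.symm (hmv j j)) (map_wt σ A y hy (hw1 j)), zero_sub,
        proj_of_mem hA' _ _ (hw1 j), smul_neg, neg_eq_zero] at h3
      rcases smul_eq_zero.1 h3 with h4 | h4
      · exact h4
      · exact absurd h4 (hw2 j)
    · intro i _ hij
      rw [map_smul, LinearMap.sub_apply, Module.End.one_apply, map_sub,
        proj_of_mem_ne (σ.comp A.subtype) (Ne.symm (hmv i j)) (map_wt σ A y hy (hw1 i)),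
        proj_of_mem_ne (σ.comp A.subtype) (fun h => hij (hinj h).symm) (hw1 i), sub_zero, smul_zero]
    · intro h; exact absurd (Finset.mem_univ _) h
  have h2 := hli.fintype_card_le_finrank
  rwa [Fintype.card_fin] at h2

omit [Finite H] in
theorem mem_norm (A : Subgroup H) [hA : A.Normal] (g : H) : g ∈ normalizer (A : Set H) := by
  rw [Subgroup.normalizer_eq_top]; trivial

/-- action on characters -/
@[reducible] def chAct (F : Type*) [Field F] (A : Subgroup H) [A.Normal] : MulAction H (A →* Fˣ) where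
  smul g χ := cch A g (mem_norm A g) χ
  one_smul χ := cch_one A _ χ
  mul_smul g h χ := cch_mul A g h _ _ _ χ

omit [Finite H] [FiniteDimensional F U] in
theorem apply_ne_zero (σ : H →* Module.End F U) (g : H) {v : U} (hv : v ≠ 0) : σ g v ≠ 0 := by
  intro h
  apply hv
  have h1 : σ g⁻¹ (σ g v) = v := by
    rw [← Module.End.mul_apply, ← map_mul, inv_mul_cancel, map_one]; rfl
  rw [← h1, h, map_zero]

omit [Finite H] [FiniteDimensional F U] in
theorem comm_triv {σ : H →* Module.End F U} {A : Subgroup H} (h : ∀ a ∈ A, ∀ b ∈ A, a * b = b * a) :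
    ∀ a ∈ commutator A, (σ.comp A.subtype) a = 1 := by
  have h1 : commutator A ≤ (σ.comp A.subtype).ker := by
    rw [commutator_def, Subgroup.commutator_le]
    intro a _ b _
    rw [MonoidHom.mem_ker]
    have : ⁅a, b⁆ = 1 := by
      rw [commutatorElement_eq_one_iff_mul_comm]
      exact Subtype.ext (h a a.2 b b.2)
    rw [this, map_one]
  exact fun a ha => h1 ha

/-- **Abelian case.** -/
theorem lemA [IsAlgClosed F] (σ : H →* Module.End F U) (A T : Subgroup H) [hAn : A.Normal] (hAF : (Nat.card A : F) ≠ 0)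
    (hAab : ∀ a ∈ A, ∀ b ∈ A, a * b = b * a) (y : H) {q : ℕ} [hq : Fact q.Prime] (hq2 : q ≠ 2) (hT : IsPGroup q T)
    (hyT : y ∈ normalizer (T : Set H)) (hyy : y * y = 1) (hTy : ⁅T, zpowers y⁆ = T) (hAT : ⁅A, ⁅T, T⁆⁆ = A)
    (hrk : finrank F (LinearMap.range (σ y - 1)) ≤ 2) : ∀ a ∈ A, σ a = 1 := by
  classical
  by_contra hcon
  push Not at hcon
  obtain ⟨a, ha, hσa⟩ := hcon
  obtain ⟨χ, hχ, v, hv, hv0⟩ := exists_weight hAF (σ.comp A.subtype) (comm_triv hAab) (a := ⟨a, ha⟩) hσa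
  letI := chAct F A
  obtain ⟨f, hf, horb, hmv⟩ := exists_three (X := (A →* Fˣ)) T y hq2 hT hyT hyy hTy χ (by
    intro hst
    apply hχ
    have h1 : A ≤ χ.ker.map A.subtype := by
      conv_lhs => rw [← hAT]
      rw [Subgroup.commutator_le]
      intro r hr t ht
      have h2 : t * r⁻¹ * t⁻¹ ∈ A := hAn.conj_mem _ (inv_mem hr) t
      refine ⟨⟨r, hr⟩ * ⟨t * r⁻¹ * t⁻¹, h2⟩, ?_, ?_⟩
      · rw [SetLike.mem_coe, MonoidHom.mem_ker, map_mul]
        have h3 : cch A t (mem_norm A t) χ = χ := MulAction.mem_stabilizer_iff.mp (hst ht)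
        have h4 := DFunLike.congr_fun h3 ⟨t * r⁻¹ * t⁻¹, h2⟩
        rw [cch_apply] at h4
        have h5 : (⟨t⁻¹ * ((⟨t * r⁻¹ * t⁻¹, h2⟩ : A) : H) * t, conj_mem (mem_norm A t) h2⟩ : A) = (⟨r, hr⟩ : A)⁻¹ :=
          Subtype.ext (by simp only [Subgroup.coe_inv]; group)
        rw [h5] at h4
        rw [← h4, map_inv, mul_inv_cancel]
      · rw [commutatorElement_def]
        change r * (t * r⁻¹ * t⁻¹) = _
        group
    obtain ⟨b, hb, hba⟩ := h1 ha
    have : b = ⟨a, ha⟩ := Subtype.ext hba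
    rw [← this]
    exact hb)
  have h3 := rank_ge σ A hAF y (mem_norm A y) f hf (by
    intro i hbot
    obtain ⟨t, ht⟩ := horb i
    have h4 : σ (t : H) v ∈ wt (σ.comp A.subtype) (f i) := by
      have := map_wt σ A (t : H) (mem_norm A t) hv
      rw [← ht]
      exact this
    rw [hbot, Submodule.mem_bot] at h4
    exact apply_ne_zero σ _ hv0 h4) hmv
  omega

omit [Finite H] in
/-- dimension of a weight space of a central subgroup -/
theorem dimW (h2 : (2 : F) ≠ 0) (σ : H →* Module.End F U) (Z : Subgroup H) (ζ : Z →* Fˣ) (y c : H) (hy : y ∈ St Z ζ)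
    (hyy : y * y = 1) (hc : c ∈ centralizer (Z : Set H)) (hcy : c * y * c⁻¹ * y⁻¹ ∈ Z) (hne : ζ ⟨_, hcy⟩ ≠ 1) :
    finrank F (wt (σ.comp Z.subtype) ζ) ≤ 2 * finrank F (LinearMap.range (σ y - 1)) := by
  classical
  set W := wt (σ.comp Z.subtype) ζ with hW
  by_cases hWb : W = ⊥
  · rw [hWb, finrank_bot]; exact Nat.zero_le _
  obtain ⟨v, hv, hv0⟩ := Submodule.exists_mem_ne_zero_of_ne_bot hWb
  have hyW : ∀ w ∈ W, σ y w ∈ W := fun w hw => map_wt_St σ Z y hy hw
  have hcW : ∀ w ∈ W, σ c w ∈ W := by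
    intro w hw z
    change σ (z : H) (σ c w) = _
    have h1 : (z : H) * c = c * z := mem_centralizer_iff.mp hc z z.2
    rw [← Module.End.mul_apply, ← map_mul, h1, map_mul, Module.End.mul_apply]
    have h3 : σ (z : H) w = (ζ z : F) • w := hw z
    rw [h3, map_smul]
  set z' : Z := ⟨_, hcy⟩ with hz'
  set s : F := (ζ z' : F) with hs
  have hz : ∀ w ∈ W, σ (z' : H) w = s • w := fun w hw => hw z'
  have e1 : (z' : H) * y * c = c * y := by
    change c * y * c⁻¹ * y⁻¹ * y * c = c * y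
    group
  -- σ c σ y w = s σ y σ c w
  have hcomm : ∀ w ∈ W, σ c (σ y w) = s • σ y (σ c w) := by
    intro w hw
    have h3 : σ (c * y) w = σ ((z' : H) * y * c) w := by rw [e1]
    rw [map_mul, map_mul, map_mul, Module.End.mul_apply, Module.End.mul_apply, Module.End.mul_apply,
      hz _ (hyW _ (hcW w hw))] at h3
    exact h3
  have hyyw : ∀ w, σ y (σ y w) = w := by
    intro w
    rw [← Module.End.mul_apply, ← map_mul, hyy, map_one]; rfl
  have hs2 : s * s = 1 := by
    have h3 := hcomm v hv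
    have h4 := hcomm (σ y v) (hyW v hv)
    rw [hyyw, h3, map_smul, hyyw, smul_smul] at h4
    have h5 : ((s * s) - 1) • σ c v = 0 := by rw [sub_smul, ← h4, one_smul, sub_self]
    rcases smul_eq_zero.1 h5 with h6 | h6
    · exact sub_eq_zero.1 h6
    · exact absurd h6 (apply_ne_zero σ c hv0)
  have hs1 : s = -1 := by
    rcases mul_self_eq_one_iff.mp hs2 with h3 | h3
    · exfalso
      apply hne
      apply Units.ext
      rw [Units.val_one]; exact h3
    · exact h3
  set P : W →ₗ[F] LinearMap.range (σ y - 1) := (LinearMap.rangeRestrict (σ y - 1)).comp W.subtype with hP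
  have h3 := LinearMap.finrank_range_add_finrank_ker P
  have h4 : finrank F (LinearMap.range P) ≤ finrank F (LinearMap.range (σ y - 1)) := Submodule.finrank_le _
  have hker : ∀ w : LinearMap.ker P, σ y ((w : W) : U) = ((w : W) : U) := by
    intro w
    have h5 : (σ y - 1) ((w : W) : U) = 0 := congrArg Subtype.val (LinearMap.mem_ker.mp w.2)
    rw [LinearMap.sub_apply, Module.End.one_apply, sub_eq_zero] at h5
    exact h5
  have hck : ∀ w : LinearMap.ker P, σ c ((w : W) : U) = (σ y - 1) (-((2 : F)⁻¹ • σ c ((w : W) : U))) := by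
    intro w
    have h5 := hcomm _ (w : W).2
    rw [hker w, hs1, neg_smul, one_smul] at h5
    have h6 : σ y (σ c ((w : W) : U)) = - σ c ((w : W) : U) := neg_eq_iff_eq_neg.mp h5.symm
    rw [LinearMap.sub_apply, Module.End.one_apply, map_neg, map_smul, h6, smul_neg, neg_neg, sub_neg_eq_add, ← add_smul]
    have h7 : (2 : F)⁻¹ + (2 : F)⁻¹ = 1 := by field_simp; norm_num
    rw [h7, one_smul]
  have h5 : finrank F (LinearMap.ker P) ≤ finrank F (LinearMap.range (σ y - 1)) := by
    refine LinearMap.finrank_le_finrank_of_injective (f :=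
      LinearMap.codRestrict (LinearMap.range (σ y - 1)) ((σ c).comp (W.subtype.comp (LinearMap.ker P).subtype))
        (fun w => ⟨_, (hck w).symm⟩)) ?_
    intro a b hab
    have h6 : σ c ((a : W) : U) = σ c ((b : W) : U) := congrArg Subtype.val hab
    have h7 : σ c (((a : W) : U) - ((b : W) : U)) = 0 := by rw [map_sub, h6, sub_self]
    by_contra hne'
    apply apply_ne_zero σ c _ h7
    intro h8
    exact hne' (Subtype.ext (Subtype.ext (sub_eq_zero.mp h8)))
  omega


omit [FiniteDimensional F U] in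
/-- counting: no `T'`-fixed points on `R / C` -/
theorem sq_dvd_relIndex (R C T : Subgroup H) [hRn : R.Normal] (hCR : C ≤ R) (hRC : R ≤ normalizer (C : Set H))
    (hTC : T ≤ normalizer (C : Set H)) {q : ℕ} [hq : Fact q.Prime] (hT : IsPGroup q T)
    (hcop : (Nat.card T).Coprime (Nat.card R)) (hab : ∀ a ∈ R, ∀ b ∈ R, a * b * a⁻¹ * b⁻¹ ∈ C) (hRT : ⁅R, ⁅T, T⁆⁆ = R) :
    q ^ 2 ∣ C.relIndex R - 1 := by
  classical
  have hCn : (C.subgroupOf R).Normal := Subgroup.normal_subgroupOf_of_le_normalizer hRC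
  set B := R ⧸ C.subgroupOf R with hB
  have hmap : ∀ t : T, C.subgroupOf R ≤ (C.subgroupOf R).comap (MulAut.conjNormal (t : H) : MulAut R).toMonoidHom := by
    intro t c hc
    rw [Subgroup.mem_comap, Subgroup.mem_subgroupOf]
    change (t : H) * c * (t : H)⁻¹ ∈ C
    exact (Subgroup.mem_normalizer_iff.mp (hTC t.2) _).mp (Subgroup.mem_subgroupOf.mp hc)
  let ac : T → B → B := fun t => QuotientGroup.map (C.subgroupOf R) (C.subgroupOf R) (MulAut.conjNormal (t : H) : MulAut R).toMonoidHom (hmap t)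
  have hac : ∀ (t : T) (r : R), ac t (QuotientGroup.mk' _ r) = QuotientGroup.mk' (C.subgroupOf R) (MulAut.conjNormal (t : H) r) := fun t r => rfl
  have hac1 : ∀ b, ac 1 b = b := by
    intro b
    obtain ⟨r, rfl⟩ := QuotientGroup.mk'_surjective _ b
    rw [hac]; congr 1
    apply Subtype.ext
    simp
  have hacm : ∀ s t b, ac (s * t) b = ac s (ac t b) := by
    intro s t b
    obtain ⟨r, rfl⟩ := QuotientGroup.mk'_surjective _ b
    rw [hac, hac, hac]; congr 1
    apply Subtype.ext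
    simp [mul_assoc]
  have hacone : ∀ t, ac t 1 = 1 := fun t => map_one (QuotientGroup.map (C.subgroupOf R) (C.subgroupOf R) (MulAut.conjNormal (t : H) : MulAut R).toMonoidHom (hmap t))
  let X := {b : B // b ≠ 1}
  letI : MulAction T X :=
    { smul := fun t b => ⟨ac t b.1, fun h => b.2 (by
        have h1 := hacm t⁻¹ t b.1
        rw [inv_mul_cancel, hac1, h, hacone] at h1
        exact h1)⟩
      one_smul := fun b => Subtype.ext (hac1 b.1)
      mul_smul := fun s t b => Subtype.ext (hacm s t b.1) }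
  have hTTR : ⁅T, T⁆ ≤ normalizer (R : Set H) := fun g _ => mem_norm R g
  have hTT : ⁅T, T⁆ ≤ T := Subgroup.commutator_le_self T
  have h1 := sq_dvd_card (X := X) hT (by
    rintro ⟨b, hb⟩ hst
    obtain ⟨r, rfl⟩ := QuotientGroup.mk'_surjective _ b
    apply hb
    refine (QuotientGroup.eq_one_iff r).mpr ?_
    rw [Subgroup.mem_subgroupOf]
    refine H1.PQ.lemF (N := C) hTTR (Nat.Coprime.coprime_dvd_left (Subgroup.card_dvd_of_le hTT) hcop) hab (hRT.symm ▸ r.2) ?_
    intro t ht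
    have h2 : (⟨t, hTT ht⟩ : T) ∈ commutator T := by
      have h3 : ⁅T, T⁆ = (commutator T).map T.subtype := by
        rw [commutator_def, Subgroup.map_commutator, ← MonoidHom.range_eq_map, Subgroup.range_subtype]
      rw [h3] at ht
      obtain ⟨s, hs, hst⟩ := ht
      have : s = ⟨t, hTT (h3.symm ▸ ⟨s, hs, hst⟩)⟩ := Subtype.ext hst
      rw [← this]; exact hs
    have h3 := congrArg Subtype.val (MulAction.mem_stabilizer_iff.mp (hst h2))
    have h4 : ac ⟨t, hTT ht⟩ (QuotientGroup.mk' _ r) = QuotientGroup.mk' _ r := h3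
    rw [hac] at h4
    have h5 : ((MulAut.conjNormal t r : R) * r⁻¹) ∈ C.subgroupOf R := by
      rw [← QuotientGroup.eq_one_iff]
      change QuotientGroup.mk' (C.subgroupOf R) _ = 1
      rw [map_mul, map_inv, h4, mul_inv_cancel]
    have h6 := Subgroup.mem_subgroupOf.mp h5
    simpa using h6)
  have h2 : Nat.card X = C.relIndex R - 1 := by
    have h3 : Nat.card B = C.relIndex R := rfl
    rw [← h3]
    haveI := Fintype.ofFinite B
    rw [Nat.card_eq_fintype_card, Nat.card_eq_fintype_card]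
    rw [Fintype.card_subtype_compl, Fintype.card_subtype_eq]
  rwa [h2] at h1

/-- **Nonabelian case.** -/
theorem lemB [IsAlgClosed F] (h2 : (2 : F) ≠ 0) (σ : H →* Module.End F U) (R Z T : Subgroup H) [hRn : R.Normal] [hZn : Z.Normal]
    (hR : IsPGroup 2 R) (hZR : Z ≤ R) (hRZ : R ≤ centralizer (Z : Set H)) (hab : ∀ a ∈ R, ∀ b ∈ R, a * b * a⁻¹ * b⁻¹ ∈ Z)
    (hTZ : T ≤ centralizer (Z : Set H)) {q : ℕ} [hq : Fact q.Prime] (hq2 : q ≠ 2) (hT : IsPGroup q T)
    (hRT : ⁅R, ⁅T, T⁆⁆ = R) (y c a : H) (hyy : y * y = 1) (hc : c ∈ R) (ha : a ∈ R) (hcy : c * y * c⁻¹ * y⁻¹ ∈ Z)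
    (hay : (a * y) * (a * y) = 1) (hrk1 : finrank F (LinearMap.range (σ y - 1)) ≤ 2)
    (hrk2 : finrank F (LinearMap.range (σ (a * y) - 1)) ≤ 2) : σ (c * a * c⁻¹ * a⁻¹) = 1 := by
  classical
  by_contra hne
  haveI : Fact (Nat.Prime 2) := ⟨Nat.prime_two⟩
  have h2' : ((2 : ℕ) : F) ≠ 0 := by exact_mod_cast h2
  have hRF : (Nat.card R : F) ≠ 0 := card_ne 2 h2' hR
  have hZF : (Nat.card Z : F) ≠ 0 := card_ne 2 h2' (hR.to_le hZR)
  have hz := hab c hc a ha
  have hZc : ∀ a ∈ Z, ∀ b ∈ Z, a * b = b * a := fun a ha b hb => (mem_centralizer_iff.mp (hRZ (hZR ha)) b hb).symm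
  obtain ⟨ζ, hζ, v, hv, hv0⟩ := exists_weight hZF (σ.comp Z.subtype) (comm_triv hZc) (a := ⟨_, hz⟩) hne
  set W := wt (σ.comp Z.subtype) ζ with hW
  have hcentSt : centralizer (Z : Set H) ≤ St Z ζ := by
    intro g hg
    refine ⟨mem_norm Z g, MonoidHom.ext fun z => ?_⟩
    rw [cch_apply]
    congr 1
    apply Subtype.ext
    have h1 := mem_centralizer_iff.mp hg z z.2
    change g⁻¹ * z * g = z
    rw [mul_assoc, h1]; group
  -- the dimension is at most four
  have hdim : finrank F W ≤ 4 := by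
    by_cases hySt : y ∈ St Z ζ
    · by_cases hζ' : ζ ⟨_, hcy⟩ = 1
      · have h1 : c * (a * y) * c⁻¹ * (a * y)⁻¹ = (c * a * c⁻¹ * a⁻¹) * (c * y * c⁻¹ * y⁻¹) := by
          have h3 := mem_centralizer_iff.mp (hRZ ha) _ hcy
          calc c * (a * y) * c⁻¹ * (a * y)⁻¹ = (c * a * c⁻¹) * (c * y * c⁻¹ * y⁻¹) * a⁻¹ := by group
            _ = (c * a * c⁻¹ * a⁻¹) * (a * (c * y * c⁻¹ * y⁻¹)) * a⁻¹ := by group
            _ = (c * a * c⁻¹ * a⁻¹) * ((c * y * c⁻¹ * y⁻¹) * a) * a⁻¹ := by rw [h3]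
            _ = _ := by group
        have h4 : c * (a * y) * c⁻¹ * (a * y)⁻¹ ∈ Z := by rw [h1]; exact mul_mem hz hcy
        have h5 := dimW h2 σ Z ζ (a * y) c (mul_mem (hcentSt (hRZ ha)) hySt) hay (hRZ hc) h4 (by
          have h6 : (⟨_, h4⟩ : Z) = ⟨_, hz⟩ * ⟨_, hcy⟩ := Subtype.ext h1
          rw [h6, map_mul, hζ', mul_one]; exact hζ)
        rw [← hW] at h5
        omega
      · have h5 := dimW h2 σ Z ζ y c hySt hyy (hRZ hc) hcy hζ'
        rw [← hW] at h5
        omega
    · have h5 : finrank F W ≤ finrank F (LinearMap.range (σ y - 1)) := by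
        refine LinearMap.finrank_le_finrank_of_injective (f := (LinearMap.rangeRestrict (σ y - 1)).comp W.subtype) ?_
        rw [injective_iff_map_eq_zero]
        intro w hw
        have h6 : (σ y - 1) (w : U) = 0 := congrArg Subtype.val hw
        rw [LinearMap.sub_apply, Module.End.one_apply, sub_eq_zero] at h6
        have h7 := map_wt σ Z y (mem_norm Z y) w.2
        rw [h6] at h7
        apply Subtype.ext
        exact eq_zero_of_mem (fun h => hySt ⟨mem_norm Z y, h⟩) h7 w.2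
      omega
  have hWb : W ≠ ⊥ := fun h => hv0 ((Submodule.mem_bot F).1 (h ▸ hv))
  have hWinv : Inv σ R ⊥ W := by
    refine ⟨?_, ?_⟩
    · intro g hg w hw
      exact map_wt_St σ Z g (hcentSt (hRZ hg)) hw
    · intro g hg w hw
      rw [Subgroup.mem_bot] at hg
      rw [hg, map_one]; exact hw
  obtain ⟨M, hMW, hM⟩ := exists_min σ R ⊥ W hWb hWinv
  have hkrn := le_normalizer_kr ζ hRZ
  set C := cmod R (kr Z ζ) hkrn with hC
  have hCR : C ≤ R := cmod_le _ _ _
  have hZC : Z ≤ C := by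
    intro z hz
    rw [hC, mem_cmod]
    refine ⟨hZR hz, fun v hv => ?_⟩
    have := mem_centralizer_iff.mp (hRZ hv) z hz
    rw [this]; simp [one_mem]
  have hRC : R ≤ normalizer (C : Set H) := by
    apply le_normalizer_of_conj_mem
    intro g hg n hn
    have h1 := hZC (hab g hg n (hCR hn))
    have := C.mul_mem h1 hn
    rwa [inv_mul_cancel_right] at this
  have hTC : T ≤ normalizer (C : Set H) := fun t ht =>
    le_normalizer_cmod R _ hkrn t (mem_norm R t) (St_le_normalizer_kr Z ζ (hcentSt (hTZ ht)))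
  have hKW : ∀ z ∈ kr Z ζ, ∀ w ∈ W, σ z w = w := by
    intro z hz w hw
    obtain ⟨h3, h4⟩ := mem_kr.1 hz
    have h5 : σ z w = (ζ ⟨z, h3⟩ : F) • w := hw ⟨z, h3⟩
    rw [h5, h4, Units.val_one, one_smul]
  obtain ⟨v1, hv1, hv1'⟩ := Submodule.exists_mem_ne_zero_of_ne_bot hM.1
  have hsq := rs_sq σ R C ⊥ M hM hCR hRC hRF (by
      intro g hg
      obtain ⟨s, hs⟩ := rs_schur σ R ⊥ M hM (rs σ R ⊥ M hM.2.1 ⟨g, (le_sup_left : R ≤ R ⊔ ⊥) (hCR hg)⟩) (by
        intro r hr
        ext w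
        have hr' : (r : H) ∈ R := Subgroup.mem_subgroupOf.mp hr
        change σ (r : H) (σ g w) = σ g (σ (r : H) w)
        have h4 : (r : H) * g * (r : H)⁻¹ * g⁻¹ ∈ kr Z ζ := by
          have h5 := inv_mem ((mem_cmod.mp hg).2 r hr')
          have h6 : (g * (r : H) * g⁻¹ * (r : H)⁻¹)⁻¹ = (r : H) * g * (r : H)⁻¹ * g⁻¹ := by group
          rwa [h6] at h5
        have h3 : (r : H) * g = (r * g * (r : H)⁻¹ * g⁻¹) * (g * r) := by group
        have h5 : σ ((r : H) * g) (w : U) = σ (g * (r : H)) w := by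
          rw [h3, map_mul σ ((r : H) * g * (r : H)⁻¹ * g⁻¹) (g * r), Module.End.mul_apply]
          refine hKW _ h4 _ ?_
          rw [map_mul, Module.End.mul_apply]
          exact hMW (hM.2.1.1 g (hCR hg) _ (hM.2.1.1 _ hr' _ w.2))
        rw [map_mul, map_mul, Module.End.mul_apply, Module.End.mul_apply] at h5
        exact h5) (by
        intro r hr
        have hr' : (r : H) ∈ (⊥ : Subgroup H) := Subgroup.mem_subgroupOf.mp hr
        have hr1 : r = 1 := Subtype.ext (Subgroup.mem_bot.mp hr')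
        rw [hr1, map_one, one_mul, mul_one])
      refine ⟨s, fun w hw => ?_⟩
      have h3 := congrArg (fun f : Module.End F M => ((f ⟨w, hw⟩ : M) : U)) hs
      exact h3) (fun a ha b hb => hZC (hab a ha b hb)) (by
      intro t ht h
      refine ⟨ht, fun g hg => ?_⟩
      have h1 := h g hg v1 hv1
      have h3 := hab g hg t ht
      have h3' : σ (g * t * g⁻¹ * t⁻¹) v1 = (ζ ⟨_, h3⟩ : F) • v1 := (hMW hv1) ⟨_, h3⟩
      rw [h3'] at h1
      have h4 : (ζ ⟨g * t * g⁻¹ * t⁻¹, h3⟩ : F) = 1 := by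
        have h4 : ((ζ ⟨g * t * g⁻¹ * t⁻¹, h3⟩ : F) - 1) • v1 = 0 := by rw [sub_smul, h1, one_smul, sub_self]
        rcases smul_eq_zero.1 h4 with h5 | h5
        · exact sub_eq_zero.1 h5
        · exact absurd h5 hv1'
      have h5 : g * t * g⁻¹ * t⁻¹ ∈ kr Z ζ := mem_kr.2 ⟨h3, Units.ext (by rw [h4, Units.val_one])⟩
      have h6 : t * g * t⁻¹ * g⁻¹ = (g * t * g⁻¹ * t⁻¹)⁻¹ := by group
      rw [h6]
      exact inv_mem h5)
  have hfix1 : 1 ≤ finrank F (fix (cj (rs σ R ⊥ M hM.2.1)) (R.subgroupOf (R ⊔ ⊥))) := by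
    have hMnt : Nontrivial M := Submodule.nontrivial_iff_ne_bot.2 hM.1
    have h1 : (1 : Module.End F M) ∈ fix (cj (rs σ R ⊥ M hM.2.1)) (R.subgroupOf (R ⊔ ⊥)) := by
      rw [mem_fix_cj]; intro h _; rw [mul_one, one_mul]
    rw [Nat.one_le_iff_ne_zero]
    intro h0
    rw [Submodule.finrank_eq_zero.mp h0, Submodule.mem_bot] at h1
    exact one_ne_zero h1
  have hMd : finrank F M ≤ 4 := (Submodule.finrank_mono hMW).trans hdim
  have hidx : C.relIndex R ≤ 16 := by
    calc C.relIndex R = C.relIndex R * 1 := (mul_one _).symm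
      _ ≤ C.relIndex R * finrank F (fix (cj (rs σ R ⊥ M hM.2.1)) (R.subgroupOf (R ⊔ ⊥))) := Nat.mul_le_mul_left _ hfix1
      _ = finrank F M * finrank F M := hsq.symm
      _ ≤ 4 * 4 := Nat.mul_le_mul hMd hMd
      _ = 16 := by norm_num
  have hcop : (Nat.card T).Coprime (Nat.card R) := by
    obtain ⟨k, hk⟩ := IsPGroup.iff_card.mp hT
    obtain ⟨l, hl⟩ := IsPGroup.iff_card.mp hR
    rw [hk, hl]
    exact Nat.Coprime.pow _ _ ((Nat.coprime_primes hq.out Nat.prime_two).2 hq2)
  have hdvd := sq_dvd_relIndex R C T hCR hRC hTC hT hcop (fun a ha b hb => hZC (hab a ha b hb)) hRT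
  obtain ⟨k, hk⟩ : ∃ k, C.relIndex R = 2 ^ k := by
    haveI : (C.subgroupOf R).Normal := Subgroup.normal_subgroupOf_of_le_normalizer hRC
    obtain ⟨k, hk⟩ := hR.index (C.subgroupOf R)
    exact ⟨k, hk⟩
  have hcC : c ∉ C := by
    intro h
    have h3 := (mem_cmod.mp h).2 a ha
    obtain ⟨h4, h5⟩ := mem_kr.1 h3
    exact hζ h5
  have hk0 : k ≠ 0 := by
    rintro rfl
    rw [pow_zero] at hk
    exact hcC (Subgroup.relIndex_eq_one.mp hk hc)
  have hk4 : k ≤ 4 := by
    by_contra hcon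
    have h3 : 2 ^ 5 ≤ 2 ^ k := Nat.pow_le_pow_right (by norm_num) (by omega)
    omega
  have hq3 : 3 ≤ q := by
    have := hq.out.two_le
    omega
  have hq9 : 9 ≤ q ^ 2 := by
    calc 9 = 3 ^ 2 := by norm_num
      _ ≤ q ^ 2 := Nat.pow_le_pow_left hq3 2
  rw [hk] at hdvd
  have h15 : q ^ 2 ∣ 15 ∨ q ^ 2 ≤ 7 := by
    interval_cases k
    · exact absurd rfl hk0
    · right; exact (Nat.le_of_dvd (by norm_num) hdvd).trans (by norm_num)
    · right; exact (Nat.le_of_dvd (by norm_num) hdvd).trans (by norm_num)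
    · right; exact (Nat.le_of_dvd (by norm_num) hdvd).trans (by norm_num)
    · left; simpa using hdvd
  rcases h15 with h | h
  · have h3 : q ^ 2 ≤ 15 := Nat.le_of_dvd (by norm_num) h
    have h4 : q = 3 := by nlinarith
    rw [h4] at h
    norm_num at h
  · omega

end H1.Gr
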