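import Cfsg.Agent.Lib.H1.GrC
import Cfsg.Agent.Lib.H66.HomMod

/-!
The module `Hom(D / N, K)`; application of the lemmas A and B.
-/

set_option autoImplicit false

open Subgroup Module H1.Coprime2 H1.Coprime H1.StrLem
open scoped commutatorElement Pointwise

namespace H1.Gr

universe u

variable {Γ : Type u} [Group Γ] [Finite Γ]

theorem gen2 {q : ℕ} [hq : Fact q.Prime] (N E : Subgroup Γ) (h : N.relIndex E ∣ q ^ 2) :
    ∃ e₁ ∈ E, ∃ e₂ ∈ E, ∀ P : Subgroup Γ, N ⊓ E ≤ P → e₁ ∈ P → e₂ ∈ P → E ≤ P := by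
  classical
  set N₁ := N ⊓ E with hN₁
  have h0 : N₁.relIndex E = N.relIndex E := Subgroup.inf_relIndex_right N E
  by_cases h1 : E ≤ N₁
  · exact ⟨1, one_mem _, 1, one_mem _, fun P hP _ _ => h1.trans hP⟩
  obtain ⟨e₁, he₁, he₁'⟩ := SetLike.not_le_iff_exists.mp h1
  set H₁ := N₁ ⊔ zpowers e₁ with hH₁
  have hN₁E : N₁ ≤ E := inf_le_right
  have hH₁E : H₁ ≤ E := sup_le hN₁E (by rw [zpowers_le]; exact he₁)
  have hm1 := Subgroup.relIndex_mul_relIndex N₁ H₁ E le_sup_left hH₁E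
  by_cases h2 : E ≤ H₁
  · exact ⟨e₁, he₁, 1, one_mem _, fun P hP h3 _ => h2.trans (sup_le hP (by rw [zpowers_le]; exact h3))⟩
  obtain ⟨e₂, he₂, he₂'⟩ := SetLike.not_le_iff_exists.mp h2
  set H₂ := H₁ ⊔ zpowers e₂ with hH₂
  have hH₂E : H₂ ≤ E := sup_le hH₁E (by rw [zpowers_le]; exact he₂)
  have hm2 := Subgroup.relIndex_mul_relIndex H₁ H₂ E le_sup_left hH₂E
  refine ⟨e₁, he₁, e₂, he₂, fun P hP h3 h4 => ?_⟩
  have hH₂P : H₂ ≤ P := sup_le (sup_le hP (by rw [zpowers_le]; exact h3)) (by rw [zpowers_le]; exact h4)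
  refine le_trans ?_ hH₂P
  rw [← Subgroup.relIndex_eq_one]
  have hx1 : N₁.relIndex H₁ ≠ 1 := by
    intro h5
    exact he₁' ((Subgroup.relIndex_eq_one.mp h5) ((le_sup_right : zpowers e₁ ≤ H₁) (mem_zpowers e₁)))
  have hx2 : H₁.relIndex H₂ ≠ 1 := by
    intro h5
    exact he₂' ((Subgroup.relIndex_eq_one.mp h5) ((le_sup_right : zpowers e₂ ≤ H₂) (mem_zpowers e₂)))
  have hprod : N₁.relIndex H₁ * (H₁.relIndex H₂ * H₂.relIndex E) ∣ q ^ 2 := by
    rw [hm2, hm1, h0]; exact h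
  obtain ⟨i, hi, hi'⟩ := (Nat.dvd_prime_pow hq.out).mp ((Dvd.intro _ rfl).trans hprod)
  obtain ⟨j, hj, hj'⟩ := (Nat.dvd_prime_pow hq.out).mp (((Dvd.intro _ rfl).trans (Dvd.intro_left _ rfl)).trans hprod : H₁.relIndex H₂ ∣ q ^ 2)
  obtain ⟨k, hk, hk'⟩ := (Nat.dvd_prime_pow hq.out).mp (((Dvd.intro_left _ rfl).trans (Dvd.intro_left _ rfl)).trans hprod : H₂.relIndex E ∣ q ^ 2)
  rw [hi', hj', hk', ← pow_add, ← pow_add] at hprod
  have h5 := (Nat.pow_dvd_pow_iff_le_right hq.out.one_lt).mp hprod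
  have h6 : i ≠ 0 := by rintro rfl; exact hx1 (by rw [hi', pow_zero])
  have h7 : j ≠ 0 := by rintro rfl; exact hx2 (by rw [hj', pow_zero])
  have h8 : k = 0 := by omega
  rw [hk', h8, pow_zero]

theorem exists_module {q : ℕ} [hq : Fact q.Prime] (S D N : Subgroup Γ) (hDS : D ≤ S) (hND : N ≤ D)
    (hSD : S ≤ normalizer (D : Set Γ)) (hSN : S ≤ normalizer (N : Set Γ)) (hDq : IsPGroup q D) :
    ∃ (K : Type) (_ : Field K) (_ : IsAlgClosed K) (_ : CharP K q) (U : Type u) (_ : AddCommGroup U) (_ : Module K U)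
      (_ : FiniteDimensional K U) (τ : S →* Module.End K U),
      (∀ (B : Subgroup Γ) (hB : B ≤ S), (Nat.card B).Coprime q → (∀ (b : Γ) (hb : b ∈ B), τ ⟨b, hB hb⟩ = 1) →
        ∀ b ∈ B, ∀ d ∈ D, b * d * b⁻¹ * d⁻¹ ∈ N) ∧
      (∀ y : S, N.relIndex ⁅D, zpowers (y : Γ)⁆ ∣ q ^ 2 → finrank K (LinearMap.range (τ y - 1)) ≤ 2) := by
  classical
  let K := AlgebraicClosure (ZMod q)
  haveI hcharK : CharP K q := charP_of_injective_algebraMap (algebraMap (ZMod q) K).injective q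
  set N' := N.subgroupOf S with hN'
  haveI hNn : N'.Normal := Subgroup.normal_subgroupOf_of_le_normalizer hSN
  set π : S →* S ⧸ N' := QuotientGroup.mk' N' with hπ
  set D' := (D.subgroupOf S).map π with hD'
  haveI hDn : (D.subgroupOf S).Normal := Subgroup.normal_subgroupOf_of_le_normalizer hSD
  haveI hD'n : D'.Normal := hDn.map π (QuotientGroup.mk'_surjective N')
  have hD'q : IsPGroup q D' := (hDq.of_equiv (Subgroup.subgroupOfEquivOfLe hDS).symm).map π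
  have hmem : ∀ d (hd : d ∈ D), π ⟨d, hDS hd⟩ ∈ D' := fun d hd => ⟨⟨d, hDS hd⟩, hd, rfl⟩
  let τ : S →* Module.End K (H66.HomMod.V D' K) := (H66.HomMod.rep D' K : (S ⧸ N') →* Module.End K (H66.HomMod.V D' K)).comp π
  refine ⟨K, inferInstance, inferInstance, hcharK, H66.HomMod.V D' K, inferInstance, inferInstance, inferInstance, τ, ?_, ?_⟩
  · intro B hB hcop htriv b hb d hd
    have h1 := H66.HomMod.le_centralizer D' K hD'q ((B.subgroupOf S).map π)
      (Nat.Coprime.coprime_dvd_left ((Subgroup.card_map_dvd _ _).trans (by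
        rw [Nat.card_congr (Subgroup.subgroupOfEquivOfLe hB).toEquiv])) hcop) (by
      rintro _ ⟨⟨b, hbS⟩, hb, rfl⟩ f
      have h2 := htriv b hb
      have h3 : τ ⟨b, hbS⟩ f = (1 : Module.End K (H66.HomMod.V D' K)) f := by rw [← h2]
      exact h3)
    have h2 := mem_centralizer_iff.mp (h1 ⟨⟨b, hB hb⟩, hb, rfl⟩) _ (hmem d hd)
    have h3 : π (⟨b, hB hb⟩ * ⟨d, hDS hd⟩ * (⟨b, hB hb⟩)⁻¹ * (⟨d, hDS hd⟩)⁻¹) = 1 := by
      rw [map_mul, map_mul, map_mul, map_inv, map_inv, ← h2]; group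
    exact Subgroup.mem_subgroupOf.mp ((QuotientGroup.eq_one_iff _).mp h3)
  · intro y hy
    obtain ⟨e₁, he₁, e₂, he₂, hgen⟩ := gen2 N ⁅D, zpowers (y : Γ)⁆ hy
    have hyD : zpowers (y : Γ) ≤ normalizer (D : Set Γ) := by rw [zpowers_le]; exact hSD y.2
    have hED : ⁅D, zpowers (y : Γ)⁆ ≤ D := commutator_le_left hyD
    let ev : H66.HomMod.V D' K →ₗ[K] (Fin 2 → K) :=
      { toFun := fun f => ![f (Additive.ofMul ⟨_, hmem e₁ (hED he₁)⟩), f (Additive.ofMul ⟨_, hmem e₂ (hED he₂)⟩)]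
        map_add' := by
          intro f g
          ext i
          fin_cases i <;> rfl
        map_smul' := by
          intro c f
          ext i
          fin_cases i <;> rfl }
    have hker : LinearMap.ker ev ≤ LinearMap.ker (τ y - 1) := by
      intro f hf
      rw [LinearMap.mem_ker] at hf
      have hf1 : f (Additive.ofMul ⟨_, hmem e₁ (hED he₁)⟩) = 0 := congrFun hf 0
      have hf2 : f (Additive.ofMul ⟨_, hmem e₂ (hED he₂)⟩) = 0 := congrFun hf 1
      let fD : D →* Multiplicative K :=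
        { toFun := fun d => Multiplicative.ofAdd (f (Additive.ofMul ⟨_, hmem d d.2⟩))
          map_one' := by
            have h1 : (⟨_, hmem (1 : D) (1 : D).2⟩ : D') = 1 := Subtype.ext (map_one π)
            rw [h1, ofMul_one, map_zero]; rfl
          map_mul' := by
            intro a b
            have h1 : (⟨_, hmem (a * b : D) (a * b : D).2⟩ : D') = ⟨_, hmem a a.2⟩ * ⟨_, hmem b b.2⟩ := Subtype.ext (map_mul π ⟨a, hDS a.2⟩ ⟨b, hDS b.2⟩)
            rw [h1, ofMul_mul, map_add]; rfl }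
      have hfD : ∀ (d : Γ) (hd : d ∈ D), d ∈ fD.ker.map D.subtype → f (Additive.ofMul ⟨_, hmem d hd⟩) = 0 := by
        rintro d hd ⟨d', hd', rfl⟩
        exact hd'
      have hE := hgen (fD.ker.map D.subtype) (by
        rintro e ⟨heN, heE⟩
        refine ⟨⟨e, hED heE⟩, ?_, rfl⟩
        change Multiplicative.ofAdd (f (Additive.ofMul ⟨_, hmem e (hED heE)⟩)) = 1
        have h1 : (⟨_, hmem e (hED heE)⟩ : D') = 1 := by
          apply Subtype.ext
          exact (QuotientGroup.eq_one_iff _).mpr (Subgroup.mem_subgroupOf.mpr heN)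
        rw [h1, ofMul_one, map_zero]; rfl) ⟨⟨e₁, hED he₁⟩, hf1, rfl⟩ ⟨⟨e₂, hED he₂⟩, hf2, rfl⟩
      rw [LinearMap.mem_ker, LinearMap.sub_apply, Module.End.one_apply, sub_eq_zero]
      refine DFunLike.ext _ _ fun u => ?_
      obtain ⟨⟨_, ⟨⟨d, hdS⟩, hd, rfl⟩⟩, rfl⟩ : ∃ u' : D', Additive.ofMul u' = u := ⟨u.toMul, rfl⟩
      have hd' : d ∈ D := hd
      have hc : d⁻¹ * ((y : Γ)⁻¹ * d * y) ∈ ⁅D, zpowers (y : Γ)⁆ := by
        have h1 : d⁻¹ * ((y : Γ)⁻¹ * d * y) = ⁅d⁻¹, (y : Γ)⁻¹⁆ := by rw [commutatorElement_def]; group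
        rw [h1]
        exact commutator_mem_commutator (inv_mem hd') (inv_mem (mem_zpowers _))
      have h1 : τ y f (Additive.ofMul ⟨_, hmem d hd'⟩) = f (Additive.ofMul (H66.HomMod.cj D' (π y) ⟨_, hmem d hd'⟩)) := rfl
      have h2 : H66.HomMod.cj D' (π y) ⟨_, hmem d hd'⟩ = ⟨_, hmem d hd'⟩ * ⟨_, hmem _ (hED hc)⟩ := by
        apply Subtype.ext
        rw [H66.HomMod.cj_coe]
        change (π y)⁻¹ * π ⟨d, hDS hd'⟩ * π y = π ⟨d, hDS hd'⟩ * π ⟨_, hDS (hED hc)⟩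
        rw [← map_inv, ← map_mul, ← map_mul, ← map_mul]
        congr 1
        apply Subtype.ext
        change (y : Γ)⁻¹ * d * y = d * (d⁻¹ * ((y : Γ)⁻¹ * d * y))
        group
      change τ y f (Additive.ofMul ⟨_, hmem d hd'⟩) = f (Additive.ofMul ⟨_, hmem d hd'⟩)
      rw [h1, h2, ofMul_mul, map_add, hfD _ (hED hc) (hE hc), add_zero]
    have h1 := LinearMap.finrank_range_add_finrank_ker ev
    have h2 := LinearMap.finrank_range_add_finrank_ker (τ y - 1)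
    have h3 := Submodule.finrank_mono hker
    have h4 : finrank K (LinearMap.range ev) ≤ 2 := by
      refine (Submodule.finrank_le _).trans ?_
      rw [Module.finrank_fin_fun]
    omega

end H1.Gr
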