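import Cfsg.Agent.Lib.H1.GrD
import Cfsg.Agent.Lib.H1.Solv
import Cfsg.Agent.Lib.H3.Critical

/-!
Elements of order two which are `2 ^ n`-th powers, acting on the critical subgroups of the `q`-cores.
-/

set_option autoImplicit false

open Subgroup Module H1.Coprime2 H1.Coprime H1.StrLem H30.Wts Cfsg
open scoped commutatorElement Pointwise

namespace H1.Gr

universe u

section lvl1

variable {Γ : Type u} [Group Γ] [Finite Γ] {F : Type*} [Field F] [IsAlgClosed F] [CharP F 2] {V : Type*} [AddCommGroup V] [Module F V]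
  [FiniteDimensional F V]

/-- the setting: a faithful representation such that no `2`-element has a regular orbit -/
structure Hyp {Γ : Type u} [Group Γ] {F : Type*} [Field F] {V : Type*} [AddCommGroup V] [Module F V] (n : ℕ)
    (ρ : Γ →* Module.End F V) : Prop where
  faith : ∀ g, ρ g = 1 → g = 1
  exp : ∀ g : Γ, (∃ k, g ^ 2 ^ k = 1) → g ^ 2 ^ (n + 1) = 1
  sum : ∀ g : Γ, (∃ k, g ^ 2 ^ k = 1) → ∀ v, ∑ j ∈ Finset.range (2 ^ (n + 1)), ρ (g ^ j) v = 0

omit [IsAlgClosed F] in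
theorem natCast_ne {q : ℕ} [hq : Fact q.Prime] (hq2 : q ≠ 2) : (q : F) ≠ 0 := by
  intro h
  rw [CharP.cast_eq_zero_iff F 2 q] at h
  exact hq2 ((Nat.prime_dvd_prime_iff_eq Nat.prime_two hq.out).mp h).symm

theorem lvl1a {n : ℕ} {ρ : Γ →* Module.End F V} (h : Hyp n ρ) {q : ℕ} [hq : Fact q.Prime] (hq2 : q ≠ 2) (Z : Subgroup Γ)
    (hZn : Z.Normal) (hZq : IsPGroup q Z) (hZab : ∀ a ∈ Z, ∀ b ∈ Z, a * b = b * a) (g : Γ) (hg : ∃ k, g ^ 2 ^ k = 1) :
    g ^ 2 ^ n ∈ centralizer (Z : Set Γ) := by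
  haveI : Fact (Nat.Prime 2) := ⟨Nat.prime_two⟩
  by_contra hcon
  have hy1 : ¬ g ^ 2 ^ n = 1 := by
    intro h1
    rw [h1] at hcon
    exact hcon (one_mem _)
  have ho : orderOf g = 2 ^ (n + 1) := orderOf_eq_prime_pow hy1 (h.exp g hg)
  obtain ⟨a, ha, ha'⟩ : ∃ a ∈ Z, g ^ 2 ^ n * a * (g ^ 2 ^ n)⁻¹ * a⁻¹ ≠ 1 := by
    by_contra hcon'
    push Not at hcon'
    apply hcon
    rw [mem_centralizer_iff]
    intro b hb
    have := hcon' b hb
    rw [mul_inv_eq_one, mul_inv_eq_iff_eq_mul] at this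
    exact this.symm
  obtain ⟨v, hv⟩ := H1.ThmB.abelian_regular ρ (p := 2) ho Z (card_ne q (natCast_ne hq2) hZq) (mem_norm Z g) (by
    intro a ha b hb
    have : a * b * a⁻¹ * b⁻¹ = 1 := by rw [hZab a ha b hb]; group
    rw [this, map_one]) ⟨a, ha, fun h1 => ha' (h.faith _ h1)⟩
  exact hv (h.sum g hg v)

omit [Finite Γ] [IsAlgClosed F] [CharP F 2] in
theorem centralizer_le_St (Z : Subgroup Γ) (χ : Z →* Fˣ) : centralizer (Z : Set Γ) ≤ St Z χ := by
  intro g hg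
  refine ⟨Subgroup.centralizer_le_normalizer _ hg, MonoidHom.ext fun z => ?_⟩
  rw [cch_apply]
  congr 1
  apply Subtype.ext
  have h1 := mem_centralizer_iff.mp hg z z.2
  change g⁻¹ * z * g = z
  rw [mul_assoc, h1]; group

theorem lvl1b {n : ℕ} {ρ : Γ →* Module.End F V} (h : Hyp n ρ) {q : ℕ} [hq : Fact q.Prime] (hq2 : q ≠ 2) (D Z : Subgroup Γ)
    (hDn : D.Normal) (hZn : Z.Normal) (hDq : IsPGroup q D) (hZD : Z ≤ D) (hDZ : D ≤ centralizer (Z : Set Γ))
    (hab : ∀ a ∈ D, ∀ b ∈ D, a * b * a⁻¹ * b⁻¹ ∈ Z) (χ : Z →* Fˣ) (hwt : wt (ρ.comp Z.subtype) χ ≠ ⊥)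
    (g : Γ) (hg : ∃ k, g ^ 2 ^ k = 1) :
    (cmod D (kr Z χ) (le_normalizer_kr χ hDZ)).relIndex ⁅D, zpowers (g ^ 2 ^ n)⁆ ∣ q ^ 2 := by
  haveI : Fact (Nat.Prime 2) := ⟨Nat.prime_two⟩
  by_cases hy1 : g ^ 2 ^ n = 1
  · rw [hy1, Subgroup.zpowers_one_eq_bot, Subgroup.commutator_bot_right, Subgroup.relIndex_bot_right]
    exact one_dvd _
  have ho : orderOf g = 2 ^ (n + 1) := orderOf_eq_prime_pow hy1 (h.exp g hg)
  have hZc : ∀ a ∈ Z, ∀ b ∈ Z, a * b = b * a := fun a ha b hb => (mem_centralizer_iff.mp (hDZ (hZD ha)) b hb).symm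
  have hyZ := lvl1a h hq2 Z hZn (hDq.to_le hZD) hZc g hg
  rcases dichE ρ (p := 2) (q := q) (Ne.symm hq2) (natCast_ne hq2) ho D Z hDq (mem_norm D g) hZD (mem_norm Z g) hDZ hab χ hwt
    (centralizer_le_St Z χ hyZ) (h.sum g hg) with h1 | ⟨b, hb, ⟨m, hm, hbm⟩, h1⟩
  · rw [Subgroup.relIndex_eq_one.mpr h1]
    exact one_dvd _
  · rw [h1, hbm, mersenne hq.out hb hm hbm, pow_one]

end lvl1

section final

variable {Γ : Type u} [Group Γ] [Finite Γ] {F : Type*} [Field F] [IsAlgClosed F] [CharP F 2] {V : Type*} [AddCommGroup V] [Module F V]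
  [FiniteDimensional F V]

omit [FiniteDimensional F V] in
theorem final_one {ρ : Γ →* Module.End F V} (hs : Group.IsSolvable Γ) (hcore : pCore 2 Γ = ⊥) (hfaith : ∀ g, ρ g = 1 → g = 1)
    (B : Subgroup Γ) (hB : IsPGroup 2 B)
    (hall : ∀ (q : ℕ) [Fact q.Prime], q ≠ 2 → ∀ D Z : Subgroup Γ, D.Normal → Z.Normal → IsPGroup q D → Z ≤ D →
      ∀ hDZ : D ≤ centralizer (Z : Set Γ), (∀ a ∈ D, ∀ b ∈ D, a * b * a⁻¹ * b⁻¹ ∈ Z) →
      B ≤ centralizer (Z : Set Γ) ∧ ∀ χ : Z →* Fˣ, wt (ρ.comp Z.subtype) χ ≠ ⊥ →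
        ∀ b ∈ B, ∀ d ∈ D, b * d * b⁻¹ * d⁻¹ ∈ cmod D (kr Z χ) (le_normalizer_kr χ hDZ)) : B = ⊥ := by
  classical
  haveI h2p : Fact (Nat.Prime 2) := ⟨Nat.prime_two⟩
  have hBs : Group.IsSolvable B := by have := hB.isNilpotent; infer_instance
  have key : ∀ q : Nat.Primes, pCore (q : ℕ) Γ ≤ centralizer (B : Set Γ) := by
    intro q
    haveI := Fact.mk q.2
    by_cases hq2 : (q : ℕ) = 2
    · rw [hq2, hcore]; exact bot_le
    set O := pCore (q : ℕ) Γ with hO
    have hOq : IsPGroup (q : ℕ) O := H1.Cores.isPGroup_pCore (q : ℕ)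
    have hOn : O.Normal := inferInstance
    obtain ⟨H, hHc, -, hHcomm, hHcent⟩ := H3.Critical.exists_critical hOq
    set D := H.map O.subtype with hD
    have hDn : D.Normal := by
      haveI := hHc
      exact ConjAct.normal_of_characteristic_of_normal
    have hDO : D ≤ O := Subgroup.map_subtype_le _
    have htop : ∀ (A : Subgroup Γ), A.Normal → (⊤ : Subgroup Γ) ≤ normalizer (A : Set Γ) := by
      intro A hA g _
      exact mem_norm A g
    set Z := D ⊓ centralizer (D : Set Γ) with hZ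
    have hZn : Z.Normal := by
      rw [← Subgroup.normalizer_eq_top_iff, eq_top_iff]
      exact le_normalizer_inf (htop D hDn) (le_normalizer_centralizer (htop D hDn))
    have hZD : Z ≤ D := inf_le_left
    have hDZ : D ≤ centralizer (Z : Set Γ) := by
      rw [Subgroup.le_centralizer_iff]; exact inf_le_right
    have hDq : IsPGroup (q : ℕ) D := hOq.to_le hDO
    have hab : ∀ a ∈ D, ∀ b ∈ D, a * b * a⁻¹ * b⁻¹ ∈ Z := by
      rintro _ ⟨a, ha, rfl⟩ _ ⟨b, hb, rfl⟩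
      obtain ⟨h1, h2⟩ := hHcomm a ha b
      refine Subgroup.mem_inf.mpr ⟨⟨_, h1, rfl⟩, mem_centralizer_iff.mpr ?_⟩
      rintro _ ⟨e, he, rfl⟩
      exact congrArg Subtype.val (mem_centralizer_iff.mp h2 e he)
    obtain ⟨hBZ, hχ⟩ := hall (q : ℕ) hq2 D Z hDn hZn hDq hZD hDZ hab
    have hqF : ((q : ℕ) : F) ≠ 0 := natCast_ne hq2
    have hZF : (Nat.card Z : F) ≠ 0 := card_ne (q : ℕ) hqF (hDq.to_le hZD)
    have hZc : ∀ a ∈ Z, ∀ b ∈ Z, a * b = b * a := fun a ha b hb => (mem_centralizer_iff.mp (hDZ (hZD ha)) b hb).symm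
    have hBD : B ≤ normalizer (D : Set Γ) := fun g _ => mem_norm D g
    have hBO : B ≤ normalizer (O : Set Γ) := fun g _ => mem_norm O g
    have h1 : ⁅D, B⁆ ≤ Z := by
      rw [Subgroup.commutator_le]
      intro d hd b hb
      have hu : b * d * b⁻¹ * d⁻¹ ∈ Z := by
        have huD : b * d * b⁻¹ * d⁻¹ ∈ D := mul_mem (hDn.conj_mem d hd b) (inv_mem hd)
        refine Subgroup.mem_inf.mpr ⟨huD, mem_centralizer_iff.mpr ?_⟩
        intro e he
        set w := b * d * b⁻¹ * d⁻¹ * e * (b * d * b⁻¹ * d⁻¹)⁻¹ * e⁻¹ with hw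
        have hwZ : w ∈ Z := hab _ huD e he
        by_contra hne
        have hw1 : w ≠ 1 := by
          intro h3
          apply hne
          rw [hw, mul_inv_eq_one, mul_inv_eq_iff_eq_mul] at h3
          exact h3.symm
        obtain ⟨χ, hχ1, v, hv, hv0⟩ := exists_weight hZF (ρ.comp Z.subtype) (comm_triv hZc) (a := ⟨w, hwZ⟩)
          (fun h3 => hw1 (hfaith _ h3))
        have h4 := hχ χ (fun h3 => hv0 ((Submodule.mem_bot F).1 (h3 ▸ hv))) b hb d hd
        have h5 := (mem_cmod.mp h4).2 e he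
        obtain ⟨h6, h7⟩ := mem_kr.1 h5
        exact hχ1 h7
      have h3 : ⁅d, b⁆ = (b * d * b⁻¹ * d⁻¹)⁻¹ := by rw [commutatorElement_def]; group
      rw [h3]; exact inv_mem hu
    have hcopO : (Nat.card B).Coprime (Nat.card O) := by
      obtain ⟨k, hk⟩ := IsPGroup.iff_card.mp hB
      obtain ⟨l, hl⟩ := IsPGroup.iff_card.mp hOq
      rw [hk, hl]
      exact Nat.Coprime.pow _ _ ((Nat.coprime_primes Nat.prime_two q.2).2 (Ne.symm hq2))
    have hcopD : (Nat.card B).Coprime (Nat.card D) := Nat.Coprime.coprime_dvd_right (Subgroup.card_dvd_of_le hDO) hcopO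
    have h2 : ⁅Z, B⁆ = ⊥ := by
      rw [Subgroup.commutator_comm]
      exact Subgroup.commutator_eq_bot_iff_le_centralizer.mpr hBZ
    have hBcD : B ≤ centralizer (D : Set Γ) := le_centralizer_of_series B D Z hBD hcopD (Or.inl hBs) h1 h2
    have h3 : ⁅⁅B, D⁆, O⁆ = ⊥ := by
      rw [Subgroup.commutator_eq_bot_iff_le_centralizer.mpr hBcD, Subgroup.commutator_bot_left]
    have h4 : ⁅⁅D, O⁆, B⁆ = ⊥ := by
      rw [Subgroup.commutator_comm]
      apply Subgroup.commutator_eq_bot_iff_le_centralizer.mpr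
      refine hBcD.trans (Subgroup.centralizer_le ?_)
      exact commutator_le_left (fun g _ => mem_norm D g)
    have h5 := Subgroup.commutator_commutator_eq_bot_of_rotate h3 h4
    have h6 : ⁅O, B⁆ ≤ D := by
      intro g hg
      have hgO : g ∈ O := commutator_le_left hBO hg
      have hgc : g ∈ centralizer (D : Set Γ) := Subgroup.commutator_eq_bot_iff_le_centralizer.mp h5 hg
      refine ⟨⟨g, hgO⟩, hHcent ?_, rfl⟩
      rw [mem_centralizer_iff]
      intro e he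
      exact Subtype.ext (mem_centralizer_iff.mp hgc e ⟨e, he, rfl⟩)
    have h7 : ⁅D, B⁆ = ⊥ := by
      rw [Subgroup.commutator_comm]
      exact Subgroup.commutator_eq_bot_iff_le_centralizer.mpr hBcD
    have h8 := le_centralizer_of_series B O D hBO hcopO (Or.inl hBs) h6 h7
    rw [Subgroup.le_centralizer_iff]
    exact h8
  have h1 : fittingSubgroup Γ ≤ centralizer (B : Set Γ) := by
    rw [H1.Cores.fittingSubgroup_eq_iSup_pCore]
    exact iSup_le key
  have h2 : B ≤ fittingSubgroup Γ := by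
    refine le_trans ?_ (H1.Solv.centralizer_fitting_le hs)
    rw [Subgroup.le_centralizer_iff]; exact h1
  have h3 : (Nat.card (fittingSubgroup Γ)).Coprime 2 := by
    rw [H1.Cores.fittingSubgroup_eq_iSup_pCore]
    apply H1.Cores.coprime_card_iSup 2 _ (fun _ => inferInstance)
    intro q
    haveI := Fact.mk q.2
    by_cases hq2 : (q : ℕ) = 2
    · rw [hq2, hcore, Subgroup.card_bot]; exact Nat.coprime_one_left 2
    · obtain ⟨l, hl⟩ := IsPGroup.iff_card.mp (H1.Cores.isPGroup_pCore (G := Γ) (q : ℕ))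
      rw [hl]
      exact Nat.Coprime.pow_left _ ((Nat.coprime_primes q.2 Nat.prime_two).2 hq2)
  have h4 := H1.Cores.disjoint_of_isPGroup hB h3
  rw [eq_bot_iff, ← h4]
  exact le_inf le_rfl h2

end final

end H1.Gr
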