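import Cfsg.Agent.Lib.H1.GrE

/-!
A minimal configuration at the second level acts trivially on the first level.
-/

set_option autoImplicit false

open Subgroup Module H1.Coprime2 H1.Coprime H1.StrLem H30.Wts Cfsg
open scoped commutatorElement Pointwise

namespace H1.Gr

universe u

section conv

variable {Γ : Type u} [Group Γ]

theorem subgroupOf_comm {H A B : Subgroup Γ} (hA : A ≤ H) (hB : B ≤ H) :
    ⁅A.subgroupOf H, B.subgroupOf H⁆ = (⁅A, B⁆).subgroupOf H := by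
  apply Subgroup.map_injective H.subtype_injective
  have hAB : ⁅A, B⁆ ≤ H := (Subgroup.commutator_mono hA hB).trans (Subgroup.commutator_le_self H)
  rw [Subgroup.map_commutator, Subgroup.map_subgroupOf_eq_of_le hA, Subgroup.map_subgroupOf_eq_of_le hB,
    Subgroup.map_subgroupOf_eq_of_le hAB]

theorem subgroupOf_zp {H : Subgroup Γ} {y : Γ} (hy : y ∈ H) : (zpowers y).subgroupOf H = zpowers (⟨y, hy⟩ : H) := by
  apply Subgroup.map_injective H.subtype_injective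
  rw [Subgroup.map_subgroupOf_eq_of_le (by rw [zpowers_le]; exact hy), MonoidHom.map_zpowers]
  rfl

theorem mem_normalizer_subgroupOf {H A : Subgroup Γ} {g : Γ} (hg : g ∈ H) (h : g ∈ normalizer (A : Set Γ)) :
    (⟨g, hg⟩ : H) ∈ normalizer ((A.subgroupOf H : Subgroup H) : Set H) := by
  rw [Subgroup.mem_normalizer_iff]
  intro a
  rw [Subgroup.mem_subgroupOf, Subgroup.mem_subgroupOf]
  exact Subgroup.mem_normalizer_iff.mp h a

end conv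

/-- the configuration of the second level -/
structure Conf {Γ : Type u} [Group Γ] (n r : ℕ) (R T : Subgroup Γ) (x : Γ) : Prop where
  hR : IsPGroup 2 R
  hT : IsPGroup r T
  hTR : T ≤ normalizer (R : Set Γ)
  hxR : x ∈ normalizer (R : Set Γ)
  hxT : x ∈ normalizer (T : Set Γ)
  hTy : ⁅T, zpowers (x ^ 2 ^ n)⁆ = T
  hRT : ⁅R, ⁅T, T⁆⁆ = R
  h2 : ∀ s ∈ R, ∃ k, (s * x⁻¹) ^ 2 ^ k = 1
  min : ∀ K ≤ R, x ∈ normalizer (K : Set Γ) → T ≤ normalizer (K : Set Γ) → K ≠ R → T ≤ centralizer (K : Set Γ)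

section step

variable {Γ : Type u} [Group Γ] [Finite Γ] {F : Type*} [Field F] [IsAlgClosed F] [CharP F 2] {V : Type*} [AddCommGroup V] [Module F V]
  [FiniteDimensional F V]

omit [Finite Γ] in
theorem Conf.x2 {n r : ℕ} {R T : Subgroup Γ} {x : Γ} (c : Conf n r R T x) : ∃ k, x ^ 2 ^ k = 1 := by
  obtain ⟨k, hk⟩ := c.h2 1 (one_mem _)
  refine ⟨k, ?_⟩
  rw [one_mul, inv_pow, inv_eq_one] at hk
  exact hk

omit [Finite Γ] [IsAlgClosed F] [CharP F 2] [FiniteDimensional F V] in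
theorem Conf.yy {n r : ℕ} {R T : Subgroup Γ} {x : Γ} (c : Conf n r R T x) {ρ : Γ →* Module.End F V} (h : Hyp n ρ) :
    x ^ 2 ^ n * x ^ 2 ^ n = 1 := by
  rw [← pow_add, ← two_mul, ← pow_succ']
  exact h.exp x c.x2

/-- the groups of the configuration centralise the centres -/
theorem Conf.cent {n r : ℕ} {R T : Subgroup Γ} {x : Γ} (c : Conf n r R T x) {ρ : Γ →* Module.End F V} (h : Hyp n ρ)
    {q : ℕ} [hq : Fact q.Prime] (hq2 : q ≠ 2) (Z : Subgroup Γ)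
    (hZn : Z.Normal) (hZq : IsPGroup q Z) (hZab : ∀ a ∈ Z, ∀ b ∈ Z, a * b = b * a) :
    x ^ 2 ^ n ∈ centralizer (Z : Set Γ) ∧ T ≤ centralizer (Z : Set Γ) ∧ R ≤ centralizer (Z : Set Γ) := by
  have hCn : (centralizer (Z : Set Γ)).Normal := by
    rw [← Subgroup.normalizer_eq_top_iff, eq_top_iff]
    exact le_normalizer_centralizer (fun g _ => mem_norm Z g)
  have h1 := lvl1a h hq2 Z hZn hZq hZab x c.x2
  have h2 : T ≤ centralizer (Z : Set Γ) := by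
    have h3 : ⁅T, zpowers (x ^ 2 ^ n)⁆ ≤ centralizer (Z : Set Γ) := by
      rw [Subgroup.commutator_le]
      intro t _ g hg
      have hg' : g ∈ centralizer (Z : Set Γ) := (Subgroup.zpowers_le.mpr h1) hg
      have h4 : ⁅t, g⁆ = (t * g * t⁻¹) * g⁻¹ := by rw [commutatorElement_def]
      rw [h4]
      exact mul_mem (hCn.conj_mem g hg' t) (inv_mem hg')
    rwa [c.hTy] at h3
  refine ⟨h1, h2, ?_⟩
  have h3 : ⁅R, ⁅T, T⁆⁆ ≤ centralizer (Z : Set Γ) := by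
    rw [Subgroup.commutator_le]
    intro t _ g hg
    have hg' : g ∈ centralizer (Z : Set Γ) := h2 (Subgroup.commutator_le_self T hg)
    have h4 : ⁅t, g⁆ = (t * g * t⁻¹) * g⁻¹ := by rw [commutatorElement_def]
    rw [h4]
    exact mul_mem (hCn.conj_mem g hg' t) (inv_mem hg')
  rwa [c.hRT] at h3

/-- abelian case at a weight -/
theorem stepA {n r : ℕ} [hr : Fact r.Prime] (hr2 : r ≠ 2) {R T : Subgroup Γ} {x : Γ} (c : Conf n r R T x)
    {ρ : Γ →* Module.End F V} (h : Hyp n ρ) (hRab : ∀ a ∈ R, ∀ b ∈ R, a * b = b * a)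
    {q : ℕ} [hq : Fact q.Prime] (hq2 : q ≠ 2) (D Z : Subgroup Γ)
    (hDn : D.Normal) (hZn : Z.Normal) (hDq : IsPGroup q D) (hZD : Z ≤ D) (hDZ : D ≤ centralizer (Z : Set Γ))
    (hab : ∀ a ∈ D, ∀ b ∈ D, a * b * a⁻¹ * b⁻¹ ∈ Z) (χ : Z →* Fˣ) (hwt : wt (ρ.comp Z.subtype) χ ≠ ⊥) :
    ∀ b ∈ R, ∀ d ∈ D, b * d * b⁻¹ * d⁻¹ ∈ cmod D (kr Z χ) (le_normalizer_kr χ hDZ) := by
  classical
  haveI : Fact (Nat.Prime 2) := ⟨Nat.prime_two⟩
  have hZc : ∀ a ∈ Z, ∀ b ∈ Z, a * b = b * a := fun a ha b hb => (mem_centralizer_iff.mp (hDZ (hZD ha)) b hb).symm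
  obtain ⟨hyZ, hTZ, hRZ⟩ := c.cent h hq2 Z hZn (hDq.to_le hZD) hZc
  set y := x ^ 2 ^ n with hy
  set N := cmod D (kr Z χ) (le_normalizer_kr χ hDZ) with hN
  set S := St Z χ with hS
  have hcS : centralizer (Z : Set Γ) ≤ S := centralizer_le_St Z χ
  have hSN : S ≤ normalizer (N : Set Γ) := fun g hg =>
    le_normalizer_cmod D _ _ g (mem_norm D g) (St_le_normalizer_kr Z χ hg)
  obtain ⟨K, iF, iA, iC, U, iU, iM, iD, τ, hτ1, hτ2⟩ := exists_module (q := q) S D N (hDZ.trans hcS) (cmod_le _ _ _)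
    (fun g _ => mem_norm D g) hSN hDq
  have h2K : ((2 : ℕ) : K) ≠ 0 := by
    intro h0
    rw [CharP.cast_eq_zero_iff K q 2] at h0
    exact hq2 ((Nat.prime_dvd_prime_iff_eq hq.out Nat.prime_two).mp h0)
  set H := S ⊓ normalizer (R : Set Γ) with hH
  have hHS : H ≤ S := inf_le_left
  have hRH : R ≤ H := le_inf (hRZ.trans hcS) Subgroup.le_normalizer
  have hTH : T ≤ H := le_inf (hTZ.trans hcS) c.hTR
  have hyH : y ∈ H := Subgroup.mem_inf.mpr ⟨hcS hyZ, pow_mem c.hxR _⟩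
  let σ : H →* Module.End K U := τ.comp (Subgroup.inclusion hHS)
  haveI hRn : (R.subgroupOf H).Normal := Subgroup.normal_subgroupOf_of_le_normalizer inf_le_right
  have hR' : IsPGroup 2 (R.subgroupOf H) := c.hR.of_equiv (Subgroup.subgroupOfEquivOfLe hRH).symm
  have hT' : IsPGroup r (T.subgroupOf H) := c.hT.of_equiv (Subgroup.subgroupOfEquivOfLe hTH).symm
  have hyT : y ∈ normalizer (T : Set Γ) := pow_mem c.hxT _
  have hTT : ⁅T, T⁆ ≤ H := (Subgroup.commutator_le_self T).trans hTH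
  have h1 := lemA σ (R.subgroupOf H) (T.subgroupOf H) (card_ne 2 h2K hR')
    (fun a ha b hb => Subtype.ext (hRab a ha b hb)) ⟨y, hyH⟩ hr2 hT' (mem_normalizer_subgroupOf hyH hyT)
    (Subtype.ext (c.yy h)) (by rw [← subgroupOf_zp, subgroupOf_comm hTH (by rw [zpowers_le]; exact hyH), c.hTy])
    (by rw [subgroupOf_comm hTH hTH, subgroupOf_comm hRH hTT, c.hRT])
    (hτ2 ⟨y, hHS hyH⟩ (lvl1b h hq2 D Z hDn hZn hDq hZD hDZ hab χ hwt x c.x2))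
  refine hτ1 R (hRH.trans hHS) ?_ (fun b hb => h1 ⟨b, hRH hb⟩ (Subgroup.mem_subgroupOf.mpr hb))
  obtain ⟨l, hl⟩ := IsPGroup.iff_card.mp c.hR
  rw [hl]
  exact Nat.Coprime.pow_left _ ((Nat.coprime_primes Nat.prime_two hq.out).2 (Ne.symm hq2))

/-- nonabelian case at a weight -/
theorem stepB {n r : ℕ} [hr : Fact r.Prime] (hr2 : r ≠ 2) {R T : Subgroup Γ} {x : Γ} (c : Conf n r R T x)
    {ρ : Γ →* Module.End F V} (h : Hyp n ρ) (Z₀ : Subgroup Γ) (hZ₀R : Z₀ ≤ R) (hRZ₀ : R ≤ centralizer (Z₀ : Set Γ))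
    (hNZ₀ : normalizer (R : Set Γ) ≤ normalizer (Z₀ : Set Γ)) (hTZ₀ : T ≤ centralizer (Z₀ : Set Γ))
    (hRab : ∀ a ∈ R, ∀ b ∈ R, a * b * a⁻¹ * b⁻¹ ∈ Z₀) (e s : Γ) (he : e ∈ R) (hs : s ∈ R)
    (hey : e * x ^ 2 ^ n * e⁻¹ * (x ^ 2 ^ n)⁻¹ ∈ Z₀)
    {q : ℕ} [hq : Fact q.Prime] (hq2 : q ≠ 2) (D Z : Subgroup Γ)
    (hDn : D.Normal) (hZn : Z.Normal) (hDq : IsPGroup q D) (hZD : Z ≤ D) (hDZ : D ≤ centralizer (Z : Set Γ))
    (hab : ∀ a ∈ D, ∀ b ∈ D, a * b * a⁻¹ * b⁻¹ ∈ Z) (χ : Z →* Fˣ) (hwt : wt (ρ.comp Z.subtype) χ ≠ ⊥) :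
    ∀ b ∈ zpowers (e * ((s * x⁻¹) ^ 2 ^ n * x ^ 2 ^ n) * e⁻¹ * ((s * x⁻¹) ^ 2 ^ n * x ^ 2 ^ n)⁻¹), ∀ d ∈ D,
      b * d * b⁻¹ * d⁻¹ ∈ cmod D (kr Z χ) (le_normalizer_kr χ hDZ) := by
  classical
  haveI : Fact (Nat.Prime 2) := ⟨Nat.prime_two⟩
  have hZc : ∀ a ∈ Z, ∀ b ∈ Z, a * b = b * a := fun a ha b hb => (mem_centralizer_iff.mp (hDZ (hZD ha)) b hb).symm
  obtain ⟨hyZ, hTZ, hRZ⟩ := c.cent h hq2 Z hZn (hDq.to_le hZD) hZc
  set y := x ^ 2 ^ n with hy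
  set g := s * x⁻¹ with hg
  set a := g ^ 2 ^ n * y with ha
  have hyy : y * y = 1 := c.yy h
  have hg2 : ∃ k, g ^ 2 ^ k = 1 := c.h2 s hs
  have hay : a * y = g ^ 2 ^ n := by rw [ha, mul_assoc, hyy, mul_one]
  have hgg : g ^ 2 ^ n * g ^ 2 ^ n = 1 := by
    rw [← pow_add, ← two_mul, ← pow_succ']
    exact h.exp g hg2
  have haR : a ∈ R := by
    have h1 : ∀ m : ℕ, (s * x⁻¹) ^ m * x ^ m ∈ R := by
      intro m
      induction m with
      | zero => simp [one_mem]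
      | succ m ih =>
        have h2 : (s * x⁻¹) ^ (m + 1) * x ^ (m + 1) = ((s * x⁻¹) ^ m * x ^ m) * ((x ^ m)⁻¹ * s * x ^ m) := by
          rw [pow_succ, pow_succ' x]; group
        rw [h2]
        exact mul_mem ih (conj_mem (pow_mem c.hxR m) hs)
    exact h1 _
  set N := cmod D (kr Z χ) (le_normalizer_kr χ hDZ) with hN
  set S := St Z χ with hS
  have hcS : centralizer (Z : Set Γ) ≤ S := centralizer_le_St Z χ
  have hSN : S ≤ normalizer (N : Set Γ) := fun g hg =>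
    le_normalizer_cmod D _ _ g (mem_norm D g) (St_le_normalizer_kr Z χ hg)
  obtain ⟨K, iF, iA, iC, U, iU, iM, iD, τ, hτ1, hτ2⟩ := exists_module (q := q) S D N (hDZ.trans hcS) (cmod_le _ _ _)
    (fun g _ => mem_norm D g) hSN hDq
  have h2K : ((2 : ℕ) : K) ≠ 0 := by
    intro h0
    rw [CharP.cast_eq_zero_iff K q 2] at h0
    exact hq2 ((Nat.prime_dvd_prime_iff_eq hq.out Nat.prime_two).mp h0)
  set H := S ⊓ normalizer (R : Set Γ) with hH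
  have hHS : H ≤ S := inf_le_left
  have hRH : R ≤ H := le_inf (hRZ.trans hcS) Subgroup.le_normalizer
  have hTH : T ≤ H := le_inf (hTZ.trans hcS) c.hTR
  have hyH : y ∈ H := Subgroup.mem_inf.mpr ⟨hcS hyZ, pow_mem c.hxR _⟩
  let σ : H →* Module.End K U := τ.comp (Subgroup.inclusion hHS)
  haveI hRn : (R.subgroupOf H).Normal := Subgroup.normal_subgroupOf_of_le_normalizer inf_le_right
  haveI hZ₀n : (Z₀.subgroupOf H).Normal := Subgroup.normal_subgroupOf_of_le_normalizer (inf_le_right.trans hNZ₀)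
  have hR' : IsPGroup 2 (R.subgroupOf H) := c.hR.of_equiv (Subgroup.subgroupOfEquivOfLe hRH).symm
  have hT' : IsPGroup r (T.subgroupOf H) := c.hT.of_equiv (Subgroup.subgroupOfEquivOfLe hTH).symm
  have hTT : ⁅T, T⁆ ≤ H := (Subgroup.commutator_le_self T).trans hTH
  have haH : a ∈ H := hRH haR
  have heH : e ∈ H := hRH he
  have hce : ∀ {A : Subgroup Γ}, A ≤ centralizer (Z₀ : Set Γ) → A.subgroupOf H ≤ centralizer ((Z₀.subgroupOf H : Subgroup H) : Set H) := by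
    intro A hA u hu
    rw [mem_centralizer_iff]
    intro z hz
    exact Subtype.ext (mem_centralizer_iff.mp (hA hu) z hz)
  have h1 := lemB (q := r) (by exact_mod_cast h2K) σ (R.subgroupOf H) (Z₀.subgroupOf H) (T.subgroupOf H) hR'
    (Subgroup.comap_mono hZ₀R) (hce hRZ₀) (fun a ha b hb => hRab a ha b hb) (hce hTZ₀) hr2 hT'
    (by rw [subgroupOf_comm hTH hTH, subgroupOf_comm hRH hTT, c.hRT])
    ⟨y, hyH⟩ ⟨e, heH⟩ ⟨a, haH⟩ (Subtype.ext hyy) he haR hey (Subtype.ext (by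
      change a * y * (a * y) = 1
      rw [hay, hgg]))
    (hτ2 ⟨y, hHS hyH⟩ (lvl1b h hq2 D Z hDn hZn hDq hZD hDZ hab χ hwt x c.x2))
    (hτ2 ⟨a * y, hHS (mul_mem haH hyH)⟩ (by
      have h3 := lvl1b h hq2 D Z hDn hZn hDq hZD hDZ hab χ hwt g hg2
      rw [← hay] at h3
      exact h3))
  set z := e * a * e⁻¹ * a⁻¹ with hz
  have hzR : z ∈ R := hZ₀R (hRab e he a haR)
  have hzH : z ∈ H := hRH hzR
  have hσz : τ ⟨z, hHS hzH⟩ = 1 := h1
  refine hτ1 (zpowers z) (by rw [zpowers_le]; exact hHS hzH) ?_ ?_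
  · obtain ⟨l, hl⟩ := IsPGroup.iff_card.mp (c.hR.to_le (show zpowers z ≤ R by rw [zpowers_le]; exact hzR))
    rw [hl]
    exact Nat.Coprime.pow_left _ ((Nat.coprime_primes Nat.prime_two hq.out).2 (Ne.symm hq2))
  · rintro _ ⟨k, rfl⟩
    have h3 : (⟨z ^ k, (show zpowers z ≤ S by rw [zpowers_le]; exact hHS hzH) ⟨k, rfl⟩⟩ : S) = ⟨z, hHS hzH⟩ ^ k := Subtype.ext rfl
    change τ (⟨z ^ k, (show zpowers z ≤ S by rw [zpowers_le]; exact hHS hzH) ⟨k, rfl⟩⟩ : S) = 1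
    rw [h3]
    have h4 : (⟨z, hHS hzH⟩ : S) ∈ τ.ker := hσz
    exact zpow_mem h4 k

/-- the configuration is not abelian -/
theorem caseA (hs : Group.IsSolvable Γ) (hcore : pCore 2 Γ = ⊥) {n r : ℕ} [hr : Fact r.Prime] (hr2 : r ≠ 2)
    {R T : Subgroup Γ} {x : Γ} (c : Conf n r R T x)
    {ρ : Γ →* Module.End F V} (h : Hyp n ρ) (hRab : ∀ a ∈ R, ∀ b ∈ R, a * b = b * a) : R = ⊥ := by
  refine final_one hs hcore h.faith R c.hR ?_
  intro q hq hq2 D Z hDn hZn hDq hZD hDZ hab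
  have hZc : ∀ a ∈ Z, ∀ b ∈ Z, a * b = b * a := fun a ha b hb => (mem_centralizer_iff.mp (hDZ (hZD ha)) b hb).symm
  refine ⟨(c.cent h hq2 Z hZn (hDq.to_le hZD) hZc).2.2, fun χ hwt => ?_⟩
  exact stepA hr2 c h hRab hq2 D Z hDn hZn hDq hZD hDZ hab χ hwt

theorem caseB (hs : Group.IsSolvable Γ) (hcore : pCore 2 Γ = ⊥) {n r : ℕ} [hr : Fact r.Prime] (hr2 : r ≠ 2)
    {R T : Subgroup Γ} {x : Γ} (c : Conf n r R T x)
    {ρ : Γ →* Module.End F V} (h : Hyp n ρ) (Z₀ : Subgroup Γ) (hZ₀R : Z₀ ≤ R) (hRZ₀ : R ≤ centralizer (Z₀ : Set Γ))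
    (hNZ₀ : normalizer (R : Set Γ) ≤ normalizer (Z₀ : Set Γ)) (hTZ₀ : T ≤ centralizer (Z₀ : Set Γ))
    (hRab : ∀ a ∈ R, ∀ b ∈ R, a * b * a⁻¹ * b⁻¹ ∈ Z₀) (e s : Γ) (he : e ∈ R) (hs' : s ∈ R)
    (hey : e * x ^ 2 ^ n * e⁻¹ * (x ^ 2 ^ n)⁻¹ ∈ Z₀) :
    e * ((s * x⁻¹) ^ 2 ^ n * x ^ 2 ^ n) * e⁻¹ * ((s * x⁻¹) ^ 2 ^ n * x ^ 2 ^ n)⁻¹ = 1 := by
  set z := e * ((s * x⁻¹) ^ 2 ^ n * x ^ 2 ^ n) * e⁻¹ * ((s * x⁻¹) ^ 2 ^ n * x ^ 2 ^ n)⁻¹ with hz
  have haR : (s * x⁻¹) ^ 2 ^ n * x ^ 2 ^ n ∈ R := by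
    have h1 : ∀ m : ℕ, (s * x⁻¹) ^ m * x ^ m ∈ R := by
      intro m
      induction m with
      | zero => simp [one_mem]
      | succ m ih =>
        have h2 : (s * x⁻¹) ^ (m + 1) * x ^ (m + 1) = ((s * x⁻¹) ^ m * x ^ m) * ((x ^ m)⁻¹ * s * x ^ m) := by
          rw [pow_succ, pow_succ' x]; group
        rw [h2]
        exact mul_mem ih (conj_mem (pow_mem c.hxR m) hs')
    exact h1 _
  have hzR : zpowers z ≤ R := by
    rw [zpowers_le]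
    exact hZ₀R (hRab e he _ haR)
  have h1 : zpowers z = ⊥ := by
    refine final_one hs hcore h.faith (zpowers z) (c.hR.to_le hzR) ?_
    intro q hq hq2 D Z hDn hZn hDq hZD hDZ hab
    have hZc : ∀ a ∈ Z, ∀ b ∈ Z, a * b = b * a := fun a ha b hb => (mem_centralizer_iff.mp (hDZ (hZD ha)) b hb).symm
    refine ⟨hzR.trans (c.cent h hq2 Z hZn (hDq.to_le hZD) hZc).2.2, fun χ hwt => ?_⟩
    exact stepB hr2 c h Z₀ hZ₀R hRZ₀ hNZ₀ hTZ₀ hRab e s he hs' hey hq2 D Z hDn hZn hDq hZD hDZ hab χ hwt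
  exact Subgroup.zpowers_eq_bot.mp h1

end step

end H1.Gr
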