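import Cfsg.Agent.Lib.H1.GrF
import Cfsg.Agent.Lib.H13.Cores

/-!
The configuration does not exist.
-/

set_option autoImplicit false

open Subgroup Module H1.Coprime2 H1.Coprime H1.StrLem H30.Wts Cfsg
open scoped commutatorElement Pointwise

namespace H1.Gr

universe u

section lin

variable {F : Type*} [Field F] [CharP F 2] {V : Type*} [AddCommGroup V] [Module F V] [FiniteDimensional F V]

theorem exists_vec (X : Module.End F V) (n : ℕ) (h1 : X ^ 2 ^ (n + 1) = 1) (h2 : X ^ 2 ^ n ≠ 1) :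
    ∃ v : V, (X ^ 2 ^ n) v = v ∧ (∑ j ∈ Finset.range (2 ^ n), X ^ j) v ≠ 0 := by
  classical
  haveI : Fact (Nat.Prime 2) := ⟨Nat.prime_two⟩
  set δ := X - 1 with hδ
  have e1 : δ ^ 2 ^ (n + 1) = 0 := by rw [hδ, H1.Crit.sub_one_pow' 2 (n + 1), h1, sub_self]
  have e2 : δ ^ 2 ^ n = X ^ 2 ^ n - 1 := by rw [hδ, H1.Crit.sub_one_pow' 2 n]
  have e3 : δ ^ (2 ^ n - 1) = ∑ j ∈ Finset.range (2 ^ n), X ^ j := by rw [hδ, H1.Crit.sub_one_pow 2 n]
  have e4 : δ ^ 2 ^ n ≠ 0 := by rw [e2]; exact sub_ne_zero.mpr h2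
  have hex : ∃ k, δ ^ k = 0 := ⟨_, e1⟩
  obtain ⟨k, hk, hmin⟩ : ∃ k, δ ^ k = 0 ∧ ∀ m < k, δ ^ m ≠ 0 := ⟨Nat.find hex, Nat.find_spec hex, fun m hm => Nat.find_min hex hm⟩
  have hk1 : 2 ^ n < k := by
    by_contra hcon
    apply e4
    have : 2 ^ n = k + (2 ^ n - k) := by omega
    rw [this, pow_add, hk, zero_mul]
  have hpos : 0 < 2 ^ n := pow_pos (by norm_num) n
  obtain ⟨w, hw⟩ : ∃ w, (δ ^ (k - 1)) w ≠ 0 := by
    by_contra hcon
    push Not at hcon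
    exact hmin (k - 1) (by omega) (LinearMap.ext hcon)
  refine ⟨(δ ^ (k - 2 ^ n)) w, ?_, ?_⟩
  · have h3 : (δ ^ 2 ^ n) ((δ ^ (k - 2 ^ n)) w) = 0 := by
      rw [← Module.End.mul_apply, ← pow_add, show 2 ^ n + (k - 2 ^ n) = k by omega, hk]; rfl
    rw [e2, LinearMap.sub_apply, Module.End.one_apply, sub_eq_zero] at h3
    exact h3
  · rw [← e3, ← Module.End.mul_apply, ← pow_add, show 2 ^ n - 1 + (k - 2 ^ n) = k - 1 by omega]
    exact hw

end lin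

section step

variable {Γ : Type u} [Group Γ] [Finite Γ]

/-- the linear algebra on `R / Z₀` -/
theorem exists_elt {R Z₀ : Subgroup Γ} (x : Γ) (n : ℕ) (hxR : x ∈ normalizer (R : Set Γ)) (hxZ : x ∈ normalizer (Z₀ : Set Γ))
    (hZR : Z₀ ≤ R) (hRZ : R ≤ normalizer (Z₀ : Set Γ)) (hab : ∀ a ∈ R, ∀ b ∈ R, a * b * a⁻¹ * b⁻¹ ∈ Z₀) (hsq : ∀ a ∈ R, a * a ∈ Z₀)
    (hx : x ^ 2 ^ (n + 1) = 1) (hy : ∃ u ∈ R, x ^ 2 ^ n * u * (x ^ 2 ^ n)⁻¹ * u⁻¹ ∉ Z₀)
    (P : Γ → ℕ → Γ) (hP0 : ∀ e, P e 0 = 1) (hPs : ∀ e m, P e (m + 1) = P e m * (x ^ m * e * (x ^ m)⁻¹)) :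
    ∃ e ∈ R, e * x ^ 2 ^ n * e⁻¹ * (x ^ 2 ^ n)⁻¹ ∈ Z₀ ∧ P e (2 ^ n) ∉ Z₀ := by
  classical
  haveI : Fact (Nat.Prime 2) := ⟨Nat.prime_two⟩
  set Z' := Z₀.subgroupOf R with hZ'
  haveI hZn : Z'.Normal := Subgroup.normal_subgroupOf_of_le_normalizer hRZ
  letI : CommGroup (R ⧸ Z') :=
    { (inferInstance : Group (R ⧸ Z')) with
      mul_comm := by
        intro a b
        obtain ⟨a, rfl⟩ := QuotientGroup.mk'_surjective Z' a
        obtain ⟨b, rfl⟩ := QuotientGroup.mk'_surjective Z' b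
        have h1 : QuotientGroup.mk' Z' (a * b * a⁻¹ * b⁻¹) = 1 :=
          (QuotientGroup.eq_one_iff _).mpr (Subgroup.mem_subgroupOf.mpr (hab a a.2 b b.2))
        rw [map_mul, map_mul, map_mul, map_inv, map_inv, mul_inv_eq_one, mul_inv_eq_iff_eq_mul] at h1
        exact h1 }
  let B := Additive (R ⧸ Z')
  have h2B : ∀ b : B, 2 • b = 0 := by
    intro b
    obtain ⟨a, ha⟩ := QuotientGroup.mk'_surjective Z' b.toMul
    have h1 : (QuotientGroup.mk' Z' a) ^ 2 = 1 := by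
      rw [← map_pow, pow_two]
      exact (QuotientGroup.eq_one_iff _).mpr (Subgroup.mem_subgroupOf.mpr (hsq a a.2))
    rw [ha] at h1
    exact h1
  letI : Module (ZMod 2) B := AddCommGroup.zmodModule h2B
  haveI : Finite B := inferInstanceAs (Finite (R ⧸ Z'))
  haveI : FiniteDimensional (ZMod 2) B := Module.Finite.of_finite
  -- conjugation
  let cjR : R →* R :=
    { toFun := fun u => ⟨x * u * x⁻¹, (Subgroup.mem_normalizer_iff.mp hxR u).mp u.2⟩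
      map_one' := by ext; simp
      map_mul' := by intro a b; ext; simp [mul_assoc] }
  have hcj : Z' ≤ Z'.comap cjR := by
    intro u hu
    exact (Subgroup.mem_normalizer_iff.mp hxZ _).mp hu
  let X : Module.End (ZMod 2) B := AddMonoidHom.toZModLinearMap 2 (MonoidHom.toAdditive (QuotientGroup.map Z' Z' cjR hcj))
  have hX : ∀ (u : Γ) (hu : u ∈ R), X (Additive.ofMul (QuotientGroup.mk' Z' ⟨u, hu⟩)) =
      Additive.ofMul (QuotientGroup.mk' Z' ⟨x * u * x⁻¹, (Subgroup.mem_normalizer_iff.mp hxR u).mp hu⟩) := fun u hu => rfl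
  have hxm : ∀ (m : ℕ) (u : Γ), u ∈ R → x ^ m * u * (x ^ m)⁻¹ ∈ R := fun m u hu =>
    (Subgroup.mem_normalizer_iff.mp (pow_mem hxR m) u).mp hu
  have hXm : ∀ (m : ℕ) (u : Γ) (hu : u ∈ R), (X ^ m) (Additive.ofMul (QuotientGroup.mk' Z' ⟨u, hu⟩)) =
      Additive.ofMul (QuotientGroup.mk' Z' ⟨x ^ m * u * (x ^ m)⁻¹, hxm m u hu⟩) := by
    intro m
    induction m with
    | zero =>
      intro u hu
      rw [pow_zero, Module.End.one_apply]
      congr 2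
      apply Subtype.ext
      simp
    | succ m ih =>
      intro u hu
      rw [pow_succ', Module.End.mul_apply, ih u hu, hX]
      congr 2
      apply Subtype.ext
      simp only
      rw [pow_succ']; group
  have hPR : ∀ (e : Γ), e ∈ R → ∀ m, P e m ∈ R := by
    intro e he m
    induction m with
    | zero => rw [hP0]; exact one_mem _
    | succ m ih => rw [hPs]; exact mul_mem ih (hxm m e he)
  have hsum : ∀ (m : ℕ) (e : Γ) (he : e ∈ R), (∑ j ∈ Finset.range m, X ^ j) (Additive.ofMul (QuotientGroup.mk' Z' ⟨e, he⟩)) =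
      Additive.ofMul (QuotientGroup.mk' Z' ⟨P e m, hPR e he m⟩) := by
    intro m e he
    induction m with
    | zero =>
      rw [Finset.sum_range_zero, LinearMap.zero_apply]
      have : (⟨P e 0, hPR e he 0⟩ : R) = 1 := Subtype.ext (hP0 e)
      rw [this, map_one, ofMul_one]
    | succ m ih =>
      rw [Finset.sum_range_succ, LinearMap.add_apply, ih, hXm, ← ofMul_mul, ← map_mul]
      congr 2
      apply Subtype.ext
      exact (hPs e m).symm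
  have hXone : X ^ 2 ^ (n + 1) = 1 := by
    refine LinearMap.ext fun b => ?_
    obtain ⟨⟨u, hu⟩, hub⟩ := QuotientGroup.mk'_surjective Z' b.toMul
    have hb : b = Additive.ofMul (QuotientGroup.mk' Z' ⟨u, hu⟩) := by rw [hub]; rfl
    rw [hb, hXm, Module.End.one_apply]
    congr 2
    apply Subtype.ext
    simp only
    rw [hx]; group
  have hmem : ∀ (u v : Γ) (hu : u ∈ R) (hv : v ∈ R), Additive.ofMul (QuotientGroup.mk' Z' ⟨u, hu⟩) = Additive.ofMul (QuotientGroup.mk' Z' ⟨v, hv⟩) →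
      u * v⁻¹ ∈ Z₀ := by
    intro u v hu hv h
    have h1 : QuotientGroup.mk' Z' (⟨u, hu⟩ : R) = QuotientGroup.mk' Z' ⟨v, hv⟩ := h
    have h2 : QuotientGroup.mk' Z' ((⟨u, hu⟩ : R) * (⟨v, hv⟩ : R)⁻¹) = 1 := by rw [map_mul, map_inv, h1, mul_inv_cancel]
    exact Subgroup.mem_subgroupOf.mp ((QuotientGroup.eq_one_iff _).mp h2)
  have hXne : X ^ 2 ^ n ≠ 1 := by
    intro h
    obtain ⟨u, hu, hu'⟩ := hy
    apply hu'
    have h1 := hXm (2 ^ n) u hu
    rw [h, Module.End.one_apply] at h1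
    exact hmem _ _ _ _ h1.symm
  obtain ⟨b, hb1, hb2⟩ := exists_vec X n hXone hXne
  obtain ⟨⟨e, he⟩, heb⟩ := QuotientGroup.mk'_surjective Z' b.toMul
  have hb : b = Additive.ofMul (QuotientGroup.mk' Z' ⟨e, he⟩) := by rw [heb]; rfl
  rw [hb] at hb1 hb2
  rw [hXm] at hb1
  rw [hsum] at hb2
  refine ⟨e, he, ?_, ?_⟩
  · have h1 := hmem _ _ _ _ hb1
    have h2 := inv_mem h1
    have h3 : (x ^ 2 ^ n * e * (x ^ 2 ^ n)⁻¹ * e⁻¹)⁻¹ = e * x ^ 2 ^ n * e⁻¹ * (x ^ 2 ^ n)⁻¹ := by group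
    rwa [h3] at h2
  · intro h
    apply hb2
    have h1 : QuotientGroup.mk' Z' (⟨P e (2 ^ n), hPR e he (2 ^ n)⟩ : R) = 1 :=
      (QuotientGroup.eq_one_iff _).mpr (Subgroup.mem_subgroupOf.mpr h)
    rw [h1, ofMul_one]

end step


section noconf

variable {Γ : Type u} [Group Γ] [Finite Γ] {F : Type*} [Field F] [IsAlgClosed F] [CharP F 2] {V : Type*} [AddCommGroup V] [Module F V]
  [FiniteDimensional F V]

theorem no_conf (hs : Group.IsSolvable Γ) (hcore : pCore 2 Γ = ⊥) {n r : ℕ} [hr : Fact r.Prime] (hr2 : r ≠ 2)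
    {R T : Subgroup Γ} {x : Γ} (c : Conf n r R T x) {ρ : Γ →* Module.End F V} (h : Hyp n ρ) : R = ⊥ := by
  classical
  haveI : Fact (Nat.Prime 2) := ⟨Nat.prime_two⟩
  by_contra hR1
  by_cases hRab : ∀ a ∈ R, ∀ b ∈ R, a * b = b * a
  · exact hR1 (caseA hs hcore hr2 c h hRab)
  have hTTT : ⁅T, T⁆ ≤ T := Subgroup.commutator_le_self T
  have hcentral : ∀ K ≤ R, x ∈ normalizer (K : Set Γ) → T ≤ normalizer (K : Set Γ) → R ≤ normalizer (K : Set Γ) → K ≠ R →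
      T ≤ centralizer (K : Set Γ) ∧ R ≤ centralizer (K : Set Γ) := by
    intro K hK hxK hTK hRK hne
    have h1 := c.min K hK hxK hTK hne
    refine ⟨h1, ?_⟩
    have h2 : ⁅⁅⁅T, T⁆, K⁆, R⁆ = ⊥ := by
      rw [Subgroup.commutator_eq_bot_iff_le_centralizer.2 (hTTT.trans h1), Subgroup.commutator_bot_left]
    have h3 : ⁅⁅K, R⁆, ⁅T, T⁆⁆ = ⊥ := by
      rw [Subgroup.commutator_comm]
      apply Subgroup.commutator_eq_bot_iff_le_centralizer.2
      refine (hTTT.trans h1).trans (Subgroup.centralizer_le ?_)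
      exact commutator_le_left hRK
    have h4 := Subgroup.commutator_commutator_eq_bot_of_rotate h2 h3
    rw [c.hRT] at h4
    exact Subgroup.commutator_eq_bot_iff_le_centralizer.1 h4
  set Z₀ := R ⊓ centralizer (R : Set Γ) with hZ₀
  have hZ₀R : Z₀ ≤ R := inf_le_left
  have hRZ₀ : R ≤ centralizer (Z₀ : Set Γ) := by
    rw [Subgroup.le_centralizer_iff]; exact inf_le_right
  have hNZ₀ : normalizer (R : Set Γ) ≤ normalizer (Z₀ : Set Γ) := le_normalizer_inf le_rfl (le_normalizer_centralizer le_rfl)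
  have hRn : R ≤ normalizer (R : Set Γ) := Subgroup.le_normalizer
  have hZ₀ne : Z₀ ≠ R := by
    intro h1
    apply hRab
    intro a ha b hb
    have h2 : a ∈ centralizer (R : Set Γ) := (h1.ge ha).2
    exact (mem_centralizer_iff.mp h2 b hb).symm
  have hTZ₀ := (hcentral Z₀ hZ₀R (hNZ₀ c.hxR) (c.hTR.trans hNZ₀) (hRn.trans hNZ₀) hZ₀ne).1
  set I := ⁅R, R⁆ with hI
  have hIlt : I < R := commutator_lt_of_isPGroup c.hR c.hR hRn hR1
  have hNI : normalizer (R : Set Γ) ≤ normalizer (I : Set Γ) := le_normalizer_commutator le_rfl le_rfl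
  have hIZ₀ : I ≤ Z₀ := by
    refine le_inf hIlt.le ?_
    rw [Subgroup.le_centralizer_iff]
    exact (hcentral I hIlt.le (hNI c.hxR) (c.hTR.trans hNI) (hRn.trans hNI) hIlt.ne).2
  have hab : ∀ a ∈ R, ∀ b ∈ R, a * b * a⁻¹ * b⁻¹ ∈ Z₀ := fun a ha b hb => hIZ₀ (by
    rw [← commutatorElement_def]; exact commutator_mem_commutator ha hb)
  have hZc : ∀ u ∈ Z₀, ∀ v ∈ R, u * v = v * u := fun u hu v hv => mem_centralizer_iff.mp (hRZ₀ hv) u hu
  -- squares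
  set Φ := (frattini R).map R.subtype with hΦ
  have hNΦ : normalizer (R : Set Γ) ≤ normalizer (Φ : Set Γ) := H13.Cores.normalizer_le_normalizer_map R (frattini R)
  have hΦR : Φ ≤ R := Subgroup.map_subtype_le _
  have hnt : Nontrivial R := (Subgroup.nontrivial_iff_ne_bot R).mpr hR1
  have hΦne : Φ ≠ R := by
    intro h1
    obtain ⟨K, hK, -⟩ := (eq_top_or_exists_le_coatom (⊥ : Subgroup R)).resolve_left bot_ne_top
    apply hK.1
    rw [eq_top_iff]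
    intro u _
    obtain ⟨w, hw, hwu⟩ := h1.ge u.2
    have h2 : w = u := Subtype.ext hwu
    rw [← h2]
    exact frattini_le_coatom hK hw
  have hsq : ∀ a ∈ R, a * a ∈ Z₀ := by
    intro a ha
    have h1 : a * a ∈ Φ := by
      refine ⟨⟨a, ha⟩ ^ 2, H1.Frat.pow_mem_frattini c.hR _, ?_⟩
      rw [pow_two]; rfl
    refine Subgroup.mem_inf.mpr ⟨hΦR h1, ?_⟩
    have h2 := (hcentral Φ hΦR (hNΦ c.hxR) (c.hTR.trans hNΦ) (hRn.trans hNΦ) hΦne).2
    rw [Subgroup.le_centralizer_iff] at h2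
    exact h2 h1
  -- `y` acts nontrivially on `R / Z₀`
  have hy : ∃ u ∈ R, x ^ 2 ^ n * u * (x ^ 2 ^ n)⁻¹ * u⁻¹ ∉ Z₀ := by
    by_contra hcon
    push Not at hcon
    let Q : Subgroup Γ :=
      { carrier := {g | g ∈ normalizer (R : Set Γ) ∧ ∀ u ∈ R, g * u * g⁻¹ * u⁻¹ ∈ Z₀}
        one_mem' := ⟨one_mem _, fun u _ => by simp [one_mem]⟩
        mul_mem' := by
          rintro a b ⟨ha, ha'⟩ ⟨hb, hb'⟩
          refine ⟨mul_mem ha hb, fun u hu => ?_⟩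
          have e : a * b * u * (a * b)⁻¹ * u⁻¹ = (a * (b * u * b⁻¹ * u⁻¹) * a⁻¹) * (a * u * a⁻¹ * u⁻¹) := by group
          rw [e]
          exact mul_mem ((Subgroup.mem_normalizer_iff.1 (hNZ₀ ha) _).1 (hb' u hu)) (ha' u hu)
        inv_mem' := by
          rintro a ⟨ha, ha'⟩
          refine ⟨inv_mem ha, fun u hu => ?_⟩
          have e : a⁻¹ * u * a⁻¹⁻¹ * u⁻¹ = a⁻¹ * (a * u * a⁻¹ * u⁻¹)⁻¹ * a := by group
          rw [e]
          exact conj_mem (hNZ₀ ha) (inv_mem (ha' u hu)) }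
    have hyQ : zpowers (x ^ 2 ^ n) ≤ Q := by
      rw [zpowers_le]
      exact ⟨pow_mem c.hxR _, hcon⟩
    have hTQ : T ≤ Q := by
      rw [← c.hTy, Subgroup.commutator_le]
      intro t ht g hg
      have hgQ := hyQ hg
      have h4 : ⁅t, g⁆ = (t * g * t⁻¹) * g⁻¹ := by rw [commutatorElement_def]
      rw [h4]
      refine mul_mem ⟨mul_mem (mul_mem (c.hTR ht) hgQ.1) (inv_mem (c.hTR ht)), fun u hu => ?_⟩ (inv_mem hgQ)
      have h5 := hgQ.2 _ (conj_mem (c.hTR ht) hu)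
      have h6 := (Subgroup.mem_normalizer_iff.1 (hNZ₀ (c.hTR ht)) _).1 h5
      have h7 : t * (g * (t⁻¹ * u * t) * g⁻¹ * (t⁻¹ * u * t)⁻¹) * t⁻¹ = t * g * t⁻¹ * u * (t * g * t⁻¹)⁻¹ * u⁻¹ := by group
      rwa [h7] at h6
    have hRZ : R ≤ Z₀ := by
      conv_lhs => rw [← c.hRT]
      rw [Subgroup.commutator_le]
      intro s hs g hg
      have h1 := inv_mem ((hTQ (hTTT hg)).2 s hs)
      have h2 : (g * s * g⁻¹ * s⁻¹)⁻¹ = ⁅s, g⁆ := by rw [commutatorElement_def]; group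
      rwa [h2] at h1
    exact hZ₀ne (le_antisymm hZ₀R hRZ)
  -- the subgroup `J`
  have hxp : IsPGroup 2 (zpowers x) := by
    obtain ⟨k, hk⟩ := c.x2
    obtain ⟨j, _, hj⟩ := (Nat.dvd_prime_pow Nat.prime_two).1 (orderOf_dvd_of_pow_eq_one hk)
    exact IsPGroup.of_card (n := j) (by rw [Nat.card_zpowers, hj])
  have hxI : zpowers x ≤ normalizer (I : Set Γ) := by rw [zpowers_le]; exact hNI c.hxR
  have hI1 : I ≠ ⊥ := by
    intro h1
    apply hRab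
    intro a ha b hb
    have h2 : ⁅a, b⁆ ∈ I := commutator_mem_commutator ha hb
    rw [h1, Subgroup.mem_bot, commutatorElement_eq_one_iff_mul_comm] at h2
    exact h2
  set J := ⁅I, zpowers x⁆ with hJ
  have hJlt : J < I := commutator_lt_of_isPGroup hxp (c.hR.to_le hIlt.le) hxI hI1
  have hJZ₀ : J ≤ Z₀ := hJlt.le.trans hIZ₀
  have hcJ : ∀ {A : Subgroup Γ}, A ≤ centralizer (Z₀ : Set Γ) → A ≤ normalizer (J : Set Γ) := fun hA =>
    (hA.trans (Subgroup.centralizer_le hJZ₀)).trans (Subgroup.centralizer_le_normalizer _)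
  have hRJ : R ≤ normalizer (J : Set Γ) := hcJ hRZ₀
  have hTJ : T ≤ normalizer (J : Set Γ) := hcJ hTZ₀
  have hxJ : x ∈ normalizer (J : Set Γ) := (le_normalizer_commutator hxI Subgroup.le_normalizer) (mem_zpowers x)
  set Rd := cmod R J hRJ with hRd
  have hRdR : Rd ≤ R := cmod_le _ _ _
  have hRdZ : Rd ≤ Z₀ := by
    refine le_inf hRdR ?_
    rw [Subgroup.le_centralizer_iff]
    refine (hcentral Rd hRdR (le_normalizer_cmod R J hRJ x c.hxR hxJ)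
      (fun t ht => le_normalizer_cmod R J hRJ t (c.hTR ht) (hTJ ht))
      (fun t ht => le_normalizer_cmod R J hRJ t (hRn ht) (hRJ ht)) ?_).2
    intro h1
    apply hJlt.not_ge
    rw [hI, Subgroup.commutator_le]
    intro a ha b hb
    rw [commutatorElement_def]
    exact (mem_cmod.mp (h1.ge ha)).2 b hb
  -- the product
  let P : Γ → ℕ → Γ := fun e m => Nat.rec 1 (fun m p => p * (x ^ m * e * (x ^ m)⁻¹)) m
  have hP0 : ∀ e, P e 0 = 1 := fun e => rfl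
  have hPs : ∀ e m, P e (m + 1) = P e m * (x ^ m * e * (x ^ m)⁻¹) := fun e m => rfl
  have hxm : ∀ (m : ℕ) (u : Γ), u ∈ R → x ^ m * u * (x ^ m)⁻¹ ∈ R := fun m u hu =>
    (Subgroup.mem_normalizer_iff.mp (pow_mem c.hxR m) u).mp hu
  have hPR : ∀ (e : Γ), e ∈ R → ∀ m, P e m ∈ R := by
    intro e he m
    induction m with
    | zero => rw [hP0]; exact one_mem _
    | succ m ih => rw [hPs]; exact mul_mem ih (hxm m e he)
  have haR : ∀ s ∈ R, ∀ m : ℕ, (s * x⁻¹) ^ m * x ^ m ∈ R := by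
    intro s hs m
    induction m with
    | zero => simp [one_mem]
    | succ m ih =>
      have h2 : (s * x⁻¹) ^ (m + 1) * x ^ (m + 1) = ((s * x⁻¹) ^ m * x ^ m) * ((x ^ m)⁻¹ * s * x ^ m) := by
        rw [pow_succ, pow_succ' x]; group
      rw [h2]
      exact mul_mem ih (conj_mem (pow_mem c.hxR m) hs)
  have hclaim : ∀ e ∈ R, ∀ s ∈ R, ∀ m : ℕ,
      (e * ((s * x⁻¹) ^ m * x ^ m) * e⁻¹ * ((s * x⁻¹) ^ m * x ^ m)⁻¹) * (P e m * s * (P e m)⁻¹ * s⁻¹)⁻¹ ∈ J := by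
    intro e he s hs m
    induction m with
    | zero => rw [hP0]; simp [one_mem]
    | succ m ih =>
      have hsm : (x ^ m)⁻¹ * s * x ^ m ∈ R := conj_mem (pow_mem c.hxR m) hs
      have h2 : (s * x⁻¹) ^ (m + 1) * x ^ (m + 1) = ((s * x⁻¹) ^ m * x ^ m) * ((x ^ m)⁻¹ * s * x ^ m) := by
        rw [pow_succ, pow_succ' x]; group
      set a := (s * x⁻¹) ^ m * x ^ m with ha
      set s' := (x ^ m)⁻¹ * s * x ^ m with hs'
      set e' := x ^ m * e * (x ^ m)⁻¹ with he'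
      have hA : e * a * e⁻¹ * a⁻¹ ∈ Z₀ := hab e he a (haR s hs m)
      have hB : e * s' * e⁻¹ * s'⁻¹ ∈ Z₀ := hab e he s' hsm
      have hC : P e m * s * (P e m)⁻¹ * s⁻¹ ∈ Z₀ := hab _ (hPR e he m) s hs
      have hD : e' * s * e'⁻¹ * s⁻¹ ∈ Z₀ := hab e' (hxm m e he) s hs
      have h3 : e * (a * s') * e⁻¹ * (a * s')⁻¹ = (e * a * e⁻¹ * a⁻¹) * (e * s' * e⁻¹ * s'⁻¹) := by
        have h4 := hZc _ hB a (haR s hs m)
        calc e * (a * s') * e⁻¹ * (a * s')⁻¹ = (e * a * e⁻¹ * a⁻¹) * (a * (e * s' * e⁻¹ * s'⁻¹)) * a⁻¹ := by group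
          _ = (e * a * e⁻¹ * a⁻¹) * ((e * s' * e⁻¹ * s'⁻¹) * a) * a⁻¹ := by rw [h4]
          _ = _ := by group
      have h5 : P e (m + 1) * s * (P e (m + 1))⁻¹ * s⁻¹ = (P e m * s * (P e m)⁻¹ * s⁻¹) * (e' * s * e'⁻¹ * s⁻¹) := by
        rw [hPs]
        exact H1.DL.comm_mul_left hRZ₀ hab (hPR e he m) (hxm m e he) hs
      have h6 : (e * s' * e⁻¹ * s'⁻¹) * (e' * s * e'⁻¹ * s⁻¹)⁻¹ ∈ J := by
        have hgen : ∀ u v w : Γ, (u * (w⁻¹ * v * w) * u⁻¹ * (w⁻¹ * v * w)⁻¹) * ((w * u * w⁻¹) * v * (w * u * w⁻¹)⁻¹ * v⁻¹)⁻¹ =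
            ⁅u * (w⁻¹ * v * w) * u⁻¹ * (w⁻¹ * v * w)⁻¹, w⁆ := by
          intro u v w
          rw [commutatorElement_def]; group
        have h7 : (e * s' * e⁻¹ * s'⁻¹) * (e' * s * e'⁻¹ * s⁻¹)⁻¹ = ⁅e * s' * e⁻¹ * s'⁻¹, x ^ m⁆ := hgen e s (x ^ m)
        rw [h7]
        refine commutator_mem_commutator ?_ (pow_mem (mem_zpowers x) m)
        rw [← commutatorElement_def]; exact commutator_mem_commutator he hsm
      rw [h2, h3, h5]
      have h7 := hZc _ (hJZ₀ h6) _ (inv_mem (hZ₀R hC))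
      have h8 : ∀ A B C D : Γ, A * B * (C * D)⁻¹ = A * ((B * D⁻¹) * C⁻¹) := by
        intro A B C D; group
      rw [h8, h7, ← mul_assoc]
      exact mul_mem ih h6
  obtain ⟨e, he, hey, hPe⟩ := exists_elt x n c.hxR (hNZ₀ c.hxR) hZ₀R (hRn.trans hNZ₀) hab hsq (h.exp x c.x2) hy P hP0 hPs
  apply hPe
  apply hRdZ
  rw [hRd, mem_cmod]
  refine ⟨hPR e he _, fun s hs' => ?_⟩
  have h1 := hclaim e he s hs' (2 ^ n)
  rw [caseB hs hcore hr2 c h Z₀ hZ₀R hRZ₀ hNZ₀ hTZ₀ hab e s he hs' hey, one_mul] at h1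
  have h2 := inv_mem h1
  rwa [inv_inv] at h2

end noconf

end H1.Gr
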