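import Cfsg.Agent.Lib.H1.GrG
import Cfsg.Agent.Lib.H1.PModV
import Cfsg.Agent.Lib.H37.QuadCore

/-!
The second level.
-/

set_option autoImplicit false

open Subgroup Module H1.Coprime2 H1.Coprime H1.StrLem H30.Wts Cfsg
open scoped commutatorElement Pointwise

namespace H1.Gr

universe u

section nonab

variable {Γ : Type u} [Group Γ] [Finite Γ]

/-- the derived group of `T` acts nontrivially on `R` -/
theorem nonab {n r : ℕ} [hr : Fact r.Prime] (hr2 : r ≠ 2) (R T : Subgroup Γ) (x : Γ) (hR : IsPGroup 2 R) (hT : IsPGroup r T)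
    (hTR : T ≤ normalizer (R : Set Γ)) (hxR : x ∈ normalizer (R : Set Γ)) (hxT : x ∈ normalizer (T : Set Γ))
    (hTy : ⁅T, zpowers (x ^ 2 ^ n)⁆ = T) (hexp : ∀ s ∈ R, (s * x⁻¹) ^ 2 ^ (n + 1) = 1) (hne : ¬ T ≤ centralizer (R : Set Γ)) :
    ¬ ⁅T, T⁆ ≤ centralizer (R : Set Γ) := by
  classical
  haveI : Fact (Nat.Prime 2) := ⟨Nat.prime_two⟩
  intro hTT
  have hx : x ^ 2 ^ (n + 1) = 1 := by
    have := hexp 1 (one_mem _)
    rw [one_mul, inv_pow, inv_eq_one] at this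
    exact this
  set S := normalizer (R : Set Γ) with hS
  have hRS : R ≤ S := Subgroup.le_normalizer
  set R' := R.subgroupOf S with hR'
  haveI hRn : R'.Normal := Subgroup.normal_subgroupOf_of_le_normalizer le_rfl
  set T' := T.subgroupOf S with hT'
  set x' : S := ⟨x, hxR⟩ with hx'
  let K := AlgebraicClosure (ZMod 2)
  haveI hcharK : CharP K 2 := charP_of_injective_algebraMap (algebraMap (ZMod 2) K).injective 2
  set ρ := H1.PModV.qrep R' K with hρ
  set π : S →* S ⧸ R' := QuotientGroup.mk' R' with hπ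
  have hR'2 : IsPGroup 2 R' := hR.of_equiv (Subgroup.subgroupOfEquivOfLe hRS).symm
  have hT'r : IsPGroup r T' := hT.of_equiv (Subgroup.subgroupOfEquivOfLe hTR).symm
  set y := x ^ 2 ^ n with hy
  have hyS : y ∈ S := pow_mem hxR _
  -- the order of the image of `x`
  have hyR : y ∉ R := by
    intro h1
    apply hne
    have h2 : T ≤ R := by
      rw [← hTy, Subgroup.commutator_le]
      intro t ht g hg
      have hg' : g ∈ R := (Subgroup.zpowers_le.mpr h1) hg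
      rw [commutatorElement_def]
      exact mul_mem ((Subgroup.mem_normalizer_iff.mp (hTR ht) g).mp hg') (inv_mem hg')
    have h3 : T ≤ T ⊓ R := le_inf le_rfl h2
    have h4 : T ⊓ R = ⊥ := by
      apply H1.Coprime.inf_eq_bot_of_coprime_card
      obtain ⟨k, hk⟩ := IsPGroup.iff_card.mp hT
      obtain ⟨l, hl⟩ := IsPGroup.iff_card.mp hR
      rw [hk, hl]
      exact Nat.Coprime.pow _ _ ((Nat.coprime_primes hr.out Nat.prime_two).2 hr2)
    rw [h4, le_bot_iff] at h3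
    rw [h3]; exact bot_le
  have ho : orderOf (π x') = 2 ^ (n + 1) := by
    apply orderOf_eq_prime_pow
    · rw [← map_pow]
      intro h1
      exact hyR (Subgroup.mem_subgroupOf.mp ((QuotientGroup.eq_one_iff _).mp h1))
    · rw [← map_pow]
      have h1 : x' ^ 2 ^ (n + 1) = 1 := Subtype.ext hx
      rw [h1, map_one]
  have hcentrep : ∀ u : S, (u : Γ) ∈ centralizer (R : Set Γ) → H66.HomMod.rep R' K u = 1 := by
    intro u hu
    refine LinearMap.ext fun f => DFunLike.ext _ _ fun s => ?_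
    obtain ⟨s, rfl⟩ : ∃ s' : R', Additive.ofMul s' = s := ⟨s.toMul, rfl⟩
    rw [H66.HomMod.rep_apply, Module.End.one_apply]
    congr 2
    apply Subtype.ext
    apply Subtype.ext
    change (u : Γ)⁻¹ * (s : S) * (u : Γ) = ((s : S) : Γ)
    have h1 := mem_centralizer_iff.mp hu (((s : S) : Γ)) (Subgroup.mem_subgroupOf.mp s.2)
    rw [mul_assoc, h1]; group
  have hcopTR : (Nat.card T').Coprime 2 := by
    obtain ⟨k, hk⟩ := IsPGroup.iff_card.mp hT'r
    rw [hk]
    exact Nat.Coprime.pow_left _ ((Nat.coprime_primes hr.out Nat.prime_two).2 hr2)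
  have hTy' : ⁅T', zpowers (⟨y, hyS⟩ : S)⁆ = T' := by
    rw [← subgroupOf_zp, hT', subgroupOf_comm hTR (by rw [zpowers_le]; exact hyS), hTy]
  obtain ⟨f, hf⟩ := H1.ThmB.abelian_regular ρ (p := 2) ho (T'.map π) (card_ne r (natCast_ne hr2) (hT'r.map π))
    (by
      apply (le_normalizer_of_conj_mem (A := zpowers (π x')) ?_) (mem_zpowers _)
      rintro _ ⟨k, rfl⟩ _ ⟨t, ht, rfl⟩
      refine ⟨x' ^ k * t * (x' ^ k)⁻¹, ?_, by rw [map_mul, map_mul, map_inv, map_zpow]⟩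
      exact (Subgroup.mem_normalizer_iff.mp (zpow_mem (mem_normalizer_subgroupOf hxR hxT) k) t).mp ht)
    (by
      rintro _ ⟨a, ha, rfl⟩ _ ⟨b, hb, rfl⟩
      rw [← map_inv, ← map_inv, ← map_mul, ← map_mul, ← map_mul, hρ, H1.PModV.qrep_mk]
      apply hcentrep
      apply hTT
      change (a : Γ) * b * (a : Γ)⁻¹ * (b : Γ)⁻¹ ∈ _
      rw [← commutatorElement_def]
      exact commutator_mem_commutator ha hb)
    (by
      by_contra hcon
      push Not at hcon
      apply hne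
      -- `T'` acts trivially
      have h1 : T' ≤ (H66.HomMod.rep R' K).ker := by
        conv_lhs => rw [← hTy']
        rw [Subgroup.commutator_le]
        intro t ht g hg
        obtain ⟨j, hj⟩ := (isOfFinOrder_of_finite (⟨y, hyS⟩ : S)).mem_powers_iff_mem_zpowers.2 hg
        have h2 := hcon (π t) ⟨t, ht, rfl⟩
        have h3 : π x' ^ 2 ^ n = π ⟨y, hyS⟩ := by rw [← map_pow]; rfl
        rw [h3, ← map_inv, ← map_inv, ← map_mul, ← map_mul, ← map_mul, hρ, H1.PModV.qrep_mk] at h2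
        have h4 : (H66.HomMod.rep R' K ⟨y, hyS⟩) * (H66.HomMod.rep R' K t) = (H66.HomMod.rep R' K t) * (H66.HomMod.rep R' K ⟨y, hyS⟩) := by
          have h5 : (⟨y, hyS⟩ : S) * t = ((⟨y, hyS⟩ : S) * t * (⟨y, hyS⟩ : S)⁻¹ * t⁻¹) * (t * ⟨y, hyS⟩) := by group
          rw [← map_mul, h5, map_mul, h2, one_mul, map_mul]
        have h5 : Commute (H66.HomMod.rep R' K ⟨y, hyS⟩) (H66.HomMod.rep R' K t) := h4
        have h6 := h5.pow_left j
        rw [← map_pow] at h6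
        have h7 : (⟨y, hyS⟩ : S) ^ j = g := hj
        rw [h7] at h6
        rw [MonoidHom.mem_ker]
        change H66.HomMod.rep R' K ⁅t, g⁆ = 1
        have h9 : H66.HomMod.rep R' K (t * g) = H66.HomMod.rep R' K (g * t) := by rw [map_mul, map_mul, h6.eq]
        have h10 : ⁅t, g⁆ = (t * g) * (t⁻¹ * g⁻¹) := by rw [commutatorElement_def]; group
        have h8 : g * t * (t⁻¹ * g⁻¹) = 1 := by group
        rw [h10, map_mul, h9, ← map_mul, h8, map_one]
      have h2 := H66.HomMod.le_centralizer R' K hR'2 T' hcopTR (by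
        intro a ha f
        have h3 : H66.HomMod.rep R' K a = 1 := h1 ha
        rw [h3]; rfl)
      intro t ht
      rw [mem_centralizer_iff]
      intro s hs
      exact congrArg Subtype.val (mem_centralizer_iff.mp (h2 (show (⟨t, hTR ht⟩ : S) ∈ T' from ht)) ⟨s, hRS hs⟩ hs))
  apply hf
  refine DFunLike.ext _ _ fun s => ?_
  obtain ⟨s, rfl⟩ : ∃ s' : R', Additive.ofMul s' = s := ⟨s.toMul, rfl⟩
  have h1 := H1.PModV.norm_apply R' K x' f s (2 ^ (n + 1))
  have h2 : (∑ j ∈ Finset.range (2 ^ (n + 1)), ρ (π x' ^ j) f) (Additive.ofMul s) = f (Additive.ofMul ⟨((s : S) * x'⁻¹) ^ 2 ^ (n + 1) * x' ^ 2 ^ (n + 1), H1.PModV.norm_mem R' x' s (2 ^ (n + 1))⟩) := h1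
  rw [h2]
  have h3 : (⟨((s : S) * x'⁻¹) ^ 2 ^ (n + 1) * x' ^ 2 ^ (n + 1), H1.PModV.norm_mem R' x' s (2 ^ (n + 1))⟩ : R') = 1 := by
    apply Subtype.ext
    apply Subtype.ext
    change ((s : S) * x⁻¹ : Γ) ^ 2 ^ (n + 1) * x ^ 2 ^ (n + 1) = 1
    rw [hexp _ (Subgroup.mem_subgroupOf.mp s.2), hx, one_mul]
  rw [h3, ofMul_one, map_zero]
  rfl

end nonab

section tools

variable {Γ : Type u} [Group Γ]

theorem mul_pow_mem {E : Subgroup Γ} {e x : Γ} (he : e ∈ E) (hx : x ∈ normalizer (E : Set Γ)) (m : ℕ) :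
    (e * x) ^ m * (x ^ m)⁻¹ ∈ E := by
  induction m with
  | zero => simp [one_mem]
  | succ m ih =>
    have h1 : (e * x) ^ (m + 1) * (x ^ (m + 1))⁻¹ = ((e * x) ^ m * (x ^ m)⁻¹) * (x ^ m * e * (x ^ m)⁻¹) := by
      rw [pow_succ, pow_succ]; group
    rw [h1]
    exact mul_mem ih ((Subgroup.mem_normalizer_iff.mp (pow_mem hx m) e).mp he)

/-- the `2`-part -/
theorem exists_two_part [Finite Γ] (s : Γ) (k : ℕ) : ∃ c : ℕ, (∃ k', (s ^ c) ^ 2 ^ k' = 1) ∧ c ≡ 1 [MOD 2 ^ k] := by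
  obtain ⟨a, t, ht, hst⟩ := Nat.exists_eq_pow_mul_and_not_dvd (orderOf_pos s).ne' 2 (by norm_num)
  have hcop : Nat.Coprime (2 ^ k) t := Nat.Coprime.pow_left _ ((Nat.Prime.coprime_iff_not_dvd Nat.prime_two).2 ht)
  obtain ⟨c, hc1, hc2⟩ := Nat.chineseRemainder hcop 1 0
  refine ⟨c, ⟨a, ?_⟩, hc1⟩
  rw [← pow_mul]
  apply orderOf_dvd_iff_pow_eq_one.mp
  rw [hst, mul_comm c]
  exact Nat.mul_dvd_mul (dvd_refl _) ((Nat.modEq_zero_iff_dvd).1 hc2)

theorem pow_eq_self {x : Γ} {k c : ℕ} (hx : x ^ 2 ^ k = 1) (hc : c ≡ 1 [MOD 2 ^ k]) : x ^ c = x := by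
  have h1 : orderOf x ∣ 2 ^ k := orderOf_dvd_of_pow_eq_one hx
  have h2 : c ≡ 1 [MOD orderOf x] := hc.of_dvd h1
  conv_rhs => rw [← pow_one x]
  exact pow_eq_pow_iff_modEq.2 h2

/-- the image of a Sylow subgroup in a `p`-group is everything -/
theorem syl_surj {A : Type*} [Group A] [Finite A] {B : Type*} [Group B] {p : ℕ} [hp : Fact p.Prime] (f : A →* B)
    (hf : Function.Surjective f) (hB : IsPGroup p B) (P : Sylow p A) : (P : Subgroup A).map f = ⊤ := by
  haveI : Finite B := Finite.of_surjective f hf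
  have h1 : ((P : Subgroup A).map f).index ∣ (P : Subgroup A).index := Subgroup.index_map_dvd _ hf
  obtain ⟨k, hk⟩ := hB.index ((P : Subgroup A).map f)
  have h2 : k = 0 := by
    by_contra hk0
    apply P.not_dvd_index
    refine dvd_trans ?_ h1
    rw [hk]
    exact dvd_pow_self p hk0
  rw [← Subgroup.index_eq_one, hk, h2, pow_zero]

theorem mem_sup_isPGroup [Finite Γ] {R : Subgroup Γ} (hR : IsPGroup 2 R) {x : Γ} (hx : ∃ k, x ^ 2 ^ k = 1)
    (hxR : x ∈ normalizer (R : Set Γ)) {s : Γ} (hs : s ∈ R) : ∃ k, (s * x⁻¹) ^ 2 ^ k = 1 := by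
  haveI : Fact (Nat.Prime 2) := ⟨Nat.prime_two⟩
  have hxp : IsPGroup 2 (zpowers x) := by
    obtain ⟨k, hk⟩ := hx
    obtain ⟨j, _, hj⟩ := (Nat.dvd_prime_pow Nat.prime_two).1 (orderOf_dvd_of_pow_eq_one hk)
    exact IsPGroup.of_card (n := j) (by rw [Nat.card_zpowers, hj])
  have h1 : IsPGroup 2 (zpowers x ⊔ R : Subgroup Γ) :=
    IsPGroup.to_sup_of_normal_right' hxp hR (by rw [zpowers_le]; exact hxR)
  obtain ⟨k, hk⟩ := h1 ⟨s * x⁻¹, mul_mem ((le_sup_right : R ≤ zpowers x ⊔ R) hs)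
    (inv_mem ((le_sup_left : zpowers x ≤ zpowers x ⊔ R) (mem_zpowers x)))⟩
  exact ⟨k, congrArg Subtype.val hk⟩

end tools

end H1.Gr
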