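import Cfsg.Agent.Lib.H1.GrH

/-!
Existence of the second level configuration.
-/

set_option autoImplicit false

open Subgroup Module H1.Coprime2 H1.Coprime H1.StrLem H30.Wts Cfsg
open scoped commutatorElement Pointwise

namespace H1.Gr

universe u

section step1

variable {Γ : Type u} [Group Γ] [Finite Γ]

/-- lifting a configuration: `f : Γ → Δ` surjective with kernel `L`, `N ⊔ L = ⊤`. -/
theorem exists_T {Δ : Type*} [Group Δ] (f : Γ →* Δ) (N : Subgroup Γ) (hN : ∀ d : Δ, ∃ g ∈ N, f g = d) {r : ℕ} [hr : Fact r.Prime]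
    (hr2 : r ≠ 2) (Q : Subgroup Δ) (hQ : IsPGroup r Q) (n : ℕ) (x : Γ) (hx : ∃ k, x ^ 2 ^ k = 1)
    (hxQ : f x ∈ normalizer (Q : Set Δ)) (hyQ : (f x) ^ 2 ^ n ∉ centralizer (Q : Set Δ)) :
    ∃ (T : Subgroup Γ) (h : Γ), IsPGroup r T ∧ T ≤ N ∧ h ∈ N ∧ h ∈ normalizer (T : Set Γ) ∧ (∃ k, h ^ 2 ^ k = 1) ∧
      ¬ ⁅T, zpowers (h ^ 2 ^ n)⁆ ≤ f.ker := by
  classical
  obtain ⟨k, hk⟩ := hx
  -- replace `x` by an element of `N`
  obtain ⟨s, hsN, hs⟩ := hN (f x)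
  obtain ⟨c, ⟨k₁, hk₁⟩, hc⟩ := exists_two_part s k
  set x₁ := s ^ c with hx₁
  have hx₁N : x₁ ∈ N := pow_mem hsN c
  have hfx₁ : f x₁ = f x := by
    rw [hx₁, map_pow, hs]
    exact pow_eq_self (by rw [← map_pow, hk, map_one]) hc
  set E := N ⊓ Q.comap f with hE
  have hEN : E ≤ N := inf_le_left
  have hx₁E : x₁ ∈ normalizer (E : Set Γ) := by
    rw [Subgroup.mem_normalizer_iff]
    intro e
    rw [hE, Subgroup.mem_inf, Subgroup.mem_inf, Subgroup.mem_comap, Subgroup.mem_comap, map_mul, map_mul, map_inv, hfx₁]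
    rw [Subgroup.mem_normalizer_iff.mp hxQ (f e)]
    constructor
    · rintro ⟨h1, h2⟩
      exact ⟨mul_mem (mul_mem hx₁N h1) (inv_mem hx₁N), h2⟩
    · rintro ⟨h1, h2⟩
      refine ⟨?_, h2⟩
      have h3 := mul_mem (mul_mem (inv_mem hx₁N) h1) hx₁N
      have h4 : x₁⁻¹ * (x₁ * e * x₁⁻¹) * x₁ = e := by group
      rwa [h4] at h3
  obtain ⟨T, hT⟩ := exists_isSylIn r E
  obtain ⟨e₀, he₀, he₀'⟩ := (hT.smul hx₁E).conj hT
  -- the product normalises `T`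
  have hnT : e₀ * x₁ ∈ normalizer (T : Set Γ) := by
    apply H1.SZ.mem_normalizer_of_conj_smul_eq
    rw [map_mul, mul_smul]
    exact he₀'
  obtain ⟨c₂, ⟨k₂, hk₂⟩, hc₂⟩ := exists_two_part (e₀ * x₁) k₁
  set h := (e₀ * x₁) ^ c₂ with hh
  have hhN : h ∈ N := pow_mem (mul_mem (hEN he₀) hx₁N) c₂
  have hhT : h ∈ normalizer (T : Set Γ) := pow_mem hnT c₂
  have hhx : h * x₁⁻¹ ∈ E := by
    have h1 := mul_pow_mem he₀ hx₁E c₂
    rwa [pow_eq_self hk₁ hc₂, ← hh] at h1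
  refine ⟨T, h, hT.isPGroup, hT.1.trans hEN, hhN, hhT, ⟨k₂, hk₂⟩, ?_⟩
  intro hle
  -- the image of `T` is `Q`
  have hTQ : ∀ q ∈ Q, ∃ t ∈ T, f t = q := by
    obtain ⟨P, hP⟩ := hT.exists_sylow
    have hfE : ∀ e : E, f e ∈ Q := fun e => e.2.2
    let f' : E →* Q := (f.comp E.subtype).codRestrict Q hfE
    have hf' : Function.Surjective f' := by
      rintro ⟨q, hq⟩
      obtain ⟨g, hg, hgq⟩ := hN q
      exact ⟨⟨g, Subgroup.mem_inf.mpr ⟨hg, by rw [Subgroup.mem_comap, hgq]; exact hq⟩⟩, Subtype.ext hgq⟩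
    have h1 := syl_surj f' hf' hQ P
    intro q hq
    have h2 : (⟨q, hq⟩ : Q) ∈ (P : Subgroup E).map f' := by rw [h1]; trivial
    obtain ⟨t, ht, htq⟩ := h2
    refine ⟨t, ?_, congrArg Subtype.val htq⟩
    rw [← hP]
    exact ⟨t, ht, rfl⟩
  -- so the image of `h ^ 2 ^ n` centralises `Q`
  have hcent : (f h) ^ 2 ^ n ∈ centralizer (Q : Set Δ) := by
    rw [mem_centralizer_iff]
    intro q hq
    obtain ⟨t, ht, rfl⟩ := hTQ q hq
    have h1 : ⁅t, h ^ 2 ^ n⁆ ∈ f.ker := hle (commutator_mem_commutator ht (mem_zpowers _))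
    rw [MonoidHom.mem_ker, map_commutatorElement, commutatorElement_eq_one_iff_mul_comm, map_pow] at h1
    exact h1
  apply hyQ
  -- compare
  have hv : (f h) ^ 2 ^ n * ((f x) ^ 2 ^ n)⁻¹ ∈ Q := by
    have h1 : f (h * x₁⁻¹) ∈ Q := hhx.2
    have h2 := mul_pow_mem h1 hxQ (2 ^ n)
    have h3 : f (h * x₁⁻¹) * f x = f h := by rw [map_mul, map_inv, hfx₁, inv_mul_cancel_right]
    rwa [h3] at h2
  set v := (f h) ^ 2 ^ n * ((f x) ^ 2 ^ n)⁻¹ with hvdef
  set A := (f h) ^ 2 ^ n with hA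
  set B := (f x) ^ 2 ^ n with hB
  have hcomm : Commute v⁻¹ A := mem_centralizer_iff.mp hcent v⁻¹ (inv_mem hv)
  have hBv : B = v⁻¹ * A := by rw [hvdef]; group
  have hA1 : A ^ 2 ^ (k + k₂) = 1 := by
    rw [hA, ← pow_mul, mul_comm, pow_mul, pow_add, mul_comm (2 ^ k), pow_mul, ← map_pow f h, hk₂, map_one, one_pow, one_pow]
  have hB1 : B ^ 2 ^ (k + k₂) = 1 := by
    rw [hB, ← pow_mul, mul_comm, pow_mul, pow_add, pow_mul, ← map_pow f x, hk, map_one, one_pow, one_pow]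
  have hv1 : v⁻¹ ^ 2 ^ (k + k₂) = 1 := by
    have h1 := hB1
    rw [hBv, hcomm.mul_pow, hA1, mul_one] at h1
    exact h1
  have hv2 : v = 1 := by
    rw [inv_pow, inv_eq_one] at hv1
    have h1 := orderOf_dvd_of_pow_eq_one hv1
    obtain ⟨l, hl⟩ := hQ ⟨v, hv⟩
    have h2 : v ^ r ^ l = 1 := congrArg Subtype.val hl
    have h3 := orderOf_dvd_of_pow_eq_one h2
    have h4 : Nat.Coprime (2 ^ (k + k₂)) (r ^ l) := Nat.Coprime.pow _ _ ((Nat.coprime_primes Nat.prime_two hr.out).2 (Ne.symm hr2))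
    have h5 := Nat.dvd_gcd h1 h3
    rw [h4] at h5
    exact orderOf_eq_one_iff.mp (Nat.dvd_one.mp h5)
  rw [hBv, hv2, inv_one, one_mul]
  exact hcent

/-- the second level configuration -/
theorem exists_conf {F : Type*} [Field F] {V : Type*} [AddCommGroup V] [Module F V] {ρ : Γ →* Module.End F V} {n : ℕ}
    (h : Hyp n ρ) {r : ℕ} [hr : Fact r.Prime] (hr2 : r ≠ 2)
    (S T : Subgroup Γ) (x : Γ) (hS : IsPGroup 2 S) (hT : IsPGroup r T) (hTS : T ≤ normalizer (S : Set Γ))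
    (hxS : x ∈ normalizer (S : Set Γ)) (hxT : x ∈ normalizer (T : Set Γ)) (hx : ∃ k, x ^ 2 ^ k = 1)
    (hTy : ⁅T, zpowers (x ^ 2 ^ n)⁆ = T) (hne : ¬ T ≤ centralizer (S : Set Γ)) :
    ∃ R : Subgroup Γ, R ≠ ⊥ ∧ Conf n r R T x := by
  classical
  obtain ⟨R, hR, hmin⟩ : ∃ R : Subgroup Γ, (R ≤ S ∧ x ∈ normalizer (R : Set Γ) ∧ T ≤ normalizer (R : Set Γ) ∧ ¬ T ≤ centralizer (R : Set Γ)) ∧
      ∀ K ≤ R, x ∈ normalizer (K : Set Γ) → T ≤ normalizer (K : Set Γ) → K ≠ R → T ≤ centralizer (K : Set Γ) := by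
    obtain ⟨R, hR⟩ := (Set.toFinite {K : Subgroup Γ | K ≤ S ∧ x ∈ normalizer (K : Set Γ) ∧ T ≤ normalizer (K : Set Γ) ∧
      ¬ T ≤ centralizer (K : Set Γ)}).exists_minimal ⟨S, le_rfl, hxS, hTS, hne⟩
    refine ⟨R, hR.prop, fun K hK hxK hTK hKR => ?_⟩
    by_contra hcon
    exact hKR (le_antisymm hK (hR.le_of_le ⟨hK.trans hR.prop.1, hxK, hTK, hcon⟩ hK))
  obtain ⟨hRS, hxR, hTR, hTRn⟩ := hR
  have hR2 : IsPGroup 2 R := hS.to_le hRS
  have h2 : ∀ s ∈ R, ∃ k, (s * x⁻¹) ^ 2 ^ k = 1 := fun s hs => mem_sup_isPGroup hR2 hx hxR hs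
  have hna := nonab (n := n) hr2 R T x hR2 hT hTR hxR hxT hTy (fun s hs => h.exp _ (h2 s hs)) hTRn
  have hTTT : ⁅T, T⁆ ≤ T := Subgroup.commutator_le_self T
  have hTTR : ⁅T, T⁆ ≤ normalizer (R : Set Γ) := hTTT.trans hTR
  have hRs : Group.IsSolvable R := by
    haveI : Fact (Nat.Prime 2) := ⟨Nat.prime_two⟩
    have := hR2.isNilpotent
    infer_instance
  have hcop : (Nat.card (⁅T, T⁆ : Subgroup Γ)).Coprime (Nat.card R) := by
    haveI : Fact (Nat.Prime 2) := ⟨Nat.prime_two⟩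
    obtain ⟨k, hk⟩ := IsPGroup.iff_card.mp (hT.to_le hTTT)
    obtain ⟨l, hl⟩ := IsPGroup.iff_card.mp hR2
    rw [hk, hl]
    exact Nat.Coprime.pow _ _ ((Nat.coprime_primes hr.out Nat.prime_two).2 hr2)
  have hRT : ⁅R, ⁅T, T⁆⁆ = R := by
    by_contra hne'
    have hzx : zpowers x ≤ normalizer (T : Set Γ) := by rw [zpowers_le]; exact hxT
    have hzR : zpowers x ≤ normalizer (R : Set Γ) := by rw [zpowers_le]; exact hxR
    have h1 := hmin ⁅R, ⁅T, T⁆⁆ (commutator_le_left hTTR)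
      ((le_normalizer_commutator hzR (le_normalizer_commutator hzx hzx)) (mem_zpowers x))
      (le_normalizer_commutator hTR (le_normalizer_commutator Subgroup.le_normalizer Subgroup.le_normalizer)) hne'
    apply hna
    have h3 : ⁅⁅R, ⁅T, T⁆⁆, ⁅T, T⁆⁆ = ⊥ := by
      rw [Subgroup.commutator_comm]
      exact Subgroup.commutator_eq_bot_iff_le_centralizer.2 (hTTT.trans h1)
    have h4 := commutator_eq_bot_of ⁅T, T⁆ R hTTR hcop (Or.inr hRs) h3
    rw [Subgroup.commutator_comm] at h4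
    exact Subgroup.commutator_eq_bot_iff_le_centralizer.1 h4
  refine ⟨R, ?_, ⟨hR2, hT, hTR, hxR, hxT, hTy, hRT, h2, hmin⟩⟩
  rintro rfl
  apply hTRn
  intro t _
  rw [mem_centralizer_iff]
  intro b hb
  rw [SetLike.mem_coe, Subgroup.mem_bot] at hb
  rw [hb, one_mul, mul_one]

end step1

section claim

variable {Γ : Type u} [Group Γ] [Finite Γ] {F : Type*} [Field F] [IsAlgClosed F] [CharP F 2] {V : Type*} [AddCommGroup V] [Module F V]
  [FiniteDimensional F V]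

/-- **the main claim** -/
theorem claimC (hs : Group.IsSolvable Γ) (hcore : pCore 2 Γ = ⊥) {n : ℕ} {ρ : Γ →* Module.End F V} (h : Hyp n ρ) (x : Γ)
    (hx : ∃ k, x ^ 2 ^ k = 1) :
    QuotientGroup.mk' (pPrimeCore 2 Γ) (x ^ 2 ^ n) ∈ pCore 2 (Γ ⧸ pPrimeCore 2 Γ) := by
  classical
  haveI h2p : Fact (Nat.Prime 2) := ⟨Nat.prime_two⟩
  by_contra hcon
  set M := pPrimeCore 2 Γ with hM
  haveI hMn : M.Normal := inferInstance
  set X := Γ ⧸ M with hX
  have hXs : Group.IsSolvable X := Group.isSolvable_of_surjective (f := QuotientGroup.mk' M) (QuotientGroup.mk'_surjective M)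
  have hXps : IsPSolvable 2 X := H37.QuadCore.isPSolvable_of_isSolvable 2 _ X hXs rfl
  have hXcore : pPrimeCore 2 X = ⊥ := H1.Cores.pPrimeCore_quotient_pPrimeCore 2
  obtain ⟨k, hk⟩ := hx
  obtain ⟨r, hr, hr2, Q, hQ, hxQ, hyQ⟩ := H1.PModV.exists_q hXps (QuotientGroup.mk' M x) k (by rw [← map_pow, hk, map_one]) n
    (by rw [← map_pow]; exact hcon)
  haveI := Fact.mk hr
  set f₁ : Γ →* X := QuotientGroup.mk' M with hf₁
  set f₂ : X →* X ⧸ pCore 2 X := QuotientGroup.mk' (pCore 2 X) with hf₂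
  set f := f₂.comp f₁ with hf
  have hfker : ∀ g, g ∈ f.ker ↔ f₁ g ∈ pCore 2 X := fun g => by
    rw [MonoidHom.mem_ker]
    exact QuotientGroup.eq_one_iff _
  have hfsurj : Function.Surjective f := (QuotientGroup.mk'_surjective _).comp (QuotientGroup.mk'_surjective _)
  -- Sylow 2-subgroup of the kernel
  set L := f.ker with hL
  obtain ⟨P⟩ : Nonempty (Sylow 2 L) := inferInstance
  set S := (P : Subgroup L).map L.subtype with hS
  have hS2 : IsPGroup 2 S := P.2.map _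
  have hfrat : normalizer (S : Set Γ) ⊔ L = ⊤ := Sylow.normalizer_sup_eq_top P
  have hN : ∀ d, ∃ g ∈ normalizer (S : Set Γ), f g = d := by
    intro d
    obtain ⟨g, rfl⟩ := hfsurj d
    have hg : g ∈ normalizer (S : Set Γ) ⊔ L := by rw [hfrat]; trivial
    obtain ⟨a, ha, b, hb, rfl⟩ := H37.Syl.exists_mul_of_mem_sup (fun u _ => mem_norm L u) hg
    refine ⟨a, ha, ?_⟩
    rw [map_mul, MonoidHom.mem_ker.mp hb, mul_one]
  obtain ⟨T₀, g, hT₀, hT₀N, hgN, hgT₀, hg2, hgT₀L⟩ := exists_T f (normalizer (S : Set Γ)) hN hr2 Q hQ n x ⟨k, hk⟩ hxQ (by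
    exact hyQ)
  -- centraliser of `S`
  have hCS : centralizer (S : Set Γ) ≤ L := by
    intro c hc
    rw [hL, hfker]
    have h1 := H37.PSolv.centralizer_pCore_le hXps hXcore
    apply h1
    rw [mem_centralizer_iff]
    intro u hu
    have hf1 : ∀ l : L, f₁ l ∈ pCore 2 X := fun l => (hfker l).mp l.2
    let f' : L →* pCore 2 X := (f₁.comp L.subtype).codRestrict (pCore 2 X) hf1
    have hf' : Function.Surjective f' := by
      rintro ⟨w, hw⟩
      obtain ⟨g, rfl⟩ := QuotientGroup.mk'_surjective M w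
      exact ⟨⟨g, (hfker g).mpr hw⟩, rfl⟩
    have h2 := syl_surj f' hf' (H1.Cores.isPGroup_pCore 2) P
    have h3 : (⟨u, hu⟩ : pCore 2 X) ∈ (P : Subgroup L).map f' := by rw [h2]; trivial
    obtain ⟨s, hs, hsu⟩ := h3
    have h4 : f₁ (s : Γ) = u := congrArg Subtype.val hsu
    have h5 := mem_centralizer_iff.mp hc (s : Γ) ⟨s, hs, rfl⟩
    rw [← h4, ← map_mul, h5, map_mul]
  set y := g ^ 2 ^ n with hy
  have hyT₀ : zpowers y ≤ normalizer (T₀ : Set Γ) := by rw [zpowers_le]; exact pow_mem hgT₀ _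
  have hzg : zpowers g ≤ normalizer (T₀ : Set Γ) := by rw [zpowers_le]; exact hgT₀
  set T := ⁅T₀, zpowers y⁆ with hT
  have hTT₀ : T ≤ T₀ := commutator_le_left hyT₀
  have hcop : (Nat.card (zpowers y)).Coprime (Nat.card T₀) := by
    obtain ⟨j, hj⟩ := IsPGroup.iff_card.mp hT₀
    rw [hj, Nat.card_zpowers]
    apply Nat.Coprime.pow_right
    obtain ⟨k', hk'⟩ := hg2
    have h1 : orderOf y ∣ 2 ^ k' := orderOf_dvd_of_pow_eq_one (by rw [hy, ← pow_mul, mul_comm, pow_mul, hk', one_pow])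
    exact Nat.Coprime.coprime_dvd_left h1 (Nat.Coprime.pow_left _ ((Nat.coprime_primes Nat.prime_two hr).2 (Ne.symm hr2)))
  have hsy : Group.IsSolvable (zpowers y) := by infer_instance
  obtain ⟨R, hR1, hc⟩ := exists_conf (n := n) (r := r) h hr2 S T g hS2 (hT₀.to_le hTT₀) (hTT₀.trans hT₀N) hgN
    ((le_normalizer_commutator hzg (H1.ThmB.zpowers_le_normalizer_pow g _)) (mem_zpowers g)) hg2
    (commutator_commutator_eq (zpowers y) T₀ hyT₀ hcop (Or.inl hsy)) (fun h1 => hgT₀L (h1.trans hCS))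
  exact hR1 (no_conf hs hcore hr2 hc h)

end claim

end H1.Gr
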