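import Cfsg.Agent.Lib.H1.GrI
import Cfsg.Agent.Lib.H1.DLc

/-!
Gross's bound on the `2`-length.
-/

set_option autoImplicit false

open Subgroup Module H1.Coprime2 H1.Coprime Cfsg
open scoped commutatorElement Pointwise

namespace H1.Gr

universe u

section quot

variable {G : Type u} [Group G] [Finite G]

theorem exists_two_lift {Δ : Type*} [Group Δ] (f : G →* Δ) (hf : Function.Surjective f) (g : Δ) (hg : ∃ k, g ^ 2 ^ k = 1) :
    ∃ a : G, (∃ k, a ^ 2 ^ k = 1) ∧ f a = g := by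
  obtain ⟨k, hk⟩ := hg
  obtain ⟨b, rfl⟩ := hf g
  obtain ⟨c, hc1, hc2⟩ := exists_two_part b k
  exact ⟨b ^ c, hc1, by rw [map_pow]; exact pow_eq_self hk hc2⟩

theorem exp_quot {Δ : Type*} [Group Δ] (f : G →* Δ) (hf : Function.Surjective f) {m : ℕ}
    (h : ∀ g : G, (∃ k, g ^ 2 ^ k = 1) → g ^ 2 ^ m = 1) (g : Δ) (hg : ∃ k, g ^ 2 ^ k = 1) : g ^ 2 ^ m = 1 := by
  obtain ⟨a, ha, rfl⟩ := exists_two_lift f hf g hg
  rw [← map_pow, h a ha, map_one]

end quot

theorem hyp_of {X : Type u} [Group X] [Finite X] (hX : IsPSolvable 2 X) (hcore : pPrimeCore 2 X = ⊥) (K : Type*) [Field K] [CharP K 2] {n : ℕ}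
    (hexp : ∀ g : X, (∃ k, g ^ 2 ^ k = 1) → g ^ 2 ^ (n + 1) = 1) : Hyp n (H1.PModV.qrep (pCore 2 X) K) := by
  haveI : Fact (Nat.Prime 2) := ⟨Nat.prime_two⟩
  refine ⟨fun g h1 => H1.DLc.qrep_inj K hX hcore g h1, exp_quot _ (QuotientGroup.mk'_surjective _) hexp, ?_⟩
  intro g hg v
  obtain ⟨a, ha, rfl⟩ := exists_two_lift (QuotientGroup.mk' (pCore 2 X)) (QuotientGroup.mk'_surjective _) g hg
  refine DFunLike.ext _ _ fun s => ?_
  obtain ⟨s, rfl⟩ : ∃ s' : pCore 2 X, Additive.ofMul s' = s := ⟨s.toMul, rfl⟩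
  have h1 := H1.PModV.norm_apply (pCore 2 X) K a v s (2 ^ (n + 1))
  rw [h1]
  have h2 : (⟨((s : X) * a⁻¹) ^ 2 ^ (n + 1) * a ^ 2 ^ (n + 1), H1.PModV.norm_mem (pCore 2 X) a s (2 ^ (n + 1))⟩ : pCore 2 X) = 1 := by
    apply Subtype.ext
    change ((s : X) * a⁻¹) ^ 2 ^ (n + 1) * a ^ 2 ^ (n + 1) = 1
    rw [hexp a ha, mul_one]
    exact hexp _ (mem_sup_isPGroup (H1.Cores.isPGroup_pCore 2) ha (mem_norm _ a) s.2)
  rw [h2, ofMul_one, map_zero]
  rfl

theorem base (G : Type u) [Group G] [Finite G] (hG : Group.IsSolvable G)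
    (hexp : ∀ g : G, (∃ k, g ^ 2 ^ k = 1) → g ^ 2 = 1) : PLengthLE 2 1 G := by
  haveI h2p : Fact (Nat.Prime 2) := ⟨Nat.prime_two⟩
  set N := pPrimeCore 2 G with hN
  have hNn : N.Normal := inferInstance
  apply H66.PLen.pLengthLE_of_quotient_coprime N (H1.Cores.coprime_card_pPrimeCore 2)
  have hXs : Group.IsSolvable (G ⧸ N) := Group.isSolvable_of_surjective (f := QuotientGroup.mk' N) (QuotientGroup.mk'_surjective N)
  have hX : IsPSolvable 2 (G ⧸ N) := H37.QuadCore.isPSolvable_of_isSolvable 2 _ _ hXs rfl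
  have hcore : pPrimeCore 2 (G ⧸ N) = ⊥ := H1.Cores.pPrimeCore_quotient_pPrimeCore 2
  have hexpX : ∀ g : G ⧸ N, (∃ k, g ^ 2 ^ k = 1) → g ^ 2 ^ 1 = 1 :=
    exp_quot (m := 1) _ (QuotientGroup.mk'_surjective _) (by rw [pow_one]; exact hexp)
  rw [pow_one] at hexpX
  refine H66.PLen.pLengthLE_succ_of (⊥ : Subgroup (G ⧸ N)) (pCore 2 (G ⧸ N)) bot_le (by simp) ?_ ?_
  · rw [Subgroup.relIndex_bot_left]
    exact IsPGroup.iff_card.mp (H1.Cores.isPGroup_pCore 2)
  · rw [H66.PLen.pLengthLE_zero_iff, Nat.coprime_comm, Nat.prime_two.coprime_iff_not_dvd]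
    intro hdvd
    obtain ⟨y, hy⟩ := exists_prime_orderOf_dvd_card' (G := (G ⧸ N) ⧸ pCore 2 (G ⧸ N)) 2 hdvd
    obtain ⟨a, ha, rfl⟩ := exists_two_lift (QuotientGroup.mk' (pCore 2 (G ⧸ N))) (QuotientGroup.mk'_surjective _) y
      ⟨1, by rw [pow_one]; have := pow_orderOf_eq_one y; rwa [hy] at this⟩
    have h1 : a ∈ pCore 2 (G ⧸ N) := by
      apply H37.PSolv.centralizer_pCore_le hX hcore
      rw [mem_centralizer_iff]
      intro s hs
      have e1 := hexpX a ha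
      have e2 : s ^ 2 = 1 := by
        apply hexpX
        obtain ⟨k, hk⟩ := (H1.Cores.isPGroup_pCore (G := G ⧸ N) 2) ⟨s, hs⟩
        exact ⟨k, congrArg Subtype.val hk⟩
      have e3 : (s * a⁻¹) ^ 2 = 1 := hexpX _ (mem_sup_isPGroup (H1.Cores.isPGroup_pCore 2) ha (mem_norm _ a) hs)
      have e4 : a⁻¹ = a := by rw [inv_eq_iff_mul_eq_one, ← pow_two, e1]
      have e5 : s⁻¹ = s := by rw [inv_eq_iff_mul_eq_one, ← pow_two, e2]
      rw [e4] at e3
      have e6 : (s * a)⁻¹ = s * a := by rw [inv_eq_iff_mul_eq_one, ← pow_two, e3]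
      rw [← e6, mul_inv_rev, e4, e5]
    have h2 : QuotientGroup.mk' (pCore 2 (G ⧸ N)) a = 1 := (QuotientGroup.eq_one_iff _).mpr h1
    rw [h2, orderOf_one] at hy
    norm_num at hy

theorem main (n : ℕ) : ∀ (G : Type u) [Group G] [Finite G], Group.IsSolvable G →
    (∀ g : G, (∃ k, g ^ 2 ^ k = 1) → g ^ 2 ^ (n + 1) = 1) → PLengthLE 2 (2 * n + 1) G := by
  haveI h2p : Fact (Nat.Prime 2) := ⟨Nat.prime_two⟩
  induction n with
  | zero =>
    intro G _ _ hG hexp
    refine base G hG ?_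
    intro g hg
    have := hexp g hg
    rwa [zero_add, pow_one] at this
  | succ n ih =>
    intro G _ _ hG hexp
    set N := pPrimeCore 2 G with hN
    have hNn : N.Normal := inferInstance
    apply H66.PLen.pLengthLE_of_quotient_coprime N (H1.Cores.coprime_card_pPrimeCore 2)
    set X := G ⧸ N with hXdef
    have hXs : Group.IsSolvable X := Group.isSolvable_of_surjective (f := QuotientGroup.mk' N) (QuotientGroup.mk'_surjective N)
    have hX : IsPSolvable 2 X := H37.QuadCore.isPSolvable_of_isSolvable 2 _ _ hXs rfl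
    have hcore : pPrimeCore 2 X = ⊥ := H1.Cores.pPrimeCore_quotient_pPrimeCore 2
    have hexpX := exp_quot (QuotientGroup.mk' N) (QuotientGroup.mk'_surjective _) hexp
    let K := AlgebraicClosure (ZMod 2)
    haveI hcharK : CharP K 2 := charP_of_injective_algebraMap (algebraMap (ZMod 2) K).injective 2
    have hhyp := hyp_of hX hcore K hexpX
    have e1 : 2 * (n + 1) + 1 = (2 * n + 2) + 1 := by ring
    rw [e1]
    refine H66.PLen.pLengthLE_succ_of (⊥ : Subgroup X) (pCore 2 X) bot_le (by simp) ?_ ?_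
    · rw [Subgroup.relIndex_bot_left]
      exact IsPGroup.iff_card.mp (H1.Cores.isPGroup_pCore 2)
    set Γ := X ⧸ pCore 2 X with hΓ
    have hΓs : Group.IsSolvable Γ := Group.isSolvable_of_surjective (f := QuotientGroup.mk' (pCore 2 X)) (QuotientGroup.mk'_surjective _)
    have hΓcore : pCore 2 Γ = ⊥ := H1.Cores.pCore_quotient_pCore 2
    set M := pPrimeCore 2 Γ with hM
    have hMn : M.Normal := inferInstance
    apply H66.PLen.pLengthLE_of_quotient_coprime M (H1.Cores.coprime_card_pPrimeCore 2)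
    have e2 : 2 * n + 2 = (2 * n + 1) + 1 := by ring
    rw [e2]
    refine H66.PLen.pLengthLE_succ_of (⊥ : Subgroup (Γ ⧸ M)) (pCore 2 (Γ ⧸ M)) bot_le (by simp) ?_ ?_
    · rw [Subgroup.relIndex_bot_left]
      exact IsPGroup.iff_card.mp (H1.Cores.isPGroup_pCore 2)
    have hMs : Group.IsSolvable (Γ ⧸ M) := Group.isSolvable_of_surjective (f := QuotientGroup.mk' M) (QuotientGroup.mk'_surjective _)
    have hYs : Group.IsSolvable ((Γ ⧸ M) ⧸ pCore 2 (Γ ⧸ M)) :=
      Group.isSolvable_of_surjective (f := QuotientGroup.mk' (pCore 2 (Γ ⧸ M))) (QuotientGroup.mk'_surjective _)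
    apply ih _ hYs
    intro g hg
    obtain ⟨x, hx, hxg⟩ := exists_two_lift ((QuotientGroup.mk' (pCore 2 (Γ ⧸ M))).comp (QuotientGroup.mk' M))
      ((QuotientGroup.mk'_surjective _).comp (QuotientGroup.mk'_surjective _)) g hg
    have h1 := claimC hΓs hΓcore hhyp x hx
    rw [← hxg, ← map_pow]
    exact (QuotientGroup.eq_one_iff _).mpr h1

end H1.Gr
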