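import Cfsg.Agent.Lib.H1.GrC
import Cfsg.Agent.Lib.H3.MaxAbelian

/-!
Operators of small rank in a `p`-group of matrices in characteristic two commuting with a Frobenius twist.
-/

set_option autoImplicit false

open Subgroup Module H1.StrLem H30.Wts
open scoped commutatorElement Pointwise

namespace H1.Hx

variable {K : Type*} [Field K] {U : Type*} [AddCommGroup U] [Module K U] [FiniteDimensional K U] {H : Type*} [Group H]

/-- weights moved by `y`, containing no full orbit of `y`, bound the rank of `y - 1` -/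
theorem rank_ge2 [Finite H] (σ : H →* Module.End K U) (A : Subgroup H) [A.Normal] (hA : (Nat.card A : K) ≠ 0) (y : H)
    {ι : Type*} [Fintype ι] (ζ : ι → (A →* Kˣ)) (hinj : Function.Injective ζ)
    (hw : ∀ i, wt (σ.comp A.subtype) (ζ i) ≠ ⊥)
    (hmv : ∀ i, ∃ t : ℕ, ∀ j, cch A (y ^ t) (H1.Gr.mem_norm A _) (ζ i) ≠ ζ j) :
    Fintype.card ι ≤ finrank K (LinearMap.range (σ y - 1)) := by
  classical
  haveI := Fintype.ofFinite A
  have hA' : (Fintype.card A : K) ≠ 0 := by rwa [← Nat.card_eq_fintype_card]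
  have h1 : ∀ i, ∃ w, w ∈ wt (σ.comp A.subtype) (ζ i) ∧ w ≠ 0 := fun i => by
    obtain ⟨w, hw1, hw2⟩ := Submodule.exists_mem_ne_zero_of_ne_bot (hw i)
    exact ⟨w, hw1, hw2⟩
  choose w hw1 hw2 using h1
  have hli : LinearIndependent K (fun i : ι => (⟨(σ y - 1) (w i), ⟨w i, rfl⟩⟩ : LinearMap.range (σ y - 1))) := by
    rw [Fintype.linearIndependent_iff]
    intro c hc j
    have h2 : ∑ i, c i • ((σ y - 1) (w i)) = 0 := by
      have := congrArg Subtype.val hc
      rw [AddSubmonoidClass.coe_finsetSum] at this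
      exact this
    by_contra hcj
    -- the support is invariant
    have hstep : ∀ i, c i ≠ 0 → ∃ i', c i' ≠ 0 ∧ ζ i' = cch A y (H1.Gr.mem_norm A y) (ζ i) := by
      intro i hci
      by_contra hcon
      push Not at hcon
      have h3 := congrArg (proj (σ.comp A.subtype) (cch A y (H1.Gr.mem_norm A y) (ζ i))) h2
      rw [map_sum, map_zero, Finset.sum_eq_single i] at h3
      · rw [map_smul, LinearMap.sub_apply, Module.End.one_apply, map_sub,
          proj_of_mem hA' _ _ (map_wt σ A y (H1.Gr.mem_norm A y) (hw1 i)),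
          proj_of_mem_ne (σ.comp A.subtype) (Ne.symm (hcon i hci)) (hw1 i), sub_zero] at h3
        rcases smul_eq_zero.1 h3 with h4 | h4
        · exact hci h4
        · exact H1.Gr.apply_ne_zero σ y (hw2 i) h4
      · intro i' _ hii
        by_cases hci' : c i' = 0
        · rw [hci', zero_smul, map_zero]
        rw [map_smul, LinearMap.sub_apply, Module.End.one_apply, map_sub,
          proj_of_mem_ne (σ.comp A.subtype) (Ne.symm (hcon i' hci')) (hw1 i'), sub_zero,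
          proj_of_mem_ne (σ.comp A.subtype) ?_ (map_wt σ A y (H1.Gr.mem_norm A y) (hw1 i')), smul_zero]
        intro h
        apply hii
        apply hinj
        letI := H1.Gr.chAct K A
        have h5 : y • ζ i = y • ζ i' := h
        exact (MulAction.injective y h5).symm
      · intro h; exact absurd (Finset.mem_univ _) h
    obtain ⟨t, ht⟩ := hmv j
    have hpow : ∀ t : ℕ, ∃ i', c i' ≠ 0 ∧ ζ i' = cch A (y ^ t) (H1.Gr.mem_norm A _) (ζ j) := by
      intro t
      induction t with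
      | zero =>
        refine ⟨j, hcj, ?_⟩
        letI := H1.Gr.chAct K A
        have h5 : (y ^ 0 : H) • ζ j = ζ j := by rw [pow_zero, one_smul]
        exact h5.symm
      | succ t ih =>
        obtain ⟨i', hi', hi''⟩ := ih
        obtain ⟨i₂, hi₂, hi₂'⟩ := hstep i' hi'
        refine ⟨i₂, hi₂, ?_⟩
        letI := H1.Gr.chAct K A
        have h5 : (y ^ (t + 1) : H) • ζ j = y • ((y ^ t : H) • ζ j) := by rw [pow_succ', mul_smul]
        have h6 : (y ^ t : H) • ζ j = ζ i' := hi''.symm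
        rw [h6] at h5
        rw [hi₂']
        exact h5.symm
    obtain ⟨i', _, hi'⟩ := hpow t
    exact ht i' hi'.symm
  exact hli.fintype_card_le_finrank

/-- numerical input -/
theorem num {p b m : ℕ} (hp : 3 ≤ p) (hb : 1 ≤ b) (hm : p ^ b - 1 = 2 ^ m) : m < p ^ b - p ^ (b - 1) := by
  obtain ⟨c, rfl⟩ : ∃ c, b = c + 1 := ⟨b - 1, by omega⟩
  rw [Nat.add_sub_cancel]
  have h1 : 1 ≤ p ^ c := Nat.one_le_pow _ _ (by omega)
  have h2 : 3 * p ^ c ≤ p ^ (c + 1) := by rw [pow_succ, mul_comm]; exact Nat.mul_le_mul_left _ hp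
  have h3 : p ^ (c + 1) = 2 ^ m + 1 := by omega
  have h4 : ∀ m : ℕ, 3 * m < 2 * (2 ^ m + 1) := by
    intro m
    induction m with
    | zero => norm_num
    | succ m ih =>
      rcases Nat.lt_or_ge m 2 with h5 | h5
      · interval_cases m <;> norm_num
      · have h6 : 2 ^ 2 ≤ 2 ^ m := Nat.pow_le_pow_right (by norm_num) h5
        rw [pow_succ]
        omega
  have h5 := h4 m
  omega

/-- a good element: small rank, root of regular orbits -/
def Good (p : ℕ) (σ : H →* Module.End K U) (y : H) : Prop :=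
  σ y = 1 ∨ ∃ (u : H) (b m : ℕ), 1 ≤ b ∧ y = u ^ p ^ (b - 1) ∧ u ^ p ^ b = 1 ∧ p ^ b - 1 = 2 ^ m ∧
    finrank K (LinearMap.range (σ y - 1)) ≤ 2 * m

section act

/-- squares of characters -/
theorem cch_sq (A : Subgroup H) (g : H) (hg : g ∈ normalizer (A : Set H)) (χ : A →* Kˣ) (k : ℕ) :
    cch A g hg (χ ^ k) = (cch A g hg χ) ^ k := by
  ext a
  rfl

theorem weight_fixed [Finite H] {p : ℕ} [hp : Fact p.Prime] (hp2 : p ≠ 2) [CharP K 2] (hH : IsPGroup p H)
    (σ : H →* Module.End K U) (A : Subgroup H) [hAn : A.Normal]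
    (φ : U → U) (hφ0 : ∀ v, φ v = 0 → v = 0) (hφs : ∀ (c : K) v, φ (c • v) = c ^ 2 • φ v) (hφσ : ∀ h v, φ (σ h v) = σ h (φ v))
    (y : H) (hy : Good p σ y) (ζ : A →* Kˣ) (hζ : wt (σ.comp A.subtype) ζ ≠ ⊥) : cch A y (H1.Gr.mem_norm A y) ζ = ζ := by
  classical
  by_contra hne
  letI := H1.Gr.chAct K A
  have hsm : ∀ (g : H) (χ : A →* Kˣ), g • χ = cch A g (H1.Gr.mem_norm A g) χ := fun _ _ => rfl
  have hp3 : 3 ≤ p := by
    have := hp.out.two_le
    omega
  rcases hy with hy | ⟨u, b, m, hb, hy, hu, hm, hrk⟩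
  · -- trivial action
    obtain ⟨v, hv, hv0⟩ := Submodule.exists_mem_ne_zero_of_ne_bot hζ
    have h1 := map_wt σ A y (H1.Gr.mem_norm A y) hv
    rw [hy] at h1
    exact hv0 (eq_zero_of_mem hne h1 hv)
  have hpb : 0 < p ^ b := pow_pos hp.out.pos _
  have hpb1 : 0 < p ^ (b - 1) := pow_pos hp.out.pos _
  have hbb : p ^ b = p ^ (b - 1) * p := by
    rw [← pow_succ]; congr 1; omega
  have hAp : IsPGroup p A := hH.to_subgroup A
  obtain ⟨c, hc⟩ := IsPGroup.iff_card.mp hAp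
  have hAF : (Nat.card A : K) ≠ 0 := by
    rw [hc, Nat.cast_pow]
    apply pow_ne_zero
    intro h
    rw [CharP.cast_eq_zero_iff K 2 p] at h
    exact hp2 ((Nat.prime_dvd_prime_iff_eq Nat.prime_two hp.out).mp h).symm
  have hAne : Nat.card A ≠ 0 := Nat.card_pos.ne'
  -- order of `u`
  have hy1 : y ≠ 1 := by
    intro h
    apply hne
    have h1 : (1 : H) • ζ = ζ := one_smul _ _
    rw [← h] at h1
    exact h1
  have hou : orderOf u = p ^ (b - 1 + 1) := orderOf_eq_prime_pow (by rw [← hy]; exact hy1) (by rw [Nat.sub_add_cancel hb]; exact hu)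
  -- regularity of orbits of moved characters
  have hreg : ∀ χ : A →* Kˣ, y • χ ≠ χ → ∀ i : ℕ, 0 < i → i < p ^ b → u ^ i • χ ≠ χ := by
    intro χ hχ i hi hi' hfix
    apply hχ
    have h1 : u ^ i ≠ 1 := by
      intro h
      have h2 := orderOf_dvd_of_pow_eq_one h
      rw [hou, Nat.sub_add_cancel hb] at h2
      exact absurd (Nat.le_of_dvd hi h2) (by omega)
    have h2 := mem_zpowers_of_ne p (b - 1) hp.out u hou (u ^ i) (pow_mem (mem_zpowers u) _) h1
    rw [← hy] at h2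
    have h3 : zpowers (u ^ i) ≤ MulAction.stabilizer H χ := by
      rw [zpowers_le]; exact hfix
    exact h3 h2
  have hreg' : ∀ χ : A →* Kˣ, y • χ ≠ χ → ∀ i j : ℕ, i < p ^ b → j < p ^ b → u ^ i • χ = u ^ j • χ → i = j := by
    intro χ hχ
    have key : ∀ i j : ℕ, i < j → j < p ^ b → u ^ i • χ ≠ u ^ j • χ := by
      intro i j hij hj h
      have h1 : u ^ j = u ^ i * u ^ (j - i) := by rw [← pow_add]; congr 1; omega
      rw [h1, mul_smul] at h
      exact hreg χ hχ (j - i) (by omega) (by omega) (MulAction.injective (u ^ i) h).symm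
    intro i j hi hj h
    rcases lt_trichotomy i j with h1 | h1 | h1
    · exact absurd h (key i j h1 hj)
    · exact h1
    · exact absurd h.symm (key j i h1 hi)
  have hsq : ∀ (g : H) (χ : A →* Kˣ) (k : ℕ), g • (χ ^ k) = (g • χ) ^ k := fun g χ k => cch_sq A g _ χ k
  have hyζ : y • ζ ≠ ζ := hne
  have hyζ2 : y • (ζ ^ 2) ≠ ζ ^ 2 := by
    intro h
    apply hyζ
    rw [hsq] at h
    refine MonoidHom.ext fun a => Units.ext ?_
    have h1 : (((y • ζ) a : Kˣ) : K) ^ 2 = ((ζ a : Kˣ) : K) ^ 2 := by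
      have h2 := DFunLike.congr_fun h a
      have h3 : ((y • ζ) a) ^ 2 = (ζ a) ^ 2 := h2
      rw [← Units.val_pow_eq_pow_val, h3, Units.val_pow_eq_pow_val]
    have h2 : (((y • ζ) a : Kˣ) - (ζ a : Kˣ) : K) ^ 2 = 0 := by
      haveI := Fact.mk Nat.prime_two
      rw [sub_pow_char, h1, sub_self]
    exact sub_eq_zero.mp (pow_eq_zero_iff two_ne_zero |>.mp h2)
  have hdisj : ∀ i : ℕ, ζ ^ 2 ≠ u ^ i • ζ := by
    intro i hi
    have h1 : ∀ j : ℕ, ζ ^ (2 ^ j) = u ^ (i * j) • ζ := by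
      intro j
      induction j with
      | zero => rw [pow_zero, pow_one, mul_zero, pow_zero, one_smul]
      | succ j ih =>
        rw [pow_succ, pow_mul, ih, ← hsq, hi, ← mul_smul, ← pow_add]
        congr 2
    have h2 := h1 (p ^ b)
    rw [mul_comm, pow_mul, hu, one_pow, one_smul] at h2
    -- the order of `ζ`
    have h3 : ζ ^ p ^ c = 1 := by
      refine MonoidHom.ext fun a => ?_
      have h4 : a ^ p ^ c = 1 := by rw [← hc]; exact pow_card_eq_one'
      change (ζ a) ^ p ^ c = 1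
      rw [← map_pow, h4, map_one]
    have h5 : ζ ^ (2 ^ p ^ b - 1) = 1 := by
      have h6 : 1 ≤ 2 ^ p ^ b := Nat.one_le_two_pow
      have h7 : ζ ^ (2 ^ p ^ b - 1) * ζ = 1 * ζ := by
        rw [← pow_succ, Nat.sub_add_cancel h6]; exact h2.trans (one_mul ζ).symm
      exact mul_right_cancel h7
    have h6 : ¬ p ∣ 2 ^ p ^ b - 1 := by
      intro h
      have h7 : (2 ^ p ^ b : ZMod p) = 2 := by
        have : ∀ k : ℕ, (2 : ZMod p) ^ p ^ k = 2 := by
          intro k
          exact ZMod.pow_card_pow 2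
        exact this b
      have h8 : ((2 ^ p ^ b - 1 : ℕ) : ZMod p) = 0 := (ZMod.natCast_eq_zero_iff _ _).mpr h
      rw [Nat.cast_sub Nat.one_le_two_pow, Nat.cast_pow, Nat.cast_one] at h8
      have h9 : ((2 : ℕ) : ZMod p) ^ p ^ b = 2 := by
        rw [Nat.cast_ofNat]; exact h7
      rw [h9] at h8
      have h10 : (1 : ZMod p) = 0 := by
        have : (2 : ZMod p) - 1 = 1 := by norm_num
        rw [← this]; exact h8
      exact one_ne_zero h10
    have h7 : Nat.Coprime (p ^ c) (2 ^ p ^ b - 1) := Nat.Coprime.pow_left _ ((Nat.Prime.coprime_iff_not_dvd hp.out).mpr h6)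
    have h8 := Nat.dvd_gcd (orderOf_dvd_of_pow_eq_one h3) (orderOf_dvd_of_pow_eq_one h5)
    rw [h7] at h8
    have h9 : ζ = 1 := orderOf_eq_one_iff.mp (Nat.dvd_one.mp h8)
    apply hyζ
    rw [h9]
    refine MonoidHom.ext fun a => ?_
    rfl
  -- the two orbits
  let base : Bool → (A →* Kˣ) := fun e => if e then ζ ^ 2 else ζ
  have hbase : ∀ e, y • base e ≠ base e := by
    intro e
    cases e
    · exact hyζ
    · exact hyζ2
  have hbne : ∀ (i j : ℕ), i < p ^ b → u ^ i • ζ ≠ u ^ j • (ζ ^ 2) := by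
    intro i j hi h
    apply hdisj (p ^ b * j + i - j)
    have hle : j ≤ p ^ b * j := Nat.le_mul_of_pos_left _ hpb
    apply MulAction.injective (u ^ j)
    change u ^ j • (ζ ^ 2) = u ^ j • (u ^ (p ^ b * j + i - j) • ζ)
    rw [← h, ← mul_smul, ← pow_add]
    have h1 : j + (p ^ b * j + i - j) = p ^ b * j + i := by omega
    rw [h1, pow_add, pow_mul, hu, one_pow, one_mul]
  have hinjF : ∀ (e e' : Bool) (i j : ℕ), i < p ^ b → j < p ^ b → u ^ i • base e = u ^ j • base e' → e = e' ∧ i = j := by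
    intro e e' i j hi hj h
    cases e <;> cases e'
    · exact ⟨rfl, hreg' _ hyζ i j hi hj h⟩
    · exact absurd h (hbne i j hi)
    · exact absurd h.symm (hbne j i hj)
    · exact ⟨rfl, hreg' _ hyζ2 i j hi hj h⟩
  have hwb : ∀ e, wt (σ.comp A.subtype) (base e) ≠ ⊥ := by
    intro e
    cases e
    · exact hζ
    · obtain ⟨v, hv, hv0⟩ := Submodule.exists_mem_ne_zero_of_ne_bot hζ
      intro hbot
      apply hv0
      apply hφ0
      have h1 : φ v ∈ wt (σ.comp A.subtype) (ζ ^ 2) := by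
        intro a
        have h2 : σ (a : H) v = (ζ a : K) • v := hv a
        change σ (a : H) (φ v) = (((ζ ^ 2) a : Kˣ) : K) • φ v
        rw [← hφσ, h2, hφs]
        rfl
      have h3 : wt (σ.comp A.subtype) (ζ ^ 2) = ⊥ := hbot
      rw [h3] at h1
      exact (Submodule.mem_bot K).mp h1
  have hlt : p ^ (b - 1) ≤ p ^ b := Nat.pow_le_pow_right hp.out.pos (by omega)
  have hcard := rank_ge2 σ A hAF y (ι := Bool × Fin (p ^ b - p ^ (b - 1))) (fun e => u ^ (e.2 : ℕ) • base e.1) (by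
    rintro ⟨e, i⟩ ⟨e', j⟩ h
    obtain ⟨h1, h2⟩ := hinjF e e' i j (by have := i.2; omega) (by have := j.2; omega) h
    rw [h1, Fin.ext h2]) (by
    rintro ⟨e, i⟩ hbot
    obtain ⟨v, hv, hv0⟩ := Submodule.exists_mem_ne_zero_of_ne_bot (hwb e)
    have h1 := map_wt σ A (u ^ (i : ℕ)) (H1.Gr.mem_norm A _) hv
    have h2 : wt (σ.comp A.subtype) (cch A (u ^ (i : ℕ)) (H1.Gr.mem_norm A _) (base e)) = ⊥ := hbot
    rw [h2, Submodule.mem_bot] at h1
    exact H1.Gr.apply_ne_zero σ _ hv0 h1) (by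
    rintro ⟨e, i⟩
    refine ⟨p - 1 - i / p ^ (b - 1), ?_⟩
    rintro ⟨e', j⟩ h
    have h0 : (y ^ (p - 1 - (i : ℕ) / p ^ (b - 1)) : H) • (u ^ (i : ℕ) • base e) = u ^ (j : ℕ) • base e' := h
    have hi := i.2
    have hij : (i : ℕ) / p ^ (b - 1) < p - 1 := by
      rw [Nat.div_lt_iff_lt_mul hpb1]
      calc (i : ℕ) < p ^ b - p ^ (b - 1) := i.2
        _ = (p - 1) * p ^ (b - 1) := by rw [hbb, Nat.sub_mul, one_mul, mul_comm]
    set t := p - 1 - (i : ℕ) / p ^ (b - 1) with ht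
    have h1 : p ^ (b - 1) * t + i = (p - 1) * p ^ (b - 1) + (i : ℕ) % p ^ (b - 1) := by
      have h2 := Nat.div_add_mod (i : ℕ) (p ^ (b - 1))
      have h3 : p - 1 = t + (i : ℕ) / p ^ (b - 1) := by omega
      calc p ^ (b - 1) * t + i = p ^ (b - 1) * t + (p ^ (b - 1) * ((i : ℕ) / p ^ (b - 1)) + (i : ℕ) % p ^ (b - 1)) := by rw [h2]
        _ = (t + (i : ℕ) / p ^ (b - 1)) * p ^ (b - 1) + (i : ℕ) % p ^ (b - 1) := by ring
        _ = _ := by rw [← h3]
    rw [hy, ← mul_smul, ← pow_mul, ← pow_add, h1] at h0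
    have h2 : (p - 1) * p ^ (b - 1) = p ^ b - p ^ (b - 1) := by rw [hbb, Nat.sub_mul, one_mul, mul_comm]
    have h3 : (i : ℕ) % p ^ (b - 1) < p ^ (b - 1) := Nat.mod_lt _ hpb1
    obtain ⟨_, h4⟩ := hinjF e e' _ _ (by rw [h2]; omega) (by have := j.2; omega) h0
    have h5 := j.2
    rw [← h4, h2] at h5
    exact absurd h5 (by exact Nat.not_lt.mpr (Nat.le_add_right _ _)))
  rw [Fintype.card_prod, Fintype.card_bool, Fintype.card_fin] at hcard
  have := num hp3 hb hm
  omega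

/-- good elements commute -/
theorem good_commute [Finite H] [IsAlgClosed K] {p : ℕ} [hp : Fact p.Prime] (hp2 : p ≠ 2) [CharP K 2] (hH : IsPGroup p H)
    (σ : H →* Module.End K U) (hσ : ∀ h, σ h = 1 → h = 1)
    (φ : U → U) (hφ0 : ∀ v, φ v = 0 → v = 0) (hφs : ∀ (c : K) v, φ (c • v) = c ^ 2 • φ v) (hφσ : ∀ h v, φ (σ h v) = σ h (φ v))
    (y y' : H) (hy : Good p σ y) (hy' : Good p σ y') : y * y' = y' * y := by
  classical
  obtain ⟨A, ⟨hAn, hAc⟩, hmax⟩ := (Set.toFinite {A : Subgroup H | A.Normal ∧ IsMulCommutative A}).exists_maximal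
    ⟨⊥, inferInstance, ⟨⟨fun a b => Subsingleton.elim _ _⟩⟩⟩
  haveI := hAn
  have hcent := H3.MaxAbelian.centralizer_eq_of_maximal hH A hAc (fun B hB hBc hAB => le_antisymm (hmax ⟨hB, hBc⟩ hAB) hAB)
  have hAab : ∀ a ∈ A, ∀ b ∈ A, a * b = b * a := fun a ha b hb => H3.MaxAbelian.isMulCommutative_iff.mp hAc a ha b hb
  have hAp : IsPGroup p A := hH.to_subgroup A
  have hAF : (Nat.card A : K) ≠ 0 := by
    obtain ⟨c, hc⟩ := IsPGroup.iff_card.mp hAp
    rw [hc, Nat.cast_pow]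
    apply pow_ne_zero
    intro h
    rw [CharP.cast_eq_zero_iff K 2 p] at h
    exact hp2 ((Nat.prime_dvd_prime_iff_eq Nat.prime_two hp.out).mp h).symm
  have key : ∀ y, Good p σ y → y ∈ A := by
    intro y hy
    rw [← hcent, mem_centralizer_iff]
    intro a ha
    by_contra hne
    have hw : y * a * y⁻¹ * a⁻¹ ∈ A := mul_mem (hAn.conj_mem a ha y) (inv_mem ha)
    have hw1 : σ (y * a * y⁻¹ * a⁻¹) ≠ 1 := by
      intro h
      have h1 := hσ _ h
      rw [mul_inv_eq_one, mul_inv_eq_iff_eq_mul] at h1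
      exact hne h1.symm
    obtain ⟨χ, hχ, v, hv, hv0⟩ := exists_weight hAF (σ.comp A.subtype) (H1.Gr.comm_triv hAab) (a := ⟨_, hw⟩) hw1
    apply hχ
    have h1 := weight_fixed hp2 hH σ A φ hφ0 hφs hφσ y hy χ (fun h => hv0 ((Submodule.mem_bot K).1 (h ▸ hv)))
    have h2 := DFunLike.congr_fun h1 ⟨y * a * y⁻¹, hAn.conj_mem a ha y⟩
    rw [cch_apply] at h2
    have h3 : (⟨y⁻¹ * ((⟨y * a * y⁻¹, hAn.conj_mem a ha y⟩ : A) : H) * y, conj_mem (H1.Gr.mem_norm A y) (⟨y * a * y⁻¹, hAn.conj_mem a ha y⟩ : A).2⟩ : A) = ⟨a, ha⟩ :=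
      Subtype.ext (by simp only; group)
    rw [h3] at h2
    have h4 : (⟨y * a * y⁻¹ * a⁻¹, hw⟩ : A) = ⟨y * a * y⁻¹, hAn.conj_mem a ha y⟩ * (⟨a, ha⟩ : A)⁻¹ := Subtype.ext rfl
    rw [h4, map_mul, map_inv, ← h2, mul_inv_cancel]
  exact hAab y (key y hy) y' (key y' hy')

end act

end H1.Hx
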