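import Cfsg.Agent.Lib.H1.GrD
import Cfsg.Agent.Lib.H1.GrE

/-!
The Hall–Higman dichotomy with control of the stabiliser; the module `Hom(D / N, K)` with its Frobenius twist.
-/

set_option autoImplicit false

open Subgroup Module H1.Coprime2 H1.Coprime H1.StrLem
open scoped commutatorElement Pointwise

namespace H1.Hx

universe u

section rep

variable {Γ : Type u} [Group Γ] [Finite Γ] {F : Type*} [Field F] [IsAlgClosed F] {V : Type*} [AddCommGroup V] [Module F V]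
  [FiniteDimensional F V]

theorem dichE2 (ρ : Γ →* Module.End F V) {p q n : ℕ} [hp : Fact p.Prime] [hq : Fact q.Prime] (hpq : p ≠ q) (hqF : (q : F) ≠ 0)
    {x : Γ} (hx : orderOf x = p ^ (n + 1)) (Q Z : Subgroup Γ) (hQ : IsPGroup q Q) (hxQ : x ∈ normalizer (Q : Set Γ)) (hZQ : Z ≤ Q)
    (hxZ : x ∈ normalizer (Z : Set Γ))
    (hQZ : Q ≤ centralizer (Z : Set Γ)) (hab : ∀ a ∈ Q, ∀ b ∈ Q, a * b * a⁻¹ * b⁻¹ ∈ Z)
    (χ : Z →* Fˣ) (hwt : H30.Wts.wt (ρ.comp Z.subtype) χ ≠ ⊥) (hyχ : x ^ p ^ n ∈ St Z χ)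
    (hT : ∀ v : V, ∑ j ∈ Finset.range (p ^ (n + 1)), ρ (x ^ j) v = 0) :
    ⁅Q, zpowers (x ^ p ^ n)⁆ ≤ cmod Q (kr Z χ) (le_normalizer_kr χ hQZ) ∨
      (∃ k ≤ n, x ^ p ^ k ∈ St Z χ ∧ (∃ m, 1 ≤ m ∧ p ^ (n + 1 - k) - 1 = q ^ m) ∧
        (cmod Q (kr Z χ) (le_normalizer_kr χ hQZ)).relIndex ⁅Q, zpowers (x ^ p ^ n)⁆ = (p ^ (n + 1 - k) - 1) ^ 2) := by
  classical
  by_cases hcase : ⁅Q, zpowers (x ^ p ^ n)⁆ ≤ cmod Q (kr Z χ) (le_normalizer_kr χ hQZ)
  · exact Or.inl hcase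
  right
  have hQs : Group.IsSolvable Q := by have := hQ.isNilpotent; infer_instance
  set y := x ^ p ^ n with hy
  set D := zpowers y with hD
  have hyQ : y ∈ normalizer (Q : Set Γ) := pow_mem hxQ _
  have hyZ : y ∈ normalizer (Z : Set Γ) := pow_mem hxZ _
  have hDQ : D ≤ normalizer (Q : Set Γ) := by rw [hD, zpowers_le]; exact hyQ
  have hDZ : D ≤ normalizer (Z : Set Γ) := by rw [hD, zpowers_le]; exact hyZ
  have hDχ : D ≤ St Z χ := by rw [hD, zpowers_le]; exact hyχ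
  have hyo : orderOf y = p := H1.ThmB.orderOf_y hx
  have hcop : (Nat.card D).Coprime (Nat.card Q) := by
    rw [hD, Nat.card_zpowers, hyo]
    obtain ⟨n, hn⟩ := IsPGroup.iff_card.mp hQ
    rw [hn]
    exact Nat.Coprime.pow_right _ ((Nat.coprime_primes hp.out hq.out).2 hpq)
  set K := ⁅Q, D⁆ with hK
  have hKQ : K ≤ Q := commutator_le_left hDQ
  set Y := K ⊔ Z with hY
  have hYQ : Y ≤ Q := sup_le hKQ hZQ
  have hxx : zpowers x ≤ normalizer (D : Set Γ) := H1.ThmB.zpowers_le_normalizer_pow x _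
  have hzQ : zpowers x ≤ normalizer (Q : Set Γ) := by rw [zpowers_le]; exact hxQ
  have hzZ : zpowers x ≤ normalizer (Z : Set Γ) := by rw [zpowers_le]; exact hxZ
  have hxK : zpowers x ≤ normalizer (K : Set Γ) := le_normalizer_commutator hzQ hxx
  have hxY : x ∈ normalizer (Y : Set Γ) := (le_normalizer_sup (B := zpowers x) hxK hzZ) (mem_zpowers x)
  have hZn : Q ≤ normalizer (Z : Set Γ) := hQZ.trans (Subgroup.centralizer_le_normalizer _)
  have hS : Setup ρ p q n x Y Z :=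
    { hpq := hpq
      hqF := hqF
      hx := hx
      hQ := hQ.to_le hYQ
      hxQ := hxY
      hZQ := le_sup_right
      hxZ := hxZ
      hQZ := hYQ.trans hQZ
      hab := fun a ha b hb => hab a (hYQ ha) b (hYQ hb)
      hy := by
        intro g hg hxg
        rw [← hy] at hxg
        have h1 : K ≤ normalizer (Z : Set Γ) := hKQ.trans hZn
        obtain ⟨k, hk, z, hz, rfl⟩ := H37.Syl.exists_mul_of_mem_sup h1 hg
        apply Z.mul_mem ?_ hz
        apply H1.PQ.lemF hDQ hcop hab hk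
        have h2 : D ≤ H1.PQ.stabC Z k := by
          rw [hD, zpowers_le]
          refine ⟨hyZ, ?_⟩
          have h3 : y * k * y⁻¹ * k⁻¹ = k * z * (y * z⁻¹ * y⁻¹) * k⁻¹ := by
            have h4 : y * k = k * z * y * z⁻¹ := by
              calc y * k = y * (k * z) * z⁻¹ := by group
                _ = k * z * y * z⁻¹ := by rw [hxg]
            rw [h4]; group
          rw [h3]
          have h5 : y * z⁻¹ * y⁻¹ ∈ Z := (Subgroup.mem_normalizer_iff.mp hyZ _).mp (Z.inv_mem hz)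
          have h6 := (Subgroup.mem_normalizer_iff.mp (h1 hk) _).mp (Z.mul_mem hz h5)
          have h7 : k * (z * (y * z⁻¹ * y⁻¹)) * k⁻¹ = k * z * (y * z⁻¹ * y⁻¹) * k⁻¹ := by group
          rwa [h7] at h6
        exact fun a ha => (h2 ha).2
      hT := hT }
  have horth := H1.DL.orth (χ := χ) hQZ hab hDQ hDχ
  have hkrn := le_normalizer_kr χ hQZ
  have hne : ∃ a ∈ Y, ∃ b ∈ Y, a * b * a⁻¹ * b⁻¹ ∉ kr Z χ := by
    by_contra hcon
    push Not at hcon
    apply hcase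
    intro k hk
    rw [mem_cmod]
    refine ⟨hKQ hk, ?_⟩
    intro v hv
    obtain ⟨k', hk', c, hc, rfl⟩ := exists_mul_of_mem D Q hDQ hcop (Or.inr hQs) hv
    have h1 := hcon k (le_sup_left (b := Z) hk) k' (le_sup_left (b := Z) hk')
    have h2 := horth k hk c hc
    have h3 : k * (k' * c) * k⁻¹ * (k' * c)⁻¹ = (k * k' * k⁻¹ * k'⁻¹) * (k' * (k * c * k⁻¹ * c⁻¹) * k'⁻¹) := by group
    rw [h3]
    exact mul_mem h1 ((Subgroup.mem_normalizer_iff.mp (hkrn (hKQ hk')) _).mp h2)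
  obtain ⟨k, hk0, hkSt, _, hsq, hm, _⟩ := H1.StrLem.main hS χ hwt hne
  refine ⟨k, hk0, hkSt, hm, ?_⟩
  set N := cmod Q (kr Z χ) (le_normalizer_kr χ hQZ) with hN
  have hZN : Z ≤ N := by
    intro z hz
    rw [hN, mem_cmod]
    refine ⟨hZQ hz, fun v hv => ?_⟩
    have := mem_centralizer_iff.mp (hQZ hv) z hz
    rw [this]; simp [one_mem]
  have hNQ : N ≤ Q := cmod_le _ _ _
  have hQN : Q ≤ normalizer (N : Set Γ) := by
    apply le_normalizer_of_conj_mem
    intro g hg n hn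
    have h1 := hZN (hab g hg n (hNQ hn))
    have := N.mul_mem h1 hn
    rwa [inv_mul_cancel_right] at this
  rw [← H1.PQ.relIndex_sup_of_le (Z := Z) hZN hKQ hZQ hQN, hsq, ← hY]
  have heq : N ⊓ Y = cmod Y (kr Z χ) (le_normalizer_kr χ hS.hQZ) ⊓ Y := by
    ext y
    rw [Subgroup.mem_inf, Subgroup.mem_inf, mem_cmod, mem_cmod]
    constructor
    · rintro ⟨⟨hyQ, hy⟩, hyY⟩
      exact ⟨⟨hyY, fun h hh => hy h (hYQ hh)⟩, hyY⟩
    · rintro ⟨⟨_, hy⟩, hyY⟩
      refine ⟨⟨hYQ hyY, fun v hv => ?_⟩, hyY⟩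
      obtain ⟨k', hk', c, hc, rfl⟩ := exists_mul_of_mem D Q hDQ hcop (Or.inr hQs) hv
      have h1 := hy k' (le_sup_left (b := Z) hk')
      have h2 : y * c * y⁻¹ * c⁻¹ ∈ kr Z χ := by
        have h3 : K ≤ normalizer (Z : Set Γ) := hKQ.trans hZn
        obtain ⟨k, hk, z, hz, rfl⟩ := H37.Syl.exists_mul_of_mem_sup h3 hyY
        rw [H1.DL.comm_mul_left hQZ hab (hKQ hk) (hZQ hz) hc.1]
        have h4 := mem_centralizer_iff.mp (hQZ hc.1) z hz
        have h5 : z * c * z⁻¹ * c⁻¹ = 1 := by rw [h4]; group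
        rw [h5, mul_one]
        exact horth k hk c hc
      have h3 : y * (k' * c) * y⁻¹ * (k' * c)⁻¹ = (y * k' * y⁻¹ * k'⁻¹) * (k' * (y * c * y⁻¹ * c⁻¹) * k'⁻¹) := by group
      rw [h3]
      exact mul_mem h1 ((Subgroup.mem_normalizer_iff.mp (hkrn (hKQ hk')) _).mp h2)
  rw [← Subgroup.inf_relIndex_right N, heq, Subgroup.inf_relIndex_right]

end rep

section mod

variable {Γ : Type u} [Group Γ] [Finite Γ]

/-- generation by few elements -/
theorem genT {q : ℕ} [hq : Fact q.Prime] (t : ℕ) : ∀ (N E : Subgroup Γ), N.relIndex E ∣ q ^ t →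
    ∃ s : Fin t → Γ, (∀ i, s i ∈ E) ∧ ∀ P : Subgroup Γ, N ⊓ E ≤ P → (∀ i, s i ∈ P) → E ≤ P := by
  classical
  induction t with
  | zero =>
    intro N E h
    rw [pow_zero, Nat.dvd_one, Subgroup.relIndex_eq_one] at h
    exact ⟨fun i => i.elim0, fun i => i.elim0, fun P hP _ => (le_inf h le_rfl).trans hP⟩
  | succ t ih =>
    intro N E h
    set N₁ := N ⊓ E with hN₁
    have h0 : N₁.relIndex E = N.relIndex E := Subgroup.inf_relIndex_right N E
    by_cases h1 : E ≤ N₁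
    · exact ⟨fun _ => 1, fun _ => one_mem _, fun P hP _ => h1.trans hP⟩
    obtain ⟨e₁, he₁, he₁'⟩ := SetLike.not_le_iff_exists.mp h1
    set H₁ := N₁ ⊔ zpowers e₁ with hH₁
    have hN₁E : N₁ ≤ E := inf_le_right
    have hH₁E : H₁ ≤ E := sup_le hN₁E (by rw [zpowers_le]; exact he₁)
    have hm1 := Subgroup.relIndex_mul_relIndex N₁ H₁ E le_sup_left hH₁E
    have hx1 : N₁.relIndex H₁ ≠ 1 := by
      intro h5
      exact he₁' ((Subgroup.relIndex_eq_one.mp h5) ((le_sup_right : zpowers e₁ ≤ H₁) (mem_zpowers e₁)))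
    have hprod : N₁.relIndex H₁ * H₁.relIndex E ∣ q ^ (t + 1) := by
      rw [hm1, h0]; exact h
    obtain ⟨i, hi, hi'⟩ := (Nat.dvd_prime_pow hq.out).mp ((Dvd.intro _ rfl).trans hprod)
    obtain ⟨j, hj, hj'⟩ := (Nat.dvd_prime_pow hq.out).mp ((Dvd.intro_left _ rfl).trans hprod : H₁.relIndex E ∣ q ^ (t + 1))
    rw [hi', hj', ← pow_add] at hprod
    have h5 := (Nat.pow_dvd_pow_iff_le_right hq.out.one_lt).mp hprod
    have h6 : i ≠ 0 := by rintro rfl; exact hx1 (by rw [hi', pow_zero])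
    obtain ⟨s, hs, hgen⟩ := ih H₁ E (by rw [hj']; exact pow_dvd_pow q (by omega))
    refine ⟨Fin.cons e₁ s, ?_, ?_⟩
    · intro i
      refine Fin.cases ?_ ?_ i
      · exact he₁
      · intro i; exact hs i
    · intro P hP hsP
      have h7 : e₁ ∈ P := hsP 0
      refine hgen P ?_ (fun i => hsP i.succ)
      exact inf_le_left.trans (sup_le hP (by rw [zpowers_le]; exact h7))

theorem exists_module2 {q : ℕ} [hq : Fact q.Prime] (S D N : Subgroup Γ) (hDS : D ≤ S) (hND : N ≤ D)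
    (hSD : S ≤ normalizer (D : Set Γ)) (hSN : S ≤ normalizer (N : Set Γ)) (hDq : IsPGroup q D) :
    ∃ (K : Type) (_ : Field K) (_ : IsAlgClosed K) (_ : CharP K q) (U : Type u) (_ : AddCommGroup U) (_ : Module K U)
      (_ : FiniteDimensional K U) (τ : S →* Module.End K U),
      (∀ (B : Subgroup Γ) (hB : B ≤ S), (Nat.card B).Coprime q → (∀ (b : Γ) (hb : b ∈ B), τ ⟨b, hB hb⟩ = 1) →
        ∀ b ∈ B, ∀ d ∈ D, b * d * b⁻¹ * d⁻¹ ∈ N) ∧
      (∀ (y : S) (t : ℕ), N.relIndex ⁅D, zpowers (y : Γ)⁆ ∣ q ^ t → finrank K (LinearMap.range (τ y - 1)) ≤ t) ∧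
      ∃ φ : U → U, (∀ v, φ v = 0 → v = 0) ∧ (∀ (c : K) v, φ (c • v) = c ^ q • φ v) ∧ ∀ h v, φ (τ h v) = τ h (φ v) := by
  classical
  let K := AlgebraicClosure (ZMod q)
  haveI hcharK : CharP K q := charP_of_injective_algebraMap (algebraMap (ZMod q) K).injective q
  set N' := N.subgroupOf S with hN'
  haveI hNn : N'.Normal := Subgroup.normal_subgroupOf_of_le_normalizer hSN
  set π : S →* S ⧸ N' := QuotientGroup.mk' N' with hπ
  set D' := (D.subgroupOf S).map π with hD'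
  haveI hDn : (D.subgroupOf S).Normal := Subgroup.normal_subgroupOf_of_le_normalizer hSD
  haveI hD'n : D'.Normal := hDn.map π (QuotientGroup.mk'_surjective N')
  have hD'q : IsPGroup q D' := (hDq.of_equiv (Subgroup.subgroupOfEquivOfLe hDS).symm).map π
  have hmem : ∀ d (hd : d ∈ D), π ⟨d, hDS hd⟩ ∈ D' := fun d hd => ⟨⟨d, hDS hd⟩, hd, rfl⟩
  let τ : S →* Module.End K (H66.HomMod.V D' K) := (H66.HomMod.rep D' K : (S ⧸ N') →* Module.End K (H66.HomMod.V D' K)).comp π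
  refine ⟨K, inferInstance, inferInstance, hcharK, H66.HomMod.V D' K, inferInstance, inferInstance, inferInstance, τ, ?_, ?_, ?_⟩
  · intro B hB hcop htriv b hb d hd
    have h1 := H66.HomMod.le_centralizer D' K hD'q ((B.subgroupOf S).map π)
      (Nat.Coprime.coprime_dvd_left ((Subgroup.card_map_dvd _ _).trans (by
        rw [Nat.card_congr (Subgroup.subgroupOfEquivOfLe hB).toEquiv])) hcop) (by
      rintro _ ⟨⟨b, hbS⟩, hb, rfl⟩ f
      have h2 := htriv b hb
      have h3 : τ ⟨b, hbS⟩ f = (1 : Module.End K (H66.HomMod.V D' K)) f := by rw [← h2]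
      exact h3)
    have h2 := mem_centralizer_iff.mp (h1 ⟨⟨b, hB hb⟩, hb, rfl⟩) _ (hmem d hd)
    have h3 : π (⟨b, hB hb⟩ * ⟨d, hDS hd⟩ * (⟨b, hB hb⟩)⁻¹ * (⟨d, hDS hd⟩)⁻¹) = 1 := by
      rw [map_mul, map_mul, map_mul, map_inv, map_inv, ← h2]; group
    exact Subgroup.mem_subgroupOf.mp ((QuotientGroup.eq_one_iff _).mp h3)
  · intro y t hy
    obtain ⟨s, hs, hgen⟩ := genT t N ⁅D, zpowers (y : Γ)⁆ hy
    have hyD : zpowers (y : Γ) ≤ normalizer (D : Set Γ) := by rw [zpowers_le]; exact hSD y.2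
    have hED : ⁅D, zpowers (y : Γ)⁆ ≤ D := commutator_le_left hyD
    let ev : H66.HomMod.V D' K →ₗ[K] (Fin t → K) :=
      { toFun := fun f i => f (Additive.ofMul ⟨_, hmem (s i) (hED (hs i))⟩)
        map_add' := by
          intro f g
          rfl
        map_smul' := by
          intro c f
          rfl }
    have hker : LinearMap.ker ev ≤ LinearMap.ker (τ y - 1) := by
      intro f hf
      rw [LinearMap.mem_ker] at hf
      have hf1 : ∀ i, f (Additive.ofMul ⟨_, hmem (s i) (hED (hs i))⟩) = 0 := fun i => congrFun hf i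
      let fD : D →* Multiplicative K :=
        { toFun := fun d => Multiplicative.ofAdd (f (Additive.ofMul ⟨_, hmem d d.2⟩))
          map_one' := by
            have h1 : (⟨_, hmem (1 : D) (1 : D).2⟩ : D') = 1 := Subtype.ext (map_one π)
            rw [h1, ofMul_one, map_zero]; rfl
          map_mul' := by
            intro a b
            have h1 : (⟨_, hmem (a * b : D) (a * b : D).2⟩ : D') = ⟨_, hmem a a.2⟩ * ⟨_, hmem b b.2⟩ := Subtype.ext (map_mul π ⟨a, hDS a.2⟩ ⟨b, hDS b.2⟩)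
            rw [h1, ofMul_mul, map_add]; rfl }
      have hfD : ∀ (d : Γ) (hd : d ∈ D), d ∈ fD.ker.map D.subtype → f (Additive.ofMul ⟨_, hmem d hd⟩) = 0 := by
        rintro d hd ⟨d', hd', rfl⟩
        exact hd'
      have hE := hgen (fD.ker.map D.subtype) (by
        rintro e ⟨heN, heE⟩
        refine ⟨⟨e, hED heE⟩, ?_, rfl⟩
        change Multiplicative.ofAdd (f (Additive.ofMul ⟨_, hmem e (hED heE)⟩)) = 1
        have h1 : (⟨_, hmem e (hED heE)⟩ : D') = 1 := by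
          apply Subtype.ext
          exact (QuotientGroup.eq_one_iff _).mpr (Subgroup.mem_subgroupOf.mpr heN)
        rw [h1, ofMul_one, map_zero]; rfl) (fun i => ⟨⟨s i, hED (hs i)⟩, hf1 i, rfl⟩)
      rw [LinearMap.mem_ker, LinearMap.sub_apply, Module.End.one_apply, sub_eq_zero]
      refine DFunLike.ext _ _ fun u => ?_
      obtain ⟨⟨_, ⟨⟨d, hdS⟩, hd, rfl⟩⟩, rfl⟩ : ∃ u' : D', Additive.ofMul u' = u := ⟨u.toMul, rfl⟩
      have hd' : d ∈ D := hd
      have hc : d⁻¹ * ((y : Γ)⁻¹ * d * y) ∈ ⁅D, zpowers (y : Γ)⁆ := by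
        have h1 : d⁻¹ * ((y : Γ)⁻¹ * d * y) = ⁅d⁻¹, (y : Γ)⁻¹⁆ := by rw [commutatorElement_def]; group
        rw [h1]
        exact commutator_mem_commutator (inv_mem hd') (inv_mem (mem_zpowers _))
      have h1 : τ y f (Additive.ofMul ⟨_, hmem d hd'⟩) = f (Additive.ofMul (H66.HomMod.cj D' (π y) ⟨_, hmem d hd'⟩)) := rfl
      have h2 : H66.HomMod.cj D' (π y) ⟨_, hmem d hd'⟩ = ⟨_, hmem d hd'⟩ * ⟨_, hmem _ (hED hc)⟩ := by
        apply Subtype.ext
        rw [H66.HomMod.cj_coe]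
        change (π y)⁻¹ * π ⟨d, hDS hd'⟩ * π y = π ⟨d, hDS hd'⟩ * π ⟨_, hDS (hED hc)⟩
        rw [← map_inv, ← map_mul, ← map_mul, ← map_mul]
        congr 1
        apply Subtype.ext
        change (y : Γ)⁻¹ * d * y = d * (d⁻¹ * ((y : Γ)⁻¹ * d * y))
        group
      change τ y f (Additive.ofMul ⟨_, hmem d hd'⟩) = f (Additive.ofMul ⟨_, hmem d hd'⟩)
      rw [h1, h2, ofMul_mul, map_add, hfD _ (hED hc) (hE hc), add_zero]
    have h1 := LinearMap.finrank_range_add_finrank_ker ev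
    have h2 := LinearMap.finrank_range_add_finrank_ker (τ y - 1)
    have h3 := Submodule.finrank_mono hker
    have h4 : finrank K (LinearMap.range ev) ≤ t := by
      refine (Submodule.finrank_le _).trans ?_
      rw [Module.finrank_fin_fun]
    omega
  · refine ⟨fun f => (frobenius K q).toAddMonoidHom.comp f, ?_, ?_, ?_⟩
    · intro f hf
      refine DFunLike.ext _ _ fun r => ?_
      have h1 : (f r) ^ q = 0 := DFunLike.congr_fun hf r
      exact (pow_eq_zero_iff hq.out.ne_zero).mp h1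
    · intro c f
      refine DFunLike.ext _ _ fun r => ?_
      change (c * f r) ^ q = c ^ q * (f r) ^ q
      rw [mul_pow]
    · intro h f
      rfl

end mod

end H1.Hx
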