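import Cfsg.Agent.Lib.H1.HxA
import Cfsg.Agent.Lib.H1.HxB
import Cfsg.Agent.Lib.H1.PModV
import Cfsg.Agent.Lib.H1.DLc

/-!
In a `p`-soluble group `Γ` with `O_p(Γ) = 1` and a faithful module in characteristic `p` on which the norms of order
`p ^ (n + 1)` vanish, the `p ^ n`-th powers of elements of a `p`-subgroup commute.
-/

set_option autoImplicit false

open Subgroup Module H1.Coprime2 H1.Coprime H1.StrLem H30.Wts Cfsg
open scoped commutatorElement Pointwise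

namespace H1.Hx

universe u

variable {Γ : Type u} [Group Γ]

theorem norm_char {Q : Subgroup Γ} (K : Subgroup Q) (hK : K.Characteristic) :
    normalizer (Q : Set Γ) ≤ normalizer ((K.map Q.subtype : Subgroup Γ) : Set Γ) := by
  have key : ∀ g ∈ normalizer (Q : Set Γ), ∀ x ∈ K.map Q.subtype, g * x * g⁻¹ ∈ K.map Q.subtype := by
    rintro g hg _ ⟨x, hx, rfl⟩
    have h1 := characteristic_iff_le_comap.mp hK (normalizerMonoidHom Q ⟨g, hg⟩)
    exact ⟨_, h1 hx, rfl⟩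
  intro g hg
  rw [Subgroup.mem_normalizer_iff]
  intro x
  refine ⟨key g hg x, fun hx => ?_⟩
  have := key g⁻¹ (inv_mem hg) _ hx
  have e : g⁻¹ * (g * x * g⁻¹) * g⁻¹⁻¹ = x := by group
  rwa [e] at this

variable [Finite Γ] {F : Type*} [Field F] [IsAlgClosed F] {V : Type*} [AddCommGroup V] [Module F V] [FiniteDimensional F V]

/-- the setting: a faithful representation such that no `p`-element has a regular orbit -/
structure HypP (p n : ℕ) {Γ : Type u} [Group Γ] {F : Type*} [Field F] {V : Type*} [AddCommGroup V] [Module F V]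
    (ρ : Γ →* Module.End F V) : Prop where
  faith : ∀ g, ρ g = 1 → g = 1
  exp : ∀ g : Γ, (∃ k, g ^ p ^ k = 1) → g ^ p ^ (n + 1) = 1
  sum : ∀ g : Γ, (∃ k, g ^ p ^ k = 1) → ∀ v, ∑ j ∈ Finset.range (p ^ (n + 1)), ρ (g ^ j) v = 0

omit [IsAlgClosed F] [Finite Γ] in
theorem natCast_neP {p q : ℕ} [hp : Fact p.Prime] [hq : Fact q.Prime] [CharP F p] (hpq : p ≠ q) : (q : F) ≠ 0 := by
  intro h
  rw [CharP.cast_eq_zero_iff F p q] at h
  exact hpq ((Nat.prime_dvd_prime_iff_eq hp.out hq.out).mp h)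

omit [FiniteDimensional F V] in
theorem cent_of_crit {ρ : Γ →* Module.End F V} (hfaith : ∀ g, ρ g = 1 → g = 1) {p q : ℕ} [hp : Fact p.Prime] [hq : Fact q.Prime]
    (hpq : p ≠ q) (hqF : (q : F) ≠ 0) (O B P : Subgroup Γ) (hOq : IsPGroup q O) (hB : IsPGroup p B) (hBP : B ≤ P)
    (hPO : P ≤ normalizer (O : Set Γ))
    (hall : ∀ D Z : Subgroup Γ, P ≤ normalizer (D : Set Γ) → P ≤ normalizer (Z : Set Γ) → IsPGroup q D → Z ≤ D →
      ∀ hDZ : D ≤ centralizer (Z : Set Γ), (∀ a ∈ D, ∀ b ∈ D, a * b * a⁻¹ * b⁻¹ ∈ Z) →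
      B ≤ centralizer (Z : Set Γ) ∧ ∀ χ : Z →* Fˣ, wt (ρ.comp Z.subtype) χ ≠ ⊥ →
        ∀ b ∈ B, ∀ d ∈ D, b * d * b⁻¹ * d⁻¹ ∈ cmod D (kr Z χ) (le_normalizer_kr χ hDZ)) : B ≤ centralizer (O : Set Γ) := by
  classical
  have hBs : Group.IsSolvable B := by have := hB.isNilpotent; infer_instance
  obtain ⟨H, hHc, -, hHcomm, hHcent⟩ := H3.Critical.exists_critical hOq
  set D := H.map O.subtype with hD
  have hPD : P ≤ normalizer (D : Set Γ) := hPO.trans (norm_char H hHc)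
  have hDO : D ≤ O := Subgroup.map_subtype_le _
  have hOD : O ≤ normalizer (D : Set Γ) := Subgroup.le_normalizer.trans (norm_char H hHc)
  set Z := D ⊓ centralizer (D : Set Γ) with hZ
  have hPZ : P ≤ normalizer (Z : Set Γ) := le_normalizer_inf hPD (le_normalizer_centralizer hPD)
  have hZD : Z ≤ D := inf_le_left
  have hDZ : D ≤ centralizer (Z : Set Γ) := by
    rw [Subgroup.le_centralizer_iff]; exact inf_le_right
  have hDq : IsPGroup q D := hOq.to_le hDO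
  have hab : ∀ a ∈ D, ∀ b ∈ D, a * b * a⁻¹ * b⁻¹ ∈ Z := by
    rintro _ ⟨a, ha, rfl⟩ _ ⟨b, hb, rfl⟩
    obtain ⟨h1, h2⟩ := hHcomm a ha b
    refine Subgroup.mem_inf.mpr ⟨⟨_, h1, rfl⟩, mem_centralizer_iff.mpr ?_⟩
    rintro _ ⟨e, he, rfl⟩
    exact congrArg Subtype.val (mem_centralizer_iff.mp h2 e he)
  obtain ⟨hBZ, hχ⟩ := hall D Z hPD hPZ hDq hZD hDZ hab
  have hZF : (Nat.card Z : F) ≠ 0 := card_ne q hqF (hDq.to_le hZD)
  have hZc : ∀ a ∈ Z, ∀ b ∈ Z, a * b = b * a := fun a ha b hb => (mem_centralizer_iff.mp (hDZ (hZD ha)) b hb).symm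
  have hBD : B ≤ normalizer (D : Set Γ) := hBP.trans hPD
  have hBO : B ≤ normalizer (O : Set Γ) := hBP.trans hPO
  have h1 : ⁅D, B⁆ ≤ Z := by
    rw [Subgroup.commutator_le]
    intro d hd b hb
    have hu : b * d * b⁻¹ * d⁻¹ ∈ Z := by
      have huD : b * d * b⁻¹ * d⁻¹ ∈ D := mul_mem ((Subgroup.mem_normalizer_iff.mp (hBD hb) d).mp hd) (inv_mem hd)
      refine Subgroup.mem_inf.mpr ⟨huD, mem_centralizer_iff.mpr ?_⟩
      intro e he
      set w := b * d * b⁻¹ * d⁻¹ * e * (b * d * b⁻¹ * d⁻¹)⁻¹ * e⁻¹ with hw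
      have hwZ : w ∈ Z := hab _ huD e he
      by_contra hne
      have hw1 : w ≠ 1 := by
        intro h3
        apply hne
        rw [hw, mul_inv_eq_one, mul_inv_eq_iff_eq_mul] at h3
        exact h3.symm
      obtain ⟨χ, hχ1, v, hv, hv0⟩ := exists_weight hZF (ρ.comp Z.subtype) (H1.Gr.comm_triv hZc) (a := ⟨w, hwZ⟩)
        (fun h3 => hw1 (hfaith _ h3))
      have h4 := hχ χ (fun h3 => hv0 ((Submodule.mem_bot F).1 (h3 ▸ hv))) b hb d hd
      have h5 := (mem_cmod.mp h4).2 e he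
      obtain ⟨h6, h7⟩ := mem_kr.1 h5
      exact hχ1 h7
    have h3 : ⁅d, b⁆ = (b * d * b⁻¹ * d⁻¹)⁻¹ := by rw [commutatorElement_def]; group
    rw [h3]; exact inv_mem hu
  have hcopO : (Nat.card B).Coprime (Nat.card O) := by
    obtain ⟨k, hk⟩ := IsPGroup.iff_card.mp hB
    obtain ⟨l, hl⟩ := IsPGroup.iff_card.mp hOq
    rw [hk, hl]
    exact Nat.Coprime.pow _ _ ((Nat.coprime_primes hp.out hq.out).2 hpq)
  have hcopD : (Nat.card B).Coprime (Nat.card D) := Nat.Coprime.coprime_dvd_right (Subgroup.card_dvd_of_le hDO) hcopO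
  have h2 : ⁅Z, B⁆ = ⊥ := by
    rw [Subgroup.commutator_comm]
    exact Subgroup.commutator_eq_bot_iff_le_centralizer.mpr hBZ
  have hBcD : B ≤ centralizer (D : Set Γ) := le_centralizer_of_series B D Z hBD hcopD (Or.inl hBs) h1 h2
  have h3 : ⁅⁅B, D⁆, O⁆ = ⊥ := by
    rw [Subgroup.commutator_eq_bot_iff_le_centralizer.mpr hBcD, Subgroup.commutator_bot_left]
  have h4 : ⁅⁅D, O⁆, B⁆ = ⊥ := by
    rw [Subgroup.commutator_comm]
    apply Subgroup.commutator_eq_bot_iff_le_centralizer.mpr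
    refine hBcD.trans (Subgroup.centralizer_le ?_)
    exact commutator_le_left hOD
  have h5 := Subgroup.commutator_commutator_eq_bot_of_rotate h3 h4
  have h6 : ⁅O, B⁆ ≤ D := by
    intro g hg
    have hgO : g ∈ O := commutator_le_left hBO hg
    have hgc : g ∈ centralizer (D : Set Γ) := Subgroup.commutator_eq_bot_iff_le_centralizer.mp h5 hg
    refine ⟨⟨g, hgO⟩, hHcent ?_, rfl⟩
    rw [mem_centralizer_iff]
    intro e he
    exact Subtype.ext (mem_centralizer_iff.mp hgc e ⟨e, he, rfl⟩)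
  have h7 : ⁅D, B⁆ = ⊥ := by
    rw [Subgroup.commutator_comm]
    exact Subgroup.commutator_eq_bot_iff_le_centralizer.mpr hBcD
  exact le_centralizer_of_series B O D hBO hcopO (Or.inl hBs) h6 h7

omit [IsAlgClosed F] [FiniteDimensional F V] [Finite Γ] in
theorem order_of {p n : ℕ} [hp : Fact p.Prime] {ρ : Γ →* Module.End F V} (h : HypP p n ρ) (g : Γ) (hg : ∃ k, g ^ p ^ k = 1)
    (hy : g ^ p ^ n ≠ 1) : orderOf g = p ^ (n + 1) := orderOf_eq_prime_pow hy (h.exp g hg)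

/-- `p ^ n`-th powers centralise abelian `q`-groups -/
theorem cent_ab {p n : ℕ} [hp : Fact p.Prime] {ρ : Γ →* Module.End F V} (h : HypP p n ρ) {q : ℕ} [hq : Fact q.Prime]
    (hqF : (q : F) ≠ 0) (Z : Subgroup Γ) (hZq : IsPGroup q Z) (hZab : ∀ a ∈ Z, ∀ b ∈ Z, a * b = b * a) (g : Γ)
    (hgZ : g ∈ normalizer (Z : Set Γ)) (hg : ∃ k, g ^ p ^ k = 1) : g ^ p ^ n ∈ centralizer (Z : Set Γ) := by
  by_contra hcon
  have hy1 : ¬ g ^ p ^ n = 1 := by
    intro h1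
    rw [h1] at hcon
    exact hcon (one_mem _)
  have ho := order_of h g hg hy1
  obtain ⟨a, ha, ha'⟩ : ∃ a ∈ Z, g ^ p ^ n * a * (g ^ p ^ n)⁻¹ * a⁻¹ ≠ 1 := by
    by_contra hcon'
    push Not at hcon'
    apply hcon
    rw [mem_centralizer_iff]
    intro b hb
    have := hcon' b hb
    rw [mul_inv_eq_one, mul_inv_eq_iff_eq_mul] at this
    exact this.symm
  obtain ⟨v, hv⟩ := H1.ThmB.abelian_regular ρ (p := p) ho Z (card_ne q hqF hZq) hgZ (by
    intro a ha b hb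
    have : a * b * a⁻¹ * b⁻¹ = 1 := by rw [hZab a ha b hb]; group
    rw [this, map_one]) ⟨a, ha, fun h1 => ha' (h.faith _ h1)⟩
  exact hv (h.sum g hg v)

/-- good elements commute modulo the kernel -/
theorem good_comm_ker {K : Type*} [Field K] {U : Type*} [AddCommGroup U] [Module K U] [FiniteDimensional K U] {H : Type*} [Group H]
    [Finite H] [IsAlgClosed K] {p : ℕ} [hp : Fact p.Prime] (hp2 : p ≠ 2) [CharP K 2] (hH : IsPGroup p H)
    (τ : H →* Module.End K U)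
    (φ : U → U) (hφ0 : ∀ v, φ v = 0 → v = 0) (hφs : ∀ (c : K) v, φ (c • v) = c ^ 2 • φ v) (hφτ : ∀ h v, φ (τ h v) = τ h (φ v))
    (y y' : H) (hy : Good p τ y) (hy' : Good p τ y') : τ ⁅y, y'⁆ = 1 := by
  set f : H →* (Module.End K U)ˣ := MonoidHom.toHomUnits τ with hf
  have hfin : Finite f.range := Finite.of_surjective f.rangeRestrict f.rangeRestrict_surjective
  have hQp : IsPGroup p f.range := hH.of_surjective f.rangeRestrict f.rangeRestrict_surjective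
  set σ : f.range →* Module.End K U := (Units.coeHom (Module.End K U)).comp f.range.subtype with hσdef
  have hσ : ∀ x : f.range, σ x = 1 → x = 1 := by
    intro x hx
    apply Subtype.ext
    apply Units.ext
    exact hx
  have hσmk : ∀ x : H, σ (f.rangeRestrict x) = τ x := fun x => rfl
  have hgood : ∀ y : H, Good p τ y → Good p σ (f.rangeRestrict y) := by
    intro y hy
    rcases hy with hy | ⟨u, b, m, hb, hy, hu, hm, hrk⟩
    · left; rw [hσmk]; exact hy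
    · right
      refine ⟨f.rangeRestrict u, b, m, hb, ?_, ?_, hm, ?_⟩
      · rw [hy, map_pow]
      · rw [← map_pow, hu, map_one]
      · rw [hσmk]; exact hrk
  have hcomm := good_commute hp2 hQp σ hσ φ hφ0 hφs (by
      intro x v
      obtain ⟨x, rfl⟩ := f.rangeRestrict_surjective x
      exact hφτ _ v) _ _ (hgood y hy) (hgood y' hy')
  rw [← hσmk, map_commutatorElement, commutatorElement_eq_one_iff_mul_comm.mpr hcomm, map_one]

theorem good_of {p n : ℕ} [hp : Fact p.Prime] (hp2 : p ≠ 2) [CharP F p] {ρ : Γ →* Module.End F V} (h : HypP p n ρ)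
    (P D Z : Subgroup Γ) (hpk : ∀ g ∈ P, ∃ k, g ^ p ^ k = 1) (hPD : P ≤ normalizer (D : Set Γ)) (hPZ : P ≤ normalizer (Z : Set Γ))
    (hDq : IsPGroup 2 D) (hZD : Z ≤ D) (hDZ : D ≤ centralizer (Z : Set Γ)) (hab : ∀ a ∈ D, ∀ b ∈ D, a * b * a⁻¹ * b⁻¹ ∈ Z)
    (χ : Z →* Fˣ) (hwt : wt (ρ.comp Z.subtype) χ ≠ ⊥) (hyP : ∀ g ∈ P, g ^ p ^ n ∈ P ⊓ St Z χ)
    {K : Type*} [Field K] {U : Type*} [AddCommGroup U] [Module K U] [FiniteDimensional K U]
    (τ : (P ⊓ St Z χ : Subgroup Γ) →* Module.End K U)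
    (hrk : ∀ (y : (P ⊓ St Z χ : Subgroup Γ)) (t : ℕ), (cmod D (kr Z χ) (le_normalizer_kr χ hDZ)).relIndex ⁅D, zpowers (y : Γ)⁆ ∣ 2 ^ t →
      finrank K (LinearMap.range (τ y - 1)) ≤ t) (g : Γ) (hg : g ∈ P) : Good p τ ⟨g ^ p ^ n, hyP g hg⟩ := by
  classical
  haveI h2p : Fact (Nat.Prime 2) := ⟨Nat.prime_two⟩
  have h2F : ((2 : ℕ) : F) ≠ 0 := natCast_neP (p := p) hp2
  have htriv : (cmod D (kr Z χ) (le_normalizer_kr χ hDZ)).relIndex ⁅D, zpowers (g ^ p ^ n)⁆ ∣ 2 ^ 0 → Good p τ ⟨g ^ p ^ n, hyP g hg⟩ := by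
    intro h0
    left
    have h1 := hrk ⟨g ^ p ^ n, hyP g hg⟩ 0 h0
    rw [Nat.le_zero, Submodule.finrank_eq_zero, LinearMap.range_eq_bot, sub_eq_zero] at h1
    exact h1
  by_cases hy1 : g ^ p ^ n = 1
  · apply htriv
    rw [hy1, Subgroup.zpowers_one_eq_bot, Subgroup.commutator_bot_right, Subgroup.relIndex_bot_right]
    exact one_dvd _
  have ho := order_of h g (hpk g hg) hy1
  rcases dichE2 ρ (p := p) (q := 2) hp2 h2F ho D Z hDq (hPD hg) hZD (hPZ hg) hDZ hab χ hwt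
    (hyP g hg).2 (h.sum g (hpk g hg)) with h1 | ⟨k, hk, hkSt, ⟨m, hm, hkm⟩, h1⟩
  · apply htriv
    rw [Subgroup.relIndex_eq_one.mpr h1, pow_zero]
  · right
    refine ⟨⟨g ^ p ^ k, Subgroup.mem_inf.mpr ⟨pow_mem hg _, hkSt⟩⟩, n + 1 - k, m, by omega, ?_, ?_, hkm, ?_⟩
    · apply Subtype.ext
      change g ^ p ^ n = (g ^ p ^ k) ^ p ^ (n + 1 - k - 1)
      rw [← pow_mul, ← pow_add]
      congr 2
      omega
    · apply Subtype.ext
      change (g ^ p ^ k) ^ p ^ (n + 1 - k) = 1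
      rw [← pow_mul, ← pow_add]
      have h3 : k + (n + 1 - k) = n + 1 := by omega
      rw [h3]
      exact h.exp g (hpk g hg)
    · apply hrk
      change (cmod D (kr Z χ) (le_normalizer_kr χ hDZ)).relIndex ⁅D, zpowers (g ^ p ^ n)⁆ ∣ 2 ^ (2 * m)
      rw [h1, hkm, ← pow_mul, mul_comm]

/-- the key step at a weight -/
theorem step {p n : ℕ} [hp : Fact p.Prime] (hp2 : p ≠ 2) [CharP F p] {ρ : Γ →* Module.End F V} (h : HypP p n ρ)
    (P D Z : Subgroup Γ) (hP : IsPGroup p P) (hPD : P ≤ normalizer (D : Set Γ)) (hPZ : P ≤ normalizer (Z : Set Γ))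
    (hDq : IsPGroup 2 D) (hZD : Z ≤ D) (hDZ : D ≤ centralizer (Z : Set Γ)) (hab : ∀ a ∈ D, ∀ b ∈ D, a * b * a⁻¹ * b⁻¹ ∈ Z)
    (χ : Z →* Fˣ) (hwt : wt (ρ.comp Z.subtype) χ ≠ ⊥) (g g' : Γ) (hg : g ∈ P) (hg' : g' ∈ P) :
    ∀ b ∈ zpowers ⁅g ^ p ^ n, g' ^ p ^ n⁆, ∀ d ∈ D, b * d * b⁻¹ * d⁻¹ ∈ cmod D (kr Z χ) (le_normalizer_kr χ hDZ) := by
  classical
  haveI h2p : Fact (Nat.Prime 2) := ⟨Nat.prime_two⟩
  have h2F : ((2 : ℕ) : F) ≠ 0 := natCast_neP (p := p) hp2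
  have hpk : ∀ g ∈ P, ∃ k, g ^ p ^ k = 1 := by
    intro g hg
    obtain ⟨k, hk⟩ := hP ⟨g, hg⟩
    exact ⟨k, congrArg Subtype.val hk⟩
  have hZc : ∀ a ∈ Z, ∀ b ∈ Z, a * b = b * a := fun a ha b hb => (mem_centralizer_iff.mp (hDZ (hZD ha)) b hb).symm
  have hyP₁ : ∀ g ∈ P, g ^ p ^ n ∈ P ⊓ St Z χ := fun g hg =>
    Subgroup.mem_inf.mpr ⟨pow_mem hg _, H1.Gr.centralizer_le_St Z χ
      (cent_ab h h2F Z (hDq.to_le hZD) hZc g (hPZ hg) (hpk g hg))⟩
  have hDN : D ≤ normalizer (cmod D (kr Z χ) (le_normalizer_kr χ hDZ) : Set Γ) := fun g hg =>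
    le_normalizer_cmod D _ _ g (Subgroup.le_normalizer hg) (le_normalizer_kr χ hDZ hg)
  obtain ⟨K, hK1, hK2, hK3, U, hU1, hU2, hU3, τ, hτ1, hτ2, φ, hφ0, hφs, hφτ⟩ := exists_module2 (q := 2)
    (normalizer (D : Set Γ) ⊓ normalizer (cmod D (kr Z χ) (le_normalizer_kr χ hDZ) : Set Γ)) D
    (cmod D (kr Z χ) (le_normalizer_kr χ hDZ)) (le_inf Subgroup.le_normalizer hDN) (cmod_le _ _ _)
    inf_le_left inf_le_right hDq
  have hP₁S : P ⊓ St Z χ ≤ (normalizer (D : Set Γ) ⊓ normalizer (cmod D (kr Z χ) (le_normalizer_kr χ hDZ) : Set Γ)) := by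
    intro g hg
    refine Subgroup.mem_inf.mpr ⟨hPD hg.1, ?_⟩
    exact le_normalizer_cmod D _ _ g (hPD hg.1) (St_le_normalizer_kr Z χ hg.2)
  have hP₁p : IsPGroup p (P ⊓ St Z χ : Subgroup Γ) := hP.to_le inf_le_left
  have hgood := good_of hp2 h P D Z hpk hPD hPZ hDq hZD hDZ hab χ hwt hyP₁ (τ.comp (Subgroup.inclusion hP₁S))
    (fun y t ht => hτ2 (Subgroup.inclusion hP₁S y) t ht)
  have hτc := good_comm_ker hp2 hP₁p (τ.comp (Subgroup.inclusion hP₁S)) φ hφ0 hφs (fun h v => hφτ _ v) _ _ (hgood g hg) (hgood g' hg')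
  set c' : (P ⊓ St Z χ : Subgroup Γ) := ⁅(⟨g ^ p ^ n, hyP₁ g hg⟩ : (P ⊓ St Z χ : Subgroup Γ)), ⟨g' ^ p ^ n, hyP₁ g' hg'⟩⁆ with hc'
  have hcc : (c' : Γ) = ⁅g ^ p ^ n, g' ^ p ^ n⁆ := rfl
  rw [← hcc]
  have hc'S : (c' : Γ) ∈ (normalizer (D : Set Γ) ⊓ normalizer (cmod D (kr Z χ) (le_normalizer_kr χ hDZ) : Set Γ)) := hP₁S c'.2
  refine hτ1 (zpowers (c' : Γ)) (by rw [zpowers_le]; exact hc'S) ?_ ?_
  · have h1 : IsPGroup p (zpowers (c' : Γ)) := hP₁p.to_le (by rw [zpowers_le]; exact c'.2)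
    obtain ⟨k, hk⟩ := IsPGroup.iff_card.mp h1
    rw [hk]
    exact Nat.Coprime.pow_left _ ((Nat.coprime_primes hp.out Nat.prime_two).2 hp2)
  · rintro b hb
    obtain ⟨j, rfl⟩ := hb
    have h3 : zpowers c' ≤ (τ.comp (Subgroup.inclusion hP₁S)).ker := by rw [zpowers_le]; exact hτc
    exact h3 (zpow_mem (mem_zpowers _) j)

/-- **the `p ^ n`-th powers commute** -/
theorem powers_commute {p n : ℕ} [hp : Fact p.Prime] (hp2 : p ≠ 2) [CharP F p] (hΓ : IsPSolvable p Γ) (hcore : pCore p Γ = ⊥)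
    {ρ : Γ →* Module.End F V} (h : HypP p n ρ) (P : Subgroup Γ) (hP : IsPGroup p P) (g g' : Γ) (hg : g ∈ P) (hg' : g' ∈ P) :
    g ^ p ^ n * g' ^ p ^ n = g' ^ p ^ n * g ^ p ^ n := by
  classical
  rw [← commutatorElement_eq_one_iff_mul_comm]
  by_contra hne
  set c := ⁅g ^ p ^ n, g' ^ p ^ n⁆ with hc
  have hcP : c ∈ P := by
    rw [hc, commutatorElement_def]
    exact mul_mem (mul_mem (mul_mem (pow_mem hg _) (pow_mem hg' _)) (inv_mem (pow_mem hg _))) (inv_mem (pow_mem hg' _))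
  have hpk : ∀ g ∈ P, ∃ k, g ^ p ^ k = 1 := by
    intro g hg
    obtain ⟨k, hk⟩ := hP ⟨g, hg⟩
    exact ⟨k, congrArg Subtype.val hk⟩
  have hMn : (pPrimeCore p Γ).Normal := inferInstance
  have hcp : IsPGroup p (zpowers c) := hP.to_le (by rw [zpowers_le]; exact hcP)
  have hcent := H66.PRed.centralizer_pPrimeCore_le hΓ hcore
  obtain ⟨q, hq, hqp, S, -, hS, hPS, hcS⟩ := H66.PRed.exists_invariant_qgroup (p := p) P (pPrimeCore p Γ) hP
    (fun x _ => H1.Gr.mem_norm _ x) (H1.Cores.coprime_card_pPrimeCore p) c (by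
      intro h1
      have h2 : zpowers c ≤ zpowers c ⊓ pPrimeCore p Γ := le_inf le_rfl (by rw [zpowers_le]; exact hcent h1)
      rw [H1.Cores.disjoint_of_isPGroup hcp (H1.Cores.coprime_card_pPrimeCore p), le_bot_iff, zpowers_eq_bot] at h2
      exact hne h2)
  haveI := Fact.mk hq
  have hqF : (q : F) ≠ 0 := natCast_neP (p := p) (Ne.symm hqp)
  apply hcS
  by_cases hq2 : q = 2
  · subst hq2
    have h1 : zpowers c ≤ centralizer (S : Set Γ) := by
      refine cent_of_crit (F := F) (ρ := ρ) h.faith (p := p) (q := 2) hp2 hqF S (zpowers c) P hS hcp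
        (by rw [zpowers_le]; exact hcP) hPS ?_
      intro D Z hPD hPZ hDq hZD hDZ hab
      refine ⟨?_, fun χ hχ => step hp2 h P D Z hP hPD hPZ hDq hZD hDZ hab χ hχ g g' hg hg'⟩
      have hZc : ∀ a ∈ Z, ∀ b ∈ Z, a * b = b * a := fun a ha b hb => (mem_centralizer_iff.mp (hDZ (hZD ha)) b hb).symm
      have h1 := cent_ab h hqF Z (hDq.to_le hZD) hZc g (hPZ hg) (hpk g hg)
      have h2 := cent_ab h hqF Z (hDq.to_le hZD) hZc g' (hPZ hg') (hpk g' hg')
      rw [zpowers_le, hc, commutatorElement_def]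
      exact mul_mem (mul_mem (mul_mem h1 h2) (inv_mem h1)) (inv_mem h2)
    exact h1 (mem_zpowers c)
  · -- `q` odd: everything centralises
    have key : ∀ g ∈ P, g ^ p ^ n ∈ centralizer (S : Set Γ) := by
      intro g hg
      by_contra hcon
      have hy1 : ¬ g ^ p ^ n = 1 := by
        intro h1
        rw [h1] at hcon
        exact hcon (one_mem _)
      have ho := order_of h g (hpk g hg) hy1
      obtain ⟨-, k, hk, ⟨m, hm, hkm⟩, -⟩ := H1.ThmB.exceptional ρ (p := p) (q := q) (Ne.symm hqp) hqF ho S hS (hPS hg) hcon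
        (fun x _ hx => h.faith x hx) (h.sum g (hpk g hg))
      apply hq2
      have hodd : Odd (p ^ (n + 1 - k)) := (hp.out.odd_of_ne_two hp2).pow
      have h1 : 2 ∣ q ^ m := by
        rw [← hkm]
        obtain ⟨t, ht⟩ := hodd
        exact ⟨t, by omega⟩
      exact ((Nat.prime_dvd_prime_iff_eq Nat.prime_two hq).mp (Nat.prime_two.dvd_of_dvd_pow h1)).symm
    rw [hc, commutatorElement_def]
    exact mul_mem (mul_mem (mul_mem (key g hg) (key g' hg')) (inv_mem (key g hg))) (inv_mem (key g' hg'))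

end H1.Hx
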