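import Cfsg.Agent.Lib.H1.HxC

/-!
The Hall–Higman bounds on the `p`-length in terms of the exponent of a Sylow `p`-subgroup.
-/

set_option autoImplicit false

open Subgroup Module Cfsg
open scoped commutatorElement Pointwise

namespace H1.Hx

universe u

section tools

variable {G : Type u} [Group G] [Finite G] {p : ℕ} [hp : Fact p.Prime]

/-- the `p`-part -/
theorem exists_p_part (s : G) (k : ℕ) : ∃ c : ℕ, (∃ k', (s ^ c) ^ p ^ k' = 1) ∧ c ≡ 1 [MOD p ^ k] := by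
  obtain ⟨a, t, ht, hst⟩ := Nat.exists_eq_pow_mul_and_not_dvd (orderOf_pos s).ne' p hp.out.ne_one
  have hcop : Nat.Coprime (p ^ k) t := Nat.Coprime.pow_left _ ((Nat.Prime.coprime_iff_not_dvd hp.out).2 ht)
  obtain ⟨c, hc1, hc2⟩ := Nat.chineseRemainder hcop 1 0
  refine ⟨c, ⟨a, ?_⟩, hc1⟩
  rw [← pow_mul]
  apply orderOf_dvd_iff_pow_eq_one.mp
  rw [hst, mul_comm c]
  exact Nat.mul_dvd_mul (dvd_refl _) ((Nat.modEq_zero_iff_dvd).1 hc2)

omit [Finite G] hp in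
theorem pow_eq_self {x : G} {k c : ℕ} (hx : x ^ p ^ k = 1) (hc : c ≡ 1 [MOD p ^ k]) : x ^ c = x := by
  have h1 : orderOf x ∣ p ^ k := orderOf_dvd_of_pow_eq_one hx
  have h2 : c ≡ 1 [MOD orderOf x] := hc.of_dvd h1
  conv_rhs => rw [← pow_one x]
  exact pow_eq_pow_iff_modEq.2 h2

theorem exists_p_lift {Δ : Type*} [Group Δ] (f : G →* Δ) (hf : Function.Surjective f) (g : Δ) (hg : ∃ k, g ^ p ^ k = 1) :
    ∃ a : G, (∃ k, a ^ p ^ k = 1) ∧ f a = g := by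
  obtain ⟨k, hk⟩ := hg
  obtain ⟨b, rfl⟩ := hf g
  obtain ⟨c, hc1, hc2⟩ := exists_p_part (p := p) b k
  exact ⟨b ^ c, hc1, by rw [map_pow]; exact pow_eq_self hk hc2⟩

theorem exp_quot {Δ : Type*} [Group Δ] (f : G →* Δ) (hf : Function.Surjective f) {m : ℕ}
    (h : ∀ g : G, (∃ k, g ^ p ^ k = 1) → g ^ p ^ m = 1) (g : Δ) (hg : ∃ k, g ^ p ^ k = 1) : g ^ p ^ m = 1 := by
  obtain ⟨a, ha, rfl⟩ := exists_p_lift f hf g hg
  rw [← map_pow, h a ha, map_one]

omit [Finite G] in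
theorem isPGroup_zpowers {x : G} (hx : ∃ k, x ^ p ^ k = 1) : IsPGroup p (zpowers x) := by
  obtain ⟨k, hk⟩ := hx
  obtain ⟨j, _, hj⟩ := (Nat.dvd_prime_pow hp.out).1 (orderOf_dvd_of_pow_eq_one hk)
  exact IsPGroup.of_card (n := j) (by rw [Nat.card_zpowers, hj])

theorem isPGroup_sup {R : Subgroup G} (hR : IsPGroup p R) {x : G} (hx : ∃ k, x ^ p ^ k = 1)
    (hxR : x ∈ normalizer (R : Set G)) : IsPGroup p (zpowers x ⊔ R : Subgroup G) :=
  IsPGroup.to_sup_of_normal_right' (isPGroup_zpowers hx) hR (by rw [zpowers_le]; exact hxR)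

theorem mem_sup_isPGroup {R : Subgroup G} (hR : IsPGroup p R) {x : G} (hx : ∃ k, x ^ p ^ k = 1)
    (hxR : x ∈ normalizer (R : Set G)) {s : G} (hs : s ∈ R) : ∃ k, (s * x⁻¹) ^ p ^ k = 1 := by
  obtain ⟨k, hk⟩ := isPGroup_sup hR hx hxR ⟨s * x⁻¹, mul_mem ((le_sup_right : R ≤ zpowers x ⊔ R) hs)
    (inv_mem ((le_sup_left : zpowers x ≤ zpowers x ⊔ R) (mem_zpowers x)))⟩
  exact ⟨k, congrArg Subtype.val hk⟩

end tools

section lvl

variable {X : Type u} [Group X] [Finite X] {p : ℕ} [hp : Fact p.Prime]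

theorem hyp_of (hX : IsPSolvable p X) (hcore : pPrimeCore p X = ⊥) (K : Type*) [Field K] [CharP K p] {n : ℕ}
    (hexp : ∀ g : X, (∃ k, g ^ p ^ k = 1) → g ^ p ^ (n + 1) = 1) : HypP p n (H1.PModV.qrep (pCore p X) K) := by
  refine ⟨fun g h1 => H1.DLc.qrep_inj K hX hcore g h1, exp_quot _ (QuotientGroup.mk'_surjective _) hexp, ?_⟩
  intro g hg v
  obtain ⟨a, ha, rfl⟩ := exists_p_lift (QuotientGroup.mk' (pCore p X)) (QuotientGroup.mk'_surjective _) g hg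
  refine DFunLike.ext _ _ fun s => ?_
  obtain ⟨s, rfl⟩ : ∃ s' : pCore p X, Additive.ofMul s' = s := ⟨s.toMul, rfl⟩
  have h1 := H1.PModV.norm_apply (pCore p X) K a v s (p ^ (n + 1))
  rw [h1]
  have h2 : (⟨((s : X) * a⁻¹) ^ p ^ (n + 1) * a ^ p ^ (n + 1), H1.PModV.norm_mem (pCore p X) a s (p ^ (n + 1))⟩ : pCore p X) = 1 := by
    apply Subtype.ext
    change ((s : X) * a⁻¹) ^ p ^ (n + 1) * a ^ p ^ (n + 1) = 1
    rw [hexp a ha, mul_one]
    exact hexp _ (mem_sup_isPGroup (H1.Cores.isPGroup_pCore p) ha (H1.Gr.mem_norm _ a) s.2)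
  rw [h2, ofMul_one, map_zero]
  rfl

/-- a `p`-element whose `p ^ n`-th power is not in the `p`-core gives the exceptional situation -/
theorem exc (hX : IsPSolvable p X) (hcore : pPrimeCore p X = ⊥) (K : Type*) [Field K] [IsAlgClosed K] [CharP K p] {n : ℕ}
    (hexp : ∀ g : X, (∃ k, g ^ p ^ k = 1) → g ^ p ^ (n + 1) = 1) (x : X) (hx : ∃ k, x ^ p ^ k = 1)
    (hz : x ^ p ^ n ∉ pCore p X) :
    ∃ q : ℕ, q.Prime ∧ (∃ Q : Subgroup (X ⧸ pCore p X), IsPGroup q Q ∧ ∃ a ∈ Q, ∃ b ∈ Q, a * b ≠ b * a) ∧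
      ∃ k ≤ n, (∃ m, 1 ≤ m ∧ p ^ (n + 1 - k) - 1 = q ^ m) ∧
        ∃ v, ((H1.PModV.qrep (pCore p X) K (QuotientGroup.mk' (pCore p X) x) - 1) ^ (p ^ k * (p ^ (n + 1 - k) - 1) - 1)) v ≠ 0 := by
  obtain ⟨k, hk⟩ := hx
  obtain ⟨q, hq, hqp, Q, hQ, hxQ, hyQ⟩ := H1.PModV.exists_q hX x k hk n hz
  haveI := Fact.mk hq
  have h := hyp_of hX hcore K hexp
  have hqK : (q : K) ≠ 0 := natCast_neP (p := p) (Ne.symm hqp)
  have hxk : ∃ k, (QuotientGroup.mk' (pCore p X) x) ^ p ^ k = 1 := ⟨k, by rw [← map_pow, hk, map_one]⟩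
  have ho : orderOf (QuotientGroup.mk' (pCore p X) x) = p ^ (n + 1) := by
    apply order_of h _ hxk
    intro h1
    rw [← map_pow] at h1
    exact hz ((QuotientGroup.eq_one_iff _).mp h1)
  obtain ⟨h1, k', hk', h2, h3⟩ := H1.ThmB.exceptional (H1.PModV.qrep (pCore p X) K) (p := p) (q := q) (Ne.symm hqp) hqK ho Q hQ hxQ hyQ
    (fun x _ hx => h.faith x hx) (h.sum _ hxk)
  exact ⟨q, hq, ⟨Q, hQ, h1⟩, k', hk', h2, h3 (CharP.cast_eq_zero K p)⟩

omit [Finite X] hp in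
theorem eq_two_of {n k q m : ℕ} (hp2 : p ≠ 2) (hpp : p.Prime) (hq : q.Prime) (hk : k ≤ n) (hkm : p ^ (n + 1 - k) - 1 = q ^ m) : q = 2 := by
  have hodd : Odd (p ^ (n + 1 - k)) := (hpp.odd_of_ne_two hp2).pow
  have h1 : 2 ∣ q ^ m := by
    rw [← hkm]
    obtain ⟨t, ht⟩ := hodd
    exact ⟨t, by omega⟩
  exact ((Nat.prime_dvd_prime_iff_eq Nat.prime_two hq).mp (Nat.prime_two.dvd_of_dvd_pow h1)).symm

/-- the drop at the second level -/
theorem drop2 (hp2 : p ≠ 2) (hX : IsPSolvable p X) (hcore : pPrimeCore p X = ⊥) {n : ℕ}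
    (hexp : ∀ g : X, (∃ k, g ^ p ^ k = 1) → g ^ p ^ (n + 1) = 1)
    (hcomm : ∀ P : Subgroup X, IsPGroup p P → ∀ g ∈ P, ∀ g' ∈ P, g ^ p ^ n * g' ^ p ^ n = g' ^ p ^ n * g ^ p ^ n)
    (x : X) (hx : ∃ k, x ^ p ^ k = 1) : x ^ p ^ n ∈ pCore p X := by
  by_contra hz
  let K := AlgebraicClosure (ZMod p)
  haveI hcharK : CharP K p := charP_of_injective_algebraMap (algebraMap (ZMod p) K).injective p
  obtain ⟨q, hq, -, k, hk, ⟨m, hm, hkm⟩, v, hv⟩ := exc hX hcore K hexp x hx hz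
  apply hv
  set R := pCore p X with hR
  set T := H1.PModV.qrep R K (QuotientGroup.mk' R x) with hT
  have hp3 : 3 ≤ p := by
    have := hp.out.two_le
    omega
  have hppos : ∀ m, 0 < p ^ m := fun m => pow_pos hp.out.pos m
  -- the operator `(T - 1) ^ (2 p ^ n - 1)` vanishes
  have hzero : ∀ f, ((T - 1) ^ (p ^ n + (p ^ n - 1))) f = 0 := by
    intro f
    rw [pow_add, H1.Crit.sub_one_pow' p n, H1.Crit.sub_one_pow p n, Module.End.mul_apply, LinearMap.sub_apply,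
      Module.End.one_apply, sub_eq_zero]
    have hsum : (∑ i ∈ Finset.range (p ^ n), T ^ i) f = ∑ i ∈ Finset.range (p ^ n), H1.PModV.qrep R K (QuotientGroup.mk' R x ^ i) f := by
      rw [LinearMap.sum_apply]
      exact Finset.sum_congr rfl fun i _ => by rw [map_pow]
    rw [hsum]
    set f' := ∑ i ∈ Finset.range (p ^ n), H1.PModV.qrep R K (QuotientGroup.mk' R x ^ i) f with hf'
    have hTp : T ^ p ^ n = H66.HomMod.rep R K (x ^ p ^ n) := by
      rw [hT, ← map_pow, ← map_pow, H1.PModV.qrep_mk]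
    rw [hTp]
    refine DFunLike.ext _ _ fun r => ?_
    obtain ⟨r, rfl⟩ : ∃ r' : R, Additive.ofMul r' = r := ⟨r.toMul, rfl⟩
    rw [H66.HomMod.rep_apply]
    have e1 : f' (Additive.ofMul r) = f (Additive.ofMul ⟨((r : X) * x⁻¹) ^ p ^ n * x ^ p ^ n, H1.PModV.norm_mem R x r (p ^ n)⟩) :=
      H1.PModV.norm_apply R K x f r (p ^ n)
    have e2 : f' (Additive.ofMul (H66.HomMod.cj R (x ^ p ^ n) r)) =
        f (Additive.ofMul ⟨(((H66.HomMod.cj R (x ^ p ^ n) r : R) : X) * x⁻¹) ^ p ^ n * x ^ p ^ n, H1.PModV.norm_mem R x _ (p ^ n)⟩) :=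
      H1.PModV.norm_apply R K x f (H66.HomMod.cj R (x ^ p ^ n) r) (p ^ n)
    rw [e1, e2]
    congr 2
    apply Subtype.ext
    change (((H66.HomMod.cj R (x ^ p ^ n) r : R) : X) * x⁻¹) ^ p ^ n * x ^ p ^ n = ((r : X) * x⁻¹) ^ p ^ n * x ^ p ^ n
    congr 1
    rw [H66.HomMod.cj_coe]
    have hP := isPGroup_sup (H1.Cores.isPGroup_pCore p) hx (H1.Gr.mem_norm R x)
    have hxP : x ∈ zpowers x ⊔ R := (le_sup_left : zpowers x ≤ zpowers x ⊔ R) (mem_zpowers x)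
    have hrP : (r : X) * x⁻¹ ∈ zpowers x ⊔ R := mul_mem ((le_sup_right : R ≤ zpowers x ⊔ R) r.2) (inv_mem hxP)
    have hc := hcomm _ hP _ hrP _ hxP
    have e3 : (x ^ p ^ n)⁻¹ * (r : X) * x ^ p ^ n * x⁻¹ = (x ^ p ^ n)⁻¹ * ((r : X) * x⁻¹) * ((x ^ p ^ n)⁻¹)⁻¹ := by
      have e4 : x ^ p ^ n * x⁻¹ = x⁻¹ * x ^ p ^ n := by
        have : Commute (x ^ p ^ n) x⁻¹ := ((Commute.refl x).pow_left _).inv_right
        exact this
      rw [inv_inv]
      calc (x ^ p ^ n)⁻¹ * (r : X) * x ^ p ^ n * x⁻¹ = (x ^ p ^ n)⁻¹ * (r : X) * (x ^ p ^ n * x⁻¹) := by group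
        _ = (x ^ p ^ n)⁻¹ * (r : X) * (x⁻¹ * x ^ p ^ n) := by rw [e4]
        _ = _ := by group
    rw [e3, conj_pow, inv_inv, mul_assoc, hc]
    group
  -- exponents
  have h1 : p ^ k * (p ^ (n + 1 - k) - 1) = p ^ (n + 1) - p ^ k := by
    rw [Nat.mul_sub, mul_one, ← pow_add]
    congr 2
    omega
  have h2 : p ^ k ≤ p ^ n := Nat.pow_le_pow_right hp.out.pos hk
  have h3 : 3 * p ^ n ≤ p ^ (n + 1) := by rw [pow_succ, mul_comm]; exact Nat.mul_le_mul_left _ hp3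
  have h4 := hppos n
  obtain ⟨d, hd⟩ : ∃ d, p ^ k * (p ^ (n + 1 - k) - 1) - 1 = d + (p ^ n + (p ^ n - 1)) :=
    ⟨p ^ k * (p ^ (n + 1 - k) - 1) - 1 - (p ^ n + (p ^ n - 1)), by rw [h1]; omega⟩
  rw [hd, pow_add, Module.End.mul_apply, hzero, map_zero]

/-- commuting powers pass to quotients -/
theorem comm_quot (N : Subgroup X) [N.Normal] {n : ℕ}
    (hcomm : ∀ P : Subgroup X, IsPGroup p P → ∀ g ∈ P, ∀ g' ∈ P, g ^ p ^ n * g' ^ p ^ n = g' ^ p ^ n * g ^ p ^ n) :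
    ∀ P : Subgroup (X ⧸ N), IsPGroup p P → ∀ g ∈ P, ∀ g' ∈ P, g ^ p ^ n * g' ^ p ^ n = g' ^ p ^ n * g ^ p ^ n := by
  intro P hP g hg g' hg'
  obtain ⟨S, hS⟩ := H66.PLen2.exists_pgroup_lift N P hP
  obtain ⟨a, ha, rfl⟩ := hS hg
  obtain ⟨a', ha', rfl⟩ := hS hg'
  rw [← map_pow, ← map_pow, ← map_mul, ← map_mul, hcomm S S.2 a ha a' ha']

theorem ab_quot (N : Subgroup X) [N.Normal] {q : ℕ} [hq : Fact q.Prime]
    (hcomm : ∀ P : Subgroup X, IsPGroup q P → ∀ g ∈ P, ∀ g' ∈ P, g * g' = g' * g) :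
    ∀ P : Subgroup (X ⧸ N), IsPGroup q P → ∀ g ∈ P, ∀ g' ∈ P, g * g' = g' * g := by
  intro P hP g hg g' hg'
  obtain ⟨S, hS⟩ := H66.PLen2.exists_pgroup_lift N P hP
  obtain ⟨a, ha, rfl⟩ := hS hg
  obtain ⟨a', ha', rfl⟩ := hS hg'
  rw [← map_mul, ← map_mul, hcomm S S.2 a ha a' ha']

end lvl

section main

variable {p : ℕ} [hp : Fact p.Prime]

theorem pLengthLE_zero_of (G : Type u) [Group G] [Finite G] (hexp : ∀ g : G, (∃ k, g ^ p ^ k = 1) → g ^ p ^ 0 = 1) : PLengthLE p 0 G := by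
  rw [H66.PLen.pLengthLE_zero_iff, Nat.coprime_comm, hp.out.coprime_iff_not_dvd]
  intro hdvd
  obtain ⟨y, hy⟩ := exists_prime_orderOf_dvd_card' (G := G) p hdvd
  have h1 := hexp y ⟨1, by rw [pow_one]; have := pow_orderOf_eq_one y; rwa [hy] at this⟩
  rw [pow_zero, pow_one] at h1
  rw [h1, orderOf_one] at hy
  exact hp.out.one_lt.ne hy

/-- **part (b)** -/
theorem mainB (hp2 : p ≠ 2) (e : ℕ) : ∀ (G : Type u) [Group G] [Finite G], IsPSolvable p G →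
    (∀ g : G, (∃ k, g ^ p ^ k = 1) → g ^ p ^ e = 1) → PLengthLE p (2 * e) G := by
  induction e with
  | zero => 
    intro G _ _ _ hexp
    exact pLengthLE_zero_of G hexp
  | succ n ih =>
    intro G _ _ hG hexp
    set N := pPrimeCore p G with hN
    have hNn : N.Normal := inferInstance
    apply H66.PLen.pLengthLE_of_quotient_coprime N (H1.Cores.coprime_card_pPrimeCore p)
    set X := G ⧸ N with hXdef
    have hX : IsPSolvable p X := H37.PSolv.quotient hG _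
    have hcore : pPrimeCore p X = ⊥ := H1.Cores.pPrimeCore_quotient_pPrimeCore p
    have hexpX := exp_quot (p := p) (QuotientGroup.mk' N) (QuotientGroup.mk'_surjective _) hexp
    let K := AlgebraicClosure (ZMod p)
    haveI hcharK : CharP K p := charP_of_injective_algebraMap (algebraMap (ZMod p) K).injective p
    have hhyp := hyp_of hX hcore K hexpX
    have e1 : 2 * (n + 1) = (2 * n + 1) + 1 := by ring
    rw [e1]
    refine H66.PLen.pLengthLE_succ_of (⊥ : Subgroup X) (pCore p X) bot_le (by simp) ?_ ?_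
    · rw [Subgroup.relIndex_bot_left]
      exact IsPGroup.iff_card.mp (H1.Cores.isPGroup_pCore p)
    set Γ := X ⧸ pCore p X with hΓ
    have hΓs : IsPSolvable p Γ := H37.PSolv.quotient hX _
    have hΓcore : pCore p Γ = ⊥ := H1.Cores.pCore_quotient_pCore p
    have hexpΓ := exp_quot (p := p) (QuotientGroup.mk' (pCore p X)) (QuotientGroup.mk'_surjective _) hexpX
    set M := pPrimeCore p Γ with hM
    have hMn : M.Normal := inferInstance
    apply H66.PLen.pLengthLE_of_quotient_coprime M (H1.Cores.coprime_card_pPrimeCore p)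
    have hYs : IsPSolvable p (Γ ⧸ M) := H37.PSolv.quotient hΓs _
    have hYcore : pPrimeCore p (Γ ⧸ M) = ⊥ := H1.Cores.pPrimeCore_quotient_pPrimeCore p
    have hexpY := exp_quot (p := p) (QuotientGroup.mk' M) (QuotientGroup.mk'_surjective _) hexpΓ
    have hcY := comm_quot (p := p) M (fun P hP g hg g' hg' => powers_commute hp2 hΓs hΓcore hhyp P hP g g' hg hg')
    refine H66.PLen.pLengthLE_succ_of (⊥ : Subgroup (Γ ⧸ M)) (pCore p (Γ ⧸ M)) bot_le (by simp) ?_ ?_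
    · rw [Subgroup.relIndex_bot_left]
      exact IsPGroup.iff_card.mp (H1.Cores.isPGroup_pCore p)
    apply ih _ (H37.PSolv.quotient hYs _)
    intro g hg
    obtain ⟨x, hx, hxg⟩ := exists_p_lift (p := p) (QuotientGroup.mk' (pCore p (Γ ⧸ M))) (QuotientGroup.mk'_surjective _) g hg
    have h1 := drop2 hp2 hYs hYcore hexpY hcY x hx
    rw [← hxg, ← map_pow]
    exact (QuotientGroup.eq_one_iff _).mpr h1

theorem fermat_of (hp2 : p ≠ 2) {j m : ℕ} (hj : 1 ≤ j) (h : p ^ j - 1 = 2 ^ m) : ∃ k : ℕ, p = 2 ^ k + 1 := by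
  -- `p - 1` divides `p ^ j - 1`
  have h1 : p - 1 ∣ p ^ j - 1 := by
    have := Nat.sub_dvd_pow_sub_pow p 1 j
    rwa [one_pow] at this
  rw [h] at h1
  obtain ⟨k, _, hk⟩ := (Nat.dvd_prime_pow Nat.prime_two).mp h1
  have := hp.out.two_le
  exact ⟨k, by omega⟩

/-- **part (a)** -/
theorem mainA (hp2 : p ≠ 2) (e : ℕ) : ∀ (G : Type u) [Group G] [Finite G], IsPSolvable p G →
    ((¬ ∃ k : ℕ, p = 2 ^ k + 1) ∨ ∀ P : Subgroup G, IsPGroup 2 P → ∀ g ∈ P, ∀ g' ∈ P, g * g' = g' * g) →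
    (∀ g : G, (∃ k, g ^ p ^ k = 1) → g ^ p ^ e = 1) → PLengthLE p e G := by
  haveI h2p : Fact (Nat.Prime 2) := ⟨Nat.prime_two⟩
  induction e with
  | zero => 
    intro G _ _ _ _ hexp
    exact pLengthLE_zero_of G hexp
  | succ n ih =>
    intro G _ _ hG hcase hexp
    set N := pPrimeCore p G with hN
    have hNn : N.Normal := inferInstance
    apply H66.PLen.pLengthLE_of_quotient_coprime N (H1.Cores.coprime_card_pPrimeCore p)
    set X := G ⧸ N with hXdef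
    have hX : IsPSolvable p X := H37.PSolv.quotient hG _
    have hcore : pPrimeCore p X = ⊥ := H1.Cores.pPrimeCore_quotient_pPrimeCore p
    have hexpX := exp_quot (p := p) (QuotientGroup.mk' N) (QuotientGroup.mk'_surjective _) hexp
    refine H66.PLen.pLengthLE_succ_of (⊥ : Subgroup X) (pCore p X) bot_le (by simp) ?_ ?_
    · rw [Subgroup.relIndex_bot_left]
      exact IsPGroup.iff_card.mp (H1.Cores.isPGroup_pCore p)
    have hcase' : ((¬ ∃ k : ℕ, p = 2 ^ k + 1) ∨ ∀ P : Subgroup (X ⧸ pCore p X), IsPGroup 2 P → ∀ g ∈ P, ∀ g' ∈ P, g * g' = g' * g) := by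
      rcases hcase with h | h
      · exact Or.inl h
      · exact Or.inr (ab_quot (q := 2) (pCore p X) (ab_quot (q := 2) N h))
    apply ih _ (H37.PSolv.quotient hX _) hcase'
    intro g hg
    obtain ⟨x, hx, hxg⟩ := exists_p_lift (p := p) (QuotientGroup.mk' (pCore p X)) (QuotientGroup.mk'_surjective _) g hg
    rw [← hxg, ← map_pow]
    refine (QuotientGroup.eq_one_iff _).mpr ?_
    by_contra hz
    let K := AlgebraicClosure (ZMod p)
    haveI hcharK : CharP K p := charP_of_injective_algebraMap (algebraMap (ZMod p) K).injective p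
    obtain ⟨q, hq, ⟨Q, hQ, a, ha, b, hb, hab⟩, k, hk, ⟨m, hm, hkm⟩, -⟩ := exc hX hcore K hexpX x hx hz
    have hq2 := eq_two_of hp2 hp.out hq hk hkm
    subst hq2
    rcases hcase' with h | h
    · exact h (fermat_of hp2 (by omega) hkm)
    · exact hab (h Q hQ a ha b hb)

end main

end H1.Hx
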