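import Cfsg.Agent.Lib.H1.OWDef

/-!
A collineation of a finite projective plane fixes as many points as lines.
-/

set_option autoImplicit false

open Configuration
open Configuration.HasPoints (mkPoint mkPoint_ax)
open Configuration.HasLines (mkLine mkLine_ax)
open Configuration.Nondegenerate (exists_point exists_line eq_or_eq)
open Configuration.ProjectivePlane (order exists_config)

namespace H1.OW

section

variable {P L : Type*} [Membership P L] [ProjectivePlane P L] [Finite P] [Finite L]

open Classical in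
theorem card_lines_through (p q : P) :
    Nat.card {l : L // p ∈ l ∧ q ∈ l} = 1 + if q = p then order P L else 0 := by
  by_cases h : q = p
  · subst h
    rw [if_pos rfl]
    have h1 : Nat.card {l : L // q ∈ l ∧ q ∈ l} = Nat.card {l : L // q ∈ l} :=
      Nat.card_congr (Equiv.subtypeEquivRight (fun l => and_self_iff))
    have h2 := ProjectivePlane.lineCount_eq L q
    rw [lineCount] at h2
    rw [h1, h2, add_comm]
  · rw [if_neg h, add_zero]
    rw [Nat.card_eq_one_iff_unique]
    have hpq : p ≠ q := fun h' => h h'.symm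
    refine ⟨⟨?_⟩, ⟨⟨mkLine hpq, mkLine_ax hpq⟩⟩⟩
    rintro ⟨l, hl1, hl2⟩ ⟨m, hm1, hm2⟩
    exact Subtype.ext ((eq_or_eq hl1 hl2 hm1 hm2).resolve_left hpq)

open Classical in
theorem card_points_on (l m : L) :
    Nat.card {p : P // p ∈ l ∧ p ∈ m} = 1 + if m = l then order P L else 0 := by
  by_cases h : m = l
  · subst h
    rw [if_pos rfl]
    have h1 : Nat.card {p : P // p ∈ m ∧ p ∈ m} = Nat.card {p : P // p ∈ m} :=
      Nat.card_congr (Equiv.subtypeEquivRight (fun l => and_self_iff))
    have h2 := ProjectivePlane.pointCount_eq P m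
    rw [pointCount] at h2
    rw [h1, h2, add_comm]
  · rw [if_neg h, add_zero]
    rw [Nat.card_eq_one_iff_unique]
    have hpq : l ≠ m := fun h' => h h'.symm
    refine ⟨⟨?_⟩, ⟨⟨mkPoint hpq, mkPoint_ax hpq⟩⟩⟩
    rintro ⟨p, hl1, hl2⟩ ⟨q, hm1, hm2⟩
    exact Subtype.ext ((eq_or_eq hl1 hm1 hl2 hm2).resolve_right hpq)

omit [Finite P] [Finite L] in
variable (P L) in
theorem card_PL [Finite P] [Finite L] : Nat.card P = Nat.card L := by
  have := Fintype.ofFinite P
  have := Fintype.ofFinite L
  rw [Nat.card_eq_fintype_card, Nat.card_eq_fintype_card]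
  exact ProjectivePlane.card_points_eq_card_lines P L

omit [Finite P] [Finite L] in
variable (P L) in
theorem card_P [Finite P] [Finite L] : Nat.card P = order P L ^ 2 + order P L + 1 := by
  have := Fintype.ofFinite P
  rw [Nat.card_eq_fintype_card]
  exact ProjectivePlane.card_points P L

end

section

variable {G P L : Type*} [Group G] [MulAction G P] [MulAction G L] [Membership P L] [ProjectivePlane P L]
  [Finite P] [Finite L]

theorem sum_aux {X : Type*} [Fintype X] (n : ℕ) (Q : X → Prop) [DecidablePred Q] :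
    ∑ x : X, (1 + if Q x then n else 0) = Nat.card X + n * Nat.card {x : X // Q x} := by
  rw [Finset.sum_add_distrib, Finset.sum_const, Finset.card_univ, smul_eq_mul, mul_one, Nat.card_eq_fintype_card,
    ← Finset.sum_filter, Finset.sum_const, smul_eq_mul, Nat.card_eq_fintype_card, Fintype.card_subtype, mul_comm]

theorem count_pts (g : G) : Nat.card {x : P × L // x.1 ∈ x.2 ∧ g • x.1 ∈ x.2} =
    Nat.card P + order P L * Nat.card {p : P // g • p = p} := by
  classical
  have := Fintype.ofFinite P
  have e : {x : P × L // x.1 ∈ x.2 ∧ g • x.1 ∈ x.2} ≃ Σ p : P, {l : L // p ∈ l ∧ g • p ∈ l} :=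
    { toFun := fun x => ⟨x.1.1, x.1.2, x.2⟩
      invFun := fun x => ⟨(x.1, x.2.1), x.2.2⟩
      left_inv := fun x => rfl
      right_inv := fun x => rfl }
  rw [Nat.card_congr e, Nat.card_sigma]
  rw [← sum_aux (order P L) (fun p : P => g • p = p)]
  apply Finset.sum_congr rfl
  intro p _
  exact card_lines_through p (g • p)

theorem count_lines (hinc : ∀ (g : G) (p : P) (l : L), g • p ∈ g • l ↔ p ∈ l) (g : G) :
    Nat.card {x : P × L // x.1 ∈ x.2 ∧ g • x.1 ∈ x.2} =
    Nat.card L + order P L * Nat.card {l : L // g • l = l} := by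
  classical
  have := Fintype.ofFinite L
  have e : {x : P × L // x.1 ∈ x.2 ∧ g • x.1 ∈ x.2} ≃ Σ l : L, {p : P // p ∈ l ∧ g • p ∈ l} :=
    { toFun := fun x => ⟨x.1.2, x.1.1, x.2⟩
      invFun := fun x => ⟨(x.2.1, x.1), x.2.2⟩
      left_inv := fun x => rfl
      right_inv := fun x => rfl }
  rw [Nat.card_congr e, Nat.card_sigma]
  rw [← sum_aux (order P L) (fun l : L => g • l = l)]
  apply Finset.sum_congr rfl
  intro l _
  have h1 : Nat.card {p : P // p ∈ l ∧ g • p ∈ l} = Nat.card {p : P // p ∈ l ∧ p ∈ g⁻¹ • l} := by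
    apply Nat.card_congr
    apply Equiv.subtypeEquivRight
    intro p
    have := hinc g p (g⁻¹ • l)
    rw [smul_inv_smul] at this
    rw [this]
  rw [h1, card_points_on]
  congr 1
  by_cases h : g • l = l
  · rw [if_pos h, if_pos]
    rw [inv_smul_eq_iff, h]
  · rw [if_neg h, if_neg]
    intro h'
    apply h
    rw [inv_smul_eq_iff] at h'
    exact h'.symm

/-- a collineation fixes as many points as lines -/
theorem fix_eq (hinc : ∀ (g : G) (p : P) (l : L), g • p ∈ g • l ↔ p ∈ l) (g : G) :
    Nat.card {p : P // g • p = p} = Nat.card {l : L // g • l = l} := by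
  have h1 := count_pts (L := L) (P := P) g
  rw [count_lines hinc g, card_PL P L] at h1
  have h2 : order P L * Nat.card {l : L // g • l = l} = order P L * Nat.card {p : P // g • p = p} := by omega
  exact (Nat.eq_of_mul_eq_mul_left (lt_trans one_pos (ProjectivePlane.one_lt_order P L)) h2).symm

end

end H1.OW
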