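import Cfsg.Agent.Lib.H1.OW2a

/-!
Baer's theorem on involutory collineations.
-/

set_option autoImplicit false

open Configuration
open Configuration.HasPoints (mkPoint mkPoint_ax)
open Configuration.HasLines (mkLine mkLine_ax)
open Configuration.Nondegenerate (exists_point exists_line eq_or_eq)
open Configuration.ProjectivePlane (order exists_config)

namespace H1.OW

section

variable {P L : Type*} [Membership P L] [ProjectivePlane P L] [Finite P] [Finite L]

theorem third_point (l : L) (p q : P) : ∃ r : P, r ∈ l ∧ r ≠ p ∧ r ≠ q := by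
  by_contra hc
  push Not at hc
  have h1 : {r : P | r ∈ l} ⊆ {p, q} := by
    intro r hr
    by_cases h : r = p
    · exact Or.inl h
    · exact Or.inr (hc r hr h)
  have h2 := Set.ncard_le_ncard h1 (Set.toFinite _)
  have h3 : ({p, q} : Set P).ncard ≤ 2 := (Set.ncard_insert_le p {q}).trans (by rw [Set.ncard_singleton])
  have h4 := ProjectivePlane.two_lt_pointCount P l
  have h5 : pointCount P l = {r : P | r ∈ l}.ncard := rfl
  omega

theorem third_line (p : P) (l m : L) : ∃ k : L, p ∈ k ∧ k ≠ l ∧ k ≠ m := by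
  by_contra hc
  push Not at hc
  have h1 : {k : L | p ∈ k} ⊆ {l, m} := by
    intro r hr
    by_cases h : r = l
    · exact Or.inl h
    · exact Or.inr (hc r hr h)
  have h2 := Set.ncard_le_ncard h1 (Set.toFinite _)
  have h3 : ({l, m} : Set L).ncard ≤ 2 := (Set.ncard_insert_le l {m}).trans (by rw [Set.ncard_singleton])
  have h4 := ProjectivePlane.two_lt_lineCount L p
  have h5 : lineCount L p = {k : L | p ∈ k}.ncard := rfl
  omega

omit [Finite P] [Finite L] in
theorem eq_point {p q : P} {l m : L} (h : l ≠ m) (h1 : p ∈ l) (h2 : q ∈ l) (h3 : p ∈ m) (h4 : q ∈ m) : p = q :=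
  (eq_or_eq h1 h2 h3 h4).resolve_right h

omit [Finite P] [Finite L] in
theorem eq_line {p q : P} {l m : L} (h : p ≠ q) (h1 : p ∈ l) (h2 : q ∈ l) (h3 : p ∈ m) (h4 : q ∈ m) : l = m :=
  (eq_or_eq h1 h2 h3 h4).resolve_left h

omit [Finite P] [Finite L] in
theorem ex_line (p q : P) (h : p ≠ q) : ∃ l : L, p ∈ l ∧ q ∈ l := ⟨mkLine h, mkLine_ax h⟩

omit [Finite P] [Finite L] in
theorem ex_point (l m : L) (h : l ≠ m) : ∃ p : P, p ∈ l ∧ p ∈ m := ⟨mkPoint h, mkPoint_ax h⟩

end

section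

variable {G P L : Type*} [Group G] [MulAction G P] [MulAction G L] [Membership P L] [ProjectivePlane P L]

theorem line_fix (hinc : ∀ (g : G) (p : P) (l : L), g • p ∈ g • l ↔ p ∈ l) {g : G} {p q : P} {l : L} (h : p ≠ q)
    (hp : g • p = p) (hq : g • q = q) (h1 : p ∈ l) (h2 : q ∈ l) : g • l = l := by
  have h3 : p ∈ g • l := by
    have := (hinc g p l).2 h1
    rwa [hp] at this
  have h4 : q ∈ g • l := by
    have := (hinc g q l).2 h2
    rwa [hq] at this
  exact eq_line h h3 h4 h1 h2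

theorem point_fix (hinc : ∀ (g : G) (p : P) (l : L), g • p ∈ g • l ↔ p ∈ l) {g : G} {p : P} {l m : L} (h : l ≠ m)
    (hl : g • l = l) (hm : g • m = m) (h1 : p ∈ l) (h2 : p ∈ m) : g • p = p := by
  have h3 : g • p ∈ l := by
    have := (hinc g p l).2 h1
    rwa [hl] at this
  have h4 : g • p ∈ m := by
    have := (hinc g p m).2 h2
    rwa [hm] at this
  exact eq_point h h3 h1 h4 h2

omit [ProjectivePlane P L] in
theorem mem_of_fix (hinc : ∀ (g : G) (p : P) (l : L), g • p ∈ g • l ↔ p ∈ l) {g : G} {p : P} {l : L}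
    (hl : g • l = l) (h : p ∈ l) : g • p ∈ l := by
  have := (hinc g p l).2 h
  rwa [hl] at this

/-- the line through a moved point and its image is fixed -/
theorem line_of_moved (hinc : ∀ (g : G) (p : P) (l : L), g • p ∈ g • l ↔ p ∈ l) {g : G}
    (hg : ∀ p : P, g • g • p = p) {p : P} (hp : g • p ≠ p) : ∃ l : L, p ∈ l ∧ g • p ∈ l ∧ g • l = l := by
  obtain ⟨l, h1, h2⟩ := ex_line (L := L) p (g • p) (Ne.symm hp)
  refine ⟨l, h1, h2, ?_⟩
  have h3 : g • p ∈ g • l := (hinc g p l).2 h1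
  have h4 : p ∈ g • l := by
    have := (hinc g (g • p) l).2 h2
    rwa [hg] at this
  exact eq_line hp h3 h4 h2 h1

variable [Finite P] [Finite L]

theorem sq_line (hinc : ∀ (g : G) (p : P) (l : L), g • p ∈ g • l ↔ p ∈ l) {g : G}
    (hg : ∀ p : P, g • g • p = p) (l : L) : g • g • l = l := by
  obtain ⟨p, hp, -, -⟩ := third_point l (exists_config (P := P) (L := L)).choose (exists_config (P := P) (L := L)).choose
  obtain ⟨q, hq, hqp, -⟩ := third_point l p p
  have h1 : p ∈ g • g • l := by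
    have := (hinc g (g • p) (g • l)).2 ((hinc g p l).2 hp)
    rwa [hg] at this
  have h2 : q ∈ g • g • l := by
    have := (hinc g (g • q) (g • l)).2 ((hinc g q l).2 hq)
    rwa [hg] at this
  exact eq_line hqp h2 h1 hq hp

theorem point_of_moved (hinc : ∀ (g : G) (p : P) (l : L), g • p ∈ g • l ↔ p ∈ l) {g : G}
    (hg : ∀ p : P, g • g • p = p) {l : L} (hl : g • l ≠ l) : ∃ p : P, p ∈ l ∧ p ∈ g • l ∧ g • p = p := by
  obtain ⟨p, h1, h2⟩ := ex_point (P := P) l (g • l) (Ne.symm hl)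
  refine ⟨p, h1, h2, ?_⟩
  have h3 : g • p ∈ g • l := (hinc g p l).2 h1
  have h4 : g • p ∈ l := by
    have := (hinc g p (g • l)).2 h2
    rwa [sq_line hinc hg] at this
  exact eq_point hl h3 h2 h4 h1

/-- a central involution is axial -/
theorem central_axial (hinc : ∀ (g : G) (p : P) (l : L), g • p ∈ g • l ↔ p ∈ l) {g : G}
    (hg : ∀ p : P, g • g • p = p) (c : P) (hc : ∀ l : L, c ∈ l → g • l = l) (hne : ∃ p : P, g • p ≠ p) :
    ∃ a : L, ∀ p : P, p ∈ a → g • p = p := by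
  by_contra hna
  push Not at hna
  have hgc : g • c = c := by
    obtain ⟨l, hl⟩ := exists_line (L := L) c
    obtain ⟨l1, h1, -, -⟩ := third_line c l l
    obtain ⟨l2, h2, h3, -⟩ := third_line c l1 l1
    exact point_fix hinc h3 (hc l2 h2) (hc l1 h1) h2 h1
  -- every fixed line passes through c
  have hfl : ∀ l : L, g • l = l → c ∈ l := by
    intro l hl
    by_contra hcl
    obtain ⟨r, hr, hgr⟩ := hna l
    apply hgr
    have hrc : c ≠ r := fun h => hcl (h ▸ hr)
    obtain ⟨k, hk1, hk2⟩ := ex_line (L := L) c r hrc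
    exact point_fix hinc (fun h => hcl (h ▸ hk1) : k ≠ l) (hc k hk1) hl hk2 hr
  obtain ⟨p, hp⟩ := hne
  have hpc : c ≠ p := fun h => hp (h ▸ hgc)
  obtain ⟨k0, hk1, hk2⟩ := ex_line (L := L) c p hpc
  obtain ⟨l, hl1, hl2, -⟩ := third_line p k0 k0
  have hcl : c ∉ l := fun h => hl2 (eq_line hpc h hl1 hk1 hk2)
  have hgl : g • l ≠ l := fun h => hcl (hfl l h)
  obtain ⟨q, hq1, -, hgq⟩ := point_of_moved hinc hg hgl
  have hqc : c ≠ q := fun h => hcl (h ▸ hq1)
  obtain ⟨m, hm1, hm2⟩ := ex_line (L := L) c q hqc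
  obtain ⟨s, hs, hgs⟩ := hna m
  have hsc : c ≠ s := fun h => hgs (h ▸ hgc)
  have hsq : q ≠ s := fun h => hgs (h ▸ hgq)
  obtain ⟨k, hk3, hk4, -⟩ := third_line s m m
  have hck : c ∉ k := fun h => hk4 (eq_line hsc h hk3 hm1 hs)
  have hqk : q ∉ k := fun h => hk4 (eq_line hsq h hk3 hm2 hs)
  have hgk : g • k ≠ k := fun h => hck (hfl k h)
  obtain ⟨r, hr1, -, hgr⟩ := point_of_moved hinc hg hgk
  have hqr : q ≠ r := fun h => hqk (h ▸ hr1)
  obtain ⟨j, hj1, hj2⟩ := ex_line (L := L) q r hqr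
  have hj3 : c ∈ j := hfl j (line_fix hinc hqr hgq hgr hj1 hj2)
  have hjm : j = m := eq_line hqc hj3 hj1 hm1 hm2
  rw [hjm] at hj2
  have hrs : r = s := eq_point hk4 hr1 hk3 hj2 hs
  exact hgs (hrs ▸ hgr)

omit [Finite P] [Finite L] in
/-- a fixed quadrangle gives a fixed configuration -/
theorem planar_of (hinc : ∀ (g : G) (p : P) (l : L), g • p ∈ g • l ↔ p ∈ l) {g : G} {a b c d : P} {l₁ l₂ l₃ : L}
    (ha : g • a = a) (hb : g • b = b) (hc : g • c = c) (hd : g • d = d)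
    (h1 : a ∈ l₂) (h2 : b ∈ l₂) (h3 : a ∈ l₃) (h4 : d ∈ l₃) (h5 : c ∈ l₁) (h6 : d ∈ l₁)
    (h7 : c ∉ l₂) (h8 : c ∉ l₃) (h9 : a ∉ l₁) (h10 : b ∉ l₁) (h11 : b ∉ l₃) : PlanarEl P L g := by
  refine ⟨c, a, b, l₁, l₂, l₃, ⟨h7, h8, h9, h1, h3, h10, h2, h11⟩, hc, ha, hb, ?_, ?_, ?_⟩
  · exact line_fix hinc (fun h => h8 (h ▸ h4) : c ≠ d) hc hd h5 h6
  · exact line_fix hinc (fun h => h11 (h ▸ h3) : a ≠ b) ha hb h1 h2
  · exact line_fix hinc (fun h => h9 (h ▸ h6) : a ≠ d) ha hd h3 h4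

omit [Finite P] [Finite L] in
theorem planar_two (hinc : ∀ (g : G) (p : P) (l : L), g • p ∈ g • l ↔ p ∈ l) {g : G} {x y z w w' : P}
    {m n : L} (hx : g • x = x) (hz : g • z = z) (hw : g • w = w) (hw' : g • w' = w')
    (h1 : x ∈ m) (h2 : y ∈ m) (h3 : w ∈ m) (h4 : y ∈ n) (h5 : z ∈ n) (h6 : w' ∈ n)
    (hmn : m ≠ n) (hxy : x ≠ y) (hyz : y ≠ z) (hxw : x ≠ w) (hyw : y ≠ w) (hyw' : y ≠ w') (hzw' : z ≠ w') :
    PlanarEl P L g := by
  have hzm : z ∉ m := fun h => hyz (eq_point hmn h2 h h4 h5)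
  have hxn : x ∉ n := fun h => hxy (eq_point hmn h1 h2 h h4)
  have hwn : w ∉ n := fun h => hyw (eq_point hmn h2 h3 h4 h)
  have hw'm : w' ∉ m := fun h => hyw' (eq_point hmn h2 h h4 h6)
  have hxz : x ≠ z := fun h => hxn (h ▸ h5)
  have hxw' : x ≠ w' := fun h => hxn (h ▸ h6)
  have hww' : w ≠ w' := fun h => hwn (h ▸ h6)
  obtain ⟨l₂, a1, a2⟩ := ex_line (L := L) x z hxz
  obtain ⟨l₃, b1, b2⟩ := ex_line (L := L) x w' hxw'
  obtain ⟨l₁, c1, c2⟩ := ex_line (L := L) w w' hww'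
  refine planar_of hinc (a := x) (b := z) (c := w) (d := w') (l₁ := l₁) (l₂ := l₂) (l₃ := l₃) hx hz hw hw'
    a1 a2 b1 b2 c1 c2 ?_ ?_ ?_ ?_ ?_
  · intro h
    exact hzm (eq_line hxw a1 h h1 h3 ▸ a2)
  · intro h
    exact hw'm (eq_line hxw b1 h h1 h3 ▸ b2)
  · intro h
    exact hw'm (eq_line hxw h c1 h1 h3 ▸ c2)
  · intro h
    exact hwn (eq_line hzw' h c2 h5 h6 ▸ c1)
  · intro h
    exact hxn (eq_line hzw' h b2 h5 h6 ▸ b1)

/-- all fixed points on a line, or at one extra point: the collineation is central -/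
theorem central_of_line_point (hinc : ∀ (g : G) (p : P) (l : L), g • p ∈ g • l ↔ p ∈ l) {g : G}
    (hg : ∀ p : P, g • g • p = p) {x y z : P} {m : L} (hx : g • x = x) (hy : g • y = y) (hz : g • z = z)
    (hxm : x ∈ m) (hym : y ∈ m) (hzm : z ∉ m) (hxy : x ≠ y)
    (hall : ∀ w : P, g • w = w → w = z ∨ w ∈ m) : ∀ l : L, z ∈ l → g • l = l := by
  have hgm : g • m = m := line_fix hinc hxy hx hy hxm hym
  have h1 : ∀ l : L, g • l = l → l ≠ m → z ∈ l := by
    intro l hl hlm
    by_contra hzl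
    obtain ⟨u, hu1, hu2⟩ := ex_point (P := P) l m hlm
    have key : ∀ v : P, g • v = v → v ∈ m → v ≠ u → False := by
      intro v hv hvm hvu
      have hzv : z ≠ v := fun h => hzm (h ▸ hvm)
      obtain ⟨k, hk1, hk2⟩ := ex_line (L := L) z v hzv
      have hkl : k ≠ l := fun h => hzl (h ▸ hk1)
      have hkm : k ≠ m := fun h => hzm (h ▸ hk1)
      obtain ⟨s, hs1, hs2⟩ := ex_point (P := P) k l hkl
      have hgk := line_fix hinc hzv hz hv hk1 hk2
      have hgs := point_fix hinc hkl hgk hl hs1 hs2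
      rcases hall s hgs with h | h
      · exact hzl (h ▸ hs2)
      · have hsv : s = v := eq_point hkm hs1 hk2 h hvm
        have hsu : s = u := eq_point hlm hs2 hu1 h hu2
        exact hvu (hsv ▸ hsu)
    by_cases hxu : x = u
    · exact key y hy hym (fun h => hxy (hxu.trans h.symm))
    · exact key x hx hxm hxu
  intro l hzl
  have hlm : l ≠ m := fun h => hzm (h ▸ hzl)
  obtain ⟨u, hu1, hu2⟩ := ex_point (P := P) l m hlm
  obtain ⟨r, hr1, hr2, hr3⟩ := third_point l z u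
  have hrm : r ∉ m := fun h => hr3 (eq_point hlm hr1 hu1 h hu2)
  have hgr : g • r ≠ r := by
    intro h
    rcases hall r h with h | h
    · exact hr2 h
    · exact hrm h
  obtain ⟨k, hk1, -, hk3⟩ := line_of_moved hinc hg hgr
  have hkm : k ≠ m := fun h => hrm (h ▸ hk1)
  have hzk := h1 k hk3 hkm
  rw [eq_line hr2 hr1 hzl hk1 hzk]
  exact hk3

theorem central_of_line (hinc : ∀ (g : G) (p : P) (l : L), g • p ∈ g • l ↔ p ∈ l) {g : G}
    (hg : ∀ p : P, g • g • p = p) {m : L} (hall : ∀ w : P, g • w = w → w ∈ m) :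
    ∃ c : P, ∀ l : L, c ∈ l → g • l = l := by
  obtain ⟨r0, hr0⟩ := exists_point (P := P) m
  have hg0 : g • r0 ≠ r0 := fun h => hr0 (hall r0 h)
  obtain ⟨l1, h1, -, h3⟩ := line_of_moved hinc hg hg0
  have hl1m : l1 ≠ m := fun h => hr0 (h ▸ h1)
  obtain ⟨u, hu1, hu2⟩ := ex_point (P := P) l1 m hl1m
  have hf : ∀ l : L, g • l = l → l ≠ m → u ∈ l := by
    intro l hl hlm
    by_cases hll : l = l1
    · rw [hll]; exact hu1
    · obtain ⟨s, hs1, hs2⟩ := ex_point (P := P) l l1 hll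
      have hgs := point_fix hinc hll hl h3 hs1 hs2
      have hsu : s = u := eq_point hl1m hs2 hu1 (hall s hgs) hu2
      rw [← hsu]
      exact hs1
  have hf2 : ∀ l : L, u ∈ l → l ≠ m → g • l = l := by
    intro l hul hlm
    obtain ⟨r, hr1, hr2, -⟩ := third_point l u u
    have hrm : r ∉ m := fun h => hr2 (eq_point hlm hr1 hul h hu2)
    have hgr : g • r ≠ r := fun h => hrm (hall r h)
    obtain ⟨k, hk1, -, hk3⟩ := line_of_moved hinc hg hgr
    have hkm : k ≠ m := fun h => hrm (h ▸ hk1)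
    have huk := hf k hk3 hkm
    rw [eq_line hr2 hr1 hul hk1 huk]
    exact hk3
  have hgu : g • u = u := by
    obtain ⟨l2, h4, h5, h6⟩ := third_line u m l1
    exact point_fix hinc h6 (hf2 l2 h4 h5) h3 h4 hu1
  refine ⟨u, fun l hul => ?_⟩
  by_cases hlm : l = m
  · rw [hlm]
    by_contra hgm
    have h4 : u ∈ g • m := by
      have := (hinc g u m).2 hu2
      rwa [hgu] at this
    have h5 := hf2 (g • m) h4 hgm
    rw [sq_line hinc hg] at h5
    exact hgm h5.symm
  · exact hf2 l hul hlm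

/-- **Baer**: a collineation of order at most two of a finite projective plane has an axis or is planar -/
theorem baer (hinc : ∀ (g : G) (p : P) (l : L), g • p ∈ g • l ↔ p ∈ l) (g : G)
    (hg : ∀ p : P, g • g • p = p) : (∃ a : L, ∀ p : P, p ∈ a → g • p = p) ∨ PlanarEl P L g := by
  by_cases hne : ∃ p : P, g • p ≠ p
  swap
  · push Not at hne
    obtain ⟨-, -, -, l, -⟩ := exists_config (P := P) (L := L)
    exact Or.inl ⟨l, fun p _ => hne p⟩
  by_cases hA : ∃ m : L, ∀ p : P, g • p = p → p ∈ m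
  · left
    obtain ⟨m, hm⟩ := hA
    obtain ⟨c, hc⟩ := central_of_line hinc hg hm
    exact central_axial hinc hg c hc hne
  push Not at hA
  by_cases hP : PlanarEl P L g
  · exact Or.inr hP
  left
  obtain ⟨-, -, -, l0, -⟩ := exists_config (P := P) (L := L)
  obtain ⟨x, hx, -⟩ := hA l0
  obtain ⟨l1, hxl1, -, -⟩ := third_line x l0 l0
  obtain ⟨y, hy, hyl1⟩ := hA l1
  have hxy : x ≠ y := fun h => hyl1 (h ▸ hxl1)
  obtain ⟨m, hxm, hym⟩ := ex_line (L := L) x y hxy
  obtain ⟨z, hz, hzm⟩ := hA m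
  have hyz : y ≠ z := fun h => hzm (h ▸ hym)
  have hxz : x ≠ z := fun h => hzm (h ▸ hxm)
  obtain ⟨n, hyn, hzn⟩ := ex_line (L := L) y z hyz
  obtain ⟨k, hxk, hzk⟩ := ex_line (L := L) x z hxz
  have hmn : m ≠ n := fun h => hzm (h ▸ hzn)
  have hmk : m ≠ k := fun h => hzm (h ▸ hzk)
  have hnk : n ≠ k := fun h => hmn (eq_line hxy hxm hym (h ▸ hxk) hyn)
  -- every fixed point lies on a side
  have hside : ∀ w : P, g • w = w → w ∈ m ∨ w ∈ n ∨ w ∈ k := by
    intro w hw
    by_contra hc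
    push Not at hc
    obtain ⟨hwm, hwn, hwk⟩ := hc
    apply hP
    have hxw : x ≠ w := fun h => hwm (h ▸ hxm)
    have hyw : y ≠ w := fun h => hwm (h ▸ hym)
    have hzw : z ≠ w := fun h => hwk (h ▸ hzk)
    obtain ⟨l₃, a1, a2⟩ := ex_line (L := L) x w hxw
    obtain ⟨l₁, b1, b2⟩ := ex_line (L := L) z w hzw
    refine planar_of hinc (a := x) (b := y) (c := z) (d := w) (l₁ := l₁) (l₂ := m) (l₃ := l₃) hx hy hz hw
      hxm hym a1 a2 b1 b2 hzm ?_ ?_ ?_ ?_
    · intro h
      exact hwk (eq_line hxz a1 h hxk hzk ▸ a2)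
    · intro h
      exact hwk (eq_line hxz h b1 hxk hzk ▸ b2)
    · intro h
      exact hwn (eq_line hyz h b1 hyn hzn ▸ b2)
    · intro h
      exact hwm (eq_line hxy a1 h hxm hym ▸ a2)
  -- extra points on at most one side
  have e1 : ∀ w w' : P, g • w = w → g • w' = w' → w ∈ m → x ≠ w → y ≠ w → w' ∈ n → y ≠ w' → z ≠ w' → False := by
    intro w w' hw hw' a1 a2 a3 b1 b2 b3
    exact hP (planar_two hinc hx hz hw hw' hxm hym a1 hyn hzn b1 hmn hxy hyz a2 a3 b2 b3)
  have e2 : ∀ w w' : P, g • w = w → g • w' = w' → w ∈ n → y ≠ w → z ≠ w → w' ∈ k → x ≠ w' → z ≠ w' → False := by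
    intro w w' hw hw' a1 a2 a3 b1 b2 b3
    exact hP (planar_two hinc hy hx hw hw' hyn hzn a1 hzk hxk b1 hnk hyz (Ne.symm hxz) a2 a3 b3 b2)
  have e3 : ∀ w w' : P, g • w = w → g • w' = w' → w ∈ m → x ≠ w → y ≠ w → w' ∈ k → x ≠ w' → z ≠ w' → False := by
    intro w w' hw hw' a1 a2 a3 b1 b2 b3
    exact hP (planar_two hinc hy hz hw hw' hym hxm a1 hxk hzk b1 hmk (Ne.symm hxy) hxz a3 a2 b2 b3)
  have hfin : ∃ c : P, ∀ l : L, c ∈ l → g • l = l := by
    by_cases hSn : ∃ w : P, g • w = w ∧ w ∈ n ∧ y ≠ w ∧ z ≠ w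
    · obtain ⟨w, hw, w1, w2, w3⟩ := hSn
      refine ⟨x, central_of_line_point hinc hg hy hz hx hyn hzn ?_ hyz ?_⟩
      · intro h
        exact hmn (eq_line hxy hxm hym h hyn)
      · intro v hv
        rcases hside v hv with h | h | h
        · by_cases hvx : v = x
          · exact Or.inl hvx
          · by_cases hvy : v = y
            · exact Or.inr (hvy ▸ hyn)
            · exact (e1 v w hv hw h (Ne.symm hvx) (Ne.symm hvy) w1 w2 w3).elim
        · exact Or.inr h
        · by_cases hvx : v = x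
          · exact Or.inl hvx
          · by_cases hvz : v = z
            · exact Or.inr (hvz ▸ hzn)
            · exact (e2 w v hw hv w1 w2 w3 h (Ne.symm hvx) (Ne.symm hvz)).elim
    · push Not at hSn
      by_cases hSk : ∃ w : P, g • w = w ∧ w ∈ k ∧ x ≠ w ∧ z ≠ w
      · obtain ⟨w, hw, w1, w2, w3⟩ := hSk
        refine ⟨y, central_of_line_point hinc hg hx hz hy hxk hzk ?_ hxz ?_⟩
        · intro h
          exact hmk (eq_line hxy hxm hym hxk h)
        · intro v hv
          rcases hside v hv with h | h | h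
          · by_cases hvx : v = x
            · exact Or.inr (hvx ▸ hxk)
            · by_cases hvy : v = y
              · exact Or.inl hvy
              · exact (e3 v w hv hw h (Ne.symm hvx) (Ne.symm hvy) w1 w2 w3).elim
          · by_cases hvy : v = y
            · exact Or.inl hvy
            · have := hSn v hv h (Ne.symm hvy)
              exact Or.inr (this ▸ hzk)
          · exact Or.inr h
      · push Not at hSk
        refine ⟨z, central_of_line_point hinc hg hx hy hz hxm hym hzm hxy ?_⟩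
        intro v hv
        rcases hside v hv with h | h | h
        · exact Or.inr h
        · by_cases hvy : v = y
          · exact Or.inr (hvy ▸ hym)
          · exact Or.inl (hSn v hv h (Ne.symm hvy)).symm
        · by_cases hvx : v = x
          · exact Or.inr (hvx ▸ hxm)
          · exact Or.inl (hSk v hv h (Ne.symm hvx)).symm
  obtain ⟨c, hc⟩ := hfin
  exact central_axial hinc hg c hc hne

end

end H1.OW
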