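import Cfsg.Agent.Lib.H1.OW2b

/-!
Baer involutions: the order is a square; planar 2-groups.
-/

set_option autoImplicit false

open Configuration
open Configuration.HasPoints (mkPoint mkPoint_ax)
open Configuration.HasLines (mkLine mkLine_ax)
open Configuration.Nondegenerate (exists_point exists_line eq_or_eq)
open Configuration.ProjectivePlane (order exists_config)

namespace H1.OW

section

variable {G P L : Type*} [Group G] [MulAction G P] [MulAction G L] [Membership P L] [ProjectivePlane P L]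
  [Finite P] [Finite L]

theorem card_Fx (hinc : ∀ (g : G) (p : P) (l : L), g • p ∈ g • l ↔ p ∈ l) {V : Subgroup G}
    (hV : Planar P L V) : Nat.card (Fx P V) = ord hinc hV ^ 2 + ord hinc hV + 1 :=
  @card_P (Fx P V) (Fx L V) _ (plane hinc hV) _ _

theorem card_Fx_lines (hinc : ∀ (g : G) (p : P) (l : L), g • p ∈ g • l ↔ p ∈ l) {V : Subgroup G}
    (hV : Planar P L V) : Nat.card (Fx L V) = ord hinc hV ^ 2 + ord hinc hV + 1 := by
  rw [← card_Fx hinc hV]
  exact (@card_PL (Fx P V) (Fx L V) _ (plane hinc hV) _ _).symm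

theorem card_Fx_on (hinc : ∀ (g : G) (p : P) (l : L), g • p ∈ g • l ↔ p ∈ l) {V : Subgroup G}
    (hV : Planar P L V) (l : Fx L V) : Nat.card {p : P // p ∈ l.1 ∧ ∀ v ∈ V, v • p = p} = ord hinc hV + 1 := by
  have h1 := @ProjectivePlane.pointCount_eq (Fx P V) (Fx L V) _ (plane hinc hV) _ _ l
  rw [pointCount] at h1
  rw [ord, ← h1]
  exact Nat.card_congr
    { toFun := fun x => ⟨⟨x.1, x.2.2⟩, x.2.1⟩
      invFun := fun x => ⟨x.1.1, x.2, x.1.2⟩
      left_inv := fun x => rfl
      right_inv := fun x => rfl }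

theorem card_Fx_through (hinc : ∀ (g : G) (p : P) (l : L), g • p ∈ g • l ↔ p ∈ l) {V : Subgroup G}
    (hV : Planar P L V) (p : Fx P V) : Nat.card {l : L // p.1 ∈ l ∧ ∀ v ∈ V, v • l = l} = ord hinc hV + 1 := by
  have h1 := @ProjectivePlane.lineCount_eq (Fx P V) (Fx L V) _ (plane hinc hV) _ _ p
  rw [lineCount] at h1
  rw [ord, ← h1]
  exact Nat.card_congr
    { toFun := fun x => ⟨⟨x.1, x.2.2⟩, x.2.1⟩
      invFun := fun x => ⟨x.1.1, x.2, x.1.2⟩
      left_inv := fun x => rfl
      right_inv := fun x => rfl }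

omit [MulAction G L] [Membership P L] [ProjectivePlane P L] [Finite P] [Finite L] in
theorem fix_iff_zpowers {g : G} (p : P) : (∀ v ∈ Subgroup.zpowers g, v • p = p) ↔ g • p = p :=
  ⟨fun h => h g (Subgroup.mem_zpowers g), fun h => fix_zpowers h⟩

/-- a Baer involution: the order is the square of the order of the fixed subplane -/
theorem order_sq (hinc : ∀ (g : G) (p : P) (l : L), g • p ∈ g • l ↔ p ∈ l) (g : G)
    (hg : ∀ p : P, g • g • p = p) (h : PlanarEl P L g) (hne : ∃ p : P, g • p ≠ p) :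
    ∃ m : ℕ, order P L = m ^ 2 ∧ Nat.card {p : P // g • p = p} = m ^ 2 + m + 1 := by
  have hV := h.zpowers
  set m := ord hinc hV with hm
  have c1 : Nat.card {p : P // g • p = p} = m ^ 2 + m + 1 := by
    rw [hm, ← card_Fx hinc hV]
    exact Nat.card_congr (Equiv.subtypeEquivRight (fun p => (fix_iff_zpowers p).symm))
  have c2 : Nat.card {l : L // g • l = l} = m ^ 2 + m + 1 := by
    rw [hm, ← card_Fx_lines hinc hV]
    exact Nat.card_congr (Equiv.subtypeEquivRight (fun p => (fix_iff_zpowers p).symm))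
  have c3 : ∀ l : {l : L // g • l = l}, Nat.card {p : P // p ∈ l.1 ∧ g • p = p} = m + 1 := by
    intro l
    rw [hm, ← card_Fx_on hinc hV ⟨l.1, fix_zpowers l.2⟩]
    exact Nat.card_congr (Equiv.subtypeEquivRight (fun p => and_congr Iff.rfl (fix_iff_zpowers p).symm))
  have c4 : ∀ l : {l : L // g • l = l}, Nat.card {p : P // p ∈ l.1 ∧ g • p ≠ p} + (m + 1) = order P L + 1 := by
    intro l
    rw [← c3 l, ← ProjectivePlane.pointCount_eq P l.1, pointCount]
    have e : {p : P // p ∈ l.1 ∧ g • p ≠ p} ⊕ {p : P // p ∈ l.1 ∧ g • p = p} ≃ {p : P // p ∈ l.1} := by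
      classical
      exact
      { toFun := fun x => Sum.elim (fun y => ⟨y.1, y.2.1⟩) (fun y => ⟨y.1, y.2.1⟩) x
        invFun := fun x => if hx : g • x.1 = x.1 then Sum.inr ⟨x.1, x.2, hx⟩ else Sum.inl ⟨x.1, x.2, hx⟩
        left_inv := by
          rintro (⟨y, h1, h2⟩ | ⟨y, h1, h2⟩)
          · simp [h2]
          · simp [h2]
        right_inv := by
          rintro ⟨y, h1⟩
          by_cases hx : g • y = y
          · simp [hx]
          · simp [hx] }
    rw [← Nat.card_congr e, Nat.card_sum]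
  have c5 : Nat.card {p : P // g • p ≠ p} = (m ^ 2 + m + 1) * (order P L - m) := by
    have := Fintype.ofFinite {l : L // g • l = l}
    have e : (Σ l : {l : L // g • l = l}, {p : P // p ∈ l.1 ∧ g • p ≠ p}) ≃ {p : P // g • p ≠ p} := by
      apply Equiv.ofBijective (fun x => ⟨x.2.1, x.2.2.2⟩)
      constructor
      · rintro ⟨⟨l, hl⟩, ⟨p, h1, h2⟩⟩ ⟨⟨l', hl'⟩, ⟨p', h1', h2'⟩⟩ he
        have hp : p = p' := congrArg Subtype.val he
        subst hp
        have hll : l = l' := eq_line h2 (mem_of_fix hinc hl h1) h1 (mem_of_fix hinc hl' h1') h1'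
        subst hll
        rfl
      · rintro ⟨p, hp⟩
        obtain ⟨l, h1, h2, h3⟩ := line_of_moved (L := L) hinc hg hp
        exact ⟨⟨⟨l, h3⟩, ⟨p, h1, hp⟩⟩, rfl⟩
    rw [← Nat.card_congr e, Nat.card_sigma]
    have h4 : ∀ l : {l : L // g • l = l}, Nat.card {p : P // p ∈ l.1 ∧ g • p ≠ p} = order P L - m := by
      intro l
      have := c4 l
      omega
    rw [Finset.sum_congr rfl (fun l _ => h4 l), Finset.sum_const, Finset.card_univ, smul_eq_mul,
      ← Nat.card_eq_fintype_card, c2]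
  have c6 : Nat.card {p : P // g • p ≠ p} + Nat.card {p : P // g • p = p} = Nat.card P := by
    have e : {p : P // g • p ≠ p} ⊕ {p : P // g • p = p} ≃ P := by
      classical
      exact ((Equiv.sumComm _ _).trans (Equiv.sumCompl (fun p : P => g • p = p)))
    rw [← Nat.card_congr e, Nat.card_sum]
  rw [c5, c1, card_P P L] at c6
  have hpos : 0 < Nat.card {p : P // g • p ≠ p} := by
    obtain ⟨p, hp⟩ := hne
    have : Nonempty {p : P // g • p ≠ p} := ⟨⟨p, hp⟩⟩
    exact Nat.card_pos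
  rw [c5] at hpos
  have hmn : m < order P L := by
    by_contra hc
    push Not at hc
    rw [Nat.sub_eq_zero_of_le hc, mul_zero] at hpos
    exact lt_irrefl _ hpos
  refine ⟨m, ?_, c1⟩
  obtain ⟨d, hd⟩ := Nat.exists_eq_add_of_lt hmn
  rw [hd] at c6 ⊢
  have h7 : m + d + 1 - m = d + 1 := by omega
  rw [h7] at c6
  have h8 : (d + 1) * (m ^ 2 + m + 1) = (d + 1) * (m + (m + d + 1) + 1) := by
    nlinarith
  have h9 := Nat.eq_of_mul_eq_mul_left (Nat.succ_pos d) h8
  nlinarith

theorem order_eq_of_card {n k : ℕ} (h : n ^ 2 + n + 1 = k ^ 2 + k + 1) : n = k := by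
  rcases lt_trichotomy n k with h1 | h1 | h1
  · nlinarith
  · exact h1
  · nlinarith

/-- planar 2-groups -/
theorem chain (hinc : ∀ (g : G) (p : P) (l : L), g • p ∈ g • l ↔ p ∈ l) [Finite G] :
    ∀ (j : ℕ) (V : Subgroup G), Nat.card V = 2 ^ j → ∀ hV : Planar P L V,
      ∃ s : ℕ, order P L = (ord hinc hV) ^ (2 ^ s) := by
  intro j
  induction j with
  | zero =>
    intro V hc hV
    refine ⟨0, ?_⟩
    rw [pow_zero] at hc
    have hb : V = ⊥ := Subgroup.card_eq_one.1 hc
    have h1 : Nat.card (Fx P V) = Nat.card P := by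
      apply Nat.card_congr
      apply Equiv.subtypeUnivEquiv
      intro p v hv
      rw [hb, Subgroup.mem_bot] at hv
      rw [hv, one_smul]
    rw [card_Fx hinc hV, card_P P L] at h1
    rw [pow_zero, pow_one]
    exact (order_eq_of_card h1).symm
  | succ j ih =>
    intro V hc hV
    obtain ⟨K, hK⟩ := Sylow.exists_subgroup_card_pow_prime (G := V) 2 (n := j) (by rw [hc]; exact pow_dvd_pow 2 (Nat.le_succ j))
    set V0 : Subgroup G := K.map V.subtype with hV0
    have hV0V : V0 ≤ V := Subgroup.map_subtype_le K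
    have hcV0 : Nat.card V0 = 2 ^ j := by
      rw [hV0, Nat.card_congr (K.equivMapOfInjective V.subtype V.subtype_injective).toEquiv.symm, hK]
    have hidx : K.index = 2 := by
      have h1 := Subgroup.card_mul_index K
      rw [hK, hc, pow_succ] at h1
      exact Nat.eq_of_mul_eq_mul_left (pow_pos (by norm_num) j) h1
    have hnK : K.Normal := Subgroup.normal_of_index_eq_two hidx
    have hnorm : V ≤ Subgroup.normalizer (V0 : Set G) := by
      intro v hv
      rw [Subgroup.mem_normalizer_iff]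
      intro x
      constructor
      · rintro ⟨k, hk, rfl⟩
        exact ⟨⟨v, hv⟩ * k * ⟨v, hv⟩⁻¹, hnK.conj_mem k hk ⟨v, hv⟩, rfl⟩
      · rintro ⟨k, hk, hk2⟩
        refine ⟨⟨v, hv⟩⁻¹ * k * ⟨v, hv⟩, ?_, ?_⟩
        · have := hnK.conj_mem k hk ⟨v, hv⟩⁻¹
          rwa [inv_inv] at this
        · have h1 : (k : G) = v * x * v⁻¹ := hk2
          change v⁻¹ * (k : G) * v = x
          rw [h1]
          group
    obtain ⟨v, hv⟩ : ∃ v : V, v ∉ K := by
      by_contra hcon
      push Not at hcon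
      have : K = ⊤ := by rw [eq_top_iff]; exact fun v _ => hcon v
      rw [this, Subgroup.index_top] at hidx
      omega
    have hV0p : Planar P L V0 := hV.mono hV0V
    obtain ⟨s, hs⟩ := ih V0 hcV0 hV0p
    have hmem : ∀ w : V, w ∈ K ∨ v⁻¹ * w ∈ K := by
      intro w
      by_cases hw : w ∈ K
      · exact Or.inl hw
      · right
        rw [Subgroup.mul_mem_iff_of_index_two hidx, K.inv_mem_iff]
        exact iff_of_false hv hw
    let n : Subgroup.normalizer (V0 : Set G) := ⟨v, hnorm v.2⟩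
    have hfix : ∀ {X : Type _} [MulAction G X] (x : Fx X V0), (v : G) • x.1 = x.1 → ∀ w ∈ V, w • x.1 = x.1 := by
      intro X _ x hx w hw
      rcases hmem ⟨w, hw⟩ with h1 | h1
      · exact x.2 w ⟨⟨w, hw⟩, h1, rfl⟩
      · have h2 : ((v : G)⁻¹ * w) • x.1 = x.1 := x.2 _ ⟨_, h1, rfl⟩
        rw [mul_smul, inv_smul_eq_iff] at h2
        rw [h2, hx]
    have hcard : Nat.card {p : Fx P V0 // n • p = p} = Nat.card (Fx P V) := by
      apply Nat.card_congr
      exact
      { toFun := fun x => ⟨x.1.1, fun w hw => hfix x.1 (congrArg Subtype.val x.2) w hw⟩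
        invFun := fun x => ⟨⟨x.1, fun w hw => x.2 w (hV0V hw)⟩, Subtype.ext (x.2 v v.2)⟩
        left_inv := fun x => rfl
        right_inv := fun x => rfl }
    by_cases hmove : ∃ p : Fx P V0, n • p ≠ p
    · let pl := plane hinc hV0p
      have hsq : ∀ p : Fx P V0, n • n • p = p := by
        intro p
        apply Subtype.ext
        rw [Fx.smul_val, Fx.smul_val, ← mul_smul]
        apply p.2
        refine ⟨v * v, ?_, rfl⟩
        exact Subgroup.mul_self_mem_of_index_two hidx v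
      have hpl : PlanarEl (Fx P V0) (Fx L V0) n := by
        obtain ⟨p₁, p₂, p₃, l₁, l₂, l₃, h1, h2⟩ := hV
        have hv2 := h2 v v.2
        exact ⟨⟨p₁, fun w hw => (h2 w (hV0V hw)).1⟩, ⟨p₂, fun w hw => (h2 w (hV0V hw)).2.1⟩,
          ⟨p₃, fun w hw => (h2 w (hV0V hw)).2.2.1⟩, ⟨l₁, fun w hw => (h2 w (hV0V hw)).2.2.2.1⟩,
          ⟨l₂, fun w hw => (h2 w (hV0V hw)).2.2.2.2.1⟩, ⟨l₃, fun w hw => (h2 w (hV0V hw)).2.2.2.2.2⟩, h1,
          Subtype.ext hv2.1, Subtype.ext hv2.2.1, Subtype.ext hv2.2.2.1, Subtype.ext hv2.2.2.2.1,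
          Subtype.ext hv2.2.2.2.2.1, Subtype.ext hv2.2.2.2.2.2⟩
      obtain ⟨m, hm1, hm2⟩ := order_sq (P := Fx P V0) (L := Fx L V0) (Fx.hinc hinc) n hsq hpl hmove
      rw [hcard, card_Fx hinc hV] at hm2
      have h3 := order_eq_of_card hm2
      refine ⟨s + 1, ?_⟩
      have h4 : ord hinc hV0p = m ^ 2 := hm1
      rw [hs, h4, h3, ← pow_mul, pow_succ, mul_comm]
    · push Not at hmove
      refine ⟨s, ?_⟩
      have h1 : Nat.card {p : Fx P V0 // n • p = p} = Nat.card (Fx P V0) :=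
        Nat.card_congr (Equiv.subtypeUnivEquiv hmove)
      rw [hcard, card_Fx hinc hV, card_Fx hinc hV0p] at h1
      rw [hs, order_eq_of_card h1]

theorem chain' (hinc : ∀ (g : G) (p : P) (l : L), g • p ∈ g • l ↔ p ∈ l) [Finite G] {V : Subgroup G}
    (hV : Planar P L V) (h2 : IsPGroup 2 V) : ∃ s : ℕ, order P L = (ord hinc hV) ^ (2 ^ s) := by
  obtain ⟨j, hj⟩ := h2.exists_card_eq
  exact chain hinc j V hj hV

end

end H1.OW
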