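import Mathlib

/-!
Collineation groups of finite projective planes: fixed subplanes.
-/

set_option autoImplicit false

open Configuration
open Configuration.HasPoints (mkPoint mkPoint_ax)
open Configuration.HasLines (mkLine mkLine_ax)
open Configuration.Nondegenerate (exists_point exists_line eq_or_eq)
open Configuration.ProjectivePlane (order exists_config)

namespace H1.OW

/-- the elements of `X` fixed by the subgroup `V` (points or lines) -/
def Fx {G : Type*} [Group G] (X : Type*) [MulAction G X] (V : Subgroup G) : Type _ :=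
  {x : X // ∀ v ∈ V, v • x = x}

section basic

variable {G P L : Type*} [Group G] [MulAction G P] [MulAction G L] [Membership P L]

instance Fx.finite {X : Type*} [MulAction G X] [Finite X] (V : Subgroup G) : Finite (Fx X V) :=
  inferInstanceAs (Finite {x : X // ∀ v ∈ V, v • x = x})

noncomputable instance Fx.fintype {X : Type*} [MulAction G X] [Fintype X] (V : Subgroup G) : Fintype (Fx X V) :=
  Fintype.ofFinite _

instance Fx.membership (V : Subgroup G) : Membership (Fx P V) (Fx L V) :=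
  ⟨fun l p => p.1 ∈ l.1⟩

theorem Fx.mem_iff {V : Subgroup G} (p : Fx P V) (l : Fx L V) : p ∈ l ↔ p.1 ∈ l.1 := Iff.rfl

/-- the normalizer acts on the fixed elements -/
instance Fx.mulAction {X : Type*} [MulAction G X] (V : Subgroup G) :
    MulAction (Subgroup.normalizer (V : Set G)) (Fx X V) where
  smul n x := ⟨(n : G) • x.1, fun v hv => by
    have h1 : (n : G)⁻¹ * v * (n : G) ∈ V := by
      have h2 := (Subgroup.mem_normalizer_iff.1 ((Subgroup.normalizer (V : Set G)).inv_mem n.2) v).1 hv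
      rwa [inv_inv] at h2
    have h3 := x.2 _ h1
    rw [mul_smul, mul_smul, inv_smul_eq_iff] at h3
    exact h3⟩
  one_smul x := Subtype.ext (one_smul G x.1)
  mul_smul a b x := Subtype.ext (mul_smul (a : G) (b : G) x.1)

theorem Fx.smul_val {X : Type*} [MulAction G X] {V : Subgroup G} (n : Subgroup.normalizer (V : Set G)) (x : Fx X V) :
    (n • x).1 = (n : G) • x.1 := rfl

/-- `V` fixes elementwise a configuration as in Mathlib's definition of a projective plane -/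
def Planar (P L : Type*) [MulAction G P] [MulAction G L] [Membership P L] (V : Subgroup G) : Prop :=
  ∃ (p₁ p₂ p₃ : P) (l₁ l₂ l₃ : L),
      (p₁ ∉ l₂ ∧ p₁ ∉ l₃ ∧ p₂ ∉ l₁ ∧ p₂ ∈ l₂ ∧ p₂ ∈ l₃ ∧ p₃ ∉ l₁ ∧ p₃ ∈ l₂ ∧ p₃ ∉ l₃) ∧
      (∀ v ∈ V, v • p₁ = p₁ ∧ v • p₂ = p₂ ∧ v • p₃ = p₃ ∧ v • l₁ = l₁ ∧ v • l₂ = l₂ ∧ v • l₃ = l₃)

/-- the single element `g` fixes a configuration -/
def PlanarEl {G : Type*} [Group G] (P L : Type*) [MulAction G P] [MulAction G L] [Membership P L] (g : G) : Prop :=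
  ∃ (p₁ p₂ p₃ : P) (l₁ l₂ l₃ : L),
      (p₁ ∉ l₂ ∧ p₁ ∉ l₃ ∧ p₂ ∉ l₁ ∧ p₂ ∈ l₂ ∧ p₂ ∈ l₃ ∧ p₃ ∉ l₁ ∧ p₃ ∈ l₂ ∧ p₃ ∉ l₃) ∧
      (g • p₁ = p₁ ∧ g • p₂ = p₂ ∧ g • p₃ = p₃ ∧ g • l₁ = l₁ ∧ g • l₂ = l₂ ∧ g • l₃ = l₃)

theorem fix_zpowers {X : Type*} [MulAction G X] {g : G} {x : X} (h : g • x = x) :
    ∀ v ∈ Subgroup.zpowers g, v • x = x := by
  intro v hv
  have h1 : Subgroup.zpowers g ≤ MulAction.stabilizer G x := by
    rw [Subgroup.zpowers_le]
    exact h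
  exact h1 hv

theorem PlanarEl.zpowers {g : G} (h : PlanarEl P L g) : Planar P L (Subgroup.zpowers g) := by
  obtain ⟨p₁, p₂, p₃, l₁, l₂, l₃, h1, a, b, c, d, e, f⟩ := h
  exact ⟨p₁, p₂, p₃, l₁, l₂, l₃, h1, fun v hv => ⟨fix_zpowers a v hv, fix_zpowers b v hv, fix_zpowers c v hv,
    fix_zpowers d v hv, fix_zpowers e v hv, fix_zpowers f v hv⟩⟩

theorem Planar.el {V : Subgroup G} (h : Planar P L V) {g : G} (hg : g ∈ V) : PlanarEl P L g := by
  obtain ⟨p₁, p₂, p₃, l₁, l₂, l₃, h1, h2⟩ := h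
  exact ⟨p₁, p₂, p₃, l₁, l₂, l₃, h1, h2 g hg⟩

theorem Fx.key {V : Subgroup G} {n : Subgroup.normalizer (V : Set G)} {X : Type*} [MulAction G X] (x : Fx X V)
    (hx : n • x = x) : ∀ v ∈ V ⊔ Subgroup.zpowers (n : G), v • x.1 = x.1 := by
  intro v hv
  have h2 : V ⊔ Subgroup.zpowers (n : G) ≤ MulAction.stabilizer G x.1 := by
    refine sup_le (fun v hv => x.2 v hv) ?_
    rw [Subgroup.zpowers_le]
    exact congrArg Subtype.val hx
  exact h2 hv

theorem Fx.ne {V : Subgroup G} {X : Type*} [MulAction G X] {x y : Fx X V} (h : x ≠ y) : x.1 ≠ y.1 :=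
  fun h' => h (Subtype.ext h')

/-- an element of the normalizer that is planar on the fixed plane gives a bigger planar subgroup -/
theorem PlanarEl.sup {V : Subgroup G} {n : Subgroup.normalizer (V : Set G)} (h : PlanarEl (Fx P V) (Fx L V) n) :
    Planar P L (V ⊔ Subgroup.zpowers (n : G)) := by
  obtain ⟨p₁, p₂, p₃, l₁, l₂, l₃, h1, a, b, c, d, e, f⟩ := h
  exact ⟨p₁.1, p₂.1, p₃.1, l₁.1, l₂.1, l₃.1, h1, fun v hv => ⟨Fx.key p₁ a v hv, Fx.key p₂ b v hv, Fx.key p₃ c v hv,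
    Fx.key l₁ d v hv, Fx.key l₂ e v hv, Fx.key l₃ f v hv⟩⟩

theorem Planar.mono {V W : Subgroup G} (h : W ≤ V) (hV : Planar P L V) : Planar P L W := by
  obtain ⟨p₁, p₂, p₃, l₁, l₂, l₃, h1, h2⟩ := hV
  exact ⟨p₁, p₂, p₃, l₁, l₂, l₃, h1, fun v hv => h2 v (h hv)⟩

theorem planar_bot [ProjectivePlane P L] : Planar P L (⊥ : Subgroup G) := by
  obtain ⟨p₁, p₂, p₃, l₁, l₂, l₃, h1⟩ := exists_config (P := P) (L := L)
  refine ⟨p₁, p₂, p₃, l₁, l₂, l₃, h1, fun v hv => ?_⟩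
  rw [Subgroup.mem_bot] at hv
  subst hv
  simp

end basic

section plane

variable {G P L : Type*} [Group G] [MulAction G P] [MulAction G L] [Membership P L] [ProjectivePlane P L]

theorem smul_mkLine (hinc : ∀ (g : G) (p : P) (l : L), g • p ∈ g • l ↔ p ∈ l) {g : G} {p q : P} (h : p ≠ q)
    (hp : g • p = p) (hq : g • q = q) : g • (mkLine h : L) = mkLine h := by
  have h1 : p ∈ g • (mkLine h : L) := by
    have := (hinc g p (mkLine h)).2 (mkLine_ax h).1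
    rwa [hp] at this
  have h2 : q ∈ g • (mkLine h : L) := by
    have := (hinc g q (mkLine h)).2 (mkLine_ax h).2
    rwa [hq] at this
  exact (eq_or_eq h1 h2 (mkLine_ax h).1 (mkLine_ax h).2).resolve_left h

theorem smul_mkPoint (hinc : ∀ (g : G) (p : P) (l : L), g • p ∈ g • l ↔ p ∈ l) {g : G} {l m : L} (h : l ≠ m)
    (hl : g • l = l) (hm : g • m = m) : g • (mkPoint h : P) = mkPoint h := by
  have h1 : g • (mkPoint h : P) ∈ l := by
    have := (hinc g (mkPoint h) l).2 (mkPoint_ax h).1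
    rwa [hl] at this
  have h2 : g • (mkPoint h : P) ∈ m := by
    have := (hinc g (mkPoint h) m).2 (mkPoint_ax h).2
    rwa [hm] at this
  exact (eq_or_eq h1 (mkPoint_ax h).1 h2 (mkPoint_ax h).2).resolve_right h

/-- the fixed subplane of a planar subgroup -/
@[reducible] noncomputable def plane (hinc : ∀ (g : G) (p : P) (l : L), g • p ∈ g • l ↔ p ∈ l) {V : Subgroup G}
    (hV : Planar P L V) : ProjectivePlane (Fx P V) (Fx L V) :=
  { exists_point := by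
      intro l
      obtain ⟨p₁, p₂, p₃, l₁, l₂, l₃, h1, h2⟩ := hV
      by_contra hc
      push Not at hc
      have e1 : p₁ ∈ l.1 := hc ⟨p₁, fun v hv => (h2 v hv).1⟩
      have e2 : p₂ ∈ l.1 := hc ⟨p₂, fun v hv => (h2 v hv).2.1⟩
      have e3 : p₃ ∈ l.1 := hc ⟨p₃, fun v hv => (h2 v hv).2.2.1⟩
      rcases eq_or_eq e2 e3 h1.2.2.2.1 h1.2.2.2.2.2.2.1 with h | h
      · exact h1.2.2.2.2.2.2.2 (h ▸ h1.2.2.2.2.1)
      · exact h1.1 (h ▸ e1)
    exists_line := by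
      intro p
      obtain ⟨p₁, p₂, p₃, l₁, l₂, l₃, h1, h2⟩ := hV
      by_contra hc
      push Not at hc
      have e1 : p.1 ∈ l₁ := hc ⟨l₁, fun v hv => (h2 v hv).2.2.2.1⟩
      have e2 : p.1 ∈ l₂ := hc ⟨l₂, fun v hv => (h2 v hv).2.2.2.2.1⟩
      have e3 : p.1 ∈ l₃ := hc ⟨l₃, fun v hv => (h2 v hv).2.2.2.2.2⟩
      rcases eq_or_eq e2 h1.2.2.2.1 e3 h1.2.2.2.2.1 with h | h
      · exact h1.2.2.1 (h ▸ e1)
      · exact h1.2.2.2.2.2.2.2 (h ▸ h1.2.2.2.2.2.2.1)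
    eq_or_eq := by
      intro p₁ p₂ l₁ l₂ h1 h2 h3 h4
      rcases eq_or_eq (P := P) (L := L) h1 h2 h3 h4 with h | h
      · exact Or.inl (Subtype.ext h)
      · exact Or.inr (Subtype.ext h)
    mkPoint := fun {l₁ l₂} h => ⟨mkPoint (Fx.ne h), fun v hv => smul_mkPoint hinc (Fx.ne h) (l₁.2 v hv) (l₂.2 v hv)⟩
    mkPoint_ax := fun {l₁ l₂} h => mkPoint_ax (Fx.ne h)
    mkLine := fun {p₁ p₂} h => ⟨mkLine (Fx.ne h), fun v hv => smul_mkLine hinc (Fx.ne h) (p₁.2 v hv) (p₂.2 v hv)⟩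
    mkLine_ax := fun {p₁ p₂} h =>
      (mkLine_ax (Fx.ne h) : p₁.1 ∈ (mkLine (Fx.ne h) : L) ∧ p₂.1 ∈ (mkLine (Fx.ne h) : L))
    exists_config := by
      obtain ⟨p₁, p₂, p₃, l₁, l₂, l₃, h1, h2⟩ := hV
      exact ⟨⟨p₁, fun v hv => (h2 v hv).1⟩, ⟨p₂, fun v hv => (h2 v hv).2.1⟩, ⟨p₃, fun v hv => (h2 v hv).2.2.1⟩,
        ⟨l₁, fun v hv => (h2 v hv).2.2.2.1⟩, ⟨l₂, fun v hv => (h2 v hv).2.2.2.2.1⟩,
        ⟨l₃, fun v hv => (h2 v hv).2.2.2.2.2⟩, h1⟩ }

/-- the order of the fixed subplane -/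
noncomputable def ord (hinc : ∀ (g : G) (p : P) (l : L), g • p ∈ g • l ↔ p ∈ l) {V : Subgroup G}
    (hV : Planar P L V) : ℕ :=
  @order (Fx P V) (Fx L V) _ (plane hinc hV)

omit [ProjectivePlane P L] in
theorem Fx.hinc (hinc : ∀ (g : G) (p : P) (l : L), g • p ∈ g • l ↔ p ∈ l) {V : Subgroup G}
    (n : Subgroup.normalizer (V : Set G)) (p : Fx P V) (l : Fx L V) : n • p ∈ n • l ↔ p ∈ l :=
  hinc n p.1 l.1

end plane

end H1.OW
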