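import Cfsg.Agent.Lib.H1.Coprime2
import Cfsg.Agent.Lib.H1.FpfNilp
import Cfsg.Agent.Lib.H37.Syl

/-!
Fixed-point-free action of a nonabelian group of order `pq`: group theoretic lemmas.
-/

set_option autoImplicit false

open Subgroup H1.Coprime2 H1.Coprime
open scoped commutatorElement Pointwise

namespace H1.PQ

universe u

variable {Γ : Type u} [Group Γ] [Finite Γ]

theorem commute_of_nilp {L : Type u} [Group L] [Finite L] [hL : Group.IsNilpotent L] {p q : ℕ} [hp : Fact p.Prime] [hq : Fact q.Prime]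
    (hpq : p ≠ q) {x y : L} (hx : ∃ k, x ^ p ^ k = 1) (hy : ∃ k, y ^ q ^ k = 1) : Commute x y := by
  have key : ∀ (r : ℕ) [Fact r.Prime] (z : L), (∃ k, z ^ r ^ k = 1) → ∃ P : Sylow r L, z ∈ (P : Subgroup L) := by
    intro r hr z hz
    obtain ⟨k, hk⟩ := hz
    have h1 : IsPGroup r (zpowers z) := by
      obtain ⟨j, _, hj⟩ := (Nat.dvd_prime_pow hr.out).1 (orderOf_dvd_of_pow_eq_one hk)
      exact IsPGroup.of_card (n := j) (by rw [Nat.card_zpowers, hj])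
    obtain ⟨P, hP⟩ := h1.exists_le_sylow
    exact ⟨P, hP (mem_zpowers z)⟩
  obtain ⟨P, hP⟩ := key p x hx
  obtain ⟨Q, hQ⟩ := key q y hy
  exact Subgroup.commute_of_normal_of_disjoint _ _ inferInstance inferInstance (IsPGroup.disjoint_of_ne p q hpq _ _ P.2 Q.2) x y hP hQ

/-- stabilizers along an orbit -/
theorem lemE (A S U : Subgroup Γ) (hAS : A ≤ normalizer (S : Set Γ)) (hcop : (Nat.card A).Coprime (Nat.card S))
    (hS : Group.IsSolvable S)
    (hgen : ∀ D D' : Subgroup Γ, D ≤ A → D' ≤ A → D ≠ ⊥ → D' ≠ ⊥ → D ≠ D' → D ⊔ D' = A)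
    (hnot : ∀ k ∈ S, ∃ a ∈ A, k⁻¹ * a * k ∉ U)
    (hne : ∀ k ∈ S, ∃ a ∈ A, a ≠ 1 ∧ k⁻¹ * a * k ∈ U)
    {x : Γ} (hx : x ∈ S) {d : Γ} (hd : d ∈ A) (hdU : d ∈ U) : x⁻¹ * d * x ∈ U := by
  set D := A ⊓ U with hD
  set D' := A ⊓ (MulAut.conj x • U) with hD'
  have hD1 : D ≠ ⊥ := by
    intro h
    obtain ⟨a, ha, ha1, haU⟩ := hne 1 S.one_mem
    rw [inv_one, one_mul, mul_one] at haU
    have : a ∈ D := ⟨ha, haU⟩
    rw [h, Subgroup.mem_bot] at this
    exact ha1 this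
  have hD'1 : D' ≠ ⊥ := by
    intro h
    obtain ⟨a, ha, ha1, haU⟩ := hne x hx
    have : a ∈ D' := ⟨ha, H1.SZ.mem_conj_smul.mpr haU⟩
    rw [h, Subgroup.mem_bot] at this
    exact ha1 this
  by_cases heq : D = D'
  · have h1 : d ∈ D' := by rw [← heq]; exact ⟨hd, hdU⟩
    exact H1.SZ.mem_conj_smul.mp h1.2
  · exfalso
    have h1 := hgen D D' inf_le_left inf_le_left hD1 hD'1 heq
    set N := U ⊓ normalizer (S : Set Γ) with hN
    have h2 : A ≤ N ⊔ S := by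
      rw [← h1, sup_le_iff]
      constructor
      · intro a ha
        exact (le_sup_left : N ≤ N ⊔ S) ⟨ha.2, hAS ha.1⟩
      · intro a ha
        have ha' := H1.SZ.mem_conj_smul.mp ha.2
        have h3 : x⁻¹ * a * x ∈ N := by
          refine ⟨ha', ?_⟩
          have h4 : x ∈ normalizer (S : Set Γ) := Subgroup.le_normalizer hx
          have h5 : x⁻¹ * a * x ∈ normalizer (S : Set Γ) := mul_mem (mul_mem (inv_mem h4) (hAS ha.1)) h4
          exact h5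
        have h5 : a = x * (x⁻¹ * a * x) * x⁻¹ := by group
        rw [h5]
        exact mul_mem (mul_mem (le_sup_right (a := N) hx) (le_sup_left (a := N) h3)) (le_sup_right (a := N) (S.inv_mem hx))
    obtain ⟨k, hk, hkA⟩ := glauberman_exists (G := Γ) (Ω := Γ ⧸ U) A S hAS hcop (Or.inr hS) ((1 : Γ) : Γ ⧸ U) (by
      intro a ha
      obtain ⟨n, hn, y, hy, hny⟩ := H37.Syl.exists_mul_of_mem_sup (inf_le_right : N ≤ normalizer (S : Set Γ)) (h2 ha)
      have hy' : n * y * n⁻¹ ∈ S := by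
        exact (Subgroup.mem_normalizer_iff.mp hn.2 y).mp hy
      refine ⟨n * y * n⁻¹, hy', ?_⟩
      change ((n * y * n⁻¹ * 1 : Γ) : Γ ⧸ U) = ((a * 1 : Γ) : Γ ⧸ U)
      rw [QuotientGroup.eq, ← hny]
      have h6 : (n * y * n⁻¹ * 1)⁻¹ * (n * y * 1) = n := by group
      rw [h6]; exact hn.1)
    obtain ⟨a, ha, haU⟩ := hnot k hk
    apply haU
    have h3 := hkA a ha
    change ((a * (k * 1) : Γ) : Γ ⧸ U) = ((k * 1 : Γ) : Γ ⧸ U) at h3
    rw [eq_comm, QuotientGroup.eq] at h3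
    have h4 : (k * 1)⁻¹ * (a * (k * 1)) = k⁻¹ * a * k := by group
    rwa [h4] at h3

/-- the case of the normal subgroup `C`. -/
theorem lemC {s q : ℕ} [hs : Fact s.Prime] [hq : Fact q.Prime] (hsq : s ≠ q) (A C S Q N : Subgroup Γ) (b : Γ) {t : ℕ} (ht : t.Prime)
    (hbt : b ^ t ∈ C) (hCA : C ≤ A) (hbA : b ∈ A) (hAC : A = C ⊔ zpowers b) (hCn : A ≤ normalizer (C : Set Γ))
    (hS : IsPGroup s S) (hQ : IsPGroup q Q) (hAS : A ≤ normalizer (S : Set Γ)) (hAQ : A ≤ normalizer (Q : Set Γ))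
    (hSQ : S ≤ normalizer (Q : Set Γ)) (hcopS : (Nat.card A).Coprime (Nat.card S)) (hcopQ : (Nat.card A).Coprime (Nat.card Q))
    (hfix : (Q ⊔ S) ⊓ centralizer (A : Set Γ) = ⊥)
    (hNQ : N ≤ Q) (hQN : Q ≤ normalizer (N : Set Γ)) (hCN : C ≤ normalizer (N : Set Γ)) (hSN : S ≤ normalizer (N : Set Γ))
    (hC : ∀ c ∈ C, ∀ u ∈ Q, c * u * c⁻¹ * u⁻¹ ∈ N)
    (hT : ∀ y ∈ ⁅S, C⁆, ∀ u ∈ Q, y * u * y⁻¹ * u⁻¹ ∈ N) :
    ∀ y ∈ S, ∀ u ∈ Q, y * u * y⁻¹ * u⁻¹ ∈ N := by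
  have hSs : Group.IsSolvable S := by have := hS.isNilpotent; infer_instance
  have hQs : Group.IsSolvable Q := by have := hQ.isNilpotent; infer_instance
  have hCS : C ≤ normalizer (S : Set Γ) := hCA.trans hAS
  have hCQ : C ≤ normalizer (Q : Set Γ) := hCA.trans hAQ
  have hcopCS : (Nat.card C).Coprime (Nat.card S) := hcopS.coprime_dvd_left (Subgroup.card_dvd_of_le hCA)
  have hcopCQ : (Nat.card C).Coprime (Nat.card Q) := hcopQ.coprime_dvd_left (Subgroup.card_dvd_of_le hCA)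
  -- the nilpotent group
  set L := (Q ⊔ S) ⊓ centralizer (C : Set Γ) with hL
  have hLn : Group.IsNilpotent L := by
    refine H1.FpfNilp.isNilpotent_of_conj (g := b) ?_ ?_ ht ?_
    · have h1 : A ≤ normalizer (L : Set Γ) := le_normalizer_inf (le_normalizer_sup hAQ hAS) (le_normalizer_centralizer hCn)
      exact h1 hbA
    · rw [eq_bot_iff, ← hfix]
      intro y hy
      refine ⟨hy.1.1, ?_⟩
      have h1 : A ≤ centralizer ({y} : Set Γ) := by
        rw [hAC, sup_le_iff, zpowers_le]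
        constructor
        · intro c hc
          rw [Subgroup.mem_centralizer_singleton_iff]
          exact Subgroup.mem_centralizer_iff.mp hy.1.2 c hc
        · rw [Subgroup.mem_centralizer_singleton_iff]
          have h2 : y ∈ centralizer ({b} : Set Γ) := hy.2
          rw [Subgroup.mem_centralizer_singleton_iff] at h2
          exact h2.symm
      change y ∈ centralizer (A : Set Γ)
      rw [Subgroup.mem_centralizer_iff]
      intro a ha
      have := h1 ha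
      rw [Subgroup.mem_centralizer_singleton_iff] at this
      exact this
    · rw [Subgroup.mem_centralizer_iff]
      intro y hy
      exact (Subgroup.mem_centralizer_iff.mp hy.2 _ hbt).symm
  have hcomm : ∀ y ∈ S ⊓ centralizer (C : Set Γ), ∀ u ∈ Q ⊓ centralizer (C : Set Γ), y * u = u * y := by
    intro y hy u hu
    have hyL : y ∈ L := ⟨le_sup_right (a := Q) hy.1, hy.2⟩
    have huL : u ∈ L := ⟨le_sup_left (a := Q) hu.1, hu.2⟩
    have h1 : Commute (⟨y, hyL⟩ : L) ⟨u, huL⟩ := by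
      apply commute_of_nilp (p := s) (q := q) hsq
      · obtain ⟨k, hk⟩ := hS ⟨y, hy.1⟩
        have hk' : y ^ s ^ k = 1 := congrArg Subtype.val hk
        exact ⟨k, Subtype.ext hk'⟩
      · obtain ⟨k, hk⟩ := hQ ⟨u, hu.1⟩
        have hk' : u ^ q ^ k = 1 := congrArg Subtype.val hk
        exact ⟨k, Subtype.ext hk'⟩
    exact congrArg Subtype.val h1
  intro y hy u hu
  obtain ⟨y₁, hy₁, y₂, hy₂, rfl⟩ := exists_mul_of_mem C S hCS hcopCS (Or.inr hSs) hy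
  obtain ⟨u₂, hu₂, hu₂N⟩ := exists_fixed_of_coset_fixed C Q hCQ hcopCQ (Or.inr hQs) N hNQ hQN hCN u hu
    (fun c hc => hC c hc u hu)
  have hy₁S : y₁ ∈ S := (commutator_le_left hCS) hy₁
  -- u = u₂ n
  have h1 : y₂ * u * y₂⁻¹ * u⁻¹ ∈ N := by
    have h2 : u = u₂ * (u⁻¹ * u₂)⁻¹ := by group
    have h3 := N.inv_mem hu₂N
    set n := (u⁻¹ * u₂)⁻¹ with hn
    have h4 : y₂ * n * y₂⁻¹ ∈ N := (Subgroup.mem_normalizer_iff.mp (hSN hy₂.1) n).mp h3
    have h5 := hcomm y₂ hy₂ u₂ hu₂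
    have h6 : y₂ * u * y₂⁻¹ * u⁻¹ = u₂ * ((y₂ * n * y₂⁻¹) * n⁻¹) * u₂⁻¹ := by
      rw [h2]
      calc y₂ * (u₂ * n) * y₂⁻¹ * (u₂ * n)⁻¹ = (y₂ * u₂) * n * y₂⁻¹ * n⁻¹ * u₂⁻¹ := by group
        _ = (u₂ * y₂) * n * y₂⁻¹ * n⁻¹ * u₂⁻¹ := by rw [h5]
        _ = _ := by group
    rw [h6]
    exact (Subgroup.mem_normalizer_iff.mp (hQN hu₂.1) _).mp (N.mul_mem h4 (N.inv_mem h3))
  have hyu : y₂ * u * y₂⁻¹ ∈ Q := (Subgroup.mem_normalizer_iff.mp (hSQ hy₂.1) u).mp hu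
  have h2 := hT y₁ hy₁ _ hyu
  have h3 : y₁ * y₂ * u * (y₁ * y₂)⁻¹ * u⁻¹ = (y₁ * (y₂ * u * y₂⁻¹) * y₁⁻¹ * (y₂ * u * y₂⁻¹)⁻¹) * (y₂ * u * y₂⁻¹ * u⁻¹) := by group
  rw [h3]
  exact N.mul_mem h2 h1

/-- elements commuting with `u` modulo `P` -/
def stabC (P : Subgroup Γ) (u : Γ) : Subgroup Γ where
  carrier := {z | z ∈ normalizer (P : Set Γ) ∧ z * u * z⁻¹ * u⁻¹ ∈ P}
  one_mem' := ⟨one_mem _, by simp [one_mem]⟩
  mul_mem' := by
    rintro a b ⟨ha, ha'⟩ ⟨hb, hb'⟩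
    refine ⟨mul_mem ha hb, ?_⟩
    have e : a * b * u * (a * b)⁻¹ * u⁻¹ = (a * (b * u * b⁻¹ * u⁻¹) * a⁻¹) * (a * u * a⁻¹ * u⁻¹) := by group
    rw [e]
    exact mul_mem ((Subgroup.mem_normalizer_iff.1 ha _).1 hb') ha'
  inv_mem' := by
    rintro a ⟨ha, ha'⟩
    refine ⟨inv_mem ha, ?_⟩
    have e : a⁻¹ * u * a⁻¹⁻¹ * u⁻¹ = a⁻¹ * (a * u * a⁻¹ * u⁻¹)⁻¹ * a⁻¹⁻¹ := by group
    rw [e]
    exact (Subgroup.mem_normalizer_iff.1 (inv_mem ha) _).1 (inv_mem ha')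

omit [Finite Γ] in
theorem mem_stabC {P : Subgroup Γ} {u z : Γ} : z ∈ stabC P u ↔ z ∈ normalizer (P : Set Γ) ∧ z * u * z⁻¹ * u⁻¹ ∈ P := Iff.rfl

/-- conjugation on a normalized subgroup -/
def cjm (Q : Subgroup Γ) (g : Γ) (hg : g ∈ normalizer (Q : Set Γ)) : Q →* Q where
  toFun := fun u => ⟨g * u * g⁻¹, (Subgroup.mem_normalizer_iff.mp hg u).mp u.2⟩
  map_one' := by ext; simp
  map_mul' := by intro a b; ext; simp [mul_assoc]

omit [Finite Γ] in
theorem cjm_coe (Q : Subgroup Γ) (g : Γ) (hg : g ∈ normalizer (Q : Set Γ)) (u : Q) :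
    ((cjm Q g hg u : Q) : Γ) = g * u * g⁻¹ := rfl

theorem lemL1 {A S Q N₁ C T : Subgroup Γ} {b : Γ}
    (hCA : C ≤ A) (hbA : b ∈ A) (hAC : A = C ⊔ zpowers b) (hCn : A ≤ normalizer (C : Set Γ))
    (hAS : A ≤ normalizer (S : Set Γ)) (hAQ : A ≤ normalizer (Q : Set Γ)) (hSQ : S ≤ normalizer (Q : Set Γ))
    (hcopQ : (Nat.card A).Coprime (Nat.card Q)) (hcopS : (Nat.card S).Coprime (Nat.card Q)) (hQs : Group.IsSolvable Q)
    (hfixQ : Q ⊓ centralizer (A : Set Γ) = ⊥)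
    (hN₁Q : N₁ ≤ Q) (hQN : Q ≤ normalizer (N₁ : Set Γ)) (hSN : S ≤ normalizer (N₁ : Set Γ)) (hbN : b ∈ normalizer (N₁ : Set Γ))
    (hab : ∀ u ∈ Q, ∀ v ∈ Q, u * v * u⁻¹ * v⁻¹ ∈ N₁)
    (hfixS : ∀ u ∈ Q, (∀ y ∈ S, y * u * y⁻¹ * u⁻¹ ∈ N₁) → u ∈ N₁)
    (hTS : T ≤ S) (hbT : b ∈ normalizer (T : Set Γ)) (hTQ : ∀ y ∈ T, ∀ u ∈ Q, y * u * y⁻¹ * u⁻¹ ∈ N₁)
    (hgen : ∀ g ∈ C, g ≠ 1 → S ≤ T ⊔ MulAut.conj g • T) :
    ∀ u ∈ Q, b * u * b⁻¹ * u⁻¹ ∈ N₁ → u ∈ N₁ := by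
  classical
  -- elements of C_Q(T)
  have h1 : ∀ u ∈ Q ⊓ centralizer (T : Set Γ), ∀ g ∈ C, g ≠ 1 → g⁻¹ * u * g ∈ N₁ := by
    intro u hu g hg hg1
    have hgQ : g⁻¹ * u * g ∈ Q := by
      have := (Subgroup.mem_normalizer_iff.mp (inv_mem (hAQ (hCA hg))) u).mp hu.1
      rwa [inv_inv] at this
    apply hfixS _ hgQ
    have hgS : g ∈ normalizer (S : Set Γ) := hAS (hCA hg)
    -- S ≤ stabC N₁ (g⁻¹ u g)
    suffices hS : S ≤ stabC (MulAut.conj g • N₁) u by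
      intro y hy
      have hy' : g * y * g⁻¹ ∈ S := (Subgroup.mem_normalizer_iff.mp hgS y).mp hy
      have h2 := H1.SZ.mem_conj_smul.mp (hS hy').2
      have h3 : g⁻¹ * (g * y * g⁻¹ * u * (g * y * g⁻¹)⁻¹ * u⁻¹) * g = y * (g⁻¹ * u * g) * y⁻¹ * (g⁻¹ * u * g)⁻¹ := by group
      rwa [h3] at h2
    have hSN' : S ≤ normalizer ((MulAut.conj g • N₁ : Subgroup Γ) : Set Γ) := by
      intro y hy
      have hy' : g⁻¹ * y * g ∈ S := by
        have := (Subgroup.mem_normalizer_iff.mp (inv_mem hgS) y).mp hy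
        rwa [inv_inv] at this
      have h2 := hSN hy'
      rw [Subgroup.mem_normalizer_iff] at h2 ⊢
      intro z
      rw [H1.SZ.mem_conj_smul, H1.SZ.mem_conj_smul, h2 (g⁻¹ * z * g)]
      have : g⁻¹ * y * g * (g⁻¹ * z * g) * (g⁻¹ * y * g)⁻¹ = g⁻¹ * (y * z * y⁻¹) * g := by group
      rw [this]
    refine (hgen g hg hg1).trans (sup_le ?_ ?_)
    · intro y hy
      refine ⟨hSN' (hTS hy), ?_⟩
      have h2 := Subgroup.mem_centralizer_iff.mp hu.2 y hy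
      rw [h2, mul_inv_cancel_right, mul_inv_cancel]
      exact one_mem _
    · intro y hy
      have hy' := H1.SZ.mem_conj_smul.mp hy
      have hyS : y ∈ S := by
        have h3 := (Subgroup.mem_normalizer_iff.mp hgS (g⁻¹ * y * g)).mp (hTS hy')
        have h4 : g * (g⁻¹ * y * g) * g⁻¹ = y := by group
        rwa [h4] at h3
      refine ⟨hSN' hyS, ?_⟩
      rw [H1.SZ.mem_conj_smul]
      have h3 : g⁻¹ * (y * u * y⁻¹ * u⁻¹) * g = (g⁻¹ * y * g) * (g⁻¹ * u * g) * (g⁻¹ * y * g)⁻¹ * (g⁻¹ * u * g)⁻¹ := by group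
      rw [h3]
      exact hTQ _ hy' _ hgQ
  -- the intersection
  set N : Subgroup Γ := ⨅ g : C, MulAut.conj (g : Γ) • N₁ with hN
  have hmemN : ∀ x, x ∈ N ↔ ∀ g ∈ C, g⁻¹ * x * g ∈ N₁ := by
    intro x
    rw [hN, Subgroup.mem_iInf]
    constructor
    · intro h g hg; exact H1.SZ.mem_conj_smul.mp (h ⟨g, hg⟩)
    · intro h g; exact H1.SZ.mem_conj_smul.mpr (h g g.2)
  have hNN₁ : N ≤ N₁ := by
    intro x hx
    have := (hmemN x).mp hx 1 C.one_mem
    simpa using this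
  have hcommN : ∀ u ∈ Q, ∀ v ∈ Q, u * v * u⁻¹ * v⁻¹ ∈ N := by
    intro u hu v hv
    rw [hmemN]
    intro g hg
    have hgQ : ∀ z ∈ Q, g⁻¹ * z * g ∈ Q := by
      intro z hz
      have := (Subgroup.mem_normalizer_iff.mp (inv_mem (hAQ (hCA hg))) z).mp hz
      rwa [inv_inv] at this
    have h2 := hab _ (hgQ u hu) _ (hgQ v hv)
    have h3 : g⁻¹ * u * g * (g⁻¹ * v * g) * (g⁻¹ * u * g)⁻¹ * (g⁻¹ * v * g)⁻¹ = g⁻¹ * (u * v * u⁻¹ * v⁻¹) * g := by group
    rwa [h3] at h2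
  have hQN' : Q ≤ normalizer (N : Set Γ) := by
    apply le_normalizer_of_conj_mem
    intro u hu n hn
    have h2 := hcommN u hu n (hN₁Q (hNN₁ hn))
    have := N.mul_mem h2 hn
    rwa [inv_mul_cancel_right] at this
  have hCN' : C ≤ normalizer (N : Set Γ) := by
    apply le_normalizer_of_conj_mem
    intro c hc n hn
    rw [hmemN] at hn ⊢
    intro g hg
    have h2 := hn (c⁻¹ * g) (C.mul_mem (C.inv_mem hc) hg)
    have h3 : (c⁻¹ * g)⁻¹ * n * (c⁻¹ * g) = g⁻¹ * (c * n * c⁻¹) * g := by group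
    rwa [h3] at h2
  have hbC : ∀ g ∈ C, b⁻¹ * g * b ∈ C := by
    intro g hg
    have := (Subgroup.mem_normalizer_iff.mp (inv_mem (hCn hbA)) g).mp hg
    rwa [inv_inv] at this
  have hbN' : zpowers b ≤ normalizer (N : Set Γ) := by
    rw [zpowers_le]
    -- finite: conj maps N into N
    have h2 : ∀ n ∈ N, b * n * b⁻¹ ∈ N := by
      intro n hn
      rw [hmemN] at hn ⊢
      intro g hg
      have h3 := hn _ (hbC g hg)
      have h4 := (Subgroup.mem_normalizer_iff.mp hbN _).mp h3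
      have h5 : b * ((b⁻¹ * g * b)⁻¹ * n * (b⁻¹ * g * b)) * b⁻¹ = g⁻¹ * (b * n * b⁻¹) * g := by group
      rwa [h5] at h4
    have h3 : MulAut.conj b • N ≤ N := by
      intro x hx
      have := h2 _ (H1.SZ.mem_conj_smul.mp hx)
      have h4 : b * (b⁻¹ * x * b) * b⁻¹ = x := by group
      rwa [h4] at this
    have h4 : MulAut.conj b • N = N := Subgroup.eq_of_le_of_card_ge h3 (by rw [H1.SZ.card_conj_smul])
    exact H1.SZ.mem_normalizer_of_conj_smul_eq h4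
  have hAN' : A ≤ normalizer (N : Set Γ) := by rw [hAC]; exact sup_le hCN' hbN'
  -- main
  intro u₀ hu₀ hbu₀
  obtain ⟨u, hu, hun⟩ := exists_fixed_of_coset_fixed T Q (hTS.trans hSQ)
    (hcopS.coprime_dvd_left (Subgroup.card_dvd_of_le hTS)) (Or.inr hQs) N₁ hN₁Q hQN (hTS.trans hSN) u₀ hu₀
    (fun y hy => hTQ y hy u₀ hu₀)
  suffices huN : u ∈ N₁ by
    have := N₁.mul_mem huN (N₁.inv_mem hun)
    have h2 : u * (u₀⁻¹ * u)⁻¹ = u₀ := by group
    rwa [h2] at this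
  have hbu : b * u * b⁻¹ * u⁻¹ ∈ N₁ := by
    set n := u₀⁻¹ * u with hn
    have h2 : u = u₀ * n := by rw [hn]; group
    have h3 : b * n * b⁻¹ ∈ N₁ := (Subgroup.mem_normalizer_iff.mp hbN n).mp hun
    have h4 : b * u * b⁻¹ * u⁻¹ = (b * u₀ * b⁻¹ * u₀⁻¹) * (u₀ * ((b * n * b⁻¹) * n⁻¹) * u₀⁻¹) := by
      rw [h2]; group
    rw [h4]
    exact N₁.mul_mem hbu₀ ((Subgroup.mem_normalizer_iff.mp (hQN hu₀) _).mp (N₁.mul_mem h3 (N₁.inv_mem hun)))
  have hbuN : b * u * b⁻¹ * u⁻¹ ∈ N := by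
    rw [hmemN]
    intro g hg
    by_cases hg1 : g = 1
    · subst hg1; simpa using hbu
    · have h2 := h1 u hu g hg hg1
      have h3 : b * u * b⁻¹ ∈ Q ⊓ centralizer (T : Set Γ) := by
        refine ⟨(Subgroup.mem_normalizer_iff.mp (hAQ hbA) u).mp hu.1, ?_⟩
        change b * u * b⁻¹ ∈ centralizer (T : Set Γ)
        rw [Subgroup.mem_centralizer_iff]
        intro y hy
        have h4 : b⁻¹ * y * b ∈ T := by
          have := (Subgroup.mem_normalizer_iff.mp (inv_mem hbT) y).mp hy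
          rwa [inv_inv] at this
        have h5 := Subgroup.mem_centralizer_iff.mp hu.2 _ h4
        calc y * (b * u * b⁻¹) = b * ((b⁻¹ * y * b) * u) * b⁻¹ := by group
          _ = b * (u * (b⁻¹ * y * b)) * b⁻¹ := by rw [h5]
          _ = b * u * b⁻¹ * y := by group
      have h4 := h1 _ h3 g hg hg1
      have h5 : g⁻¹ * (b * u * b⁻¹ * u⁻¹) * g = (g⁻¹ * (b * u * b⁻¹) * g) * (g⁻¹ * u * g)⁻¹ := by group
      rw [h5]
      exact N₁.mul_mem h4 (N₁.inv_mem h2)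
  -- the abelianization
  set π : Q →* Abelianization Q := Abelianization.of with hπ
  have hker : ∀ (M : Subgroup Γ), (∀ u ∈ Q, ∀ v ∈ Q, u * v * u⁻¹ * v⁻¹ ∈ M) → ∀ x : Q,
      π x ∈ (M.subgroupOf Q).map π → (x : Γ) ∈ M := by
    intro M hM x hx
    obtain ⟨y, hy, hyx⟩ := hx
    have h2 : y⁻¹ * x ∈ commutator Q := by
      rw [← Abelianization.ker_of, MonoidHom.mem_ker, map_mul, map_inv, inv_mul_eq_one]
      exact hyx
    have h3 : commutator Q ≤ M.subgroupOf Q := by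
      rw [commutator_def, Subgroup.commutator_le]
      intro a _ c _
      rw [Subgroup.mem_subgroupOf, commutatorElement_def]
      exact hM a a.2 c c.2
    have h4 := (M.subgroupOf Q).mul_mem hy (h3 h2)
    rw [mul_inv_cancel_left] at h4
    exact h4
  haveI := Fintype.ofFinite C
  have hQu : u ∈ Q := hu.1
  let cjC : C → Q := fun g => cjm Q g (hAQ (hCA g.2)) ⟨u, hQu⟩
  set Nm : Abelianization Q := ∏ g : C, π (cjC g) with hNm
  obtain ⟨w, hw⟩ : ∃ w : Q, π w = Nm := QuotientGroup.mk_surjective Nm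
  -- A fixes w modulo N
  have hAw : A ≤ stabC N (w : Γ) := by
    rw [hAC, sup_le_iff, zpowers_le]
    constructor
    · intro c hc
      refine ⟨hCN' hc, ?_⟩
      have h2 : π (cjm Q c (hAQ (hCA hc)) w) = π w := by
        have h3 : π (cjm Q c (hAQ (hCA hc)) w) = Abelianization.map (cjm Q c (hAQ (hCA hc))) (π w) := rfl
        rw [h3, hw, hNm, map_prod]
        refine Fintype.prod_equiv (Equiv.mulLeft (⟨c, hc⟩ : C)) _ _ (fun g => ?_)
        change π (cjm Q c (hAQ (hCA hc)) (cjC g)) = π (cjC (⟨c, hc⟩ * g))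
        congr 1
        apply Subtype.ext
        change c * ((g : Γ) * u * (g : Γ)⁻¹) * c⁻¹ = (c * g) * u * (c * g)⁻¹
        group
      have h3 : cjm Q c (hAQ (hCA hc)) w * w⁻¹ ∈ commutator Q := by
        rw [← Abelianization.ker_of, MonoidHom.mem_ker, map_mul, map_inv, mul_inv_eq_one]
        exact h2
      have h4 : commutator Q ≤ N.subgroupOf Q := by
        rw [commutator_def, Subgroup.commutator_le]
        intro a _ c _
        rw [Subgroup.mem_subgroupOf, commutatorElement_def]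
        exact hcommN a a.2 c c.2
      exact h4 h3
    · refine ⟨hAN' hbA, ?_⟩
      have hbQ := hAQ hbA
      have h2 : π (cjm Q b hbQ w) * (π w)⁻¹ ∈ (N.subgroupOf Q).map π := by
        have h3 : π (cjm Q b hbQ w) = Abelianization.map (cjm Q b hbQ) (π w) := rfl
        have h4 : π (cjm Q b hbQ w) = ∏ g : C, π (cjm Q g (hAQ (hCA g.2)) (cjm Q b hbQ ⟨u, hQu⟩)) := by
          rw [h3, hw, hNm, map_prod]
          -- reindex by conjugation
          have hbCn : ∀ g ∈ C, b * g * b⁻¹ ∈ C := fun g hg => (Subgroup.mem_normalizer_iff.mp (hCn hbA) g).mp hg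
          let e : C ≃ C :=
            { toFun := fun g => ⟨b * g * b⁻¹, hbCn g g.2⟩
              invFun := fun g => ⟨b⁻¹ * g * b, hbC g g.2⟩
              left_inv := fun g => Subtype.ext (by simp [mul_assoc])
              right_inv := fun g => Subtype.ext (by simp [mul_assoc]) }
          refine Fintype.prod_equiv e _ _ (fun g => ?_)
          change π (cjm Q b hbQ (cjC g)) = π (cjm Q (b * g * b⁻¹) _ (cjm Q b hbQ ⟨u, hQu⟩))
          congr 1
          apply Subtype.ext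
          change b * ((g : Γ) * u * (g : Γ)⁻¹) * b⁻¹ = (b * g * b⁻¹) * (b * u * b⁻¹) * (b * g * b⁻¹)⁻¹
          group
        rw [h4, hw, hNm, ← Finset.prod_inv_distrib, ← Finset.prod_mul_distrib]
        apply Subgroup.prod_mem
        intro g _
        rw [← map_inv, ← map_mul]
        refine ⟨_, ?_, rfl⟩
        change _ ∈ N
        change (g : Γ) * (b * u * b⁻¹) * (g : Γ)⁻¹ * ((g : Γ) * u * (g : Γ)⁻¹)⁻¹ ∈ N
        have h5 := (Subgroup.mem_normalizer_iff.mp (hCN' g.2) _).mp hbuN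
        have h6 : (g : Γ) * (b * u * b⁻¹) * (g : Γ)⁻¹ * ((g : Γ) * u * (g : Γ)⁻¹)⁻¹ = (g : Γ) * (b * u * b⁻¹ * u⁻¹) * (g : Γ)⁻¹ := by group
        rw [h6]; exact h5
      rw [← map_inv, ← map_mul] at h2
      exact hker N hcommN _ h2
  obtain ⟨w', hw', hww'⟩ := exists_fixed_of_coset_fixed A Q hAQ hcopQ (Or.inr hQs) N (hNN₁.trans hN₁Q) hQN' hAN' w w.2
    (fun a ha => (hAw ha).2)
  rw [hfixQ, Subgroup.mem_bot] at hw'
  rw [hw', mul_one] at hww'
  have hwN : (w : Γ) ∈ N := by simpa using N.inv_mem hww'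
  -- conclusion
  have h2 : π ⟨u, hQu⟩ ∈ (N₁.subgroupOf Q).map π := by
    have h3 : π w ∈ (N₁.subgroupOf Q).map π := ⟨w, hNN₁ hwN, rfl⟩
    rw [hw, hNm, ← Finset.mul_prod_erase Finset.univ _ (Finset.mem_univ (1 : C))] at h3
    have h4 : ∏ g ∈ Finset.univ.erase (1 : C), π (cjC g) ∈ (N₁.subgroupOf Q).map π := by
      apply Subgroup.prod_mem
      intro g hg
      refine ⟨_, ?_, rfl⟩
      change (g : Γ) * u * (g : Γ)⁻¹ ∈ N₁
      have hg1 : (g : Γ)⁻¹ ≠ 1 := by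
        intro h
        rw [inv_eq_one] at h
        exact (Finset.mem_erase.mp hg).1 (Subtype.ext h)
      have := h1 u hu _ (C.inv_mem g.2) hg1
      rwa [inv_inv] at this
    have h5 : π (cjC 1) = π ⟨u, hQu⟩ := by
      congr 1
      apply Subtype.ext
      change (1 : Γ) * u * (1 : Γ)⁻¹ = u
      group
    rw [h5] at h3
    exact (Subgroup.mul_mem_cancel_right _ h4).mp h3
  exact hker N₁ hab _ h2

end H1.PQ
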