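import Cfsg.Agent.Lib.H1.PQa
import Cfsg.Agent.Lib.H1.StrLem2
import Cfsg.Agent.Lib.H1.Fts
import Cfsg.Agent.Lib.H28.RelHall

/-!
Fixed-point-free action of a nonabelian group of order `pq`: coprime action modulo a subgroup, and the dichotomy for
an operator of prime order.
-/

set_option autoImplicit false

open Subgroup H1.Coprime2 H1.Coprime H1.StrLem
open scoped commutatorElement Pointwise

namespace H1.PQ

universe u

section grp

variable {Γ : Type u} [Group Γ] [Finite Γ]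

/-- `C_K(A) ∩ [K, A] ≤ N` modulo `N` when `K/N` is abelian. -/
theorem lemF {A K N : Subgroup Γ} (hAK : A ≤ normalizer (K : Set Γ)) (hcop : (Nat.card A).Coprime (Nat.card K))
    (hab : ∀ u ∈ K, ∀ v ∈ K, u * v * u⁻¹ * v⁻¹ ∈ N) {u : Γ} (hu : u ∈ ⁅K, A⁆)
    (hfix : ∀ a ∈ A, a * u * a⁻¹ * u⁻¹ ∈ N) : u ∈ N := by
  classical
  haveI := Fintype.ofFinite A
  set π : K →* Abelianization K := Abelianization.of with hπ
  have hker : ∀ x : K, π x ∈ (N.subgroupOf K).map π → (x : Γ) ∈ N := by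
    intro x hx
    obtain ⟨y, hy, hyx⟩ := hx
    have h2 : y⁻¹ * x ∈ commutator K := by
      rw [← Abelianization.ker_of, MonoidHom.mem_ker, map_mul, map_inv, inv_mul_eq_one]
      exact hyx
    have h3 : commutator K ≤ N.subgroupOf K := by
      rw [commutator_def, Subgroup.commutator_le]
      intro a _ c _
      rw [Subgroup.mem_subgroupOf, commutatorElement_def]
      exact hab a a.2 c c.2
    have h4 := (N.subgroupOf K).mul_mem hy (h3 h2)
    rw [mul_inv_cancel_left] at h4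
    exact h4
  let Nm : K →* Abelianization K := ∏ a : A, π.comp (cjm K a (hAK a.2))
  have hNm : ∀ x, Nm x = ∏ a : A, π (cjm K a (hAK a.2) x) := fun x => by
    change (∏ a : A, π.comp (cjm K a (hAK a.2))) x = _
    rw [MonoidHom.finsetProd_apply]
    rfl
  have hinv : ∀ (c : A) (x : K), Nm (cjm K c (hAK c.2) x) = Nm x := by
    intro c x
    rw [hNm, hNm]
    refine Fintype.prod_equiv (Equiv.mulRight c) _ _ (fun a => ?_)
    congr 1
    apply Subtype.ext
    change (a : Γ) * (c * x * (c : Γ)⁻¹) * (a : Γ)⁻¹ = (a * c) * x * (a * c : Γ)⁻¹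
    group
  have hle : ⁅K, A⁆ ≤ Nm.ker.map K.subtype := by
    rw [Subgroup.commutator_le]
    intro k hk a ha
    refine ⟨⟨k, hk⟩ * (cjm K a (hAK ha) ⟨k, hk⟩)⁻¹, ?_, ?_⟩
    · rw [SetLike.mem_coe, MonoidHom.mem_ker, map_mul, map_inv, hinv ⟨a, ha⟩, mul_inv_cancel]
    · change k * (a * k * a⁻¹)⁻¹ = k * a * k⁻¹ * a⁻¹
      group
  obtain ⟨u', hu', rfl⟩ := hle hu
  rw [SetLike.mem_coe, MonoidHom.mem_ker] at hu'
  have h1 : π (u' ^ Nat.card A) ∈ (N.subgroupOf K).map π := by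
    have h2 : Nm u' * (π (u' ^ Nat.card A))⁻¹ ∈ (N.subgroupOf K).map π := by
      rw [hNm, map_pow, Nat.card_eq_fintype_card, ← Finset.card_univ, ← Finset.prod_const, ← Finset.prod_inv_distrib,
        ← Finset.prod_mul_distrib]
      apply Subgroup.prod_mem
      intro a _
      rw [← map_inv, ← map_mul]
      exact ⟨_, hfix a a.2, rfl⟩
    rw [hu', one_mul] at h2
    exact (Subgroup.inv_mem_iff _).mp h2
  have h2 := hker _ h1
  refine H1.Fts.mem_of_pow_mem_of_coprime (a := Nat.card A) (b := Nat.card K) h2 ?_ hcop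
  have h3 : u' ^ Nat.card K = 1 := pow_card_eq_one'
  have h4 : (u' : Γ) ^ Nat.card K = 1 := congrArg Subtype.val h3
  change (u' : Γ) ^ Nat.card K ∈ N
  rw [h4]; exact one_mem _

/-- relative index and joins -/
theorem relIndex_sup_of_le {K L Z N : Subgroup Γ} (hZN : Z ≤ N) (hKL : K ≤ L) (hZL : Z ≤ L) (hLN : L ≤ normalizer (N : Set Γ)) :
    N.relIndex (K ⊔ Z) = N.relIndex K := by
  have h1 := H28.RelHall.relIndex_sup_eq (H := K ⊔ Z) (N := N) ((sup_le hKL hZL).trans hLN)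
  have h2 := H28.RelHall.relIndex_sup_eq (H := K) (N := N) (hKL.trans hLN)
  rw [← h1, ← h2, sup_assoc, sup_eq_right.mpr hZN]

end grp

section rep

variable {Γ : Type u} [Group Γ] [Finite Γ] {F : Type*} [Field F] [IsAlgClosed F] {V : Type*} [AddCommGroup V] [Module F V]
  [FiniteDimensional F V] [Nontrivial V]

theorem dich (ρ : Γ →* Module.End F V) {d q : ℕ} [hd : Fact d.Prime] [hq : Fact q.Prime] (hdq : d ≠ q) (hqF : (q : F) ≠ 0)
    {x : Γ} (hx : orderOf x = d) (Q Z : Subgroup Γ) (hQ : IsPGroup q Q) (hxQ : x ∈ normalizer (Q : Set Γ)) (hZQ : Z ≤ Q)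
    (hxZ : x ∈ normalizer (Z : Set Γ)) (hQZ : Q ≤ centralizer (Z : Set Γ)) (hab : ∀ a ∈ Q, ∀ b ∈ Q, a * b * a⁻¹ * b⁻¹ ∈ Z)
    (χ : Z →* Fˣ) (hχ : ∀ z : Z, ρ z = ((χ z : Fˣ) : F) • (1 : Module.End F V)) (hxχ : ∀ z ∈ Z, ρ (x * z * x⁻¹) = ρ z)
    (hV : ∀ v : V, ρ x v = v → v = 0) :
    (∀ u ∈ Q, ∀ v ∈ Q, ρ ((x * u * x⁻¹ * u⁻¹) * v * (x * u * x⁻¹ * u⁻¹)⁻¹ * v⁻¹) = 1) ∨
      ((∃ m, 1 ≤ m ∧ d - 1 = q ^ m) ∧ ∀ N : Subgroup Γ, (∀ u, u ∈ N ↔ u ∈ Q ∧ ∀ v ∈ Q, ρ (u * v * u⁻¹ * v⁻¹) = 1) →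
        N.relIndex ⁅Q, zpowers x⁆ = (d - 1) ^ 2) := by
  classical
  by_cases hcase : ∀ u ∈ Q, ∀ v ∈ Q, ρ ((x * u * x⁻¹ * u⁻¹) * v * (x * u * x⁻¹ * u⁻¹)⁻¹ * v⁻¹) = 1
  · exact Or.inl hcase
  right
  have hQs : Group.IsSolvable Q := by have := hQ.isNilpotent; infer_instance
  set D := zpowers x with hD
  have hDQ : D ≤ normalizer (Q : Set Γ) := by rw [hD, zpowers_le]; exact hxQ
  have hDZ : D ≤ normalizer (Z : Set Γ) := by rw [hD, zpowers_le]; exact hxZ
  have hcop : (Nat.card D).Coprime (Nat.card Q) := by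
    rw [hD, Nat.card_zpowers, hx]
    obtain ⟨n, hn⟩ := IsPGroup.iff_card.mp hQ
    rw [hn]
    exact Nat.Coprime.pow_right _ ((Nat.coprime_primes hd.out hq.out).2 hdq)
  set K := ⁅Q, D⁆ with hK
  have hKQ : K ≤ Q := commutator_le_left hDQ
  set Y := K ⊔ Z with hY
  have hYQ : Y ≤ Q := sup_le hKQ hZQ
  have hxK : x ∈ normalizer (K : Set Γ) := (le_normalizer_commutator hDQ Subgroup.le_normalizer) (mem_zpowers x)
  have hxY : x ∈ normalizer (Y : Set Γ) :=
    (le_normalizer_sup (B := D) (by rw [hD, zpowers_le]; exact hxK) hDZ) (mem_zpowers x)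
  have hZn : Q ≤ normalizer (Z : Set Γ) := hQZ.trans (Subgroup.centralizer_le_normalizer _)
  have hS : Setup ρ d q 0 x Y Z :=
    { hpq := hdq
      hqF := hqF
      hx := by rw [zero_add, pow_one]; exact hx
      hQ := hQ.to_le hYQ
      hxQ := hxY
      hZQ := le_sup_right
      hxZ := hxZ
      hQZ := hYQ.trans hQZ
      hab := fun a ha b hb => hab a (hYQ ha) b (hYQ hb)
      hy := by
        intro g hg hxg
        rw [pow_zero, pow_one] at hxg
        -- g = k z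
        have h1 : K ≤ normalizer (Z : Set Γ) := hKQ.trans hZn
        obtain ⟨k, hk, z, hz, rfl⟩ := H37.Syl.exists_mul_of_mem_sup h1 hg
        apply Z.mul_mem ?_ hz
        apply lemF hDQ hcop hab hk
        have h2 : D ≤ stabC Z k := by
          rw [hD, zpowers_le]
          refine ⟨hxZ, ?_⟩
          have h3 : x * k * x⁻¹ * k⁻¹ = k * z * (x * z⁻¹ * x⁻¹) * k⁻¹ := by
            have h4 : x * k = k * z * x * z⁻¹ := by
              calc x * k = x * (k * z) * z⁻¹ := by group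
                _ = k * z * x * z⁻¹ := by rw [hxg]
            rw [h4]; group
          rw [h3]
          have h5 : x * z⁻¹ * x⁻¹ ∈ Z := (Subgroup.mem_normalizer_iff.mp hxZ _).mp (Z.inv_mem hz)
          have h6 := (Subgroup.mem_normalizer_iff.mp (h1 hk) _).mp (Z.mul_mem hz h5)
          have h7 : k * (z * (x * z⁻¹ * x⁻¹)) * k⁻¹ = k * z * (x * z⁻¹ * x⁻¹) * k⁻¹ := by group
          rwa [h7] at h6
        exact fun a ha => (h2 ha).2
      hT := by
        intro v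
        rw [zero_add, pow_one]
        apply hV
        rw [map_sum]
        have h1 : ∀ j, ρ x (ρ (x ^ j) v) = ρ (x ^ (j + 1)) v := by
          intro j
          rw [← Module.End.mul_apply, ← map_mul, ← pow_succ']
        rw [Finset.sum_congr rfl (fun j _ => h1 j)]
        have h2 := Finset.sum_range_succ (fun j => ρ (x ^ j) v) d
        rw [Finset.sum_range_succ'] at h2
        have h3 : ρ (x ^ d) v = ρ (x ^ 0) v := by rw [← hx, pow_orderOf_eq_one, pow_zero]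
        rw [h3] at h2
        exact add_right_cancel h2 }
  have hwt : H30.Wts.wt (ρ.comp Z.subtype) χ ≠ ⊥ := by
    obtain ⟨v, hv⟩ := exists_ne (0 : V)
    intro h
    apply hv
    have h1 : v ∈ H30.Wts.wt (ρ.comp Z.subtype) χ := by
      intro z
      change ρ z v = _
      rw [hχ z]; rfl
    rw [h] at h1
    exact (Submodule.mem_bot F).mp h1
  have hker : ∀ z (hz : z ∈ Z), z ∈ kr Z χ ↔ ρ z = 1 := by
    intro z hz
    rw [mem_kr]
    constructor
    · rintro ⟨_, h⟩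
      have := hχ ⟨z, hz⟩
      rw [this, h]; simp
    · intro h
      refine ⟨hz, ?_⟩
      have h1 := hχ ⟨z, hz⟩
      have h2 : ρ ((⟨z, hz⟩ : Z) : Γ) = 1 := h
      rw [h2] at h1
      obtain ⟨v, hv⟩ := exists_ne (0 : V)
      have h3 := LinearMap.congr_fun h1 v
      have h4 : (1 - ((χ ⟨z, hz⟩ : Fˣ) : F)) • v = 0 := by
        rw [sub_smul, one_smul, sub_eq_zero]; exact h3
      rcases smul_eq_zero.mp h4 with h5 | h5
      · exact Units.ext (sub_eq_zero.mp h5).symm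
      · exact absurd h5 hv
  -- bilinearity of ρ [·,·]
  have hmul1 : ∀ a ∈ Q, ∀ b ∈ Q, ∀ c ∈ Q, ρ ((a * b) * c * (a * b)⁻¹ * c⁻¹) = ρ (a * c * a⁻¹ * c⁻¹) * ρ (b * c * b⁻¹ * c⁻¹) := by
    intro a ha b hb c hc
    have h1 := hab b hb c hc
    have h2 := mem_centralizer_iff.mp (hQZ ha) _ h1
    have h3 : (a * b) * c * (a * b)⁻¹ * c⁻¹ = (b * c * b⁻¹ * c⁻¹) * (a * c * a⁻¹ * c⁻¹) := by
      calc (a * b) * c * (a * b)⁻¹ * c⁻¹ = a * (b * c * b⁻¹ * c⁻¹) * (c * a⁻¹ * c⁻¹) := by group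
        _ = ((b * c * b⁻¹ * c⁻¹) * a) * (c * a⁻¹ * c⁻¹) := by rw [h2]
        _ = _ := by group
    have h4 := mem_centralizer_iff.mp (hQZ (mul_mem (mul_mem (mul_mem ha hc) (inv_mem ha)) (inv_mem hc))) _ h1
    rw [h3, h4, map_mul]
  have hxinv : ∀ a ∈ Q, ∀ b ∈ Q, ρ ((x * a * x⁻¹) * (x * b * x⁻¹) * (x * a * x⁻¹)⁻¹ * (x * b * x⁻¹)⁻¹) = ρ (a * b * a⁻¹ * b⁻¹) := by
    intro a ha b hb
    have h1 : (x * a * x⁻¹) * (x * b * x⁻¹) * (x * a * x⁻¹)⁻¹ * (x * b * x⁻¹)⁻¹ = x * (a * b * a⁻¹ * b⁻¹) * x⁻¹ := by group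
    rw [h1, hxχ _ (hab a ha b hb)]
  -- [K, C_Q(D)] acts trivially
  have horth : ∀ k ∈ K, ∀ c ∈ Q ⊓ centralizer (D : Set Γ), ρ (k * c * k⁻¹ * c⁻¹) = 1 := by
    intro k hk c hc
    -- the subgroup of elements k with ρ [k, c] = 1
    let R : Subgroup Γ :=
      { carrier := {k | k ∈ Q ∧ ρ (k * c * k⁻¹ * c⁻¹) = 1}
        one_mem' := ⟨one_mem _, by simp⟩
        mul_mem' := by
          rintro a b ⟨ha, ha'⟩ ⟨hb, hb'⟩
          exact ⟨mul_mem ha hb, by rw [hmul1 a ha b hb c hc.1, ha', hb', one_mul]⟩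
        inv_mem' := by
          rintro a ⟨ha, ha'⟩
          refine ⟨inv_mem ha, ?_⟩
          have h1 := hmul1 a⁻¹ (inv_mem ha) a ha c hc.1
          rw [ha', mul_one, inv_mul_cancel] at h1
          rw [← h1]; simp }
    have h1 : K ≤ R := by
      rw [hK, Subgroup.commutator_le]
      intro a ha y hy
      have hyQ := hDQ hy
      have hay : y * a * y⁻¹ ∈ Q := (Subgroup.mem_normalizer_iff.mp hyQ a).mp ha
      refine ⟨?_, ?_⟩
      · rw [commutatorElement_def]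
        have h2 : a * y * a⁻¹ * y⁻¹ = a * (y * a * y⁻¹)⁻¹ := by group
        rw [h2]; exact mul_mem ha (inv_mem hay)
      · -- ρ [a, c] = ρ [y a y⁻¹, c] for y ∈ D
        have h3 : ∀ y ∈ D, ρ ((y * a * y⁻¹) * c * (y * a * y⁻¹)⁻¹ * c⁻¹) = ρ (a * c * a⁻¹ * c⁻¹) := by
          have h4 : ∀ n : ℕ, ρ ((x ^ n * a * (x ^ n)⁻¹) * c * (x ^ n * a * (x ^ n)⁻¹)⁻¹ * c⁻¹) = ρ (a * c * a⁻¹ * c⁻¹) := by
            intro n
            induction n with
            | zero => simp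
            | succ n ih =>
              have h5 : x ^ n * a * (x ^ n)⁻¹ ∈ Q := (Subgroup.mem_normalizer_iff.mp (pow_mem hxQ n) a).mp ha
              have h6 := hxinv _ h5 c hc.1
              have h7 : x * c * x⁻¹ = c := by
                have := mem_centralizer_iff.mp hc.2 x (mem_zpowers x)
                rw [this]; group
              rw [h7] at h6
              rw [← ih, ← h6]
              congr 1
              rw [pow_succ']; group
          intro y hy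
          obtain ⟨n, rfl⟩ := (mem_powers_iff_mem_zpowers.mpr hy)
          exact h4 n
        rw [commutatorElement_def]
        have h2 : a * y * a⁻¹ * y⁻¹ = a * (y * a⁻¹ * y⁻¹) := by group
        have hay' : y * a⁻¹ * y⁻¹ ∈ Q := (Subgroup.mem_normalizer_iff.mp hyQ _).mp (inv_mem ha)
        rw [h2, hmul1 a ha _ hay' c hc.1]
        have h5 := hmul1 (y * a * y⁻¹) hay (y * a⁻¹ * y⁻¹) hay' c hc.1
        have h6 : y * a * y⁻¹ * (y * a⁻¹ * y⁻¹) = 1 := by group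
        rw [h6, h3 y hy] at h5
        rw [← h5]; simp
    exact (h1 hk).2
  -- nondegenerate case
  have hne : ∃ a ∈ Y, ∃ b ∈ Y, a * b * a⁻¹ * b⁻¹ ∉ kr Z χ := by
    by_contra hcon
    push Not at hcon
    apply hcase
    intro u hu v hv
    have hk : x * u * x⁻¹ * u⁻¹ ∈ K := by
      have h1 : ⁅D, Q⁆ = K := Subgroup.commutator_comm _ _
      rw [← h1, ← commutatorElement_def]
      exact Subgroup.commutator_mem_commutator (mem_zpowers x) hu
    obtain ⟨k', hk', c, hc, rfl⟩ := exists_mul_of_mem D Q hDQ hcop (Or.inr hQs) hv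
    set k := x * u * x⁻¹ * u⁻¹ with hkdef
    have h1 : ρ (k * k' * k⁻¹ * k'⁻¹) = 1 :=
      (hker _ (hab k (hKQ hk) k' (hKQ hk'))).mp (hcon k (le_sup_left (b := Z) hk) k' (le_sup_left (b := Z) hk'))
    have h2 := horth k hk c hc
    have h3 : k * (k' * c) * k⁻¹ * (k' * c)⁻¹ = (k * k' * k⁻¹ * k'⁻¹) * (k' * (k * c * k⁻¹ * c⁻¹) * k'⁻¹) := by group
    rw [h3, map_mul, h1, map_mul, map_mul, h2, mul_one, ← map_mul, mul_inv_cancel, map_one, one_mul]
  obtain ⟨k, hk0, _, _, hsq, hm, _⟩ := H1.StrLem.main hS χ hwt hne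
  obtain rfl : k = 0 := by omega
  rw [zero_add, Nat.sub_zero, pow_one] at hsq hm
  refine ⟨hm, ?_⟩
  intro N hN
  have hZN : Z ≤ N := by
    intro z hz
    rw [hN]
    refine ⟨hZQ hz, fun v hv => ?_⟩
    have := mem_centralizer_iff.mp (hQZ hv) z hz
    rw [this]; simp
  have hNQ : N ≤ Q := fun z hz => ((hN z).mp hz).1
  have hQN : Q ≤ normalizer (N : Set Γ) := by
    apply le_normalizer_of_conj_mem
    intro g hg n hn
    have h1 := hZN (hab g hg n (hNQ hn))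
    have := N.mul_mem h1 hn
    rwa [inv_mul_cancel_right] at this
  rw [← relIndex_sup_of_le (Z := Z) hZN hKQ hZQ hQN, hsq, ← hY]
  -- cmod Y (kr) ∩ Y = N ∩ Y
  have heq : N ⊓ Y = cmod Y (kr Z χ) (le_normalizer_kr χ hS.hQZ) ⊓ Y := by
    ext y
    rw [Subgroup.mem_inf, Subgroup.mem_inf, mem_cmod, hN]
    constructor
    · rintro ⟨⟨hyQ, hy⟩, hyY⟩
      refine ⟨⟨hyY, fun h hh => ?_⟩, hyY⟩
      exact (hker _ (hab y hyQ h (hYQ hh))).mpr (hy h (hYQ hh))
    · rintro ⟨⟨_, hy⟩, hyY⟩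
      refine ⟨⟨hYQ hyY, fun v hv => ?_⟩, hyY⟩
      obtain ⟨k', hk', c, hc, rfl⟩ := exists_mul_of_mem D Q hDQ hcop (Or.inr hQs) hv
      have h1 : ρ (y * k' * y⁻¹ * k'⁻¹) = 1 :=
        (hker _ (hab y (hYQ hyY) k' (hKQ hk'))).mp (hy k' (le_sup_left (b := Z) hk'))
      have h2 : ρ (y * c * y⁻¹ * c⁻¹) = 1 := by
        have h3 : K ≤ normalizer (Z : Set Γ) := hKQ.trans hZn
        obtain ⟨k, hk, z, hz, rfl⟩ := H37.Syl.exists_mul_of_mem_sup h3 hyY
        rw [hmul1 k (hKQ hk) z (hZQ hz) c hc.1, horth k hk c hc, one_mul]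
        have := mem_centralizer_iff.mp (hQZ hc.1) z hz
        rw [this]; simp
      have h3 : y * (k' * c) * y⁻¹ * (k' * c)⁻¹ = (y * k' * y⁻¹ * k'⁻¹) * (k' * (y * c * y⁻¹ * c⁻¹) * k'⁻¹) := by group
      rw [h3, map_mul, h1, map_mul, map_mul, h2, mul_one, ← map_mul, mul_inv_cancel, map_one, one_mul]
  rw [← Subgroup.inf_relIndex_right N, heq, Subgroup.inf_relIndex_right]

end rep

end H1.PQ
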