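import Cfsg.Agent.Lib.H1.PQb

/-!
Fixed-point-free action of a nonabelian group of order `pq`: the configuration.
-/

set_option autoImplicit false

open Subgroup H1.Coprime2 H1.Coprime H1.StrLem H30.Wts
open scoped commutatorElement Pointwise

namespace H1.PQ

universe u

section grp

variable {Γ : Type u} [Group Γ] [Finite Γ]

structure PQGrp (A C : Subgroup Γ) (r t : ℕ) : Prop where
  hr : r.Prime
  ht : t.Prime
  hrt : r ≠ t
  hA : Nat.card A = r * t
  hCA : C ≤ A
  hC : Nat.card C = r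
  hCn : A ≤ normalizer (C : Set Γ)
  hna : ∃ a ∈ A, ∃ b ∈ A, a * b ≠ b * a

theorem eq_of_le_card {D E : Subgroup Γ} (h : D ≤ E) (hc : Nat.card D = Nat.card E) : D = E :=
  Subgroup.eq_of_le_of_card_ge h hc.ge

namespace PQGrp

variable {A C : Subgroup Γ} {r t : ℕ} (h : PQGrp A C r t)

include h

theorem card_cases {D : Subgroup Γ} (hD : D ≤ A) (h1 : D ≠ ⊥) (h2 : D ≠ A) : Nat.card D = r ∨ Nat.card D = t := by
  have h3 : Nat.card D ∣ r * t := by rw [← h.hA]; exact Subgroup.card_dvd_of_le hD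
  have h4 : Nat.card D ≠ 1 := fun hc => h1 (Subgroup.card_eq_one.mp hc)
  have h5 : Nat.card D ≠ r * t := fun hc => h2 (eq_of_le_card hD (hc.trans h.hA.symm))
  obtain ⟨⟨a, b⟩, hab, habd⟩ : ∃ ab : ℕ × ℕ, (ab.1 ∣ r ∧ ab.2 ∣ t) ∧ ab.1 * ab.2 = Nat.card D := by
    obtain ⟨a, b, ha, hb, hab⟩ := (Nat.dvd_mul).mp h3
    exact ⟨(a, b), ⟨ha, hb⟩, hab⟩
  simp only at hab habd
  rcases (Nat.dvd_prime h.hr).mp hab.1 with ha | ha <;> rcases (Nat.dvd_prime h.ht).mp hab.2 with hb | hb
  · exfalso; apply h4; rw [← habd, ha, hb]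
  · right; rw [← habd, ha, hb, one_mul]
  · left; rw [← habd, ha, hb, mul_one]
  · exfalso; apply h5; rw [← habd, ha, hb]

theorem card_prime {D : Subgroup Γ} (hD : D ≤ A) (h1 : D ≠ ⊥) (h2 : D ≠ A) : (Nat.card D).Prime := by
  rcases h.card_cases hD h1 h2 with h3 | h3
  · rw [h3]; exact h.hr
  · rw [h3]; exact h.ht

theorem gen (D D' : Subgroup Γ) (hD : D ≤ A) (hD' : D' ≤ A) (h1 : D ≠ ⊥) (h2 : D' ≠ ⊥) (hne : D ≠ D') : D ⊔ D' = A := by
  by_contra hcon
  have h3 : D ⊔ D' ≤ A := sup_le hD hD'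
  have h4 : D ⊔ D' ≠ ⊥ := fun h5 => h1 (eq_bot_iff.mpr (h5 ▸ le_sup_left))
  have h5 := h.card_prime h3 h4 hcon
  have key : ∀ E : Subgroup Γ, E ≤ D ⊔ D' → E ≠ ⊥ → E = D ⊔ D' := by
    intro E hE hE1
    apply eq_of_le_card hE
    rcases (Nat.dvd_prime h5).mp (Subgroup.card_dvd_of_le hE) with h6 | h6
    · exact absurd (Subgroup.card_eq_one.mp h6) hE1
    · exact h6
  exact hne ((key D le_sup_left h1).trans (key D' le_sup_right h2).symm)

theorem cases_eq {D : Subgroup Γ} (hD : D ≤ A) (h1 : D ≠ ⊥) (h2 : D ≠ A) : D = C ∨ Nat.card D = t := by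
  rcases h.card_cases hD h1 h2 with h3 | h3
  · left
    by_contra hne
    have hC1 : C ≠ ⊥ := by
      intro h4
      have := h.hC
      rw [h4, Subgroup.card_bot] at this
      exact h.hr.one_lt.ne this
    have h4 := h.gen D C hD h.hCA h1 hC1 hne
    -- |D ⊔ C| divides r * r
    have h5 := H28.RelHall.card_sup_mul_card_inf (H := D) (N := C) (hD.trans h.hCn)
    rw [h4, h.hA, h3, h.hC] at h5
    have h6 : r * t ∣ r * r := ⟨_, h5.symm⟩
    have h7 := (Nat.mul_dvd_mul_iff_left h.hr.pos).mp h6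
    exact h.hrt ((Nat.prime_dvd_prime_iff_eq h.ht h.hr).mp h7).symm
  · right; exact h3

theorem D_struct {D : Subgroup Γ} (hD : D ≤ A) (hDt : Nat.card D = t) :
    ∃ b, orderOf b = t ∧ D = zpowers b ∧ A = C ⊔ zpowers b ∧ ∀ g ∈ C, g ≠ 1 → A = D ⊔ MulAut.conj g • D := by
  haveI := Fact.mk h.ht
  have hD1 : D ≠ ⊥ := by
    intro h4
    rw [h4, Subgroup.card_bot] at hDt
    exact h.ht.one_lt.ne hDt
  have hC1 : C ≠ ⊥ := by
    intro h4
    have := h.hC
    rw [h4, Subgroup.card_bot] at this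
    exact h.hr.one_lt.ne this
  obtain ⟨b, hb⟩ := exists_prime_orderOf_dvd_card' (G := D) t (dvd_of_eq hDt.symm)
  have hbo : orderOf (b : Γ) = t := by rw [Subgroup.orderOf_coe, hb]
  have hDb : D = zpowers (b : Γ) := by
    symm
    apply eq_of_le_card (by rw [zpowers_le]; exact b.2)
    rw [Nat.card_zpowers, hbo, hDt]
  have hCD : C ≠ D := by
    intro h4
    have := h.hC
    rw [h4, hDt] at this
    exact h.hrt this.symm
  refine ⟨b, hbo, hDb, ?_, ?_⟩
  · rw [← hDb]
    exact (h.gen C D h.hCA hD hC1 hD1 hCD).symm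
  · intro g hg hg1
    have hgA := h.hCA hg
    have hDg : MulAut.conj g • D ≤ A := by
      intro x hx
      have := H1.SZ.mem_conj_smul.mp hx
      have h4 := A.mul_mem (A.mul_mem hgA (hD this)) (A.inv_mem hgA)
      have h5 : g * (g⁻¹ * x * g) * g⁻¹ = x := by group
      rwa [h5] at h4
    refine (h.gen D _ hD hDg hD1 ?_ ?_).symm
    · intro h4
      apply hD1
      rw [← Subgroup.card_eq_one, ← H1.SZ.card_conj_smul (g := g), h4, Subgroup.card_bot]
    · intro h4
      -- g normalizes D, so C does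
      have h5 : g ∈ normalizer (D : Set Γ) := H1.SZ.mem_normalizer_of_conj_smul_eq h4.symm
      have h6 : C ≤ normalizer (D : Set Γ) := by
        have h7 : zpowers g = C := by
          apply eq_of_le_card (by rw [zpowers_le]; exact hg)
          have h8 : Nat.card (zpowers g) ∣ r := by rw [← h.hC]; exact Subgroup.card_dvd_of_le (by rw [zpowers_le]; exact hg)
          rcases (Nat.dvd_prime h.hr).mp h8 with h9 | h9
          · exfalso; apply hg1
            rwa [Subgroup.card_eq_one, zpowers_eq_bot] at h9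
          · rw [h9, h.hC]
        rw [← h7, zpowers_le]; exact h5
      -- C and D commute
      have h7 : C ⊓ D = ⊥ := by
        rw [← Subgroup.card_eq_one]
        have h8 : Nat.card (C ⊓ D : Subgroup Γ) ∣ r := by rw [← h.hC]; exact Subgroup.card_dvd_of_le inf_le_left
        have h9 : Nat.card (C ⊓ D : Subgroup Γ) ∣ t := by rw [← hDt]; exact Subgroup.card_dvd_of_le inf_le_right
        exact Nat.eq_one_of_dvd_coprimes ((Nat.coprime_primes h.hr h.ht).2 h.hrt) h8 h9
      have h8 : ∀ c ∈ C, ∀ d ∈ D, c * d = d * c := by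
        intro c hc d hd
        have h9 : c * d * c⁻¹ * d⁻¹ ∈ C ⊓ D := by
          constructor
          · have := (Subgroup.mem_normalizer_iff.mp (h.hCn (hD hd)) _).mp (C.inv_mem hc)
            have h10 := C.mul_mem hc this
            have h11 : c * (d * c⁻¹ * d⁻¹) = c * d * c⁻¹ * d⁻¹ := by group
            rwa [h11] at h10
          · have := (Subgroup.mem_normalizer_iff.mp (h6 hc) _).mp hd
            exact D.mul_mem this (D.inv_mem hd)
        rw [h7, Subgroup.mem_bot, mul_inv_eq_one, mul_inv_eq_iff_eq_mul] at h9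
        exact h9
      have h9 : A = C ⊔ D := (h.gen C D h.hCA hD hC1 hD1 hCD).symm
      have hCab : ∀ x ∈ C, ∀ y ∈ C, x * y = y * x := by
        haveI := Fact.mk h.hr
        haveI : IsCyclic C := isCyclic_of_prime_card (p := r) h.hC
        intro x hx y hy
        exact congrArg Subtype.val ((IsCyclic.commGroup (α := C)).mul_comm ⟨x, hx⟩ ⟨y, hy⟩)
      have hDab : ∀ x ∈ D, ∀ y ∈ D, x * y = y * x := by
        haveI : IsCyclic D := isCyclic_of_prime_card (p := t) hDt
        intro x hx y hy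
        exact congrArg Subtype.val ((IsCyclic.commGroup (α := D)).mul_comm ⟨x, hx⟩ ⟨y, hy⟩)
      obtain ⟨x, hx, y, hy, hxy⟩ := h.hna
      apply hxy
      have h10 : ∀ x ∈ A, A ≤ centralizer ({x} : Set Γ) := by
        have h11 : ∀ x ∈ C, A ≤ centralizer ({x} : Set Γ) := by
          intro x hx
          rw [h9, sup_le_iff]
          constructor
          · intro y hy; rw [mem_centralizer_singleton_iff]; exact hCab y hy x hx
          · intro y hy; rw [mem_centralizer_singleton_iff]; exact (h8 x hx y hy).symm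
        have h12 : ∀ x ∈ D, A ≤ centralizer ({x} : Set Γ) := by
          intro x hx
          rw [h9, sup_le_iff]
          constructor
          · intro y hy; rw [mem_centralizer_singleton_iff]; exact h8 y hy x hx
          · intro y hy; rw [mem_centralizer_singleton_iff]; exact hDab y hy x hx
        intro x hx y hy
        have h13 : A ≤ centralizer ({y} : Set Γ) := by
          rw [h9, sup_le_iff]
          constructor
          · intro z hz
            have := h11 z hz hy
            rw [mem_centralizer_singleton_iff] at this ⊢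
            exact this.symm
          · intro z hz
            have := h12 z hz hy
            rw [mem_centralizer_singleton_iff] at this ⊢
            exact this.symm
        have := h13 hx
        rw [mem_centralizer_singleton_iff] at this ⊢
        exact this.symm
      have := h10 y hy hx
      rw [mem_centralizer_singleton_iff] at this
      exact this

end PQGrp

end grp

section wts

variable {Γ : Type u} [Group Γ] [Finite Γ] {F : Type*} [Field F] {W : Type*} [AddCommGroup W] [Module F W]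

theorem mem_St_cch {Z : Subgroup Γ} {χ : Z →* Fˣ} {k a : Γ} (hk : k ∈ normalizer (Z : Set Γ)) :
    a ∈ St Z (cch Z k hk χ) ↔ k⁻¹ * a * k ∈ St Z χ := by
  constructor
  · rintro ⟨ha, h⟩
    refine ⟨mul_mem (mul_mem (inv_mem hk) ha) hk, ?_⟩
    ext z
    have h1 := DFunLike.congr_fun h ⟨k * z * k⁻¹, (Subgroup.mem_normalizer_iff.mp hk z).mp z.2⟩
    rw [cch_apply, cch_apply, cch_apply] at h1
    rw [cch_apply]
    have e1 : (⟨(k⁻¹ * a * k)⁻¹ * z * (k⁻¹ * a * k), conj_mem (mul_mem (mul_mem (inv_mem hk) ha) hk) z.2⟩ : Z) =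
        ⟨k⁻¹ * (a⁻¹ * (k * z * k⁻¹) * a) * k, conj_mem hk (conj_mem ha ((Subgroup.mem_normalizer_iff.mp hk z).mp z.2))⟩ := by
      apply Subtype.ext; simp only; group
    have e2 : (⟨k⁻¹ * (k * z * k⁻¹) * k, conj_mem hk ((Subgroup.mem_normalizer_iff.mp hk z).mp z.2)⟩ : Z) = z := by
      apply Subtype.ext; simp only; group
    rw [e1]
    rw [e2] at h1
    exact congrArg _ h1
  · rintro ⟨ha', h⟩
    have ha : a ∈ normalizer (Z : Set Γ) := by
      have h1 := mul_mem (mul_mem hk ha') (inv_mem hk)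
      have h2 : k * (k⁻¹ * a * k) * k⁻¹ = a := by group
      rwa [h2] at h1
    refine ⟨ha, ?_⟩
    ext z
    have h1 := DFunLike.congr_fun h ⟨k⁻¹ * z * k, conj_mem hk z.2⟩
    rw [cch_apply] at h1
    rw [cch_apply, cch_apply, cch_apply]
    have e1 : (⟨(k⁻¹ * a * k)⁻¹ * (k⁻¹ * z * k) * (k⁻¹ * a * k), conj_mem ha' (conj_mem hk z.2)⟩ : Z) =
        ⟨k⁻¹ * (a⁻¹ * z * a) * k, conj_mem hk (conj_mem ha z.2)⟩ := by
      apply Subtype.ext; simp only; group
    rw [e1] at h1
    exact congrArg _ h1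

/-- fixed vectors of an induced module -/
theorem fix_wt (ρ : Γ →* Module.End F W) (A Z : Subgroup Γ) (hAZ : A ≤ normalizer (Z : Set Γ)) (hAF : (Nat.card A : F) ≠ 0)
    (hZF : (Nat.card Z : F) ≠ 0) (hW : ∀ w : W, (∀ a ∈ A, ρ a w = w) → w = 0) (χ : Z →* Fˣ) (w : W)
    (hw : w ∈ wt (ρ.comp Z.subtype) χ) (hfix : ∀ a ∈ A, a ∈ St Z χ → ρ a w = w) : w = 0 := by
  classical
  haveI := Fintype.ofFinite A
  haveI := Fintype.ofFinite Z
  have hZF' : (Fintype.card Z : F) ≠ 0 := by rwa [← Nat.card_eq_fintype_card]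
  have h1 : ∑ a : A, ρ a w = 0 := by
    apply hW
    intro b hb
    rw [map_sum]
    refine Fintype.sum_equiv (Equiv.mulLeft (⟨b, hb⟩ : A)) _ _ (fun a => ?_)
    rw [← Module.End.mul_apply, ← map_mul]; rfl
  have h2 := congrArg (proj (ρ.comp Z.subtype) χ) h1
  rw [map_sum, map_zero] at h2
  have h3 : ∀ a : A, proj (ρ.comp Z.subtype) χ (ρ a w) = if (a : Γ) ∈ St Z χ then w else 0 := by
    intro a
    split_ifs with ha
    · rw [hfix a a.2 ha, proj_of_mem hZF' _ _ hw]
    · refine proj_of_mem_ne _ ?_ (map_wt ρ Z a (hAZ a.2) hw)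
      intro heq
      exact ha ⟨hAZ a.2, heq.symm⟩
  rw [Finset.sum_congr rfl (fun a _ => h3 a), ← Finset.sum_filter, Finset.sum_const] at h2
  have h4 : (((Finset.univ.filter (fun a : A => (a : Γ) ∈ St Z χ)).card : ℕ) : F) ≠ 0 := by
    have h5 : (Finset.univ.filter (fun a : A => (a : Γ) ∈ St Z χ)).card = Nat.card ((St Z χ).subgroupOf A) := by
      rw [Nat.card_eq_fintype_card, Fintype.card_subtype]
      rfl
    rw [h5]
    intro h6
    apply hAF
    obtain ⟨c, hc⟩ := Subgroup.card_subgroup_dvd_card ((St Z χ).subgroupOf A)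
    rw [hc, Nat.cast_mul, h6, zero_mul]
  rw [← Nat.cast_smul_eq_nsmul F] at h2
  exact (smul_eq_zero.mp h2).resolve_left h4

end wts

end H1.PQ
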