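import Cfsg.Agent.Lib.H1.PQc

/-!
Fixed-point-free action of a nonabelian group of order `pq`: the configuration, main part.
-/

set_option autoImplicit false

open Subgroup H1.Coprime2 H1.Coprime H1.StrLem H30.Wts
open scoped commutatorElement Pointwise

namespace H1.PQ

universe u

variable {Γ : Type u} [Group Γ] [Finite Γ] {F : Type*} [Field F] {W : Type*} [AddCommGroup W] [Module F W]

/-- elements acting trivially on `Q / N` -/
def ka (Q N : Subgroup Γ) (hQN : Q ≤ normalizer (N : Set Γ)) : Subgroup Γ where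
  carrier := {y | y ∈ normalizer (Q : Set Γ) ∧ y ∈ normalizer (N : Set Γ) ∧ ∀ u ∈ Q, y * u * y⁻¹ * u⁻¹ ∈ N}
  one_mem' := ⟨one_mem _, one_mem _, fun u _ => by simp [one_mem]⟩
  mul_mem' := by
    rintro a b ⟨ha, ha', ha''⟩ ⟨hb, hb', hb''⟩
    refine ⟨mul_mem ha hb, mul_mem ha' hb', fun u hu => ?_⟩
    have e : a * b * u * (a * b)⁻¹ * u⁻¹ = (a * (b * u * b⁻¹ * u⁻¹) * a⁻¹) * (a * u * a⁻¹ * u⁻¹) := by group
    rw [e]
    exact mul_mem ((Subgroup.mem_normalizer_iff.1 ha' _).1 (hb'' u hu)) (ha'' u hu)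
  inv_mem' := by
    rintro a ⟨ha, ha', ha''⟩
    refine ⟨inv_mem ha, inv_mem ha', fun u hu => ?_⟩
    have e : a⁻¹ * u * a⁻¹⁻¹ * u⁻¹ = a⁻¹ * (a * u * a⁻¹ * u⁻¹)⁻¹ * a⁻¹⁻¹ := by group
    rw [e]
    exact (Subgroup.mem_normalizer_iff.1 (inv_mem ha') _).1 (inv_mem (ha'' u hu))

omit [Finite Γ] in
theorem mem_ka {Q N : Subgroup Γ} {hQN : Q ≤ normalizer (N : Set Γ)} {y : Γ} :
    y ∈ ka Q N hQN ↔ y ∈ normalizer (Q : Set Γ) ∧ y ∈ normalizer (N : Set Γ) ∧ ∀ u ∈ Q, y * u * y⁻¹ * u⁻¹ ∈ N := Iff.rfl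

omit [Finite Γ] in
/-- `ka` is normalized by everything normalizing `Q` and `N`. -/
theorem conj_mem_ka {Q N : Subgroup Γ} {hQN : Q ≤ normalizer (N : Set Γ)} {y s : Γ} (hsQ : s ∈ normalizer (Q : Set Γ))
    (hsN : s ∈ normalizer (N : Set Γ)) (hy : y ∈ ka Q N hQN) : s * y * s⁻¹ ∈ ka Q N hQN := by
  obtain ⟨h1, h2, h3⟩ := hy
  refine ⟨mul_mem (mul_mem hsQ h1) (inv_mem hsQ), mul_mem (mul_mem hsN h2) (inv_mem hsN), fun u hu => ?_⟩
  have hu' : s⁻¹ * u * s ∈ Q := by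
    have := (Subgroup.mem_normalizer_iff.mp (inv_mem hsQ) u).mp hu
    rwa [inv_inv] at this
  have h4 := h3 _ hu'
  have h5 := (Subgroup.mem_normalizer_iff.mp hsN _).mp h4
  have h6 : s * (y * (s⁻¹ * u * s) * y⁻¹ * (s⁻¹ * u * s)⁻¹) * s⁻¹ = s * y * s⁻¹ * u * (s * y * s⁻¹)⁻¹ * u⁻¹ := by group
  rwa [h6] at h5

omit [Finite Γ] in
theorem commutator_le_ka {Q N S D : Subgroup Γ} {hQN : Q ≤ normalizer (N : Set Γ)} (hSQ : S ≤ normalizer (Q : Set Γ))
    (hSN : S ≤ normalizer (N : Set Γ)) (hD : D ≤ ka Q N hQN) : ⁅S, D⁆ ≤ ka Q N hQN := by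
  rw [Subgroup.commutator_le]
  intro s hs d hd
  rw [commutatorElement_def]
  have h1 := conj_mem_ka (hSQ hs) (hSN hs) (hD hd)
  have h2 := mul_mem h1 (inv_mem (hD hd))
  exact h2

structure Cfg (ρ : Γ →* Module.End F W) (A C S Q : Subgroup Γ) (r t s q : ℕ) : Prop where
  grp : PQGrp A C r t
  hs : s.Prime
  hq : q.Prime
  hsq : s ≠ q
  hS : IsPGroup s S
  hQ : IsPGroup q Q
  hAS : A ≤ normalizer (S : Set Γ)
  hAQ : A ≤ normalizer (Q : Set Γ)
  hSQ : S ≤ normalizer (Q : Set Γ)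
  hcopS : (Nat.card A).Coprime (Nat.card S)
  hcopQ : (Nat.card A).Coprime (Nat.card Q)
  hAF : (Nat.card A : F) ≠ 0
  hqF : (q : F) ≠ 0
  hfix : (Q ⊔ S) ⊓ centralizer (A : Set Γ) = ⊥
  hW : ∀ w : W, (∀ a ∈ A, ρ a w = w) → w = 0
  faith : ∀ g ∈ Q, ρ g = 1 → g = 1
  hQ1 : Q ≠ ⊥
  hcomm : ⁅Q, S⁆ = Q
  min : ∀ K ≤ Q, A ≤ normalizer (K : Set Γ) → S ≤ normalizer (K : Set Γ) → K ≠ Q → S ≤ centralizer (K : Set Γ)

namespace Cfg

variable {ρ : Γ →* Module.End F W} {A C S Q : Subgroup Γ} {r t s q : ℕ} (h : Cfg ρ A C S Q r t s q)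

include h

omit [Finite Γ] in
theorem fixQ : Q ⊓ centralizer (A : Set Γ) = ⊥ := by
  rw [eq_bot_iff, ← h.hfix]
  exact inf_le_inf_right _ le_sup_left

omit [Finite Γ] in
theorem fixS : S ⊓ centralizer (A : Set Γ) = ⊥ := by
  rw [eq_bot_iff, ← h.hfix]
  exact inf_le_inf_right _ le_sup_right

theorem solvS : Group.IsSolvable S := by
  haveI := Fact.mk h.hs
  have := h.hS.isNilpotent; infer_instance

theorem solvQ : Group.IsSolvable Q := by
  haveI := Fact.mk h.hq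
  have := h.hQ.isNilpotent; infer_instance

theorem copSQ : (Nat.card S).Coprime (Nat.card Q) := by
  haveI := Fact.mk h.hs
  haveI := Fact.mk h.hq
  obtain ⟨a, ha⟩ := IsPGroup.iff_card.mp h.hS
  obtain ⟨b, hb⟩ := IsPGroup.iff_card.mp h.hQ
  rw [ha, hb]
  exact Nat.Coprime.pow _ _ ((Nat.coprime_primes h.hs h.hq).2 h.hsq)

theorem cardF {Z : Subgroup Γ} (hZ : Z ≤ Q) : (Nat.card Z : F) ≠ 0 := by
  haveI := Fact.mk h.hq
  exact H1.StrLem.card_ne q h.hqF (h.hQ.to_le hZ)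

/-- `K = [K, A]` for `A`-invariant `K ≤ Q`. -/
theorem comm_eq {K : Subgroup Γ} (hK : K ≤ Q) (hAK : A ≤ normalizer (K : Set Γ)) : ⁅K, A⁆ = K := by
  have h1 := commutator_sup_centralizer A K hAK (h.hcopQ.coprime_dvd_right (Subgroup.card_dvd_of_le hK))
    (Or.inr (isSolvable_of_le hK h.solvQ))
  have h2 : K ⊓ centralizer (A : Set Γ) = ⊥ := by
    rw [eq_bot_iff, ← h.fixQ]
    exact inf_le_inf_right _ hK
  rwa [h2, sup_bot_eq] at h1

/-- an `A`-invariant character of an `A`-invariant subgroup of `Q` is trivial. -/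
theorem char_eq_one {K : Subgroup Γ} (hK : K ≤ Q) (hAK : A ≤ normalizer (K : Set Γ)) (χ : K →* Fˣ)
    (hχ : A ≤ St K χ) : χ = 1 := by
  have h1 : K ≤ kr K χ := by
    conv_lhs => rw [← h.comm_eq hK hAK]
    rw [Subgroup.commutator_le]
    intro k hk a ha
    have haK := hAK (A.inv_mem ha)
    obtain ⟨ha', ha''⟩ := hχ ha
    have hk' : a * k⁻¹ * a⁻¹ ∈ K := (Subgroup.mem_normalizer_iff.mp ha' _).mp (K.inv_mem hk)
    have e1 : ⁅k, a⁆ = k * (a * k⁻¹ * a⁻¹) := by rw [commutatorElement_def]; group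
    rw [e1, mem_kr]
    refine ⟨K.mul_mem hk hk', ?_⟩
    have h2 : (⟨k * (a * k⁻¹ * a⁻¹), K.mul_mem hk hk'⟩ : K) = ⟨k, hk⟩ * ⟨a * k⁻¹ * a⁻¹, hk'⟩ := rfl
    rw [h2, map_mul]
    have h3 := DFunLike.congr_fun ha'' ⟨a * k⁻¹ * a⁻¹, hk'⟩
    rw [cch_apply] at h3
    rw [← h3]
    have h4 : (⟨a⁻¹ * (a * k⁻¹ * a⁻¹) * a, conj_mem ha' hk'⟩ : K) = (⟨k, hk⟩ : K)⁻¹ := by
      apply Subtype.ext
      change a⁻¹ * (a * k⁻¹ * a⁻¹) * a = k⁻¹
      group
    rw [h4, map_inv, mul_inv_cancel]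
  ext k
  obtain ⟨_, h2⟩ := mem_kr.mp (h1 k.2)
  rw [h2]; rfl

/-- `S = [S, A]`. -/
theorem commS_eq : ⁅S, A⁆ = S := by
  have h1 := commutator_sup_centralizer A S h.hAS h.hcopS (Or.inr h.solvS)
  rwa [h.fixS, sup_bot_eq] at h1

/-- `S` is generated by `[S, D]` and a conjugate. -/
theorem gen_comm {D E : Subgroup Γ} (hD : D ≤ A) (hE : E ≤ A) (hA : A = D ⊔ E) : S ≤ ⁅S, D⁆ ⊔ ⁅S, E⁆ := by
  have hDS := hD.trans h.hAS
  have hES := hE.trans h.hAS
  set M := ⁅S, D⁆ ⊔ ⁅S, E⁆ with hM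
  have hMS : M ≤ S := sup_le (commutator_le_left hDS) (commutator_le_left hES)
  have hSM : S ≤ normalizer (M : Set Γ) :=
    le_normalizer_sup (le_normalizer_commutator_left _ _) (le_normalizer_commutator_left _ _)
  have hD1 : D ≤ ka S M hSM := by
    intro d hd
    have h1 : ∀ u ∈ S, d * u * d⁻¹ * u⁻¹ ∈ M := by
      intro u hu
      have h2 : ⁅D, S⁆ ≤ M := by rw [Subgroup.commutator_comm]; exact le_sup_left
      exact h2 (Subgroup.commutator_mem_commutator hd hu)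
    refine ⟨hDS hd, ?_, h1⟩
    have h2 : MulAut.conj d • M ≤ M := by
      intro x hx
      have h3 := H1.SZ.mem_conj_smul.mp hx
      have h4 := h1 _ (hMS h3)
      have h5 := M.mul_mem h4 h3
      have h6 : d * (d⁻¹ * x * d) * d⁻¹ * (d⁻¹ * x * d)⁻¹ * (d⁻¹ * x * d) = x := by group
      rwa [h6] at h5
    exact H1.SZ.mem_normalizer_of_conj_smul_eq (Subgroup.eq_of_le_of_card_ge h2 (by rw [H1.SZ.card_conj_smul]))
  have hE1 : E ≤ ka S M hSM := by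
    intro d hd
    have h1 : ∀ u ∈ S, d * u * d⁻¹ * u⁻¹ ∈ M := by
      intro u hu
      have h2 : ⁅E, S⁆ ≤ M := by rw [Subgroup.commutator_comm]; exact le_sup_right
      exact h2 (Subgroup.commutator_mem_commutator hd hu)
    refine ⟨hES hd, ?_, h1⟩
    have h2 : MulAut.conj d • M ≤ M := by
      intro x hx
      have h3 := H1.SZ.mem_conj_smul.mp hx
      have h4 := h1 _ (hMS h3)
      have h5 := M.mul_mem h4 h3
      have h6 : d * (d⁻¹ * x * d) * d⁻¹ * (d⁻¹ * x * d)⁻¹ * (d⁻¹ * x * d) = x := by group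
      rwa [h6] at h5
    exact H1.SZ.mem_normalizer_of_conj_smul_eq (Subgroup.eq_of_le_of_card_ge h2 (by rw [H1.SZ.card_conj_smul]))
  have hA1 : A ≤ ka S M hSM := by rw [hA]; exact sup_le hD1 hE1
  conv_lhs => rw [← h.commS_eq]
  rw [Subgroup.commutator_comm, Subgroup.commutator_le]
  intro a ha u hu
  exact (hA1 ha).2.2 u hu

/-- the common endgame: a proper `S`-invariant normal subgroup `N` of `Q` with abelian quotient on which a nontrivial
proper subgroup `D` of `A` acts trivially. -/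
theorem endgame {N D : Subgroup Γ} (hD : D ≤ A) (hD1 : D ≠ ⊥) (hDA : D ≠ A) (hNQ : N ≤ Q) (hNne : N ≠ Q)
    (hQN : Q ≤ normalizer (N : Set Γ)) (hSN : S ≤ normalizer (N : Set Γ)) (hab : ∀ u ∈ Q, ∀ v ∈ Q, u * v * u⁻¹ * v⁻¹ ∈ N)
    (hDN : D ≤ normalizer (N : Set Γ)) (hDQ : ∀ d ∈ D, ∀ u ∈ Q, d * u * d⁻¹ * u⁻¹ ∈ N) : False := by
  haveI := Fact.mk h.hs
  haveI := Fact.mk h.hq
  have hQS : ¬ (∀ y ∈ S, ∀ u ∈ Q, y * u * y⁻¹ * u⁻¹ ∈ N) := by
    intro hcon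
    apply hNne
    apply le_antisymm hNQ
    conv_lhs => rw [← h.hcomm]
    rw [Subgroup.commutator_comm, Subgroup.commutator_le]
    exact fun y hy u hu => hcon y hy u hu
  have hDka : D ≤ ka Q N hQN := fun d hd => ⟨h.hAQ (hD hd), hDN hd, hDQ d hd⟩
  have hT := commutator_le_ka h.hSQ hSN hDka
  rcases h.grp.cases_eq hD hD1 hDA with hDC | hDt
  · subst hDC
    -- some element of A outside
    obtain ⟨D', hD'A, hD't⟩ : ∃ D' ≤ A, Nat.card D' = t := by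
      haveI := Fact.mk h.grp.ht
      obtain ⟨b, hb⟩ := exists_prime_orderOf_dvd_card' (G := A) t (by rw [h.grp.hA]; exact dvd_mul_left _ _)
      exact ⟨zpowers (b : Γ), by rw [zpowers_le]; exact b.2, by rw [Nat.card_zpowers, Subgroup.orderOf_coe, hb]⟩
    obtain ⟨b, hbo, hD'b, hAD', _⟩ := h.grp.D_struct hD'A hD't
    apply hQS
    refine lemC h.hsq A D S Q N b h.grp.ht ?_ hD ?_ hAD' h.grp.hCn h.hS h.hQ h.hAS h.hAQ h.hSQ h.hcopS h.hcopQ h.hfix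
      hNQ hQN hDN hSN hDQ (fun y hy u hu => (hT hy).2.2 u hu)
    · rw [← hbo, pow_orderOf_eq_one]; exact one_mem _
    · apply hD'A; rw [hD'b]; exact mem_zpowers b
  · obtain ⟨b, hbo, hDb, hAD, hconj⟩ := h.grp.D_struct hD hDt
    have hbD : b ∈ D := by rw [hDb]; exact mem_zpowers b
    apply hNne
    apply le_antisymm hNQ
    intro u hu
    refine lemL1 (T := ⁅S, D⁆) h.grp.hCA (hD hbD) hAD h.grp.hCn h.hAS h.hAQ h.hSQ h.hcopQ h.copSQ h.solvQ h.fixQ hNQ hQN hSN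
      (hDN hbD) hab ?_ (commutator_le_left (hD.trans h.hAS)) ?_ (fun y hy u hu => (hT hy).2.2 u hu) ?_ u hu (hDQ b hbD u hu)
    · intro v hv hfix
      apply lemF h.hSQ h.copSQ hab ?_ hfix
      rw [h.hcomm]; exact hv
    · exact (le_normalizer_commutator (hD.trans h.hAS) Subgroup.le_normalizer) hbD
    · intro g hg hg1
      have h1 : MulAut.conj g • ⁅S, D⁆ = ⁅S, MulAut.conj g • D⁆ := by
        have h2 : MulAut.conj g • S = S := H1.SZ.conj_smul_eq_of_mem_normalizer (h.hAS (h.grp.hCA hg))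
        have h3 : MulAut.conj g • ⁅S, D⁆ = ⁅MulAut.conj g • S, MulAut.conj g • D⁆ := by
          exact Subgroup.map_commutator _ _ (MulAut.conj g).toMonoidHom
        rw [h3, h2]
      rw [h1]
      apply h.gen_comm hD ?_ (hconj g hg hg1)
      intro x hx
      have := H1.SZ.mem_conj_smul.mp hx
      have hgA := h.grp.hCA hg
      have h4 := A.mul_mem (A.mul_mem hgA (hD this)) (A.inv_mem hgA)
      have h5 : g * (g⁻¹ * x * g) * g⁻¹ = x := by group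
      rwa [h5] at h4

end Cfg

end H1.PQ
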