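import Cfsg.Agent.Lib.H1.PQd
import Cfsg.Agent.Lib.H1.ThmB

/-!
Fixed-point-free action of a nonabelian group of order `pq`: the abelian case and the set-up of the nonabelian case.
-/

set_option autoImplicit false

open Subgroup H1.Coprime2 H1.Coprime H1.StrLem H30.Wts
open scoped commutatorElement Pointwise

namespace H1.PQ

universe u

variable {Γ : Type u} [Group Γ] [Finite Γ] {F : Type*} [Field F] [IsAlgClosed F] {W : Type*} [AddCommGroup W] [Module F W]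
  [FiniteDimensional F W]

omit [Finite Γ] in
theorem cch_mul_apply {A : Subgroup Γ} {g : Γ} (hg : g ∈ normalizer (A : Set Γ)) (χ : A →* Fˣ) {a : Γ} (ha : a ∈ A)
    (ha' : g⁻¹ * a * g ∈ A) : cch A g hg χ ⟨a, ha⟩ = χ ⟨g⁻¹ * a * g, ha'⟩ := rfl

omit [Finite Γ] [IsAlgClosed F] in
theorem le_normalizer_of_acts {Q N D : Subgroup Γ} [Finite Γ] (hNQ : N ≤ Q) (h : ∀ d ∈ D, ∀ u ∈ Q, d * u * d⁻¹ * u⁻¹ ∈ N) :
    D ≤ normalizer (N : Set Γ) := by
  intro d hd
  have h2 : MulAut.conj d • N ≤ N := by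
    intro x hx
    have h3 := H1.SZ.mem_conj_smul.mp hx
    have h4 := h d hd _ (hNQ h3)
    have h5 := N.mul_mem h4 h3
    have h6 : d * (d⁻¹ * x * d) * d⁻¹ * (d⁻¹ * x * d)⁻¹ * (d⁻¹ * x * d) = x := by group
    rwa [h6] at h5
  exact H1.SZ.mem_normalizer_of_conj_smul_eq (Subgroup.eq_of_le_of_card_ge h2 (by rw [H1.SZ.card_conj_smul]))

namespace Cfg

variable {ρ : Γ →* Module.End F W} {A C S Q : Subgroup Γ} {r t s q : ℕ} (h : Cfg ρ A C S Q r t s q)

include h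

theorem ab_false (hab : ∀ u ∈ Q, ∀ v ∈ Q, u * v = v * u) : False := by
  classical
  obtain ⟨g, hg, hg1⟩ := Q.bot_or_exists_ne_one.resolve_left h.hQ1
  have hQF := h.cardF (le_refl Q)
  have hc : ∀ a ∈ commutator Q, (ρ.comp Q.subtype) a = 1 := by
    apply H1.ThmB.hcomm_of_ab
    intro a ha b hb
    rw [hab a ha b hb]; group
  obtain ⟨χ, hχ, v, hv, hv0⟩ := exists_weight hQF (ρ.comp Q.subtype) hc (a := ⟨g, hg⟩) (fun h1 => hg1 (h.faith g hg h1))
  have hχ1 : χ ≠ 1 := by rintro rfl; exact hχ rfl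
  have hkQ : ∀ k ∈ S, k ∈ normalizer (Q : Set Γ) := fun k hk => h.hSQ hk
  have hcch : ∀ k (hk : k ∈ S), cch Q k (hkQ k hk) χ ≠ 1 := by
    intro k hk h1
    apply hχ1
    ext a
    have hk' := (Subgroup.mem_normalizer_iff.mp (hkQ k hk) a).mp a.2
    have h2 := DFunLike.congr_fun h1 ⟨k * a * k⁻¹, hk'⟩
    rw [cch_apply] at h2
    have e : (⟨k⁻¹ * (⟨k * a * k⁻¹, hk'⟩ : Q) * k, conj_mem (hkQ k hk) hk'⟩ : Q) = a := by
      apply Subtype.ext; simp only; group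
    rw [e] at h2
    rw [h2]; rfl
  have hnot : ∀ k ∈ S, ∃ a ∈ A, k⁻¹ * a * k ∉ St Q χ := by
    intro k hk
    by_contra hcon
    push Not at hcon
    exact hcch k hk (h.char_eq_one le_rfl h.hAQ _ (fun a ha => (mem_St_cch (hkQ k hk)).mpr (hcon a ha)))
  have hne : ∀ k ∈ S, ∃ a ∈ A, a ≠ 1 ∧ k⁻¹ * a * k ∈ St Q χ := by
    intro k hk
    by_contra hcon
    push Not at hcon
    have h1 := fix_wt ρ A Q h.hAQ h.hAF hQF h.hW (cch Q k (hkQ k hk) χ) (ρ k v) (map_wt ρ Q k (hkQ k hk) hv) (by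
      intro a ha ha'
      have h2 := (mem_St_cch (hkQ k hk)).mp ha'
      have h3 : a = 1 := by
        by_contra h4
        exact hcon a ha h4 h2
      rw [h3, map_one]; rfl)
    apply hv0
    have h2 : ρ k⁻¹ (ρ k v) = v := by
      rw [← Module.End.mul_apply, ← map_mul, inv_mul_cancel, map_one]; rfl
    rw [← h2, h1, map_zero]
  have hE : ∀ x ∈ S, ∀ d ∈ A, d ∈ St Q χ → x⁻¹ * d * x ∈ St Q χ := fun x hx d hd hdU =>
    lemE A S (St Q χ) h.hAS h.hcopS h.solvS (fun D D' hD hD' h1 h2 h3 => h.grp.gen D D' hD hD' h1 h2 h3) hnot hne hx hd hdU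
  set D : Subgroup Γ := A ⊓ St Q χ with hD
  have hDA : D ≤ A := inf_le_left
  have hD1 : D ≠ ⊥ := by
    obtain ⟨a, ha, ha1, ha2⟩ := hne 1 (one_mem _)
    intro h1
    apply ha1
    have h2 : a ∈ D := ⟨ha, by simpa using ha2⟩
    rwa [h1, Subgroup.mem_bot] at h2
  have hDne : D ≠ A := by
    obtain ⟨a, ha, ha2⟩ := hnot 1 (one_mem _)
    intro h1
    apply ha2
    have h2 : a ∈ D := by rw [h1]; exact ha
    simpa using h2.2
  let N : Subgroup Γ :=
    { carrier := {u | ∃ hu : u ∈ Q, ∀ x (hx : x ∈ S), cch Q x (hkQ x hx) χ ⟨u, hu⟩ = 1}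
      one_mem' := ⟨one_mem _, fun x hx => map_one _⟩
      mul_mem' := by
        rintro a b ⟨ha, ha'⟩ ⟨hb, hb'⟩
        refine ⟨mul_mem ha hb, fun x hx => ?_⟩
        have : (⟨a * b, mul_mem ha hb⟩ : Q) = ⟨a, ha⟩ * ⟨b, hb⟩ := rfl
        rw [this, map_mul, ha' x hx, hb' x hx, one_mul]
      inv_mem' := by
        rintro a ⟨ha, ha'⟩
        refine ⟨inv_mem ha, fun x hx => ?_⟩
        have : (⟨a⁻¹, inv_mem ha⟩ : Q) = (⟨a, ha⟩ : Q)⁻¹ := rfl
        rw [this, map_inv, ha' x hx, inv_one] }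
  have hmemN : ∀ u, u ∈ N ↔ ∃ hu : u ∈ Q, ∀ x (hx : x ∈ S), cch Q x (hkQ x hx) χ ⟨u, hu⟩ = 1 := fun u => Iff.rfl
  have hNQ : N ≤ Q := fun u hu => ((hmemN u).mp hu).1
  have hacts : ∀ d ∈ D, ∀ u ∈ Q, d * u * d⁻¹ * u⁻¹ ∈ N := by
    intro d hd u hu
    have hdQ := h.hAQ (hDA hd)
    have hdu : d * u * d⁻¹ ∈ Q := (Subgroup.mem_normalizer_iff.mp hdQ u).mp hu
    rw [hmemN]
    refine ⟨mul_mem hdu (inv_mem hu), fun x hx => ?_⟩
    have e : (⟨d * u * d⁻¹ * u⁻¹, mul_mem hdu (inv_mem hu)⟩ : Q) = ⟨d * u * d⁻¹, hdu⟩ * (⟨u, hu⟩ : Q)⁻¹ := rfl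
    rw [e, map_mul, map_inv, mul_inv_eq_one]
    obtain ⟨h1, h2⟩ := (mem_St_cch (hkQ x hx)).mpr (hE x hx d (hDA hd) hd.2)
    have h3 := DFunLike.congr_fun h2 ⟨d * u * d⁻¹, hdu⟩
    rw [← h3, cch_apply]
    congr 1
    apply Subtype.ext
    simp only
    group
  refine h.endgame (N := N) hDA hD1 hDne hNQ ?_ ?_ ?_ ?_ (le_normalizer_of_acts hNQ hacts) hacts
  · intro h1
    apply hcch 1 (one_mem _)
    ext a
    have h2 : (a : Γ) ∈ N := by rw [h1]; exact a.2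
    obtain ⟨h3, h4⟩ := (hmemN _).mp h2
    rw [h4 1 (one_mem _)]; rfl
  · intro u hu
    rw [Subgroup.mem_normalizer_iff]
    intro v
    constructor
    · intro hv'
      have : u * v * u⁻¹ = v := by rw [hab u hu v (hNQ hv')]; group
      rwa [this]
    · intro hv'
      have h1 : u * (u * v * u⁻¹) * u⁻¹ = u * v * u⁻¹ := by rw [hab u hu _ (hNQ hv')]; group
      have h2 : u * v * u⁻¹ = v := by
        have h3 : u⁻¹ * (u * (u * v * u⁻¹) * u⁻¹) * u = u⁻¹ * (u * v * u⁻¹) * u := by rw [h1]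
        have h4 : u⁻¹ * (u * (u * v * u⁻¹) * u⁻¹) * u = u * v * u⁻¹ := by group
        have h5 : u⁻¹ * (u * v * u⁻¹) * u = v := by group
        rw [h4, h5] at h3
        exact h3
      rwa [h2] at hv'
  · intro y hy
    have h2 : MulAut.conj y • N ≤ N := by
      intro u hu
      obtain ⟨h3, h4⟩ := (hmemN _).mp (H1.SZ.mem_conj_smul.mp hu)
      have huQ : u ∈ Q := by
        have := (Subgroup.mem_normalizer_iff.mp (hkQ y hy) _).mp h3
        have e : y * (y⁻¹ * u * y) * y⁻¹ = u := by group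
        rwa [e] at this
      refine (hmemN u).mpr ⟨huQ, fun x hx => ?_⟩
      have h5 := h4 (y⁻¹ * x) (mul_mem (inv_mem hy) hx)
      rw [cch_apply] at h5 ⊢
      rw [← h5]
      congr 1
      apply Subtype.ext
      simp only
      group
    exact H1.SZ.mem_normalizer_of_conj_smul_eq (Subgroup.eq_of_le_of_card_ge h2 (by rw [H1.SZ.card_conj_smul]))
  · intro u hu v hv'
    have : u * v * u⁻¹ * v⁻¹ = 1 := by rw [hab u hu v hv']; group
    rw [this]; exact one_mem _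

end Cfg

end H1.PQ
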