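import Cfsg.Agent.Lib.H1.PQb

/-!
The dichotomy on a weight space, with a twist.
-/

set_option autoImplicit false

open Subgroup H1.Coprime2 H1.Coprime H1.StrLem H30.Wts
open scoped commutatorElement Pointwise

namespace H1.PQ

universe u

variable {Γ : Type u} [Group Γ] [Finite Γ] {F : Type*} [Field F] [IsAlgClosed F] {W : Type*} [AddCommGroup W] [Module F W]
  [FiniteDimensional F W]

/-- scalar twist -/
def tw {G : Type*} [Group G] (ρ : G →* Module.End F W) (M : Subgroup Fˣ) : G × M →* Module.End F W where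
  toFun p := (((p.2 : Fˣ)) : F) • ρ p.1
  map_one' := by simp
  map_mul' := by
    intro a b
    simp only [Prod.fst_mul, Prod.snd_mul, Subgroup.coe_mul, Units.val_mul, map_mul]
    rw [smul_mul_smul_comm]

omit [IsAlgClosed F] [FiniteDimensional F W] in
theorem tw_apply {G : Type*} [Group G] (ρ : G →* Module.End F W) (M : Subgroup Fˣ) (g : G) (z : M) (w : W) :
    tw ρ M (g, z) w = (((z : Fˣ)) : F) • ρ g w := rfl

theorem dich_wt (ρ : Γ →* Module.End F W) {d q : ℕ} [hd : Fact d.Prime] [hq : Fact q.Prime] (hdq : d ≠ q) (hqF : (q : F) ≠ 0)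
    {x : Γ} (hx : orderOf x = d) (Q Z : Subgroup Γ) (hQ : IsPGroup q Q) (hxQ : x ∈ normalizer (Q : Set Γ)) (hZQ : Z ≤ Q)
    (hQZ : Q ≤ centralizer (Z : Set Γ)) (hab : ∀ a ∈ Q, ∀ b ∈ Q, a * b * a⁻¹ * b⁻¹ ∈ Z)
    (χ : Z →* Fˣ) (hxχ : x ∈ St Z χ) (hwt : wt (ρ.comp Z.subtype) χ ≠ ⊥) (c : Fˣ) (hc : c ^ d = 1)
    (hV : ∀ v ∈ wt (ρ.comp Z.subtype) χ, ρ x v = (c : F) • v → v = 0) :
    (∀ u ∈ Q, ∀ v ∈ Q, (x * u * x⁻¹ * u⁻¹) * v * (x * u * x⁻¹ * u⁻¹)⁻¹ * v⁻¹ ∈ kr Z χ) ∨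
      ((∃ m, 1 ≤ m ∧ d - 1 = q ^ m) ∧ (cmod Q (kr Z χ) (le_normalizer_kr χ hQZ)).relIndex ⁅Q, zpowers x⁆ = (d - 1) ^ 2) := by
  classical
  haveI : NeZero d := ⟨hd.out.ne_zero⟩
  set X := wt (ρ.comp Z.subtype) χ with hX
  haveI : Nontrivial X := Submodule.nontrivial_iff_ne_bot.mpr hwt
  have hQSt : Q ≤ St Z χ := by
    intro u hu
    have hcu := mem_centralizer_iff.mp (hQZ hu)
    have hun : u ∈ normalizer (Z : Set Γ) := by
      have : centralizer (Z : Set Γ) ≤ normalizer (Z : Set Γ) := Subgroup.centralizer_le_normalizer _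
      exact this (hQZ hu)
    refine ⟨hun, ?_⟩
    ext z
    rw [cch_apply]
    congr 2
    apply Subtype.ext
    simp only
    have := hcu z z.2
    rw [mul_assoc, this, inv_mul_cancel_left]
  have hZSt : Z ≤ St Z χ := hZQ.trans hQSt
  set G₁ := St Z χ with hG₁
  let ρ₁ : G₁ →* Module.End F X := H30.FrobDim.sub (ρ.comp G₁.subtype) X (fun g v hv => map_wt_St ρ Z g g.2 hv)
  have hρ₁ : ∀ (g : G₁) (v : X), ((ρ₁ g v : X) : W) = ρ g v := fun g v => rfl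
  let M : Subgroup Fˣ := rootsOfUnity d F
  haveI : Finite M := inferInstanceAs (Finite (rootsOfUnity d F))
  let ρ' : G₁ × M →* Module.End F X := tw ρ₁ M
  let ι : G₁ →* G₁ × M := MonoidHom.inl _ _
  let π : G₁ × M →* Γ := G₁.subtype.comp (MonoidHom.fst _ _)
  let cM : M := ⟨c⁻¹, by
    change c⁻¹ ^ d = 1
    rw [inv_pow, hc, inv_one]⟩
  set x' : G₁ × M := (⟨x, hxχ⟩, cM) with hx'
  have hxo : orderOf x' = d := by
    rw [hx', Prod.orderOf_mk]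
    have h1 : orderOf (⟨x, hxχ⟩ : G₁) = d := by rw [Subgroup.orderOf_mk, hx]
    have h2 : orderOf cM ∣ d := by
      apply orderOf_dvd_of_pow_eq_one
      apply Subtype.ext
      change c⁻¹ ^ d = 1
      rw [inv_pow, hc, inv_one]
    rw [h1]
    exact Nat.lcm_eq_left h2
  have hwz : ∀ (w : Γ) (hw : w ∈ Z), tw ρ₁ M (ι ⟨w, hZSt hw⟩) = ((χ ⟨w, hw⟩ : Fˣ) : F) • (1 : Module.End F X) := by
    intro w hw
    ext v
    change ((((1 : M) : Fˣ) : F) • ρ₁ ⟨w, hZSt hw⟩ v : X).1 = ((χ ⟨w, hw⟩ : Fˣ) : F) • v.1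
    have h1 := v.2 ⟨w, hw⟩
    rw [← h1]
    simp only [OneMemClass.coe_one, Units.val_one, one_smul]
    rfl
  have hone : ∀ (w : Γ) (hw : w ∈ Z), tw ρ₁ M (ι ⟨w, hZSt hw⟩) = 1 ↔ w ∈ kr Z χ := by
    intro w hw
    rw [hwz w hw, mem_kr]
    constructor
    · intro h
      refine ⟨hw, ?_⟩
      obtain ⟨v, hv⟩ := exists_ne (0 : X)
      have h1 := LinearMap.congr_fun h v
      rw [LinearMap.smul_apply, Module.End.one_apply] at h1
      have h2 : (((χ ⟨w, hw⟩ : Fˣ) : F) - 1) • v = 0 := by rw [sub_smul, h1, one_smul, sub_self]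
      have h3 := (smul_eq_zero.mp h2).resolve_right hv
      exact Units.ext (sub_eq_zero.mp h3)
    · rintro ⟨_, h⟩
      rw [h]; simp
  set Q' : Subgroup (G₁ × M) := (Q.subgroupOf G₁).map ι with hQ'
  set Z' : Subgroup (G₁ × M) := (Z.subgroupOf G₁).map ι with hZ'
  have hmemQ : ∀ u (hu : u ∈ Q), ι ⟨u, hQSt hu⟩ ∈ Q' := fun u hu => ⟨⟨u, hQSt hu⟩, hu, rfl⟩
  have hQ'el : ∀ u' ∈ Q', ∃ u, ∃ hu : u ∈ Q, u' = ι ⟨u, hQSt hu⟩ := by
    rintro _ ⟨u, hu, rfl⟩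
    exact ⟨u, hu, rfl⟩
  have hZ'el : ∀ u' ∈ Z', ∃ u, ∃ hu : u ∈ Z, u' = ι ⟨u, hZSt hu⟩ := by
    rintro _ ⟨u, hu, rfl⟩
    exact ⟨u, hu, rfl⟩
  have hconj : ∀ (u : Γ) (hu : u ∈ G₁) (hu' : x * u * x⁻¹ ∈ G₁), x' * ι ⟨u, hu⟩ * x'⁻¹ = ι ⟨x * u * x⁻¹, hu'⟩ := by
    intro u hu hu'
    apply Prod.ext
    · rfl
    · change cM * 1 * cM⁻¹ = 1
      rw [mul_one, mul_inv_cancel]
  have hnorm : ∀ K : Subgroup Γ, K ≤ G₁ → x ∈ normalizer (K : Set Γ) → x' ∈ normalizer (((K.subgroupOf G₁).map ι : Subgroup (G₁ × M)) : Set (G₁ × M)) := by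
    intro K hK hxK
    have h2 : MulAut.conj x' • ((K.subgroupOf G₁).map ι) = ((K.subgroupOf G₁).map ι) := by
      symm
      apply Subgroup.eq_of_le_of_card_ge
      · rintro _ ⟨u, hu, rfl⟩
        rw [H1.SZ.mem_conj_smul]
        have hu' : x⁻¹ * u * x ∈ K := conj_mem hxK hu
        refine ⟨⟨x⁻¹ * u * x, hK hu'⟩, hu', ?_⟩
        apply Prod.ext
        · rfl
        · change 1 = cM⁻¹ * 1 * cM
          rw [mul_one, inv_mul_cancel]
      · rw [H1.SZ.card_conj_smul]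
    exact H1.SZ.mem_normalizer_of_conj_smul_eq h2
  obtain ⟨hxn, hxχ'⟩ := id hxχ
  have hcm : ∀ u (hu : u ∈ Q) v (hv : v ∈ Q), ι ⟨u, hQSt hu⟩ * ι ⟨v, hQSt hv⟩ * (ι ⟨u, hQSt hu⟩)⁻¹ * (ι ⟨v, hQSt hv⟩)⁻¹ =
      ι ⟨u * v * u⁻¹ * v⁻¹, hZSt (hab u hu v hv)⟩ := by
    intro u hu v hv
    rw [← map_inv, ← map_inv, ← map_mul, ← map_mul, ← map_mul]
    rfl
  have hπZ : ∀ z : Z', π z ∈ Z := by
    rintro ⟨_, z, hz, rfl⟩
    exact hz
  let χ' : Z' →* Fˣ := χ.comp ((π.comp Z'.subtype).codRestrict Z hπZ)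
  have hmain := dich ρ' hdq hqF hxo Q' Z' ((hQ.comap_of_injective _ (Subgroup.subtype_injective _)).map _) (hnorm Q hQSt hxQ)
    (Subgroup.map_mono (fun u hu => hZQ hu)) (hnorm Z hZSt hxn) (by
      intro u' hu'
      obtain ⟨u, hu, rfl⟩ := hQ'el u' hu'
      rw [mem_centralizer_iff]
      intro z' hz'
      obtain ⟨z, hz, rfl⟩ := hZ'el z' hz'
      rw [← map_mul, ← map_mul]
      congr 1
      exact Subtype.ext (mem_centralizer_iff.mp (hQZ hu) z hz)) (by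
      intro u' hu' v' hv'
      obtain ⟨u, hu, rfl⟩ := hQ'el u' hu'
      obtain ⟨v, hv, rfl⟩ := hQ'el v' hv'
      exact ⟨⟨u * v * u⁻¹ * v⁻¹, hZSt (hab u hu v hv)⟩, hab u hu v hv, (hcm u hu v hv).symm⟩) χ' (by
      rintro ⟨z', hz'⟩
      obtain ⟨z, hz, rfl⟩ := hZ'el z' hz'
      exact hwz z hz) (by
      intro z' hz'
      obtain ⟨z, hz, rfl⟩ := hZ'el z' hz'
      have hz2 : x * z * x⁻¹ ∈ Z := (Subgroup.mem_normalizer_iff.mp hxn z).mp hz
      rw [hconj z (hZSt hz) (hZSt hz2)]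
      change tw ρ₁ M _ = tw ρ₁ M _
      rw [hwz _ hz2, hwz z hz]
      congr 2
      have h1 := DFunLike.congr_fun hxχ' ⟨x * z * x⁻¹, hz2⟩
      rw [← h1, cch_apply]
      congr 1
      apply Subtype.ext
      simp only
      group) (by
      intro v hv
      apply Subtype.ext
      apply hV v v.2
      have h1 := congrArg Subtype.val hv
      have h2 : ((c⁻¹ : Fˣ) : F) • ρ x (v : W) = v := h1
      rw [← h2]
      conv_lhs => rw [h2]
      rw [smul_smul, ← Units.val_mul, mul_inv_cancel, Units.val_one, one_smul])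
  rcases hmain with h1 | ⟨h1, h2⟩
  · left
    intro u hu v hv
    have hxu : x * u * x⁻¹ ∈ Q := (Subgroup.mem_normalizer_iff.mp hxQ u).mp hu
    have hxu' : x * u * x⁻¹ * u⁻¹ ∈ Q := mul_mem hxu (inv_mem hu)
    have h3 := h1 _ (hmemQ u hu) _ (hmemQ v hv)
    have h4 : x' * ι ⟨u, hQSt hu⟩ * x'⁻¹ * (ι ⟨u, hQSt hu⟩)⁻¹ = ι ⟨x * u * x⁻¹ * u⁻¹, hQSt hxu'⟩ := by
      rw [hconj u (hQSt hu) (hQSt hxu), ← map_inv, ← map_mul]; rfl
    rw [h4, hcm _ hxu' _ hv] at h3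
    exact (hone _ (hab _ hxu' _ hv)).mp h3
  · right
    refine ⟨h1, ?_⟩
    set N := cmod Q (kr Z χ) (le_normalizer_kr χ hQZ) with hN
    have h3 := h2 (N.comap π ⊓ Q') (by
      intro u'
      constructor
      · rintro ⟨h3, h4⟩
        refine ⟨h4, fun v' hv' => ?_⟩
        obtain ⟨u, hu, rfl⟩ := hQ'el u' h4
        obtain ⟨v, hv, rfl⟩ := hQ'el v' hv'
        rw [hcm u hu v hv]
        have h3' : u ∈ N := h3
        rw [hN, mem_cmod] at h3'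
        exact (hone _ (hab u hu v hv)).mpr (h3'.2 v hv)
      · rintro ⟨h4, h5⟩
        refine ⟨?_, h4⟩
        obtain ⟨u, hu, rfl⟩ := hQ'el u' h4
        change u ∈ N
        rw [hN, mem_cmod]
        refine ⟨hu, fun v hv => ?_⟩
        have h6 := h5 _ (hmemQ v hv)
        rw [hcm u hu v hv] at h6
        exact (hone _ (hab u hu v hv)).mp h6)
    have hKQ' : ⁅Q', zpowers x'⁆ ≤ Q' := commutator_le_left (by rw [zpowers_le]; exact hnorm Q hQSt hxQ)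
    have h4 : (N.comap π ⊓ Q').relIndex ⁅Q', zpowers x'⁆ = N.relIndex ⁅Q, zpowers x⁆ := by
      rw [← Subgroup.inf_relIndex_right, inf_assoc, inf_eq_right.mpr hKQ', Subgroup.inf_relIndex_right, Subgroup.relIndex_comap,
        Subgroup.map_commutator, MonoidHom.map_zpowers]
      congr 2
      rw [hQ', Subgroup.map_map]
      have h5 : π.comp ι = G₁.subtype := rfl
      rw [h5, Subgroup.map_subgroupOf_eq_of_le hQSt]
    rw [← h4, h3]

end H1.PQ
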