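import Cfsg.Agent.Lib.H1.PQz

/-!
Fixed-point-free action of a nonabelian group of order `pq`: the configuration does not exist.
-/

set_option autoImplicit false

open Subgroup H1.Coprime2 H1.Coprime H1.StrLem H30.Wts
open scoped commutatorElement Pointwise

namespace H1.PQ

universe u

theorem zmod2_aux1 : ∀ x y : ZMod 2, 0 = x + y → x = y := by decide

theorem zmod2_aux2 : ∀ x : ZMod 2, x + x = 0 := by decide

variable {Γ : Type u} [Group Γ] [Finite Γ] {F : Type*} [Field F] [IsAlgClosed F] {W : Type*} [AddCommGroup W] [Module F W]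
  [FiniteDimensional F W]

namespace Cfg

variable {ρ : Γ →* Module.End F W} {A C S Q : Subgroup Γ} {r t s q : ℕ} (h : Cfg ρ A C S Q r t s q)

include h

theorem exc2 : q = 2 ∧ ∃ (Z : Subgroup Γ) (χ : Z →* Fˣ) (D : Subgroup Γ) (hQZ : Q ≤ centralizer (Z : Set Γ)) (m : ℕ),
    Z ≤ Q ∧ S ≤ centralizer (Z : Set Γ) ∧ (∀ a ∈ Q, ∀ b ∈ Q, a * b * a⁻¹ * b⁻¹ ∈ Z) ∧ D ≤ A ∧ D ≤ St Z χ ∧
    Nat.card D = t ∧ 1 ≤ m ∧ t = 2 ^ m + 1 ∧
    (∃ a ∈ Q, ∃ b ∈ Q, a * b * a⁻¹ * b⁻¹ ∉ kr Z χ) ∧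
    (cmod Q (kr Z χ) (le_normalizer_kr χ hQZ)).relIndex ⁅Q, D⁆ = (t - 1) ^ 2 := by
  classical
  obtain ⟨Z, χ, D, x, hQZ, hZQ, hSZ, hcomm, hDA, hDSt, hD1, hDne, hDx, hxo, ⟨m, hm, hdm⟩, hab, hidx⟩ := h.exc
  haveI := Fact.mk h.hq
  haveI := Fact.mk h.hs
  have hdp := h.grp.card_prime hDA hD1 hDne
  have hd1 := hdp.one_lt
  have hdm' : Nat.card D = q ^ m + 1 := by omega
  have hq2 : q = 2 := by
    by_contra hq2
    have hodd : Odd q := h.hq.odd_of_ne_two hq2
    have h1 : Odd (q ^ m) := hodd.pow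
    have h2 : Even (Nat.card D) := by rw [hdm']; exact h1.add_one
    have h3 : Nat.card D = 2 := hdp.even_iff.mp h2
    have h4 : q ^ m = 1 := by omega
    have h5 : 1 < q ^ m := Nat.one_lt_pow (by omega) h.hq.one_lt
    omega
  refine ⟨hq2, ?_⟩
  rw [hq2] at hdm'
  have hDt : Nat.card D = t := by
    rcases h.grp.cases_eq hDA hD1 hDne with hDC | hDt
    · exfalso
      have h1 := h.grp.modEq
      have h2 : r = 2 ^ m + 1 := by rw [← hdm', hDC, h.grp.hC]
      have h3 : t ∣ r - 1 := (Nat.modEq_iff_dvd' h.grp.hr.one_lt.le).mp h1.symm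
      rw [h2, Nat.add_sub_cancel] at h3
      have h4 := (Nat.prime_dvd_prime_iff_eq h.grp.ht Nat.prime_two).mp (h.grp.ht.dvd_of_dvd_pow h3)
      have h5 : 2 ∣ Nat.card A := by rw [h.grp.hA, h4]; exact dvd_mul_left _ _
      have h6 : 2 ∣ Nat.card Q := by
        obtain ⟨k, hk⟩ := IsPGroup.iff_card.mp h.hQ
        have hk0 : k ≠ 0 := by
          rintro rfl
          rw [pow_zero, Subgroup.card_eq_one] at hk
          exact h.hQ1 hk
        rw [hk, hq2]
        exact dvd_pow_self 2 hk0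
      have h7 := Nat.dvd_gcd h5 h6
      rw [h.hcopQ] at h7
      norm_num at h7
    · exact hDt
  refine ⟨Z, χ, D, hQZ, m, hZQ, hSZ, hcomm, hDA, hDSt, hDt, hm, by rw [← hDt, hdm'], hab, ?_⟩
  rw [← hDx, hDt] at hidx
  exact hidx

theorem false : False := by
  classical
  obtain ⟨hq2, Z, χ, D, hQZ, m, hZQ, hSZ, hcomm, hDA, hDSt, hDt, hm, htm, ⟨a0, ha0, b0, hb0, hnek⟩, hidx⟩ := h.exc2
  subst hq2
  haveI := Fact.mk h.hq
  haveI := Fact.mk h.hs
  haveI := Fact.mk h.grp.ht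
  obtain ⟨b, hbo, hDb, hAD, hconj⟩ := h.grp.D_struct hDA hDt
  have hbD : b ∈ D := by rw [hDb]; exact mem_zpowers b
  have hbA : b ∈ A := hDA hbD
  have hbQ : b ∈ normalizer (Q : Set Γ) := h.hAQ hbA
  have hbS : b ∈ normalizer (S : Set Γ) := h.hAS hbA
  set N := cmod Q (kr Z χ) (le_normalizer_kr χ hQZ) with hN
  have hNQ : N ≤ Q := cmod_le _ _ _
  have hQk : Q ≤ normalizer (kr Z χ : Set Γ) := le_normalizer_kr χ hQZ
  have hSk : S ≤ normalizer (kr Z χ : Set Γ) := le_normalizer_kr χ hSZ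
  have hQN : Q ≤ normalizer (N : Set Γ) := fun u hu => le_normalizer_cmod _ _ _ u (Q.le_normalizer hu) (hQk hu)
  have hSN : S ≤ normalizer (N : Set Γ) := fun u hu => le_normalizer_cmod _ _ _ u (h.hSQ hu) (hSk hu)
  have hbN : b ∈ normalizer (N : Set Γ) := le_normalizer_cmod _ _ _ b hbQ (St_le_normalizer_kr Z χ (hDSt hbD))
  have hab' : ∀ u ∈ Q, ∀ v ∈ Q, u * v * u⁻¹ * v⁻¹ ∈ N := by
    intro u hu v hv
    rw [hN, mem_cmod]
    have h5 := hcomm u hu v hv
    refine ⟨hZQ h5, fun w hw => ?_⟩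
    have h6 := mem_centralizer_iff.mp (hQZ hw) _ h5
    have h7 : u * v * u⁻¹ * v⁻¹ * w * (u * v * u⁻¹ * v⁻¹)⁻¹ * w⁻¹ = 1 := by
      rw [h6]; group
    rw [h7]; exact one_mem _
  have hNne : N ≠ Q := by
    intro h4
    apply hnek
    have h5 : a0 ∈ N := by rw [h4]; exact ha0
    rw [hN, mem_cmod] at h5
    exact h5.2 b0 hb0
  -- the pairing
  let e : Q → Q → Fˣ := fun u v => χ ⟨u * v * (u : Γ)⁻¹ * (v : Γ)⁻¹, hcomm u u.2 v v.2⟩
  have hcent : ∀ u ∈ Q, ∀ v ∈ Q, ∀ w ∈ Q, w * (u * v * u⁻¹ * v⁻¹) = (u * v * u⁻¹ * v⁻¹) * w := by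
    intro u hu v hv w hw
    exact (mem_centralizer_iff.mp (hQZ hw) _ (hcomm u hu v hv)).symm
  have he_sq : ∀ u v, e u v ^ 2 = 1 := by
    intro u v
    change (χ _) ^ 2 = 1
    rw [← map_pow]
    have h1 : (⟨u * v * (u : Γ)⁻¹ * (v : Γ)⁻¹, hcomm u u.2 v v.2⟩ : Z) ^ 2 = 1 := by
      apply Subtype.ext
      change ((u : Γ) * v * (u : Γ)⁻¹ * (v : Γ)⁻¹) ^ 2 = 1
      have h2 := hcent u u.2 v v.2 u u.2
      have h3 : (u : Γ) * v * (u : Γ)⁻¹ = ((u : Γ) * v * (u : Γ)⁻¹ * (v : Γ)⁻¹) * v := by group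
      generalize (u : Γ) * v * (u : Γ)⁻¹ * (v : Γ)⁻¹ = z at h2 h3 ⊢
      have h4 : (u : Γ) ^ 2 * v = v * (u : Γ) ^ 2 := h.pow_comm u u.2 v v.2
      have h5 : (u : Γ) ^ 2 * v * ((u : Γ) ^ 2)⁻¹ = z ^ 2 * v := by
        have h6 : (u : Γ) ^ 2 * v * ((u : Γ) ^ 2)⁻¹ = u * ((u : Γ) * v * (u : Γ)⁻¹) * (u : Γ)⁻¹ := by
          rw [pow_two]; group
        rw [h6, h3]
        have h7 : (u : Γ) * (z * v) * (u : Γ)⁻¹ = z * (u * v * (u : Γ)⁻¹) := by
          rw [← mul_assoc, h2]; group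
        rw [h7, h3, pow_two, mul_assoc]
      rw [h4, mul_assoc, mul_inv_cancel, mul_one] at h5
      have h6 : 1 * (v : Γ) = z ^ 2 * v := by rw [one_mul]; exact h5
      exact (mul_right_cancel h6).symm
    rw [h1, map_one]
  have he_mul : ∀ u v v', e u (v * v') = e u v * e u v' := by
    intro u v v'
    change χ _ = χ _ * χ _
    rw [← map_mul]
    congr 1
    apply Subtype.ext
    change (u : Γ) * (v * v') * (u : Γ)⁻¹ * ((v : Γ) * v')⁻¹ =
      (u * v * (u : Γ)⁻¹ * (v : Γ)⁻¹) * (u * v' * (u : Γ)⁻¹ * (v' : Γ)⁻¹)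
    have h1 := hcent u u.2 v' v'.2 v v.2
    have h2 : (u : Γ) * (v * v') * (u : Γ)⁻¹ * ((v : Γ) * v')⁻¹ =
      (u * v * (u : Γ)⁻¹ * (v : Γ)⁻¹) * ((v : Γ) * (u * v' * (u : Γ)⁻¹ * (v' : Γ)⁻¹)) * (v : Γ)⁻¹ := by group
    rw [h2, h1]; group
  have he_symm : ∀ u v, e u v = e v u := by
    intro u v
    have h1 : e v u = (e u v)⁻¹ := by
      change χ _ = (χ _)⁻¹
      rw [← map_inv]
      congr 1
      apply Subtype.ext
      change (v : Γ) * u * (v : Γ)⁻¹ * (u : Γ)⁻¹ = ((u : Γ) * v * (u : Γ)⁻¹ * (v : Γ)⁻¹)⁻¹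
      group
    rw [h1, eq_inv_iff_mul_eq_one, ← pow_two]
    exact he_sq u v
  let ω : Q → Q → ZMod 2 := fun u v => om (e u v)
  have hadd : ∀ u v v', ω u (v * v') = ω u v + ω u v' := by
    intro u v v'
    change om _ = om _ + om _
    rw [he_mul, om_mul (he_sq _ _) (he_sq _ _)]
  have hsymm : ∀ u v, ω u v = ω v u := fun u v => congrArg om (he_symm u v)
  have hrad : ∀ v : Q, (∀ u : Q, ω u v = 0) → (v : Γ) ∈ N := by
    intro v hv
    rw [hN, mem_cmod]
    refine ⟨v.2, fun u hu => ?_⟩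
    rw [mem_kr]
    refine ⟨hcomm v v.2 u hu, ?_⟩
    have h1 := om_eq_zero (hv ⟨u, hu⟩)
    rw [he_symm] at h1
    exact h1
  have hrad' : ∀ v : Q, (v : Γ) ∈ N → ∀ u : Q, ω u v = 0 := by
    intro v hv u
    rw [hN, mem_cmod] at hv
    obtain ⟨h1, h2⟩ := mem_kr.mp (hv.2 u u.2)
    rw [hsymm]
    change om (χ _) = 0
    rw [h2, om_one]
  -- the operators
  let G₁ : Subgroup Γ := St Z χ ⊓ normalizer (Q : Set Γ)
  have hSG : S ≤ G₁ := le_inf (hSZ.trans (cent_le_St χ)) h.hSQ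
  have hbG : b ∈ G₁ := ⟨hDSt hbD, hbQ⟩
  let α : G₁ →* MulAut Q := (normalizerMonoidHom Q).comp (Subgroup.inclusion inf_le_right)
  have hα : ∀ (g : G₁) (u : Q), ((α g u : Q) : Γ) = g * u * (g : Γ)⁻¹ := fun g u => rfl
  have hinv : ∀ (g : G₁) u v, ω (α g u) (α g v) = ω u v := by
    intro g u v
    change om _ = om _
    congr 1
    obtain ⟨h1, h2⟩ := g.2.1
    have h3 := DFunLike.congr_fun h2 ⟨(α g u : Γ) * (α g v : Q) * (α g u : Γ)⁻¹ * ((α g v : Q) : Γ)⁻¹, hcomm _ (α g u).2 _ (α g v).2⟩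
    rw [cch_apply] at h3
    change χ _ = χ _
    rw [← h3]
    congr 1
    apply Subtype.ext
    simp only [hα]
    group
  let K := AlgebraicClosure (ZMod 2)
  haveI : Fintype Q := Fintype.ofFinite Q
  let b' : G₁ := ⟨b, hbG⟩
  have hVN : ∀ f ∈ H1.PQy.V ω K, ∀ u : Q, (u : Γ) ∈ N → f u = 0 := by
    rintro f ⟨k, rfl⟩ u hu
    rw [H1.PQy.Phi_apply]
    apply Finset.sum_eq_zero
    intro v _
    unfold H1.PQy.w
    rw [hrad' u hu v, map_zero, mul_zero]
  have hcopb : (Nat.card (zpowers b)).Coprime (Nat.card Q) := by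
    rw [← hDb]
    exact h.hcopQ.coprime_dvd_left (Subgroup.card_dvd_of_le hDA)
  rw [hDb] at hidx
  have hodd2 : ∀ p : ℕ, p.Prime → p ≠ 2 → (p : K) ≠ 0 := by
    intro p hp hp2 h0
    have h1 := (CharP.cast_eq_zero_iff K 2 p).mp h0
    exact hp2 ((Nat.prime_dvd_prime_iff_eq Nat.prime_two hp).mp h1).symm
  have ht2 : t ≠ 2 := by
    rw [htm]
    have : 2 ≤ 2 ^ m := by
      calc 2 = 2 ^ 1 := by norm_num
        _ ≤ 2 ^ m := Nat.pow_le_pow_right (by norm_num) hm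
    omega
  have hX : ExcH (H1.PQy.sg α K hinv) (H1.PQy.B K hsymm) (H1.PQy.phi K) b' t s m (S.subgroupOf G₁) :=
    { inv := fun x f g => H1.PQy.B_inv α K hsymm hinv x f g
      nd := fun f hf => H1.PQy.B_nd K hsymm f hf
      ht := h.grp.ht
      htm := htm
      hm := hm
      hb := by rw [Subgroup.orderOf_mk]; exact hbo
      simple := by
        intro c hc1 f g hf hg hf0
        have hb't : b' ^ t = 1 := by
          apply Subtype.ext
          change b ^ t = 1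
          rw [← hbo]; exact pow_orderOf_eq_one b
        have hcn : ∀ n : ℕ, H1.PQy.sg α K hinv (b' ^ n) f = (c ^ n) • f := by
          intro n
          induction n with
          | zero => simp
          | succ n ih => rw [pow_succ', map_mul, Module.End.mul_apply, ih, map_smul, hf, smul_smul, ← pow_succ]
        have hct : c ^ t = 1 := by
          have h10 := hcn t
          rw [hb't, map_one, Module.End.one_apply] at h10
          obtain ⟨u, hu⟩ : ∃ u, (f : Q → K) u ≠ 0 := by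
            by_contra hcon
            push Not at hcon
            apply hf0
            apply Subtype.ext
            ext u
            exact hcon u
          have h11 : (f : Q → K) u = c ^ t * (f : Q → K) u := congrFun (congrArg Subtype.val h10) u
          have h12 : 1 * (f : Q → K) u = c ^ t * (f : Q → K) u := by rw [one_mul]; exact h11
          exact (mul_right_cancel₀ hu h12).symm
        obtain ⟨k, hk⟩ := simple_aux h.grp.ht htm hm hbQ hcopb hNQ hidx c hc1 hct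
          (fun f : Q → K => ∃ hf : f ∈ H1.PQy.V ω K, H1.PQy.sg α K hinv b' ⟨f, hf⟩ = c • ⟨f, hf⟩)
          (by rintro f ⟨hf, -⟩ u v; exact H1.PQy.add_of_mem K hadd hf u v)
          (by rintro f ⟨hf, -⟩ u hu; exact hVN f hf u hu)
          (by
            rintro f ⟨hf, hf'⟩ u v hv
            have h1 := congrFun (congrArg Subtype.val hf') u
            rw [H1.PQy.sg_apply] at h1
            have h2 : α b'⁻¹ u = v := by
              apply Subtype.ext
              rw [hα, hv]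
              change b⁻¹ * (u : Γ) * b⁻¹⁻¹ = b⁻¹ * u * b
              rw [inv_inv]
            rw [h2] at h1
            exact h1)
          (by
            rintro f g ⟨hf, hf'⟩ ⟨hg, hg'⟩ k l
            refine ⟨Submodule.add_mem _ (Submodule.smul_mem _ _ hf) (Submodule.smul_mem _ _ hg), ?_⟩
            have h1 : (⟨k • f + l • g, Submodule.add_mem _ (Submodule.smul_mem _ _ hf) (Submodule.smul_mem _ _ hg)⟩ : H1.PQy.V ω K) =
              k • ⟨f, hf⟩ + l • ⟨g, hg⟩ := rfl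
            rw [h1, map_add, map_smul, map_smul, hf', hg', smul_comm, smul_comm l, ← smul_add])
          (f : Q → K) (g : Q → K) ⟨f.2, hf⟩ ⟨g.2, hg⟩ (fun h0 => hf0 (Subtype.ext h0))
        exact ⟨k, Subtype.ext hk⟩
      hs := h.hs
      hs2 := h.hsq
      hst := by
        intro hst
        have h1 : s ∣ Nat.card A := by rw [h.grp.hA, hst]; exact dvd_mul_left _ _
        have h2 : s ∣ Nat.card S := by
          obtain ⟨k, hk⟩ := IsPGroup.iff_card.mp h.hS
          have hk0 : k ≠ 0 := by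
            rintro rfl
            rw [pow_zero, Subgroup.card_eq_one] at hk
            have h3 := h.hcomm
            rw [hk, Subgroup.commutator_bot_right] at h3
            exact h.hQ1 h3.symm
          rw [hk]
          exact dvd_pow_self s hk0
        have h3 := Nat.dvd_gcd h1 h2
        rw [h.hcopS] at h3
        exact h.hs.one_lt.ne' (Nat.dvd_one.mp h3)
      hsK := hodd2 s h.hs h.hsq
      htK := hodd2 t h.grp.ht ht2
      hS := h.hS.comap_of_injective _ (Subgroup.subtype_injective _)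
      hbS := by
        have h2 : MulAut.conj b' • (S.subgroupOf G₁) = S.subgroupOf G₁ := by
          symm
          apply Subgroup.eq_of_le_of_card_ge
          · intro u hu
            rw [H1.SZ.mem_conj_smul]
            have hu' : b⁻¹ * u * b ∈ S := conj_mem hbS hu
            exact hu'
          · rw [H1.SZ.card_conj_smul]
        exact H1.SZ.mem_normalizer_of_conj_smul_eq h2
      phi_zero := fun f hf => H1.PQy.phi_zero K f hf
      phi_smul := fun c f => H1.PQy.phi_smul K c f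
      phi_sigma := fun x f => H1.PQy.phi_sg α K hinv x f }
  -- translation
  have htriv : ∀ y : G₁, H1.PQy.sg α K hinv y = 1 → ∀ u ∈ Q, (y : Γ) * u * (y : Γ)⁻¹ * u⁻¹ ∈ N := by
    intro y hy v hv
    have hyv : (y : Γ) * v * (y : Γ)⁻¹ ∈ Q := (Subgroup.mem_normalizer_iff.mp y.2.2 v).mp hv
    refine hrad ⟨(y : Γ) * v * (y : Γ)⁻¹ * v⁻¹, mul_mem hyv (inv_mem hv)⟩ (fun u => ?_)
    have h1 : (⟨(y : Γ) * v * (y : Γ)⁻¹ * v⁻¹, mul_mem hyv (inv_mem hv)⟩ : Q) = ⟨(y : Γ) * v * (y : Γ)⁻¹, hyv⟩ * (⟨v, hv⟩ : Q)⁻¹ := rfl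
    have h2 : ω u (⟨v, hv⟩ : Q)⁻¹ = ω u ⟨v, hv⟩ := by
      have h3 : ω u ((⟨v, hv⟩ : Q)⁻¹ * ⟨v, hv⟩) = ω u (⟨v, hv⟩ : Q)⁻¹ + ω u ⟨v, hv⟩ := hadd _ _ _
      have h4 : ω u 1 = 0 := hrad' 1 (one_mem N) u
      rw [inv_mul_cancel, h4] at h3
      exact zmod2_aux1 _ _ h3
    rw [h1, hadd, h2]
    have h3 := congrFun (congrArg Subtype.val (LinearMap.congr_fun hy ⟨H1.PQy.w ω K u, H1.PQy.w_mem ω K u⟩)) ⟨(y : Γ) * v * (y : Γ)⁻¹, hyv⟩
    rw [H1.PQy.sg_apply, Module.End.one_apply] at h3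
    have h4 : α y⁻¹ ⟨(y : Γ) * v * (y : Γ)⁻¹, hyv⟩ = ⟨v, hv⟩ := by
      apply Subtype.ext
      rw [hα]
      change (y : Γ)⁻¹ * ((y : Γ) * v * (y : Γ)⁻¹) * (y : Γ)⁻¹⁻¹ = v
      group
    rw [h4] at h3
    have h5 : ω u ⟨v, hv⟩ = ω u ⟨(y : Γ) * v * (y : Γ)⁻¹, hyv⟩ := by
      have h6 : algebraMap (ZMod 2) K (ω u ⟨v, hv⟩) = algebraMap (ZMod 2) K (ω u ⟨(y : Γ) * v * (y : Γ)⁻¹, hyv⟩) := h3
      exact (algebraMap (ZMod 2) K).injective h6
    rw [← h5]
    exact zmod2_aux2 _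
  -- `[S, D]` acts trivially
  have hSD : ∀ y ∈ ⁅S, D⁆, ∀ u ∈ Q, y * u * y⁻¹ * u⁻¹ ∈ N := by
    intro y hy u hu
    have h1 : y ∈ (⁅S.subgroupOf G₁, zpowers b'⁆).map G₁.subtype := by
      rw [Subgroup.map_commutator, Subgroup.map_subgroupOf_eq_of_le hSG, MonoidHom.map_zpowers]
      rw [hDb] at hy
      exact hy
    obtain ⟨y', hy', rfl⟩ := h1
    exact htriv y' (hX.comm_triv y' hy') u hu
  have hfixS : ∀ u ∈ Q, (∀ y ∈ S, y * u * y⁻¹ * u⁻¹ ∈ N) → u ∈ N := by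
    intro v hv hfix
    apply lemF h.hSQ h.copSQ hab' ?_ hfix
    rw [h.hcomm]; exact hv
  have hfixb : ∀ u ∈ Q, b * u * b⁻¹ * u⁻¹ ∈ N → u ∈ N := by
    refine lemL1 (T := ⁅S, D⁆) h.grp.hCA hbA hAD h.grp.hCn h.hAS h.hAQ h.hSQ h.hcopQ h.copSQ h.solvQ h.fixQ hNQ hQN hSN
      hbN hab' hfixS (commutator_le_left (hDA.trans h.hAS)) ?_ hSD ?_
    · exact (le_normalizer_commutator (hDA.trans h.hAS) Subgroup.le_normalizer) hbD
    · intro g hg hg1
      have h1 : MulAut.conj g • ⁅S, D⁆ = ⁅S, MulAut.conj g • D⁆ := by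
        have h2 : MulAut.conj g • S = S := H1.SZ.conj_smul_eq_of_mem_normalizer (h.hAS (h.grp.hCA hg))
        have h3 : MulAut.conj g • ⁅S, D⁆ = ⁅MulAut.conj g • S, MulAut.conj g • D⁆ := by
          exact Subgroup.map_commutator _ _ (MulAut.conj g).toMonoidHom
        rw [h3, h2]
      rw [h1]
      apply h.gen_comm hDA ?_ (hconj g hg hg1)
      intro x hx
      have := H1.SZ.mem_conj_smul.mp hx
      have hgA := h.grp.hCA hg
      have h4 := A.mul_mem (A.mul_mem hgA (hDA this)) (A.inv_mem hgA)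
      have h5 : g * (g⁻¹ * x * g) * g⁻¹ = x := by group
      rwa [h5] at h4
  -- no fixed points
  have hfix : ∀ f, H1.PQy.sg α K hinv b' f = f → f = 0 := by
    intro f hf
    apply Subtype.ext
    have hbQ' : zpowers b ≤ normalizer (Q : Set Γ) := by rw [zpowers_le]; exact hbQ
    have h1 := commutator_sup_centralizer (zpowers b) Q hbQ' hcopb (Or.inl inferInstance)
    let φ : Q →* Multiplicative K :=
      { toFun := fun u => Multiplicative.ofAdd ((f : Q → K) u)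
        map_one' := by
          have : (f : Q → K) 1 = 0 := hVN f f.2 1 (one_mem N)
          rw [this]; rfl
        map_mul' := by
          intro u v
          rw [H1.PQy.add_of_mem K hadd f.2]; rfl }
    have hφ : ∀ u, u ∈ φ.ker ↔ (f : Q → K) u = 0 := fun u => Iff.rfl
    have hinvf : ∀ (n : ℕ) (u : Q), (f : Q → K) (α (b' ^ n) u) = (f : Q → K) u := by
      intro n
      induction n with
      | zero => intro u; simp
      | succ n ih =>
        intro u
        rw [pow_succ, map_mul, MulAut.mul_apply, ih]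
        have h2 := congrFun (congrArg Subtype.val hf) (α b' u)
        rw [H1.PQy.sg_apply] at h2
        have h3 : α b'⁻¹ (α b' u) = u := by rw [← MulAut.mul_apply, ← map_mul, inv_mul_cancel, map_one]; rfl
        rw [h3] at h2
        exact h2.symm
    have h2 : Q ≤ φ.ker.map Q.subtype := by
      conv_lhs => rw [← h1]
      rw [sup_le_iff]
      constructor
      · rw [Subgroup.commutator_comm, Subgroup.commutator_le]
        intro x hx u hu
        obtain ⟨n, rfl⟩ := mem_powers_iff_mem_zpowers.mpr hx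
        have hxu : b ^ n * u * (b ^ n)⁻¹ ∈ Q := (Subgroup.mem_normalizer_iff.mp (pow_mem hbQ n) u).mp hu
        refine ⟨⟨b ^ n * u * (b ^ n)⁻¹ * u⁻¹, mul_mem hxu (inv_mem hu)⟩, ?_, rfl⟩
        rw [SetLike.mem_coe, MonoidHom.mem_ker]
        have h3 : (⟨b ^ n * u * (b ^ n)⁻¹ * u⁻¹, mul_mem hxu (inv_mem hu)⟩ : Q) = α (b' ^ n) ⟨u, hu⟩ * (⟨u, hu⟩ : Q)⁻¹ := rfl
        rw [h3, map_mul, map_inv]
        have h4 : φ (α (b' ^ n) ⟨u, hu⟩) = φ ⟨u, hu⟩ := congrArg Multiplicative.ofAdd (hinvf n ⟨u, hu⟩)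
        rw [h4, mul_inv_cancel]
      · intro u hu
        have hub : b * u = u * b := mem_centralizer_iff.mp hu.2 b (mem_zpowers b)
        have huN : u ∈ N := hfixb u hu.1 (by rw [hub]; simp [one_mem])
        exact ⟨⟨u, hu.1⟩, hVN f f.2 _ huN, rfl⟩
    ext u
    obtain ⟨v, hv, hvu⟩ := h2 u.2
    have : v = u := Subtype.ext hvu
    rw [← this]
    exact (hφ v).mp hv
  -- conclusion
  have hall := hX.triv hfix
  apply hNne
  apply le_antisymm hNQ
  conv_lhs => rw [← h.hcomm]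
  rw [Subgroup.commutator_comm, Subgroup.commutator_le]
  intro y hy u hu
  exact htriv ⟨y, hSG hy⟩ (hall ⟨y, hSG hy⟩ hy) u hu

end Cfg

end H1.PQ
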