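import Cfsg.Agent.Lib.H1.PQe
import Cfsg.Agent.Lib.H1.PQf

/-!
Fixed-point-free action of a nonabelian group of order `pq`: the nonabelian case reduces to the exceptional case.
-/

set_option autoImplicit false

open Subgroup H1.Coprime2 H1.Coprime H1.StrLem H30.Wts
open scoped commutatorElement Pointwise

namespace H1.PQ

universe u

variable {Γ : Type u} [Group Γ] [Finite Γ] {F : Type*} [Field F] [IsAlgClosed F] {W : Type*} [AddCommGroup W] [Module F W]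
  [FiniteDimensional F W]

namespace Cfg

variable {ρ : Γ →* Module.End F W} {A C S Q : Subgroup Γ} {r t s q : ℕ} (h : Cfg ρ A C S Q r t s q)

include h

omit [IsAlgClosed F] [FiniteDimensional F W] in
theorem central_of_proper (K : Subgroup Γ) (hKQ : K ≤ Q) (hAK : A ≤ normalizer (K : Set Γ)) (hSK : S ≤ normalizer (K : Set Γ))
    (hQK : Q ≤ normalizer (K : Set Γ)) (hne : K ≠ Q) : Q ≤ centralizer (K : Set Γ) := by
  have h1 := h.min K hKQ hAK hSK hne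
  have h2 : ⁅⁅S, K⁆, Q⁆ = ⊥ := by
    rw [Subgroup.commutator_eq_bot_iff_le_centralizer.2 h1, Subgroup.commutator_bot_left]
  have h3 : ⁅⁅K, Q⁆, S⁆ = ⊥ := by
    rw [Subgroup.commutator_comm]
    apply Subgroup.commutator_eq_bot_iff_le_centralizer.2
    refine h1.trans (Subgroup.centralizer_le ?_)
    exact H1.Coprime2.commutator_le_left hQK
  have h4 := Subgroup.commutator_commutator_eq_bot_of_rotate h2 h3
  rw [h.hcomm] at h4
  exact Subgroup.commutator_eq_bot_iff_le_centralizer.1 h4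

omit [IsAlgClosed F] [FiniteDimensional F W] in
theorem nonab_struct (hna : ¬ ∀ u ∈ Q, ∀ v ∈ Q, u * v = v * u) :
    S ≤ centralizer ((Q ⊓ centralizer (Q : Set Γ) : Subgroup Γ) : Set Γ) ∧
    (∀ a ∈ Q, ∀ b ∈ Q, a * b * a⁻¹ * b⁻¹ ∈ Q ⊓ centralizer (Q : Set Γ)) := by
  have hZA : A ≤ normalizer ((Q ⊓ centralizer (Q : Set Γ) : Subgroup Γ) : Set Γ) :=
    le_normalizer_inf h.hAQ (le_normalizer_centralizer h.hAQ)
  have hZS : S ≤ normalizer ((Q ⊓ centralizer (Q : Set Γ) : Subgroup Γ) : Set Γ) :=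
    le_normalizer_inf h.hSQ (le_normalizer_centralizer h.hSQ)
  have hZne : Q ⊓ centralizer (Q : Set Γ) ≠ Q := by
    intro h1
    apply hna
    intro u hu v hv
    have h2 := (inf_eq_left.mp h1) hu
    exact (mem_centralizer_iff.mp h2 v hv).symm
  refine ⟨h.min _ inf_le_left hZA hZS hZne, ?_⟩
  haveI := Fact.mk h.hq
  have hD : ⁅Q, Q⁆ < Q := commutator_lt_of_isPGroup h.hQ h.hQ Q.le_normalizer h.hQ1
  have hDA : A ≤ normalizer ((⁅Q, Q⁆ : Subgroup Γ) : Set Γ) := le_normalizer_commutator h.hAQ h.hAQ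
  have hDS : S ≤ normalizer ((⁅Q, Q⁆ : Subgroup Γ) : Set Γ) := le_normalizer_commutator h.hSQ h.hSQ
  have hDQ : Q ≤ normalizer ((⁅Q, Q⁆ : Subgroup Γ) : Set Γ) := le_normalizer_commutator_left Q Q
  have hDc := h.central_of_proper ⁅Q, Q⁆ hD.le hDA hDS hDQ hD.ne
  have h2 : ∀ a ∈ Q, ∀ b ∈ Q, a * b * a⁻¹ * b⁻¹ ∈ ⁅Q, Q⁆ := fun a ha b hb => by
    rw [← commutatorElement_def]; exact Subgroup.commutator_mem_commutator ha hb
  intro a ha b hb
  refine ⟨hD.le (h2 a ha b hb), ?_⟩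
  refine mem_centralizer_iff.2 ?_
  intro g hg
  exact (mem_centralizer_iff.1 (hDc hg) _ (h2 a ha b hb)).symm

/-- everything reduces to the exceptional case -/
theorem exc : ∃ (Z : Subgroup Γ) (χ : Z →* Fˣ) (D : Subgroup Γ) (x : Γ) (hQZ : Q ≤ centralizer (Z : Set Γ)),
    Z ≤ Q ∧ S ≤ centralizer (Z : Set Γ) ∧ (∀ a ∈ Q, ∀ b ∈ Q, a * b * a⁻¹ * b⁻¹ ∈ Z) ∧ D ≤ A ∧ D ≤ St Z χ ∧
    D ≠ ⊥ ∧ D ≠ A ∧ D = zpowers x ∧ orderOf x = Nat.card D ∧ (∃ m, 1 ≤ m ∧ Nat.card D - 1 = q ^ m) ∧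
    (∃ a ∈ Q, ∃ b ∈ Q, a * b * a⁻¹ * b⁻¹ ∉ kr Z χ) ∧
    (cmod Q (kr Z χ) (le_normalizer_kr χ hQZ)).relIndex ⁅Q, zpowers x⁆ = (Nat.card D - 1) ^ 2 := by
  classical
  haveI := Fact.mk h.hq
  have hna : ¬ ∀ u ∈ Q, ∀ v ∈ Q, u * v = v * u := fun hab => h.ab_false hab
  obtain ⟨hSZ, hcomm⟩ := h.nonab_struct hna
  set Z := Q ⊓ centralizer (Q : Set Γ) with hZ
  have hZQ : Z ≤ Q := inf_le_left
  have hQZ : Q ≤ centralizer (Z : Set Γ) := by
    rw [Subgroup.le_centralizer_iff]; exact inf_le_right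
  have hAZ : A ≤ normalizer (Z : Set Γ) := le_normalizer_inf h.hAQ (le_normalizer_centralizer h.hAQ)
  have hna' : ∃ a ∈ Q, ∃ b ∈ Q, a * b * a⁻¹ * b⁻¹ ≠ 1 := by
    by_contra hcon
    push Not at hcon
    apply hna
    intro a ha b hb
    have := hcon a ha b hb
    rw [mul_inv_eq_one, mul_inv_eq_iff_eq_mul] at this
    exact this
  obtain ⟨a, ha, b, hb, hab⟩ := hna'
  have hZF := h.cardF hZQ
  have hZc : ∀ c ∈ commutator Z, (ρ.comp Z.subtype) c = 1 := by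
    apply H1.ThmB.hcomm_of_ab
    intro c hc d hd
    have h4 := mem_centralizer_iff.1 hd.2 c hc.1
    rw [h4]; group
  obtain ⟨χ, hχ, v, hv, hv0⟩ := exists_weight hZF (ρ.comp Z.subtype) hZc (a := ⟨_, hcomm a ha b hb⟩)
    (fun h1 => hab (h.faith _ (hZQ (hcomm a ha b hb)) h1))
  have hχ1 : χ ≠ 1 := by rintro rfl; exact hχ rfl
  set D : Subgroup Γ := A ⊓ St Z χ with hD
  have hDA : D ≤ A := inf_le_left
  have hDSt : D ≤ St Z χ := inf_le_right
  have hwt : wt (ρ.comp Z.subtype) χ ≠ ⊥ := fun h1 => hv0 ((Submodule.mem_bot F).1 (h1 ▸ hv))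
  have hD1 : D ≠ ⊥ := by
    intro h1
    apply hv0
    refine fix_wt ρ A Z hAZ h.hAF hZF h.hW χ v hv (fun a ha ha' => ?_)
    have h2 : a ∈ D := ⟨ha, ha'⟩
    rw [h1, Subgroup.mem_bot] at h2
    rw [h2, map_one]; rfl
  have hDne : D ≠ A := by
    intro h1
    exact hχ1 (h.char_eq_one hZQ hAZ χ (by rw [← h1]; exact hDSt))
  have hpr := h.grp.card_prime hDA hD1 hDne
  haveI := Fact.mk hpr
  obtain ⟨x, hx⟩ := exists_prime_orderOf_dvd_card' (G := D) (Nat.card D) dvd_rfl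
  have hxo : orderOf (x : Γ) = Nat.card D := by rw [Subgroup.orderOf_coe, hx]
  have hDx : D = zpowers (x : Γ) := by
    symm
    apply eq_of_le_card (by rw [zpowers_le]; exact x.2)
    rw [Nat.card_zpowers, hxo]
  have hDcop : (Nat.card D).Coprime (Nat.card Q) := h.hcopQ.coprime_dvd_left (Subgroup.card_dvd_of_le hDA)
  have hdq : Nat.card D ≠ q := by
    intro h1
    rw [h1] at hDcop
    obtain ⟨k, hk⟩ := IsPGroup.iff_card.mp h.hQ
    rw [hk] at hDcop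
    have hk0 : k ≠ 0 := by
      rintro rfl
      rw [pow_zero, Subgroup.card_eq_one] at hk
      exact h.hQ1 hk
    have := (Nat.coprime_pow_right_iff (Nat.pos_of_ne_zero hk0) _ _).mp hDcop
    rw [Nat.coprime_self] at this
    exact h.hq.one_lt.ne' this
  have hxA : (x : Γ) ∈ A := hDA x.2
  have hdich := dich_wt ρ hdq h.hqF hxo Q Z h.hQ (h.hAQ hxA) hZQ hQZ hcomm χ (hDSt x.2) hwt 1 (one_pow _) (by
    intro w hw hxw
    rw [Units.val_one, one_smul] at hxw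
    refine fix_wt ρ A Z hAZ h.hAF hZF h.hW χ w hw (fun a ha ha' => ?_)
    have h2 : a ∈ D := ⟨ha, ha'⟩
    rw [hDx] at h2
    have h3 : ∀ k : ℕ, ρ ((x : Γ) ^ k) w = w := by
      intro k
      induction k with
      | zero => rw [pow_zero, map_one]; rfl
      | succ k ih => rw [pow_succ, map_mul, Module.End.mul_apply, hxw, ih]
    obtain ⟨n, rfl⟩ := mem_powers_iff_mem_zpowers.mpr h2
    exact h3 n)
  have hnek : a * b * a⁻¹ * b⁻¹ ∉ kr Z χ := by
    intro h1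
    obtain ⟨h2, h3⟩ := mem_kr.mp h1
    exact hχ h3
  rcases hdich with hd | ⟨h1, h2⟩
  · exfalso
    set N := cmod Q (kr Z χ) (le_normalizer_kr χ hQZ) with hN
    have hNQ : N ≤ Q := cmod_le _ _ _
    have hQSt : Q ≤ normalizer (kr Z χ : Set Γ) := le_normalizer_kr χ hQZ
    have hSk : S ≤ normalizer (kr Z χ : Set Γ) := le_normalizer_kr χ hSZ
    have hxN : ∀ u ∈ Q, (x : Γ) * u * (x : Γ)⁻¹ * u⁻¹ ∈ N := by
      intro u hu
      rw [hN, mem_cmod]
      refine ⟨mul_mem ((Subgroup.mem_normalizer_iff.mp (h.hAQ hxA) u).mp hu) (inv_mem hu), fun v hv => hd u hu v hv⟩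
    have hQN : Q ≤ normalizer (N : Set Γ) := fun u hu => le_normalizer_cmod _ _ _ u (Q.le_normalizer hu) (hQSt hu)
    have hSN : S ≤ normalizer (N : Set Γ) := fun u hu => le_normalizer_cmod _ _ _ u (h.hSQ hu) (hSk hu)
    have hxNn : (x : Γ) ∈ normalizer (N : Set Γ) :=
      le_normalizer_cmod _ _ _ (x : Γ) (h.hAQ hxA) (St_le_normalizer_kr Z χ (hDSt x.2))
    have hDka : D ≤ ka Q N hQN := by
      rw [hDx, zpowers_le]
      exact ⟨h.hAQ hxA, hxNn, hxN⟩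
    have hab' : ∀ u ∈ Q, ∀ v ∈ Q, u * v * u⁻¹ * v⁻¹ ∈ N := by
      intro u hu v hv
      rw [hN, mem_cmod]
      have h5 := hcomm u hu v hv
      refine ⟨hZQ h5, fun w hw => ?_⟩
      have h6 := mem_centralizer_iff.mp (hQZ hw) _ h5
      have h7 : u * v * u⁻¹ * v⁻¹ * w * (u * v * u⁻¹ * v⁻¹)⁻¹ * w⁻¹ = 1 := by
        rw [h6]; group
      rw [h7]; exact one_mem _
    refine h.endgame hDA hD1 hDne hNQ ?_ hQN hSN hab' ?_ ?_
    · intro h4
      apply hnek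
      have h5 : a ∈ N := by rw [h4]; exact ha
      rw [hN, mem_cmod] at h5
      exact h5.2 b hb
    · intro d hd'
      exact (hDka hd').2.1
    · intro d hd'
      exact (hDka hd').2.2
  · exact ⟨Z, χ, D, x, hQZ, hZQ, hSZ, hcomm, hDA, hDSt, hD1, hDne, hDx, hxo, h1, ⟨a, ha, b, hb, hnek⟩, h2⟩

end Cfg

end H1.PQ
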