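import Cfsg.Agent.Lib.H1.PQfin
import Cfsg.Agent.Lib.H1.Tower3
import Cfsg.Agent.Lib.H66.HomMod

/-!
Fixed-point-free action of a nonabelian group of order `pq`: Fitting height at most two.
-/

set_option autoImplicit false

open Subgroup H1.Coprime2 H1.Coprime H1.StrLem H30.Wts H1.Fts H1.Tower
open scoped commutatorElement Pointwise

namespace H1.PQ

universe u

variable {Γ : Type u} [Group Γ] [Finite Γ]

/-- transport of `PQGrp` along a homomorphism injective on `A`. -/
theorem PQGrp.map {Γ' : Type*} [Group Γ'] [Finite Γ'] {A C : Subgroup Γ} {r t : ℕ} (h : PQGrp A C r t) (π : Γ →* Γ')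
    (hinj : ∀ a ∈ A, π a = 1 → a = 1) : PQGrp (A.map π) (C.map π) r t := by
  have hcard : ∀ K ≤ A, Nat.card (K.map π) = Nat.card K := by
    intro K hK
    rw [← Subgroup.relIndex_ker, ← Subgroup.inf_relIndex_right]
    have h1 : π.ker ⊓ K = ⊥ := by
      rw [eq_bot_iff]
      intro x hx
      exact hinj x (hK hx.2) hx.1
    rw [h1, Subgroup.relIndex_bot_left]
  refine ⟨h.hr, h.ht, h.hrt, ?_, Subgroup.map_mono h.hCA, ?_, ?_, ?_⟩
  · rw [hcard A le_rfl, h.hA]
  · rw [hcard C h.hCA, h.hC]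
  · exact (Subgroup.map_mono h.hCn).trans (Subgroup.le_normalizer_map π)
  · obtain ⟨a, ha, b, hb, hab⟩ := h.hna
    refine ⟨π a, ⟨a, ha, rfl⟩, π b, ⟨b, hb, rfl⟩, ?_⟩
    intro h1
    apply hab
    have h2 : π (a * b * a⁻¹ * b⁻¹) = 1 := by
      rw [map_mul, map_mul, map_mul, map_inv, map_inv, h1]; group
    have h3 := hinj _ (mul_mem (mul_mem (mul_mem ha hb) (inv_mem ha)) (inv_mem hb)) h2
    rw [mul_inv_eq_one, mul_inv_eq_iff_eq_mul] at h3
    exact h3

theorem PQGrp.subgroupOf {A C : Subgroup Γ} {r t : ℕ} (h : PQGrp A C r t) (Y : Subgroup Γ) (hAY : A ≤ Y) :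
    PQGrp (A.subgroupOf Y) (C.subgroupOf Y) r t := by
  have hcard : ∀ K ≤ Y, Nat.card (K.subgroupOf Y) = Nat.card K := by
    intro K hK
    exact Nat.card_congr (Subgroup.subgroupOfEquivOfLe hK).toEquiv
  refine ⟨h.hr, h.ht, h.hrt, ?_, fun x hx => h.hCA hx, ?_, ?_, ?_⟩
  · rw [hcard A hAY, h.hA]
  · rw [hcard C (h.hCA.trans hAY), h.hC]
  · intro a ha
    rw [Subgroup.mem_normalizer_iff]
    intro x
    exact Subgroup.mem_normalizer_iff.mp (h.hCn ha) x
  · obtain ⟨a, ha, b, hb, hab⟩ := h.hna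
    exact ⟨⟨a, hAY ha⟩, ha, ⟨b, hAY hb⟩, hb, fun h1 => hab (congrArg Subtype.val h1)⟩

omit [Finite Γ] in
theorem subgroupOf_normalizer {A K Y : Subgroup Γ} (h : A ≤ normalizer (K : Set Γ)) :
    A.subgroupOf Y ≤ normalizer ((K.subgroupOf Y : Subgroup Y) : Set Y) := by
  intro a ha
  rw [Subgroup.mem_normalizer_iff]
  intro x
  exact Subgroup.mem_normalizer_iff.mp (h ha) x

/-- the triple configuration does not exist -/
theorem triple {A C V Q S X : Subgroup Γ} {r t p q s : ℕ} (hA : PQGrp A C r t) (hp : p.Prime) (hq : q.Prime) (hs : s.Prime)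
    (hpq : p ≠ q) (hsq : s ≠ q) (hV : IsPGroup p V) (hQ : IsPGroup q Q) (hS : IsPGroup s S)
    (hAV : A ≤ normalizer (V : Set Γ)) (hQV : Q ≤ normalizer (V : Set Γ)) (hSV : S ≤ normalizer (V : Set Γ))
    (hAQ : A ≤ normalizer (Q : Set Γ)) (hSQ : S ≤ normalizer (Q : Set Γ)) (hAS : A ≤ normalizer (S : Set Γ))
    (hVX : V ≤ X) (hQX : Q ≤ X) (hSX : S ≤ X) (hXs : Group.IsSolvable X) (hcop : (Nat.card A).Coprime (Nat.card X))
    (hfix : X ⊓ centralizer (A : Set Γ) = ⊥) (hact : ¬ Q ≤ centralizer (V : Set Γ)) (hcomm : ⁅Q, S⁆ = Q)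
    (hmin : ∀ K ≤ Q, A ≤ normalizer (K : Set Γ) → S ≤ normalizer (K : Set Γ) → K ≠ Q →
      ∀ y ∈ S, ∀ u ∈ K, y * u * y⁻¹ * u⁻¹ ∈ centralizer (V : Set Γ)) : False := by
  classical
  haveI := Fact.mk hp
  haveI := Fact.mk hq
  haveI := Fact.mk hs
  set M : Subgroup Γ := Q ⊓ centralizer (V : Set Γ) with hM
  have hMQ : M ≤ Q := inf_le_left
  have hAM : A ≤ normalizer (M : Set Γ) := le_normalizer_inf hAQ (le_normalizer_centralizer hAV)
  have hSM : S ≤ normalizer (M : Set Γ) := le_normalizer_inf hSQ (le_normalizer_centralizer hSV)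
  have hQM : Q ≤ normalizer (M : Set Γ) := le_normalizer_inf Q.le_normalizer (le_normalizer_centralizer hQV)
  set Y : Subgroup Γ := normalizer (V : Set Γ) ⊓ normalizer (M : Set Γ) with hY
  have hAY : A ≤ Y := le_inf hAV hAM
  have hSY : S ≤ Y := le_inf hSV hSM
  have hQY : Q ≤ Y := le_inf hQV hQM
  have hMV : M ≤ centralizer (V : Set Γ) := inf_le_right
  have hVY : V ≤ Y := by
    refine le_inf V.le_normalizer ?_
    have h1 : V ≤ centralizer (M : Set Γ) := by rw [Subgroup.le_centralizer_iff]; exact hMV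
    exact h1.trans (Subgroup.centralizer_le_normalizer _)
  haveI hMn : (M.subgroupOf Y).Normal := by
    rw [Subgroup.normal_subgroupOf_iff_le_normalizer (hMQ.trans hQY)]
    exact inf_le_right
  haveI hVn : (V.subgroupOf Y).Normal := by
    rw [Subgroup.normal_subgroupOf_iff_le_normalizer hVY]
    exact inf_le_left
  let M' := M.subgroupOf Y
  let Γ' := Y ⧸ M'
  let π : Y →* Γ' := QuotientGroup.mk' M'
  have hπs : Function.Surjective π := QuotientGroup.mk'_surjective _
  have hπk : ∀ y : Y, π y = 1 ↔ (y : Γ) ∈ M := fun y => QuotientGroup.eq_one_iff y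
  let K := AlgebraicClosure (ZMod p)
  let W := H66.HomMod.V (V.subgroupOf Y) K
  let ρ₀ : Y →* Module.End K W := H66.HomMod.rep (V.subgroupOf Y) K
  have hρ₀ : ∀ y ∈ M', ρ₀ y = 1 := by
    intro y hy
    ext f v
    change H66.HomMod.rep (V.subgroupOf Y) K y f (Additive.ofMul (Additive.toMul v)) = f (Additive.ofMul (Additive.toMul v))
    rw [H66.HomMod.rep_apply]
    congr 2
    apply Subtype.ext
    apply Subtype.ext
    rw [H66.HomMod.cj_coe]
    set w : V.subgroupOf Y := Additive.toMul v with hw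
    have hwV : ((w : Y) : Γ) ∈ V := w.2
    have h1 : ((w : Y) : Γ) * y = y * (w : Y) := mem_centralizer_iff.mp (hMV hy) _ hwV
    change (y : Γ)⁻¹ * (w : Y) * (y : Γ) = (w : Y)
    rw [mul_assoc, h1, inv_mul_cancel_left]
  let ρ : Γ' →* Module.End K W := QuotientGroup.lift M' ρ₀ hρ₀
  have hρ : ∀ y, ρ (π y) = ρ₀ y := fun y => QuotientGroup.lift_mk' M' hρ₀ y
  let f : Subgroup Γ → Subgroup Γ' := fun L => (L.subgroupOf Y).map π
  have hf_mono : ∀ L L' : Subgroup Γ, L ≤ L' → f L ≤ f L' := fun L L' h => Subgroup.map_mono (fun x hx => h hx)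
  have hf_norm : ∀ L L' : Subgroup Γ, L ≤ normalizer (L' : Set Γ) → f L ≤ normalizer ((f L' : Subgroup Γ') : Set Γ') :=
    fun L L' h => (Subgroup.map_mono (subgroupOf_normalizer h)).trans (Subgroup.le_normalizer_map π)
  have hinjA : ∀ a ∈ A.subgroupOf Y, π a = 1 → a = 1 := by
    intro a ha h1
    have h2 : (a : Γ) ∈ A ⊓ X := ⟨ha, hQX (hMQ ((hπk a).mp h1))⟩
    rw [(Subgroup.disjoint_of_coprime_natCard hcop).eq_bot, Subgroup.mem_bot] at h2
    exact Subtype.ext h2
  have hcardA : Nat.card (f A) = Nat.card A := by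
    have h1 := (hA.subgroupOf Y hAY).map π hinjA
    rw [h1.hA, hA.hA]
  have hdvd : ∀ L ≤ Y, Nat.card (f L) ∣ Nat.card L := by
    intro L hL
    have h1 : Nat.card (L.subgroupOf Y) = Nat.card L := Nat.card_congr (Subgroup.subgroupOfEquivOfLe hL).toEquiv
    rw [← h1]
    exact Subgroup.card_map_dvd _ _
  have hcopL : ∀ L ≤ X, (Nat.card A).Coprime (Nat.card L) := fun L hL =>
    hcop.coprime_dvd_right (Subgroup.card_dvd_of_le hL)
  have hVQS : ∀ x ∈ f (Q ⊔ S), x ∈ centralizer ((f A : Subgroup Γ') : Set Γ') → x = 1 := by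
    rintro _ ⟨x, hx, rfl⟩ hxA
    rw [hπk]
    have hQSX : Q ⊔ S ≤ X := sup_le hQX hSX
    have hAQS : A ≤ normalizer ((Q ⊔ S : Subgroup Γ) : Set Γ) := le_normalizer_sup hAQ hAS
    obtain ⟨c, hc, hcM⟩ := exists_fixed_of_coset_fixed A (Q ⊔ S) hAQS (hcopL _ hQSX) (Or.inr (isSolvable_of_le hQSX hXs)) M
      (hMQ.trans le_sup_left) (sup_le hQM hSM) hAM x hx (by
        intro a ha
        have h1 := mem_centralizer_iff.mp hxA (π ⟨a, hAY ha⟩) ⟨⟨a, hAY ha⟩, ha, rfl⟩
        have h2 : π (⟨a, hAY ha⟩ * x * ⟨a, hAY ha⟩⁻¹ * x⁻¹) = 1 := by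
          rw [map_mul, map_mul, map_mul, map_inv, map_inv, h1]; group
        exact (hπk _).mp h2)
    have hc1 : c = 1 := by
      have h1 : c ∈ X ⊓ centralizer (A : Set Γ) := ⟨hQSX hc.1, hc.2⟩
      rwa [hfix, Subgroup.mem_bot] at h1
    rw [hc1, mul_one] at hcM
    have := M.inv_mem hcM
    rwa [inv_inv] at this
  have hpA : (Nat.card A).Coprime p := by
    have h1 : p ∣ Nat.card X := by
      obtain ⟨k, hk⟩ := IsPGroup.iff_card.mp hV
      have hk0 : k ≠ 0 := by
        rintro rfl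
        rw [pow_zero, Subgroup.card_eq_one] at hk
        apply hact
        rw [hk]
        intro x _
        rw [mem_centralizer_iff]
        intro y hy
        rw [SetLike.mem_coe, Subgroup.mem_bot] at hy
        rw [hy, one_mul, mul_one]
      exact (dvd_pow_self p hk0).trans (hk ▸ Subgroup.card_dvd_of_le hVX)
    exact hcop.coprime_dvd_right h1
  have hne0 : ∀ n : ℕ, n.Coprime p → (n : K) ≠ 0 := by
    intro n hn h0
    have h1 := (CharP.cast_eq_zero_iff K p n).mp h0
    have h2 := Nat.dvd_gcd h1 dvd_rfl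
    rw [hn] at h2
    exact hp.one_lt.ne' (Nat.dvd_one.mp h2)
  have hfsup : f (Q ⊔ S) = f Q ⊔ f S := by
    change ((Q ⊔ S).subgroupOf Y).map π = (Q.subgroupOf Y).map π ⊔ (S.subgroupOf Y).map π
    rw [← Subgroup.map_sup, Subgroup.subgroupOf_sup hQY hSY]
  have hfcomm : ∀ L L' : Subgroup Γ, L ≤ Y → L' ≤ Y → f ⁅L, L'⁆ = ⁅f L, f L'⁆ := by
    intro L L' hL hL'
    change ((⁅L, L'⁆).subgroupOf Y).map π = ⁅(L.subgroupOf Y).map π, (L'.subgroupOf Y).map π⁆
    rw [← Subgroup.map_commutator]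
    congr 1
    apply Subgroup.map_injective Y.subtype_injective
    rw [Subgroup.map_commutator, Subgroup.map_subgroupOf_eq_of_le hL, Subgroup.map_subgroupOf_eq_of_le hL',
      Subgroup.map_subgroupOf_eq_of_le]
    rw [Subgroup.commutator_le]
    intro x hx y hy
    rw [commutatorElement_def]
    exact mul_mem (mul_mem (mul_mem (hL hx) (hL' hy)) (inv_mem (hL hx))) (inv_mem (hL' hy))
  refine Cfg.false (ρ := ρ) (A := f A) (C := f C) (S := f S) (Q := f Q) (r := r) (t := t) (s := s) (q := q)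
    { grp := (hA.subgroupOf Y hAY).map π hinjA
      hs := hs
      hq := hq
      hsq := hsq
      hS := (hS.comap_of_injective _ (Subgroup.subtype_injective _)).map _
      hQ := (hQ.comap_of_injective _ (Subgroup.subtype_injective _)).map _
      hAS := hf_norm A S hAS
      hAQ := hf_norm A Q hAQ
      hSQ := hf_norm S Q hSQ
      hcopS := by rw [hcardA]; exact (hcopL S hSX).coprime_dvd_right (hdvd S hSY)
      hcopQ := by rw [hcardA]; exact (hcopL Q hQX).coprime_dvd_right (hdvd Q hQY)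
      hAF := by rw [hcardA]; exact hne0 _ hpA
      hqF := hne0 q ((Nat.coprime_primes hq hp).2 hpq.symm)
      hfix := by
        rw [eq_bot_iff]
        rintro x ⟨hx, hxA⟩
        rw [← hfsup] at hx
        rw [Subgroup.mem_bot]
        exact hVQS x hx hxA
      hW := by
        intro w hw
        refine H66.HomMod.eq_zero_of_fixed (V.subgroupOf Y) K (A.subgroupOf Y) ?_ ?_ ?_ w ?_
        · rw [(hA.subgroupOf Y hAY).hA, ← hA.hA]
          have h1 : Nat.card (V.subgroupOf Y) = Nat.card V := Nat.card_congr (Subgroup.subgroupOfEquivOfLe hVY).toEquiv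
          rw [h1]
          exact hcopL V hVX
        · right
          have h1 : IsPGroup p (V.subgroupOf Y) := hV.comap_of_injective _ (Subgroup.subtype_injective _)
          have := h1.isNilpotent
          infer_instance
        · rw [eq_bot_iff]
          rintro x ⟨hx, hxA⟩
          rw [Subgroup.mem_bot]
          apply Subtype.ext
          have h1 : (x : Γ) ∈ X ⊓ centralizer (A : Set Γ) := by
            refine ⟨hVX hx, mem_centralizer_iff.2 ?_⟩
            intro a ha
            exact congrArg Subtype.val (mem_centralizer_iff.mp hxA ⟨a, hAY ha⟩ ha)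
          rwa [hfix, Subgroup.mem_bot] at h1
        · intro a ha
          have h1 := hw (π a) ⟨a, ha, rfl⟩
          rw [hρ] at h1
          exact h1
      faith := by
        rintro _ ⟨g, hg, rfl⟩ h1
        rw [hρ] at h1
        rw [hπk]
        refine ⟨hg, mem_centralizer_iff.2 ?_⟩
        have h2 := H66.HomMod.le_centralizer (V.subgroupOf Y) K (r := p) (hV.comap_of_injective _ (Subgroup.subtype_injective _))
          (zpowers g) (by
            rw [Nat.card_zpowers]
            have h3 : orderOf g = orderOf (g : Γ) := (Subgroup.orderOf_coe g).symm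
            rw [h3]
            obtain ⟨k, hk⟩ := hQ ⟨g, hg⟩
            have h4 : (g : Γ) ^ q ^ k = 1 := congrArg Subtype.val hk
            have h5 := orderOf_dvd_of_pow_eq_one h4
            exact Nat.Coprime.coprime_dvd_left h5 (Nat.Coprime.pow_left _ ((Nat.coprime_primes hq hp).2 hpq.symm))) (by
            intro a ha w
            obtain ⟨n, rfl⟩ := mem_powers_iff_mem_zpowers.mpr ha
            have h3 : ρ₀ (g ^ n) = 1 := by rw [map_pow, h1, one_pow]
            exact LinearMap.congr_fun h3 w)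
        have h3 := h2 (mem_zpowers g)
        intro v hv
        exact congrArg Subtype.val (mem_centralizer_iff.mp h3 ⟨v, hVY hv⟩ hv)
      hQ1 := by
        intro h1
        apply hact
        intro x hx
        have h2 : π ⟨x, hQY hx⟩ ∈ f Q := ⟨⟨x, hQY hx⟩, hx, rfl⟩
        rw [h1, Subgroup.mem_bot, hπk] at h2
        exact hMV h2
      hcomm := by
        rw [← hfcomm Q S hQY hSY, hcomm]
      min := by
        intro L hLQ hAL hSL hLne
        set K₀ : Subgroup Γ := (L.comap π).map Y.subtype with hK₀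
        have hK₀Y : K₀ ≤ Y := Subgroup.map_subtype_le _
        have hfK₀ : f K₀ = L := by
          change (K₀.subgroupOf Y).map π = L
          have h1 : K₀.subgroupOf Y = L.comap π := by
            rw [hK₀]
            exact Subgroup.comap_map_eq_self_of_injective Y.subtype_injective _
          rw [h1, Subgroup.map_comap_eq_self_of_surjective hπs]
        have hmemK : ∀ (x : Γ) (hx : x ∈ Y), x ∈ K₀ ↔ π ⟨x, hx⟩ ∈ L := by
          intro x hx
          constructor
          · rintro ⟨y, hy, rfl⟩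
            exact hy
          · intro h1
            exact ⟨⟨x, hx⟩, h1, rfl⟩
        have hMK : M ≤ K₀ := by
          intro x hx
          have hxY : x ∈ Y := hQY (hMQ hx)
          rw [hmemK x hxY, (hπk ⟨x, hxY⟩).mpr hx]
          exact one_mem _
        have hK₀Q : K₀ ≤ Q := by
          rintro _ ⟨y, hy, rfl⟩
          obtain ⟨z, hz, hzy⟩ := hLQ hy
          have h1 : π (y * z⁻¹) = 1 := by rw [map_mul, map_inv, hzy, mul_inv_cancel]
          have h2 := (hπk _).mp h1
          have h3 : ((y * z⁻¹ : Y) : Γ) * (z : Γ) ∈ Q := Q.mul_mem (hMQ h2) hz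
          have h4 : ((y * z⁻¹ : Y) : Γ) * z = y := by simp
          rwa [h4] at h3
        have hnorm : ∀ B : Subgroup Γ, B ≤ Y → f B ≤ normalizer (L : Set Γ') → B ≤ normalizer (K₀ : Set Γ) := by
          intro B hBY hB
          apply H1.Coprime.le_normalizer_of_conj_mem
          intro b hb x hx
          have hxY := hK₀Y hx
          have hbY := hBY hb
          have hbx : b * x * b⁻¹ ∈ Y := mul_mem (mul_mem hbY hxY) (inv_mem hbY)
          rw [hmemK _ hbx]
          have h1 := (hmemK x hxY).mp hx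
          exact (Subgroup.mem_normalizer_iff.mp (hB ⟨⟨b, hbY⟩, hb, rfl⟩) _).mp h1
        have hK₀ne : K₀ ≠ Q := by
          intro h1
          apply hLne
          rw [← hfK₀, h1]
        have h1 := hmin K₀ hK₀Q (hnorm A hAY hAL) (hnorm S hSY hSL) hK₀ne
        rintro _ ⟨y, hy, rfl⟩
        rw [mem_centralizer_iff]
        intro z hz
        have hz' : z ∈ f K₀ := by rw [hfK₀]; exact hz
        obtain ⟨u, hu, rfl⟩ := hz'
        have h2 := h1 y hy u hu
        have h3 : π (y * u * y⁻¹ * u⁻¹) = 1 := by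
          rw [hπk]
          refine ⟨?_, h2⟩
          have h4 : (y : Γ) * u * (y : Γ)⁻¹ ∈ Q := (Subgroup.mem_normalizer_iff.mp (hSQ hy) _).mp (hK₀Q hu)
          exact Q.mul_mem h4 (Q.inv_mem (hK₀Q hu))
        rw [map_mul, map_mul, map_mul, map_inv, map_inv, mul_inv_eq_one, mul_inv_eq_iff_eq_mul] at h3
        exact h3.symm }

/-- the Fitting height is at most two -/
theorem height {X A C : Subgroup Γ} [X.Normal] {r t : ℕ} (hA : PQGrp A C r t) (hXs : Group.IsSolvable X)
    (hcop : (Nat.card A).Coprime (Nat.card X)) (hfix : X ⊓ centralizer (A : Set Γ) = ⊥) : Ft X 2 = ⊤ := by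
  by_contra hFt
  obtain ⟨P, D, pr, hM, hPX⟩ := exists_mtower X A hcop hXs 2 hFt
  have hD0 := hM.C_zero
  haveI := hM.C_norm 1 (by omega)
  have hback : ∀ x ∈ P 1, x ∈ D 1 → x ∈ centralizer (P 0 : Set Γ) := by
    intro x hx hxD
    rw [mem_centralizer_iff]
    intro v hv
    have h1 := hM.back 0 (by omega) x hx hxD v hv
    rw [hD0, Subgroup.mem_bot, mul_inv_eq_one, mul_inv_eq_iff_eq_mul] at h1
    exact h1.symm
  refine triple (A := A) (C := C) (V := P 0) (Q := P 1) (S := P 2) (X := X) hA (hM.prime 0 (by omega)) (hM.prime 1 (by omega))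
    (hM.prime 2 le_rfl) (hM.ne 0 (by omega)) (Ne.symm (hM.ne 1 (by omega))) (hM.pgrp 0 (by omega)) (hM.pgrp 1 (by omega))
    (hM.pgrp 2 le_rfl) (hM.A_norm 0 (by omega)) (hM.norm 0 1 (by omega) (by omega)) (hM.norm 0 2 (by omega) le_rfl)
    (hM.A_norm 1 (by omega)) (hM.norm 1 2 (by omega) le_rfl) (hM.A_norm 2 le_rfl) (hPX 0 (by omega)) (hPX 1 (by omega))
    (hPX 2 le_rfl) hXs hcop hfix ?_ (hM.commutator_eq (by omega)) ?_
  · intro h1
    apply hM.act 0 (by omega)
    intro x hx v hv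
    have h2 := mem_centralizer_iff.mp (h1 hx) v hv
    rw [hD0, Subgroup.mem_bot, ← h2]; group
  · intro K hKP hAK hSK hKne y hy u hu
    have h1 := hM.min 1 (by omega) K hKP hAK (by
      intro j hj hj2
      obtain rfl : j = 2 := by omega
      exact hSK) hKne y hy u hu
    refine hback _ ?_ h1
    have h4 : y * u * y⁻¹ ∈ P 1 := (Subgroup.mem_normalizer_iff.mp (hM.norm 1 2 (by omega) le_rfl hy) _).mp (hKP hu)
    exact (P 1).mul_mem h4 ((P 1).inv_mem (hKP hu))

end H1.PQ
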