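import Cfsg.Agent.Lib.H1.PQf
import Cfsg.Agent.Lib.H1.ThmB

/-!
Exceptional case: an operator `b` of order `t = 2 ^ m + 1` with simple nontrivial eigenvalues on a self-dual module
in characteristic two.
-/

set_option autoImplicit false

open Subgroup H1.Coprime2 H1.Coprime H1.StrLem H30.Wts
open scoped commutatorElement Pointwise

namespace H1.PQ

universe u

section

variable {H : Type u} [Group H] [Finite H] {K : Type*} [Field K] [IsAlgClosed K] {V : Type*} [AddCommGroup V] [Module K V]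
  [FiniteDimensional K V]

omit [IsAlgClosed K] [FiniteDimensional K V] in
theorem dual_wt (σ : H →* Module.End K V) (B : V →ₗ[K] V →ₗ[K] K) (hBinv : ∀ h f g, B (σ h f) (σ h g) = B f g)
    (T : Subgroup H) [Fintype T] (hT : (Fintype.card T : K) ≠ 0) (χ : T →* Kˣ) {f : V} (hf : f ∈ wt (σ.comp T.subtype) χ) (g : V) :
    B f (proj (σ.comp T.subtype) χ⁻¹ g) = B f g := by
  have h1 : ∀ a : T, B f (σ a g) = (((χ a)⁻¹ : Kˣ) : K) * B f g := by
    intro a
    have h2 := hBinv (a : H) (σ (a : H)⁻¹ f) g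
    have h3 : σ (a : H) (σ (a : H)⁻¹ f) = f := by
      rw [← Module.End.mul_apply, ← map_mul, mul_inv_cancel, map_one]; rfl
    rw [h3] at h2
    rw [h2]
    have h4 : σ (a : H)⁻¹ f = (((χ a)⁻¹ : Kˣ) : K) • f := by
      have h5 : σ ((a⁻¹ : T) : H) f = ((χ a⁻¹ : Kˣ) : K) • f := hf a⁻¹
      rw [map_inv χ a, Subgroup.coe_inv] at h5
      exact h5
    rw [h4, map_smul, LinearMap.smul_apply, smul_eq_mul]
  unfold proj
  rw [LinearMap.smul_apply, LinearMap.sum_apply, map_smul, map_sum]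
  have h5 : ∀ a : T, B f (((((χ⁻¹ : T →* Kˣ) a)⁻¹ : Kˣ) : K) • (σ.comp T.subtype) a g) = B f g := by
    intro a
    rw [map_smul]
    change ((((χ⁻¹ : T →* Kˣ) a)⁻¹ : Kˣ) : K) • B f (σ a g) = B f g
    rw [h1 a, MonoidHom.inv_apply, inv_inv, smul_eq_mul, ← mul_assoc, ← Units.val_mul, mul_inv_cancel, Units.val_one, one_mul]
  have h6 : ∑ a : T, B f (((((χ⁻¹ : T →* Kˣ) a)⁻¹ : Kˣ) • (σ.comp T.subtype) a) g) = ∑ a : T, B f g := by
    apply Finset.sum_congr rfl
    intro a _
    exact h5 a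
  have h7 : ∑ a : T, B f ((((((χ⁻¹ : T →* Kˣ) a)⁻¹ : Kˣ) : K) • (σ.comp T.subtype) a) g) = ∑ a : T, B f g := h6
  rw [h7, Finset.sum_const, Finset.card_univ, nsmul_eq_mul, smul_eq_mul, ← mul_assoc, inv_mul_cancel₀ hT, one_mul]

omit [IsAlgClosed K] [FiniteDimensional K V] in
theorem dual_ne_bot (σ : H →* Module.End K V) (B : V →ₗ[K] V →ₗ[K] K) (hBinv : ∀ h f g, B (σ h f) (σ h g) = B f g)
    (hBnd : ∀ f, (∀ g, B f g = 0) → f = 0) (T : Subgroup H) (hT : (Nat.card T : K) ≠ 0) (χ : T →* Kˣ)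
    (hwt : ∃ f ∈ wt (σ.comp T.subtype) χ, f ≠ 0) : ∃ g ∈ wt (σ.comp T.subtype) χ⁻¹, g ≠ 0 := by
  classical
  haveI := Fintype.ofFinite T
  obtain ⟨f, hf, hf0⟩ := hwt
  have h1 : ∃ g, B f g ≠ 0 := by
    by_contra hcon
    push Not at hcon
    exact hf0 (hBnd f hcon)
  obtain ⟨g, hg⟩ := h1
  refine ⟨proj (σ.comp T.subtype) χ⁻¹ g, proj_mem _ _ _, ?_⟩
  intro h2
  apply hg
  rw [← dual_wt σ B hBinv T (by rwa [← Nat.card_eq_fintype_card]) χ hf g, h2, map_zero]

omit [IsAlgClosed K] [FiniteDimensional K V] in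
/-- the eigenvector obtained from a regular orbit -/
theorem eig (σ : H →* Module.End K V) {b : H} {t : ℕ} (ht : 0 < t) (hb : b ^ t = 1) (c : Kˣ) (hc : c ^ t = 1) (f : V) :
    σ b (∑ i ∈ Finset.range t, σ (b ^ i) ((((c⁻¹) ^ i : Kˣ) : K) • f)) =
      (c : K) • ∑ i ∈ Finset.range t, σ (b ^ i) ((((c⁻¹) ^ i : Kˣ) : K) • f) := by
  set a : ℕ → V := fun i => σ (b ^ i) ((((c⁻¹) ^ i : Kˣ) : K) • f) with ha
  have h1 : ∀ i, σ b (a i) = (c : K) • a (i + 1) := by
    intro i
    rw [ha]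
    simp only
    have e : c * (c⁻¹) ^ (i + 1) = (c⁻¹) ^ i := by rw [pow_succ' (c⁻¹), mul_inv_cancel_left]
    rw [← Module.End.mul_apply, ← map_mul, ← pow_succ', ← map_smul, smul_smul, ← Units.val_mul, e]
  have h2 : a t = a 0 := by
    rw [ha]
    simp only
    rw [hb, inv_pow, hc, pow_zero, pow_zero, inv_one]
  rw [map_sum, Finset.smul_sum, Finset.sum_congr rfl (fun i _ => h1 i)]
  rw [← Finset.smul_sum, ← Finset.smul_sum]
  congr 1
  have h3 := Finset.sum_range_succ a t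
  have h4 := Finset.sum_range_succ' a t
  rw [h3, h2] at h4
  exact (add_right_cancel h4).symm

omit [Finite H] [IsAlgClosed K] [FiniteDimensional K V] in
theorem St_inv {Z : Subgroup H} {χ : Z →* Kˣ} {x : H} (hx : x ∈ St Z χ) : x ∈ St Z χ⁻¹ := by
  obtain ⟨h1, h2⟩ := hx
  refine ⟨h1, ?_⟩
  ext z
  have h3 := DFunLike.congr_fun h2 z
  rw [cch_apply] at h3 ⊢
  rw [MonoidHom.inv_apply, MonoidHom.inv_apply, h3]

structure ExcL (σ : H →* Module.End K V) (B : V →ₗ[K] V →ₗ[K] K) (b : H) (t s m : ℕ) (S : Subgroup H) : Prop where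
  inj : Function.Injective σ
  inv : ∀ h f g, B (σ h f) (σ h g) = B f g
  nd : ∀ f, (∀ g, B f g = 0) → f = 0
  ht : t.Prime
  htm : t = 2 ^ m + 1
  hm : 1 ≤ m
  hb : orderOf b = t
  simple : ∀ c : K, c ≠ 1 → ∀ f g, σ b f = c • f → σ b g = c • g → f ≠ 0 → ∃ k : K, g = k • f
  hs : s.Prime
  hs2 : s ≠ 2
  hst : s ≠ t
  hsK : (s : K) ≠ 0
  htK : (t : K) ≠ 0
  hS : IsPGroup s S
  hbS : b ∈ normalizer (S : Set H)

omit [Finite H] [IsAlgClosed K] in
theorem sq_ne_one {S : Subgroup H} {s : ℕ} (hs : s.Prime) (hs2 : s ≠ 2) (hS : IsPGroup s S) (χ : S →* Kˣ) (u : S)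
    (h : χ u ≠ 1) : χ u ≠ (χ u)⁻¹ := by
  intro h1
  apply h
  obtain ⟨k, hk⟩ := hS u
  have h2 : (χ u) ^ 2 = 1 := by rw [pow_two]; nth_rewrite 1 [h1]; rw [inv_mul_cancel]
  have h3 : (χ u) ^ s ^ k = 1 := by rw [← map_pow, hk, map_one]
  have h4 : Nat.Coprime (s ^ k) 2 := Nat.Coprime.pow_left _ ((Nat.coprime_primes hs Nat.prime_two).2 hs2)
  have h5 := orderOf_dvd_of_pow_eq_one h2
  have h6 := orderOf_dvd_of_pow_eq_one h3
  rw [← orderOf_eq_one_iff]
  exact Nat.eq_one_of_dvd_coprimes h4 h6 h5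

theorem ExcL.cent {σ : H →* Module.End K V} {B : V →ₗ[K] V →ₗ[K] K} {b : H} {t s m : ℕ} {S : Subgroup H}
    (h : ExcL σ B b t s m S) : b ∈ centralizer (S : Set H) := by
  classical
  haveI := Fact.mk h.ht
  haveI := Fact.mk h.hs
  by_contra hbS
  obtain ⟨Q, hQS, hM⟩ := H1.ThmB.exists_minQ s b (b ^ (t ^ 0)) S h.hS h.hbS (by simpa using hbS)
  have hb1 : orderOf b = t ^ (0 + 1) := by rw [h.hb]; simp
  have hty : b ^ t ^ 0 = b := by simp
  -- an eigenvalue
  obtain ⟨c, hc1, hct⟩ : ∃ c : Kˣ, c ≠ 1 ∧ c ^ t = 1 := by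
    haveI : NeZero (t : K) := ⟨h.htK⟩
    obtain ⟨ζ, hζ⟩ := HasEnoughRootsOfUnity.exists_primitiveRoot K t
    refine ⟨hζ.isUnit h.ht.ne_zero |>.unit, ?_, ?_⟩
    · intro h1
      have h2 : ζ = 1 := by
        have := congrArg Units.val h1
        simpa using this
      exact hζ.ne_one h.ht.one_lt h2
    · apply Units.ext
      rw [Units.val_pow_eq_pow_val]
      simpa using hζ.pow_eq_one
  have hc1' : (c : K) ≠ 1 := fun h1 => hc1 (Units.ext h1)
  have hbt : b ^ t = 1 := by rw [← h.hb]; exact pow_orderOf_eq_one b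
  have hQF := card_ne s h.hsK hM.hQ
  by_cases hab : Q ≤ centralizer (Q : Set H)
  · -- abelian case
    obtain ⟨g, hg, hg'⟩ : ∃ g ∈ Q, b * g * b⁻¹ * g⁻¹ ≠ 1 := by
      by_contra hcon
      push Not at hcon
      apply hM.hy
      rw [mem_centralizer_iff, hty]
      intro h hh
      have := hcon h hh
      rw [mul_inv_eq_one, mul_inv_eq_iff_eq_mul] at this
      exact this.symm
    have hbg : b * g * b⁻¹ * g⁻¹ ∈ Q := mul_mem ((Subgroup.mem_normalizer_iff.1 hM.hx g).1 hg) (inv_mem hg)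
    have h0 : ∀ a ∈ commutator Q, (σ.comp Q.subtype) a = 1 := by
      apply H1.ThmB.hcomm_of_ab
      intro a ha b hb
      have h1 := mem_centralizer_iff.1 (hab ha) b hb
      rw [← h1]; group
    obtain ⟨χ, hχ, f, hf, hf0⟩ := exists_weight hQF (σ.comp Q.subtype) h0 (a := ⟨_, hbg⟩) (fun h1 => hg' (by
      apply h.inj
      rw [map_one]; exact h1))
    have hbSt : b ∉ St Q χ := by
      intro hb
      obtain ⟨h1, h2⟩ := inv_mem hb
      have h3 := DFunLike.congr_fun h2 ⟨g, hg⟩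
      rw [cch_apply] at h3
      apply hχ
      have h4 : (⟨b * g * b⁻¹ * g⁻¹, hbg⟩ : Q) = ⟨b⁻¹⁻¹ * g * b⁻¹, conj_mem h1 hg⟩ * (⟨g, hg⟩ : Q)⁻¹ :=
        Subtype.ext (by simp)
      rw [h4, map_mul, h3, map_inv, mul_inv_cancel]
    have hreg : ∀ j, 0 < j → j < t → b ^ j ∉ St Q χ := by
      intro j hj hj' hcon
      apply hbSt
      have h2 : (Nat.gcd j t) = 1 := (Nat.Coprime.symm ((Nat.Prime.coprime_iff_not_dvd h.ht).mpr (fun h3 => by
        exact absurd (Nat.le_of_dvd hj h3) (by omega))))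
      have h3 : b ∈ zpowers (b ^ j) := by
        rw [mem_zpowers_pow_iff, h.hb]
        exact h2
      exact (Subgroup.zpowers_le.2 hcon) h3
    have hχi : ∃ g ∈ wt (σ.comp Q.subtype) χ⁻¹, g ≠ 0 := dual_ne_bot σ B h.inv h.nd Q hQF χ ⟨f, hf, hf0⟩
    obtain ⟨f', hf', hf'0⟩ := hχi
    have hreg' : ∀ j, 0 < j → j < t → b ^ j ∉ St Q χ⁻¹ := by
      intro j hj hj' hcon
      have := St_inv hcon
      have e : (χ⁻¹)⁻¹ = χ := by ext z; simp [MonoidHom.inv_apply]
      rw [e] at this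
      exact hreg j hj hj' this
    set w₁ := ∑ i ∈ Finset.range t, σ (b ^ i) ((((c⁻¹) ^ i : Kˣ) : K) • f) with hw₁
    set w₂ := ∑ i ∈ Finset.range t, σ (b ^ i) ((((c⁻¹) ^ i : Kˣ) : K) • f') with hw₂
    have hw1 : w₁ ≠ 0 := by
      intro h1
      have h2 := regular σ Q hQF b hM.hx χ t hreg (fun i => (((c⁻¹) ^ i : Kˣ) : K) • f)
        (fun i _ => Submodule.smul_mem _ _ hf) h1 0 h.ht.pos
      simp only [pow_zero, Units.val_one, one_smul] at h2
      exact hf0 h2
    have hw2 : w₂ ≠ 0 := by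
      intro h1
      have h2 := regular σ Q hQF b hM.hx χ⁻¹ t hreg' (fun i => (((c⁻¹) ^ i : Kˣ) : K) • f')
        (fun i _ => Submodule.smul_mem _ _ hf') h1 0 h.ht.pos
      simp only [pow_zero, Units.val_one, one_smul] at h2
      exact hf'0 h2
    obtain ⟨k, hk⟩ := h.simple c hc1' w₁ w₂ (eig σ h.ht.pos hbt c hct f) (eig σ h.ht.pos hbt c hct f') hw1
    haveI := Fintype.ofFinite Q
    have hQF' : (Fintype.card Q : K) ≠ 0 := by rwa [← Nat.card_eq_fintype_card]
    have hbn : ∀ i, b ^ i ∈ normalizer (Q : Set H) := fun i => pow_mem hM.hx i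
    have hp1 : proj (σ.comp Q.subtype) χ w₁ = f := by
      rw [hw₁, map_sum, Finset.sum_eq_single 0]
      · rw [pow_zero, map_one, pow_zero, Units.val_one, one_smul]
        exact proj_of_mem hQF' _ _ hf
      · intro i hi hi0
        refine proj_of_mem_ne _ ?_ (map_wt σ Q (b ^ i) (hbn i) (Submodule.smul_mem _ _ hf))
        intro h1
        exact hreg i (Nat.pos_of_ne_zero hi0) (Finset.mem_range.mp hi) ⟨hbn i, h1.symm⟩
      · intro h1
        exact absurd (Finset.mem_range.mpr h.ht.pos) h1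
    have hp2 : proj (σ.comp Q.subtype) χ w₂ = 0 := by
      rw [hw₂, map_sum]
      apply Finset.sum_eq_zero
      intro i hi
      refine proj_of_mem_ne _ ?_ (map_wt σ Q (b ^ i) (hbn i) (Submodule.smul_mem _ _ hf'))
      intro h1
      -- cch (b^i) χ⁻¹ = χ
      have h2 : cch Q (b ^ i) (hbn i) χ = χ⁻¹ := by
        ext z
        have h3 := DFunLike.congr_fun h1 z
        rw [cch_apply] at h3 ⊢
        rw [MonoidHom.inv_apply, h3, MonoidHom.inv_apply, inv_inv]
      have h4 : b ^ (i + i) ∈ St Q χ := by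
        refine ⟨hbn _, ?_⟩
        have h5 := cch_mul Q (b ^ i) (b ^ i) (hbn i) (hbn i) (mul_mem (hbn i) (hbn i)) χ
        rw [h2, ← h1] at h5
        have h6 : ∀ (z : H) (hz : z ∈ normalizer (Q : Set H)) (y : H) (hy : y ∈ normalizer (Q : Set H)), z = y →
            cch Q z hz χ = cch Q y hy χ := by
          rintro z hz y hy rfl; rfl
        rw [h6 (b ^ (i + i)) (hbn _) (b ^ i * b ^ i) (mul_mem (hbn i) (hbn i)) (pow_add _ _ _)]
        exact h5
      have h7 : b ^ i ∈ St Q χ := by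
        have h8 : b ^ i ∈ zpowers ((b ^ i) ^ 2) := by
          rw [mem_zpowers_pow_iff]
          have h9 : orderOf (b ^ i) ∣ t := by
            apply orderOf_dvd_of_pow_eq_one
            rw [← pow_mul, mul_comm, pow_mul, hbt, one_pow]
          have h10 : Nat.Coprime 2 t := by
            rw [h.htm]
            have hm := h.hm
            obtain ⟨m', rfl⟩ : ∃ m', m = m' + 1 := ⟨m - 1, by omega⟩
            rw [pow_succ, Nat.coprime_two_left]
            exact ⟨2 ^ m', by ring⟩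
          exact Nat.Coprime.coprime_dvd_right h9 h10
        have h9 : (b ^ i) ^ 2 ∈ St Q χ := by
          rw [← pow_mul, mul_two]; exact h4
        exact (Subgroup.zpowers_le.2 h9) h8
      obtain ⟨h8, h9⟩ := h7
      rw [h2] at h9
      have h10 := DFunLike.congr_fun h9 ⟨_, hbg⟩
      rw [MonoidHom.inv_apply] at h10
      exact sq_ne_one h.hs h.hs2 hM.hQ χ ⟨_, hbg⟩ hχ h10.symm
    rw [hk, map_smul, hp1] at hp2
    rcases smul_eq_zero.mp hp2 with h1 | h1
    · rw [h1, zero_smul] at hk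
      exact hw2 hk
    · exact hf0 h1
  · -- nonabelian case
    have hts : t ≠ s := h.hst.symm
    obtain ⟨h1, h2, h3⟩ := H1.ThmB.struct_nonab hts hb1 hM hab
    set Z := Q ⊓ centralizer (Q : Set H) with hZ
    have hZQ : Z ≤ Q := inf_le_left
    have hQZ : Q ≤ centralizer (Z : Set H) := by
      rw [Subgroup.le_centralizer_iff]; exact inf_le_right
    have hna' : ∃ a ∈ Q, ∃ b ∈ Q, a * b * a⁻¹ * b⁻¹ ≠ 1 := by
      by_contra hcon
      push Not at hcon
      apply hab
      intro a ha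
      rw [mem_centralizer_iff]
      intro b hb
      have := hcon b hb a ha
      rw [mul_inv_eq_one, mul_inv_eq_iff_eq_mul] at this
      exact this
    obtain ⟨a, ha, a', ha', haa⟩ := hna'
    have hZne : Z ≠ Q := by
      intro h4
      apply hab
      rw [← inf_eq_left]; exact h4
    have hbZ : b ∈ centralizer (Z : Set H) := by
      have := hM.min Z hZQ h1 hZne
      rwa [hty] at this
    have hZF : (Nat.card Z : K) ≠ 0 := card_ne s h.hsK (hM.hQ.to_le hZQ)
    have hZc : ∀ c ∈ commutator Z, (σ.comp Z.subtype) c = 1 := by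
      apply H1.ThmB.hcomm_of_ab
      intro c hc d hd
      have h4 := mem_centralizer_iff.1 hd.2 c hc.1
      rw [h4]; group
    obtain ⟨ζ, hζ, f, hf, hf0⟩ := exists_weight hZF (σ.comp Z.subtype) hZc (a := ⟨_, h2 a ha a' ha'⟩) (fun h4 => haa (by
      apply h.inj
      rw [map_one]; exact h4))
    have hbSt : ∀ χ : Z →* Kˣ, b ∈ St Z χ := by
      intro χ
      refine ⟨h1, ?_⟩
      ext z
      rw [cch_apply]
      congr 2
      apply Subtype.ext
      have h4 := mem_centralizer_iff.mp hbZ z z.2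
      simp only
      rw [mul_assoc, h4, inv_mul_cancel_left]
    have key : ∀ χ : Z →* Kˣ, χ ⟨_, h2 a ha a' ha'⟩ ≠ 1 → (∃ f ∈ wt (σ.comp Z.subtype) χ, f ≠ 0) →
        ∃ f ∈ wt (σ.comp Z.subtype) χ, f ≠ 0 ∧ σ b f = (c : K) • f := by
      intro χ hχ hwt
      by_contra hcon
      push Not at hcon
      have hwt' : wt (σ.comp Z.subtype) χ ≠ ⊥ := by
        obtain ⟨f, hf, hf0⟩ := hwt
        intro h4
        rw [h4, Submodule.mem_bot] at hf
        exact hf0 hf
      rcases dich_wt σ hts h.hsK h.hb Q Z hM.hQ hM.hx hZQ hQZ h2 χ (hbSt χ) hwt' c hct (fun v hv hbv => by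
        by_contra hv0
        exact hcon v hv hv0 hbv) with h4 | ⟨⟨l, hl1, hl⟩, -⟩
      · -- all of Q is in the radical
        set N := cmod Q (kr Z χ) (le_normalizer_kr χ hQZ) with hN
        have hQk : Q ≤ normalizer (kr Z χ : Set H) := le_normalizer_kr χ hQZ
        have hQN : Q ≤ normalizer (N : Set H) := fun u hu => le_normalizer_cmod _ _ _ u (Q.le_normalizer hu) (hQk hu)
        have hbN : b ∈ normalizer (N : Set H) := le_normalizer_cmod _ _ _ b hM.hx (St_le_normalizer_kr Z χ (hbSt χ))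
        have hbka : b ∈ normalizer (Q : Set H) ∧ b ∈ normalizer (N : Set H) ∧ ∀ u ∈ Q, b * u * b⁻¹ * u⁻¹ ∈ N := by
          refine ⟨hM.hx, hbN, fun u hu => ?_⟩
          rw [hN, mem_cmod]
          exact ⟨mul_mem ((Subgroup.mem_normalizer_iff.mp hM.hx u).mp hu) (inv_mem hu), fun v hv => h4 u hu v hv⟩
        have hcq := H1.ThmB.commutator_eq hts hb1 hM
        rw [hty] at hcq
        have hQN' : Q ≤ N := by
          conv_lhs => rw [← hcq]
          rw [Subgroup.commutator_comm, Subgroup.commutator_le]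
          intro x hx u hu
          have h5 : ∀ n : ℕ, ∀ u ∈ Q, b ^ n * u * (b ^ n)⁻¹ * u⁻¹ ∈ N := by
            intro n
            induction n with
            | zero => intro u hu; simp [one_mem]
            | succ n ih =>
              intro u hu
              have e : b ^ (n + 1) * u * (b ^ (n + 1))⁻¹ * u⁻¹ =
                  (b ^ n * (b * u * b⁻¹) * (b ^ n)⁻¹ * (b * u * b⁻¹)⁻¹) * (b * u * b⁻¹ * u⁻¹) := by
                rw [pow_succ]; group
              rw [e]
              exact mul_mem (ih _ ((Subgroup.mem_normalizer_iff.mp hM.hx u).mp hu)) (hbka.2.2 u hu)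
          obtain ⟨n, rfl⟩ := mem_powers_iff_mem_zpowers.mpr hx
          exact h5 n u hu
        have h6 := hQN' ha
        rw [hN, mem_cmod] at h6
        obtain ⟨h7, h8⟩ := mem_kr.mp (h6.2 a' ha')
        exact hχ h8
      · -- exceptional case impossible
        rw [h.htm, Nat.add_sub_cancel] at hl
        have h5 : s ∣ 2 ^ m := by
          rw [hl]; exact dvd_pow_self s (by omega)
        have h6 := (Nat.prime_dvd_prime_iff_eq h.hs Nat.prime_two).mp (h.hs.dvd_of_dvd_pow h5)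
        exact h.hs2 h6
    obtain ⟨f₁, hf₁, hf₁0, hbf₁⟩ := key ζ hζ ⟨f, hf, hf0⟩
    obtain ⟨f₂, hf₂, hf₂0, hbf₂⟩ := key ζ⁻¹ (by rw [MonoidHom.inv_apply]; exact fun h4 => hζ (inv_eq_one.mp h4))
      (dual_ne_bot σ B h.inv h.nd Z hZF ζ ⟨f, hf, hf0⟩)
    obtain ⟨k, hk⟩ := h.simple c hc1' f₁ f₂ hbf₁ hbf₂ hf₁0
    apply hf₂0
    refine eq_zero_of_mem (χ := ζ) (χ' := ζ⁻¹) ?_ (by rw [hk]; exact Submodule.smul_mem _ _ hf₁) hf₂
    intro h4
    have h5 := DFunLike.congr_fun h4 ⟨_, h2 a ha a' ha'⟩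
    exact sq_ne_one h.hs h.hs2 (hM.hQ.to_le hZQ) ζ _ hζ h5

structure ExcH (σ : H →* Module.End K V) (B : V →ₗ[K] V →ₗ[K] K) (φ : V → V) (b : H) (t s m : ℕ) (S : Subgroup H) : Prop where
  inv : ∀ h f g, B (σ h f) (σ h g) = B f g
  nd : ∀ f, (∀ g, B f g = 0) → f = 0
  ht : t.Prime
  htm : t = 2 ^ m + 1
  hm : 1 ≤ m
  hb : orderOf b = t
  simple : ∀ c : K, c ≠ 1 → ∀ f g, σ b f = c • f → σ b g = c • g → f ≠ 0 → ∃ k : K, g = k • f
  hs : s.Prime
  hs2 : s ≠ 2
  hst : s ≠ t
  hsK : (s : K) ≠ 0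
  htK : (t : K) ≠ 0
  hS : IsPGroup s S
  hbS : b ∈ normalizer (S : Set H)
  phi_zero : ∀ f, φ f = 0 → f = 0
  phi_smul : ∀ (k : K) f, φ (k • f) = k ^ 2 • φ f
  phi_sigma : ∀ h f, φ (σ h f) = σ h (φ f)

namespace ExcH

variable {σ : H →* Module.End K V} {B : V →ₗ[K] V →ₗ[K] K} {φ : V → V} {b : H} {t s m : ℕ} {S : Subgroup H}
  (h : ExcH σ B φ b t s m S)

include h

theorem comm_triv : ∀ y ∈ ⁅S, zpowers b⁆, σ y = 1 := by
  by_cases hb : σ b = 1
  · have h1 : ⁅S, zpowers b⁆ ≤ σ.ker := by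
      have h2 : zpowers b ≤ σ.ker := by rw [zpowers_le]; exact hb
      exact (Subgroup.commutator_mono (le_top : S ≤ ⊤) h2).trans (Subgroup.commutator_le_right _ _)
    exact fun y hy => h1 hy
  · let H' := H ⧸ σ.ker
    let π : H →* H' := QuotientGroup.mk' σ.ker
    let σ' : H' →* Module.End K V := QuotientGroup.lift σ.ker σ (fun x hx => hx)
    have hσ' : ∀ x : H, σ' (π x) = σ x := fun x => QuotientGroup.lift_mk' σ.ker (fun x hx => hx) x
    have hπs : Function.Surjective π := QuotientGroup.mk'_surjective _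
    have hb' : orderOf (π b) = t := by
      have h1 : orderOf (π b) ∣ t := by rw [← h.hb]; exact orderOf_map_dvd π b
      rcases (Nat.dvd_prime h.ht).mp h1 with h2 | h2
      · exfalso
        apply hb
        rw [orderOf_eq_one_iff] at h2
        rw [← hσ', h2, map_one]
      · exact h2
    have hX : ExcL σ' B (π b) t s m (S.map π) :=
      { inj := by
          rw [injective_iff_map_eq_one]
          intro x hx
          obtain ⟨x, rfl⟩ := hπs x
          rw [hσ'] at hx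
          exact (QuotientGroup.eq_one_iff x).mpr hx
        inv := by
          intro x f g
          obtain ⟨x, rfl⟩ := hπs x
          rw [hσ']
          exact h.inv x f g
        nd := h.nd
        ht := h.ht
        htm := h.htm
        hm := h.hm
        hb := hb'
        simple := by rw [hσ']; exact h.simple
        hs := h.hs
        hs2 := h.hs2
        hst := h.hst
        hsK := h.hsK
        htK := h.htK
        hS := h.hS.map π
        hbS := by
          have h2 := Subgroup.le_normalizer_map (H := S) π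
          exact h2 ⟨b, h.hbS, rfl⟩ }
    have h1 := hX.cent
    have h2 : ⁅S.map π, (zpowers b).map π⁆ = ⊥ := by
      rw [Subgroup.commutator_comm, Subgroup.commutator_eq_bot_iff_le_centralizer, MonoidHom.map_zpowers, zpowers_le]
      exact h1
    rw [← Subgroup.map_commutator, Subgroup.map_eq_bot_iff] at h2
    intro y hy
    have h3 := h2 hy
    rw [QuotientGroup.ker_mk'] at h3
    exact h3

theorem triv (hfix : ∀ f, σ b f = f → f = 0) : ∀ y ∈ S, σ y = 1 := by
  classical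
  intro y hy
  haveI := Fact.mk h.ht
  have hbt : b ^ t = 1 := by rw [← h.hb]; exact pow_orderOf_eq_one b
  -- y commutes with b
  have hyb : ∀ f, σ y (σ b f) = σ b (σ y f) := by
    intro f
    have h1 := h.comm_triv _ (Subgroup.commutator_mem_commutator hy (mem_zpowers b))
    rw [commutatorElement_def] at h1
    have h2 : y * b = (y * b * y⁻¹ * b⁻¹) * (b * y) := by group
    rw [← Module.End.mul_apply, ← map_mul, h2, map_mul, h1, one_mul, map_mul, Module.End.mul_apply]
  -- eigenvectors of b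
  have key : ∀ (c : Kˣ), c ^ t = 1 → ∀ f, σ b f = (c : K) • f → σ y f = f := by
    intro c hct f hf
    by_cases hf0 : f = 0
    · rw [hf0, map_zero]
    have hc1 : (c : K) ≠ 1 := by
      intro h1
      rw [h1, one_smul] at hf
      exact hf0 (hfix f hf)
    obtain ⟨μ, hμ⟩ := h.simple c hc1 f (σ y f) hf (by rw [← hyb, hf, map_smul]) hf0
    -- Frobenius
    have hφ : ∀ n : ℕ, σ b (φ^[n] f) = ((c : K) ^ 2 ^ n) • φ^[n] f ∧ σ y (φ^[n] f) = (μ ^ 2 ^ n) • φ^[n] f ∧ φ^[n] f ≠ 0 := by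
      intro n
      induction n with
      | zero =>
        simp only [Function.iterate_zero, id_eq, pow_zero, pow_one]
        exact ⟨hf, hμ, hf0⟩
      | succ n ih =>
        obtain ⟨h1, h2, h3⟩ := ih
        rw [Function.iterate_succ_apply', pow_succ, pow_mul, pow_mul]
        refine ⟨?_, ?_, ?_⟩
        · rw [← h.phi_sigma, h1, h.phi_smul]
        · rw [← h.phi_sigma, h2, h.phi_smul]
        · exact fun h4 => h3 (h.phi_zero _ h4)
    obtain ⟨h1, h2, h3⟩ := hφ m
    have hcm : (c : K) ^ 2 ^ m = ((c⁻¹ : Kˣ) : K) := by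
      have h4 : c ^ 2 ^ m * c = 1 := by rw [← pow_succ, ← h.htm, hct]
      rw [← Units.val_pow_eq_pow_val, eq_inv_of_mul_eq_one_left h4]
    rw [hcm] at h1
    -- duality
    have h4 : ∃ g, B f g ≠ 0 := by
      by_contra hcon
      push Not at hcon
      exact hf0 (h.nd f hcon)
    obtain ⟨g, hg⟩ := h4
    set g' := ∑ i ∈ Finset.range t, σ (b ^ i) (((((c⁻¹)⁻¹) ^ i : Kˣ) : K) • g) with hg'
    have hg'b : σ b g' = ((c⁻¹ : Kˣ) : K) • g' := eig σ h.ht.pos hbt c⁻¹ (by rw [inv_pow, hct, inv_one]) g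
    have hBg' : B f g' ≠ 0 := by
      have h5 : ∀ i ∈ Finset.range t, B f (σ (b ^ i) (((((c⁻¹)⁻¹) ^ i : Kˣ) : K) • g)) = B f g := by
        intro i _
        have h6 := h.inv (b ^ i) (σ (b ^ i)⁻¹ f) (((((c⁻¹)⁻¹) ^ i : Kˣ) : K) • g)
        have h7 : σ (b ^ i) (σ (b ^ i)⁻¹ f) = f := by
          rw [← Module.End.mul_apply, ← map_mul, mul_inv_cancel, map_one]; rfl
        have h8 : σ (b ^ i)⁻¹ f = (((c⁻¹) ^ i : Kˣ) : K) • f := by
          have h9 : ∀ n : ℕ, σ (b ^ n) f = ((c ^ n : Kˣ) : K) • f := by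
            intro n
            induction n with
            | zero => simp
            | succ n ih =>
              rw [pow_succ', map_mul, Module.End.mul_apply, ih, map_smul, hf, smul_smul, ← Units.val_mul, ← pow_succ]
          have h10 : σ (b ^ i)⁻¹ (σ (b ^ i) f) = f := by
            rw [← Module.End.mul_apply, ← map_mul, inv_mul_cancel, map_one]; rfl
          rw [h9, map_smul] at h10
          calc σ (b ^ i)⁻¹ f = (((c⁻¹) ^ i : Kˣ) : K) • (((c ^ i : Kˣ) : K) • σ (b ^ i)⁻¹ f) := by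
                rw [smul_smul, ← Units.val_mul, ← mul_pow, inv_mul_cancel, one_pow, Units.val_one, one_smul]
            _ = _ := by rw [h10]
        rw [h7, h8] at h6
        rw [h6, map_smul, map_smul, LinearMap.smul_apply, smul_eq_mul, smul_eq_mul, ← mul_assoc, ← Units.val_mul, inv_inv,
          ← mul_pow, mul_inv_cancel, one_pow, Units.val_one, one_mul]
      rw [hg', map_sum, Finset.sum_congr rfl h5, Finset.sum_const, Finset.card_range, nsmul_eq_mul]
      exact mul_ne_zero h.htK hg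
    have hc1' : ((c⁻¹ : Kˣ) : K) ≠ 1 := by
      intro h5
      apply hc1
      have h6 : c⁻¹ = 1 := Units.ext h5
      rw [inv_eq_one.mp h6, Units.val_one]
    obtain ⟨k, hk⟩ := h.simple _ hc1' _ g' h1 hg'b h3
    have h5 : σ y g' = (μ ^ 2 ^ m) • g' := by
      rw [hk, map_smul, h2, smul_comm]
    have h6 := h.inv y f g'
    rw [hμ, h5, map_smul, map_smul, LinearMap.smul_apply, smul_eq_mul, smul_eq_mul, ← mul_assoc] at h6
    have h7 : μ ^ t = 1 := by
      rw [h.htm, pow_succ]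
      have h8 : (μ ^ 2 ^ m * μ) * B f g' = 1 * B f g' := by rw [one_mul, h6]
      exact mul_right_cancel₀ hBg' h8
    have h8 : ∀ n : ℕ, σ (y ^ n) f = (μ ^ n) • f := by
      intro n
      induction n with
      | zero => simp
      | succ n ih => rw [pow_succ', map_mul, Module.End.mul_apply, ih, map_smul, hμ, smul_smul, ← pow_succ]
    obtain ⟨j, hj⟩ := h.hS ⟨y, hy⟩
    have hj' : y ^ s ^ j = 1 := by
      have := congrArg Subtype.val hj
      simpa using this
    have h9 : μ ^ s ^ j = 1 := by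
      have h10 := h8 (s ^ j)
      rw [hj', map_one] at h10
      have h11 : (μ ^ s ^ j - 1) • f = 0 := by rw [sub_smul, ← h10]; simp
      exact sub_eq_zero.mp ((smul_eq_zero.mp h11).resolve_right hf0)
    have h10 : μ = 1 := by
      have h11 := orderOf_dvd_of_pow_eq_one h7
      have h12 := orderOf_dvd_of_pow_eq_one h9
      rw [← orderOf_eq_one_iff]
      exact Nat.eq_one_of_dvd_coprimes (Nat.Coprime.pow_left j ((Nat.coprime_primes h.hs h.ht).2 h.hst)) h12 h11
    rw [hμ, h10, one_smul]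
  -- decomposition
  set T := zpowers b with hT
  have hTc : Nat.card T = t := by rw [hT, Nat.card_zpowers, h.hb]
  have hTK : (Nat.card T : K) ≠ 0 := by rw [hTc]; exact h.htK
  haveI := finite_dual hTK
  haveI := Fintype.ofFinite T
  haveI := Fintype.ofFinite (T →* Kˣ)
  have h0 : ∀ a ∈ commutator T, (σ.comp T.subtype) a = 1 := by
    apply H1.ThmB.hcomm_of_ab
    intro x hx z hz
    have : Commute x z := by
      obtain ⟨i, rfl⟩ := hx
      obtain ⟨j, rfl⟩ := hz
      exact (Commute.refl b).zpow_zpow i j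
    rw [this.eq]; group
  ext f
  have h1 := eq_sum_proj hTK (σ.comp T.subtype) h0 f
  rw [Module.End.one_apply]
  conv_lhs => rw [← h1]
  rw [map_sum]
  conv_rhs => rw [← h1]
  apply Finset.sum_congr rfl
  intro ψ _
  have h2 := proj_mem (σ.comp T.subtype) ψ f ⟨b, mem_zpowers b⟩
  apply key (ψ ⟨b, mem_zpowers b⟩) ?_ _ h2
  rw [← map_pow]
  have h3 : (⟨b, mem_zpowers b⟩ : T) ^ t = 1 := Subtype.ext hbt
  rw [h3, map_one]

end ExcH

end

end H1.PQ
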