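import Mathlib

/-!
The module attached to a symmetric biadditive form with values in the field with two elements.
-/

set_option autoImplicit false

namespace H1.PQy

open scoped BigOperators

section count

variable {K : Type*} [Field K]

theorem card_modEq {t : ℕ} [ht : Fact t.Prime] (A : AddSubgroup K) [Finite A] (c : Kˣ) (hc1 : c ≠ 1) (hct : c ^ t = 1)
    (hA : ∀ a ∈ A, (c : K) * a ∈ A) : Nat.card A ≡ 1 [MOD t] := by
  have ho : orderOf c = t := orderOf_eq_prime hct hc1
  haveI : Finite (Subgroup.zpowers c) := by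
    rw [← Nat.card_pos_iff.trans (and_iff_right ⟨1⟩)] 
    rw [Nat.card_zpowers, ho]; exact ht.out.pos
  have hpow : ∀ n : ℕ, ∀ a ∈ A, ((c ^ n : Kˣ) : K) * a ∈ A := by
    intro n
    induction n with
    | zero => intro a ha; simpa using ha
    | succ n ih =>
      intro a ha
      rw [pow_succ, Units.val_mul, mul_assoc]
      exact ih _ (hA a ha)
  have hg : ∀ g ∈ Subgroup.zpowers c, ∀ a ∈ A, ((g : Kˣ) : K) * a ∈ A := by
    rintro g ⟨k, rfl⟩ a ha
    have h1 : c ^ k = c ^ (k % t).toNat := by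
      rw [← zpow_natCast, Int.toNat_of_nonneg (Int.emod_nonneg _ (by exact_mod_cast ht.out.ne_zero))]
      nth_rewrite 1 [← Int.emod_add_mul_ediv k t]
      rw [zpow_add, zpow_mul, zpow_natCast, hct, one_zpow, mul_one]
    simp only
    rw [h1]
    exact hpow _ a ha
  letI : MulAction (Subgroup.zpowers c) A :=
    { smul := fun g a => ⟨((g : Kˣ) : K) * a, hg g g.2 a a.2⟩
      one_smul := by
        intro a
        apply Subtype.ext
        change (((1 : Subgroup.zpowers c) : Kˣ) : K) * a = a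
        simp
      mul_smul := by
        intro g g' a
        apply Subtype.ext
        change (((g * g' : Subgroup.zpowers c) : Kˣ) : K) * a = ((g : Kˣ) : K) * (((g' : Kˣ) : K) * a)
        simp [mul_assoc] }
  have hsm : ∀ (g : Subgroup.zpowers c) (a : A), ((g • a : A) : K) = ((g : Kˣ) : K) * a := fun g a => rfl
  have hP : IsPGroup t (Subgroup.zpowers c) := IsPGroup.of_card (n := 1) (by rw [Nat.card_zpowers, ho, pow_one])
  have h1 := hP.card_modEq_card_fixedPoints A
  have h2 : MulAction.fixedPoints (Subgroup.zpowers c) A = {0} := by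
    ext a
    rw [MulAction.mem_fixedPoints, Set.mem_singleton_iff]
    constructor
    · intro h
      have h3 := congrArg Subtype.val (h ⟨c, Subgroup.mem_zpowers c⟩)
      rw [hsm] at h3
      have h4 : ((c : K) - 1) * a = 0 := by
        rw [sub_mul, one_mul]
        exact sub_eq_zero.mpr h3
      rcases mul_eq_zero.mp h4 with h5 | h5
      · exact absurd (Units.ext (sub_eq_zero.mp h5)) hc1
      · exact Subtype.ext h5
    · rintro rfl g
      apply Subtype.ext
      rw [hsm]; simp
  rw [h2, Nat.card_coe_set_eq, Set.ncard_singleton] at h1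
  exact h1

end count

section form

variable {Q : Type*} [Group Q] [Fintype Q] {H : Type*} [Group H] (α : H →* MulAut Q) (ω : Q → Q → ZMod 2)
  (K : Type*) [Field K] [Algebra (ZMod 2) K]

/-- the functional of `u` -/
def w (u : Q) : Q → K := fun v => algebraMap (ZMod 2) K (ω u v)

/-- linear combinations -/
noncomputable def Phi : (Q → K) →ₗ[K] (Q → K) := Fintype.linearCombination K (w ω K)

theorem Phi_apply (k : Q → K) (v : Q) : Phi ω K k v = ∑ u, k u * w ω K u v := by
  unfold Phi
  rw [Fintype.linearCombination_apply, Finset.sum_apply]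
  rfl

/-- the module -/
noncomputable abbrev V : Submodule K (Q → K) := LinearMap.range (Phi ω K)

theorem w_mem (u : Q) : w ω K u ∈ V ω K := by
  classical
  refine ⟨Pi.single u 1, ?_⟩
  ext v
  rw [Phi_apply, Finset.sum_eq_single u]
  · simp
  · intro u' _ hu'; simp [Pi.single_eq_of_ne hu']
  · intro h; exact absurd (Finset.mem_univ _) h

variable {ω}

theorem add_of_mem (hadd : ∀ u v v', ω u (v * v') = ω u v + ω u v') {f : Q → K} (hf : f ∈ V ω K) (v v' : Q) :
    f (v * v') = f v + f v' := by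
  obtain ⟨k, rfl⟩ := hf
  rw [Phi_apply, Phi_apply, Phi_apply, ← Finset.sum_add_distrib]
  apply Finset.sum_congr rfl
  intro u _
  unfold w
  rw [hadd, map_add, mul_add]

/-- permutation action -/
def perm (h : H) : (Q → K) →ₗ[K] (Q → K) := LinearMap.funLeft K K (fun v => α h⁻¹ v)

theorem perm_apply (h : H) (f : Q → K) (v : Q) : perm α K h f v = f (α h⁻¹ v) := rfl

theorem perm_Phi (hinv : ∀ h u v, ω (α h u) (α h v) = ω u v) (h : H) (k : Q → K) :
    perm α K h (Phi ω K k) = Phi ω K (perm α K h k) := by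
  ext v
  rw [perm_apply, Phi_apply, Phi_apply, ← Equiv.sum_comp (α h).toEquiv (fun u => perm α K h k u * w ω K u v)]
  apply Finset.sum_congr rfl
  intro u _
  change k u * w ω K u (α h⁻¹ v) = k (α h⁻¹ (α h u)) * w ω K (α h u) v
  have h1 : α h⁻¹ (α h u) = u := by rw [← MulAut.mul_apply, ← map_mul, inv_mul_cancel, map_one]; rfl
  have h2 : α h (α h⁻¹ v) = v := by rw [← MulAut.mul_apply, ← map_mul, mul_inv_cancel, map_one]; rfl
  rw [h1]
  congr 1
  unfold w
  rw [← hinv h u (α h⁻¹ v), h2]

theorem perm_mem (hinv : ∀ h u v, ω (α h u) (α h v) = ω u v) (h : H) {f : Q → K} (hf : f ∈ V ω K) :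
    perm α K h f ∈ V ω K := by
  obtain ⟨k, rfl⟩ := hf
  exact ⟨_, (perm_Phi α K hinv h k).symm⟩

/-- the representation -/
noncomputable def sg (hinv : ∀ h u v, ω (α h u) (α h v) = ω u v) : H →* Module.End K (V ω K) where
  toFun h := (perm α K h).restrict (fun _ hf => perm_mem α K hinv h hf)
  map_one' := by
    ext f v
    change (f : Q → K) (α (1 : H)⁻¹ v) = (f : Q → K) v
    rw [inv_one, map_one]; rfl
  map_mul' := by
    intro x y
    ext f v
    change (f : Q → K) (α (x * y)⁻¹ v) = (f : Q → K) (α y⁻¹ (α x⁻¹ v))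
    rw [mul_inv_rev, map_mul]; rfl

theorem sg_apply (hinv : ∀ h u v, ω (α h u) (α h v) = ω u v) (h : H) (f : V ω K) (v : Q) :
    (sg α K hinv h f : Q → K) v = (f : Q → K) (α h⁻¹ v) := rfl

/-- pairing of coefficients and functions -/
noncomputable def B' (ω : Q → Q → ZMod 2) (K : Type*) [Field K] [Algebra (ZMod 2) K] : (Q → K) →ₗ[K] (V ω K) →ₗ[K] K where
  toFun k :=
    { toFun := fun f => ∑ u, k u * (f : Q → K) u
      map_add' := by
        intro f g
        rw [← Finset.sum_add_distrib]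
        apply Finset.sum_congr rfl
        intro u _
        rw [Submodule.coe_add, Pi.add_apply, mul_add]
      map_smul' := by
        intro c f
        rw [RingHom.id_apply, smul_eq_mul, Finset.mul_sum]
        apply Finset.sum_congr rfl
        intro u _
        rw [Submodule.coe_smul, Pi.smul_apply, smul_eq_mul, mul_left_comm] }
  map_add' := by
    intro k l
    ext f
    change ∑ u, (k u + l u) * (f : Q → K) u = ∑ u, k u * (f : Q → K) u + ∑ u, l u * (f : Q → K) u
    rw [← Finset.sum_add_distrib]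
    apply Finset.sum_congr rfl
    intro u _
    rw [add_mul]
  map_smul' := by
    intro c k
    ext f
    change ∑ u, (c * k u) * (f : Q → K) u = c * ∑ u, k u * (f : Q → K) u
    rw [Finset.mul_sum]
    apply Finset.sum_congr rfl
    intro u _
    rw [mul_assoc]

theorem B'_apply (k : Q → K) (f : V ω K) : B' ω K k f = ∑ u, k u * (f : Q → K) u := rfl

theorem B'_Phi (hsymm : ∀ u v, ω u v = ω v u) (k l : Q → K) (hl : Phi ω K l ∈ V ω K) :
    B' ω K k ⟨Phi ω K l, hl⟩ = ∑ v, l v * Phi ω K k v := by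
  rw [B'_apply]
  simp only [Phi_apply, Finset.mul_sum]
  rw [Finset.sum_comm]
  apply Finset.sum_congr rfl
  intro v _
  apply Finset.sum_congr rfl
  intro u _
  unfold w
  rw [hsymm u v]
  ring

/-- the bilinear form -/
noncomputable def B (hsymm : ∀ u v, ω u v = ω v u) : (V ω K) →ₗ[K] (V ω K) →ₗ[K] K :=
  (Submodule.liftQ (LinearMap.ker (Phi ω K)) (B' ω K) (by
    intro k hk
    rw [LinearMap.mem_ker] at hk ⊢
    ext ⟨f, l, rfl⟩
    have h1 := B'_Phi K hsymm k l ⟨l, rfl⟩
    rw [hk] at h1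
    rw [h1]
    simp)) ∘ₗ ((Phi ω K).quotKerEquivRange.symm : V ω K →ₗ[K] _)

theorem B_apply (hsymm : ∀ u v, ω u v = ω v u) (k : Q → K) (f' : V ω K) (hk : Phi ω K k = f') (f : V ω K) :
    B K hsymm f' f = ∑ u, k u * (f : Q → K) u := by
  have h1 : (Phi ω K).quotKerEquivRange.symm f' = Submodule.Quotient.mk k := by
    rw [LinearEquiv.symm_apply_eq]
    apply Subtype.ext
    exact hk.symm
  unfold B
  rw [LinearMap.comp_apply, LinearEquiv.coe_coe, h1, Submodule.liftQ_apply, B'_apply]

theorem B_inv (hsymm : ∀ u v, ω u v = ω v u) (hinv : ∀ h u v, ω (α h u) (α h v) = ω u v) (h : H) (f g : V ω K) :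
    B K hsymm (sg α K hinv h f) (sg α K hinv h g) = B K hsymm f g := by
  obtain ⟨k, hk⟩ := f.2
  have h1 : Phi ω K (perm α K h k) = (sg α K hinv h f : V ω K) := by
    rw [← perm_Phi α K hinv h k, hk]; rfl
  rw [B_apply K hsymm _ _ h1, B_apply K hsymm _ _ hk,
    ← Equiv.sum_comp (α h).toEquiv (fun u => perm α K h k u * (sg α K hinv h g : Q → K) u)]
  apply Finset.sum_congr rfl
  intro u _
  change k (α h⁻¹ (α h u)) * (g : Q → K) (α h⁻¹ (α h u)) = _
  have h1 : α h⁻¹ (α h u) = u := by rw [← MulAut.mul_apply, ← map_mul, inv_mul_cancel, map_one]; rfl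
  rw [h1]

theorem B_w (hsymm : ∀ u v, ω u v = ω v u) (f : V ω K) (v : Q) : B K hsymm f ⟨w ω K v, w_mem ω K v⟩ = (f : Q → K) v := by
  obtain ⟨k, hk⟩ := f.2
  rw [B_apply K hsymm _ _ hk, ← hk, Phi_apply]
  apply Finset.sum_congr rfl
  intro u _
  unfold w
  rw [hsymm]

theorem B_nd (hsymm : ∀ u v, ω u v = ω v u) (f : V ω K) (h : ∀ g, B K hsymm f g = 0) : f = 0 := by
  apply Subtype.ext
  ext v
  rw [← B_w K hsymm f v, h]; rfl

theorem sq_mem [CharP K 2] {f : Q → K} (hf : f ∈ V ω K) : (fun v => (f v) ^ 2) ∈ V ω K := by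
  obtain ⟨k, rfl⟩ := hf
  refine ⟨fun u => (k u) ^ 2, ?_⟩
  ext v
  rw [Phi_apply, Phi_apply, sum_pow_char]
  apply Finset.sum_congr rfl
  intro u _
  rw [mul_pow]
  congr 1
  unfold w
  rw [← map_pow]
  congr 1
  generalize ω u v = z
  revert z; decide

/-- Frobenius -/
noncomputable def phi [CharP K 2] (f : V ω K) : V ω K := ⟨fun v => ((f : Q → K) v) ^ 2, sq_mem K f.2⟩

theorem phi_apply [CharP K 2] (f : V ω K) (v : Q) : (phi K f : Q → K) v = ((f : Q → K) v) ^ 2 := rfl

theorem phi_zero [CharP K 2] (f : V ω K) (h : phi K f = 0) : f = 0 := by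
  apply Subtype.ext
  ext v
  have h1 := congrFun (congrArg Subtype.val h) v
  change ((f : Q → K) v) ^ 2 = 0 at h1
  exact pow_eq_zero_iff (two_ne_zero) |>.mp h1

theorem phi_smul [CharP K 2] (c : K) (f : V ω K) : phi K (c • f) = c ^ 2 • phi K f := by
  apply Subtype.ext
  ext v
  change (c * (f : Q → K) v) ^ 2 = c ^ 2 * ((f : Q → K) v) ^ 2
  rw [mul_pow]

theorem phi_sg [CharP K 2] (hinv : ∀ h u v, ω (α h u) (α h v) = ω u v) (h : H) (f : V ω K) :
    phi K (sg α K hinv h f) = sg α K hinv h (phi K f) := rfl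

end form

end H1.PQy
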