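import Cfsg.Agent.Lib.H1.PQg
import Cfsg.Agent.Lib.H1.PQx
import Cfsg.Agent.Lib.H1.PQy

/-!
Fixed-point-free action of a nonabelian group of order `pq`: the exceptional case.
-/

set_option autoImplicit false

open Subgroup H1.Coprime2 H1.Coprime H1.StrLem H30.Wts
open scoped commutatorElement Pointwise

namespace H1.PQ

universe u

variable {Γ : Type u} [Group Γ] [Finite Γ]

theorem PQGrp.modEq {A C : Subgroup Γ} {r t : ℕ} (h : PQGrp A C r t) : r ≡ 1 [MOD t] := by
  classical
  haveI := Fact.mk h.ht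
  obtain ⟨b', hb'⟩ := exists_prime_orderOf_dvd_card' (G := A) t (by rw [h.hA]; exact dvd_mul_left _ _)
  have hD'A : zpowers (b' : Γ) ≤ A := by rw [zpowers_le]; exact b'.2
  have hD't : Nat.card (zpowers (b' : Γ)) = t := by rw [Nat.card_zpowers, Subgroup.orderOf_coe, hb']
  obtain ⟨b, hbo, hDb, hAD, hconj⟩ := h.D_struct hD'A hD't
  set D := zpowers b with hD
  have hDC : D ≤ normalizer (C : Set Γ) := by rw [← hDb]; exact hD'A.trans h.hCn
  let φ : D →* MulAut C := (normalizerMonoidHom C).comp (Subgroup.inclusion hDC)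
  letI : MulAction D C := MulAction.compHom C φ
  have hsm : ∀ (d : D) (c : C), ((d • c : C) : Γ) = d * c * (d : Γ)⁻¹ := fun d c => rfl
  have hP : IsPGroup t D := IsPGroup.of_card (n := 1) (by rw [hD, Nat.card_zpowers, hbo, pow_one])
  have h1 := hP.card_modEq_card_fixedPoints C
  have h2 : MulAction.fixedPoints D C = {1} := by
    ext c
    rw [MulAction.mem_fixedPoints, Set.mem_singleton_iff]
    constructor
    · intro hc
      by_contra hc1
      have hc1' : (c : Γ) ≠ 1 := fun h3 => hc1 (Subtype.ext h3)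
      have h3 := hconj c c.2 hc1'
      have h4 : MulAut.conj (c : Γ) • D = D := by
        apply H1.SZ.conj_smul_eq_of_mem_normalizer
        have h5 : (c : Γ) ∈ centralizer (D : Set Γ) := by
          rw [mem_centralizer_iff]
          intro d hd
          have h6 := congrArg Subtype.val (hc ⟨d, hd⟩)
          rw [hsm] at h6
          rw [mul_inv_eq_iff_eq_mul] at h6
          exact h6
        exact Subgroup.centralizer_le_normalizer _ h5
      rw [hDb, h4, sup_idem] at h3
      have h5 := h.hA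
      rw [h3, hD, Nat.card_zpowers, hbo] at h5
      have h6 : 1 * t = r * t := by rw [one_mul]; exact h5
      exact h.hr.one_lt.ne (Nat.eq_of_mul_eq_mul_right h.ht.pos h6)
    · rintro rfl d
      apply Subtype.ext
      rw [hsm]; simp
  rw [h2, h.hC, Nat.card_coe_set_eq, Set.ncard_singleton] at h1
  exact h1

theorem pow_dvd_lem {m t : ℕ} (htm : t = 2 ^ m + 1) (hm : 1 ≤ m) {j : ℕ} (hj : j ≤ 2 * m) (hj0 : j ≠ 0)
    (h : 2 ^ j ≡ 1 [MOD t]) : j = 2 * m := by
  by_contra hne
  have hj2 : j < 2 * m := lt_of_le_of_ne hj hne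
  have ht : t ∣ 2 ^ j - 1 := (Nat.modEq_iff_dvd' (Nat.one_le_two_pow)).mp h.symm
  rcases le_or_gt j m with hjm | hjm
  · have h1 : 2 ^ j ≤ 2 ^ m := Nat.pow_le_pow_right (by norm_num) hjm
    have h2 : 2 ≤ 2 ^ j := by
      calc 2 = 2 ^ 1 := by norm_num
        _ ≤ 2 ^ j := Nat.pow_le_pow_right (by norm_num) (by omega)
    have := Nat.le_of_dvd (by omega) ht
    omega
  · obtain ⟨i, rfl⟩ : ∃ i, j = m + i := ⟨j - m, by omega⟩
    have h1 : 2 ^ i < 2 ^ m := Nat.pow_lt_pow_right (by norm_num) (by omega)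
    have h2 : t ∣ 2 ^ i * t := dvd_mul_left _ _
    have h3 : 2 ^ i * t = 2 ^ (m + i) + 2 ^ i := by rw [htm, pow_add]; ring
    rw [h3] at h2
    have h5 : 1 ≤ 2 ^ (m + i) := Nat.one_le_two_pow
    have h4 : 2 ^ (m + i) + 2 ^ i = (2 ^ (m + i) - 1) + (2 ^ i + 1) := by omega
    rw [h4] at h2
    have h6 := (Nat.dvd_add_right ht).mp h2
    have := Nat.le_of_dvd (Nat.succ_pos _) h6
    omega

section form

variable {F : Type*} [Field F]

open Classical in
/-- the form with values in `ZMod 2` -/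
noncomputable def om (x : Fˣ) : ZMod 2 := if x = 1 then 0 else 1

theorem om_one : om (1 : Fˣ) = 0 := by simp [om]

theorem eq_neg_one {x : Fˣ} (hx : x ^ 2 = 1) (h : x ≠ 1) : x = -1 := by
  have h1 : (x : F) * x = 1 := by rw [← Units.val_mul, ← pow_two, hx, Units.val_one]
  rcases mul_self_eq_one_iff.mp h1 with h2 | h2
  · exact absurd (Units.ext h2) h
  · exact Units.ext (by rw [h2]; simp)

theorem om_mul {x y : Fˣ} (hx : x ^ 2 = 1) (hy : y ^ 2 = 1) : om (x * y) = om x + om y := by
  by_cases h1 : x = 1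
  · rw [h1, one_mul, om_one, zero_add]
  by_cases h2 : y = 1
  · rw [h2, mul_one, om_one, add_zero]
  have h3 := eq_neg_one hx h1
  have h4 := eq_neg_one hy h2
  have h5 : x * y = 1 := by rw [h3, h4]; simp
  rw [h5, om_one]
  unfold om
  rw [if_neg h1, if_neg h2]
  decide

theorem om_eq_zero {x : Fˣ} (h : om x = 0) : x = 1 := by
  unfold om at h
  split_ifs at h with h1
  · exact h1
  · exact absurd h (by decide)

end form

omit [Finite Γ] in
theorem normalizer_char {Q : Subgroup Γ} (K : Subgroup Q) (hK : K.Characteristic) {g : Γ} (hg : g ∈ normalizer (Q : Set Γ)) :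
    g ∈ normalizer ((K.map Q.subtype : Subgroup Γ) : Set Γ) := by
  have key : ∀ g ∈ normalizer (Q : Set Γ), ∀ x ∈ K.map Q.subtype, g * x * g⁻¹ ∈ K.map Q.subtype := by
    rintro g hg _ ⟨x, hx, rfl⟩
    have h1 := characteristic_iff_le_comap.mp hK (normalizerMonoidHom Q ⟨g, hg⟩)
    exact ⟨_, h1 hx, rfl⟩
  rw [Subgroup.mem_normalizer_iff]
  intro x
  refine ⟨key g hg x, fun hx => ?_⟩
  have := key g⁻¹ (inv_mem hg) _ hx
  have e : g⁻¹ * (g * x * g⁻¹) * g⁻¹⁻¹ = x := by group
  rwa [e] at this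

namespace Cfg

variable {F : Type*} [Field F] {W : Type*} [AddCommGroup W] [Module F W]
  {ρ : Γ →* Module.End F W} {A C S Q : Subgroup Γ} {r t s q : ℕ} (h : Cfg ρ A C S Q r t s q)

include h

theorem pow_comm : ∀ u ∈ Q, ∀ v ∈ Q, u ^ q * v = v * u ^ q := by
  haveI := Fact.mk h.hq
  set K : Subgroup Γ := (frattini Q).map Q.subtype with hK
  have hKQ : K ≤ Q := Subgroup.map_subtype_le _
  have hn : ∀ g ∈ normalizer (Q : Set Γ), g ∈ normalizer (K : Set Γ) := fun g hg => normalizer_char (frattini Q) inferInstance hg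
  have hne : K ≠ Q := by
    intro h1
    have h2 : frattini Q = ⊤ := by
      apply Subgroup.map_injective Q.subtype_injective
      rw [← hK, h1, ← MonoidHom.range_eq_map, Subgroup.range_subtype]
    haveI : Nontrivial Q := (Subgroup.nontrivial_iff_ne_bot Q).mpr h.hQ1
    rcases eq_top_or_exists_le_coatom (⊥ : Subgroup Q) with h3 | ⟨M, hM, -⟩
    · exact bot_ne_top h3
    · have h4 : frattini Q ≤ M := frattini_le_coatom hM
      rw [h2] at h4
      exact hM.1 (top_le_iff.mp h4)
  have h1 := h.central_of_proper K hKQ (fun g hg => hn g (h.hAQ hg)) (fun g hg => hn g (h.hSQ hg))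
    (fun g hg => hn g (Q.le_normalizer hg)) hne
  intro u hu v hv
  have h2 : u ^ q ∈ K := ⟨⟨u, hu⟩ ^ q, H1.Frat.pow_mem_frattini h.hQ ⟨u, hu⟩, rfl⟩
  exact mem_centralizer_iff.mp (h1 hv) _ h2

end Cfg

omit [Finite Γ] in
theorem cent_le_St {F : Type*} [Field F] {Z : Subgroup Γ} (χ : Z →* Fˣ) : centralizer (Z : Set Γ) ≤ St Z χ := by
  intro u hu
  have hcu := mem_centralizer_iff.mp hu
  refine ⟨Subgroup.centralizer_le_normalizer _ hu, ?_⟩
  ext z
  rw [cch_apply]
  congr 2
  apply Subtype.ext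
  simp only
  have := hcu z z.2
  rw [mul_assoc, this, inv_mul_cancel_left]

/-- simple eigenvalues -/
theorem simple_aux {Q : Subgroup Γ} {N : Subgroup Γ} {b : Γ} {t m : ℕ} (ht : t.Prime) (htm : t = 2 ^ m + 1) (hm : 1 ≤ m)
    (hbQ : b ∈ normalizer (Q : Set Γ)) (hcop : (Nat.card (zpowers b)).Coprime (Nat.card Q)) (hNQ : N ≤ Q)
    (hidx : N.relIndex ⁅Q, zpowers b⁆ = (t - 1) ^ 2) {K : Type*} [Field K] (c : K) (hc1 : c ≠ 1) (hct : c ^ t = 1)
    (E : (Q → K) → Prop) (hadd : ∀ f, E f → ∀ u v, f (u * v) = f u + f v) (hN : ∀ f, E f → ∀ u : Q, (u : Γ) ∈ N → f u = 0)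
    (hcf : ∀ f, E f → ∀ u v : Q, (v : Γ) = b⁻¹ * u * b → f v = c * f u)
    (hlin : ∀ f g, E f → E g → ∀ k l : K, E (k • f + l • g))
    (f g : Q → K) (hf : E f) (hg : E g) (hf0 : f ≠ 0) : ∃ k : K, g = k • f := by
  classical
  haveI := Fact.mk ht
  set P := ⁅Q, zpowers b⁆ with hP
  have hbQ' : zpowers b ≤ normalizer (Q : Set Γ) := by rw [zpowers_le]; exact hbQ
  have hPQ : P ≤ Q := commutator_le_left hbQ'
  have hbP : b ∈ normalizer (P : Set Γ) :=
    (le_normalizer_commutator hbQ' Subgroup.le_normalizer) (mem_zpowers b)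
  -- the key fact
  have hkey : ∀ f, E f → f ≠ 0 → ∀ u : Q, (u : Γ) ∈ P → (u : Γ) ∉ N → f u ≠ 0 := by
    intro f hf hf0
    let φ : Q →* Multiplicative K :=
      { toFun := fun u => Multiplicative.ofAdd (f u)
        map_one' := by
          have h1 := hadd f hf 1 1
          rw [mul_one] at h1
          have h2 : f 1 = 0 := by
            have : f 1 + 0 = f 1 + f 1 := by rw [add_zero]; exact h1
            exact (add_left_cancel this).symm
          rw [h2]; rfl
        map_mul' := by
          intro u v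
          rw [hadd f hf]; rfl }
    have hφ : ∀ u, u ∈ φ.ker ↔ f u = 0 := fun u => Iff.rfl
    set P' := P.subgroupOf Q with hP'
    set N' := N.subgroupOf Q with hN'
    have hN'ker : N' ≤ φ.ker := fun u hu => (hφ u).mpr (hN f hf u hu)
    have hidx' : N'.relIndex P' = (t - 1) ^ 2 := by
      rw [hN', hP', Subgroup.relIndex_subgroupOf hPQ, hidx]
    have hdvd : φ.ker.relIndex P' ∣ 2 ^ (2 * m) := by
      have h1 := Subgroup.relIndex_dvd_of_le_left P' hN'ker
      rw [hidx', htm, Nat.add_sub_cancel, ← pow_mul, mul_comm m 2] at h1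
      exact h1
    obtain ⟨j, hj, hjc⟩ := (Nat.dvd_prime_pow Nat.prime_two).mp hdvd
    have hcardA : Nat.card (P'.map φ) = 2 ^ j := by rw [← Subgroup.relIndex_ker, hjc]
    -- the image as an additive subgroup
    have hmod : 2 ^ j ≡ 1 [MOD t] := by
      let A : AddSubgroup K :=
        { carrier := {x | Multiplicative.ofAdd x ∈ P'.map φ}
          add_mem' := by
            intro x y hx hy
            exact (P'.map φ).mul_mem hx hy
          zero_mem' := (P'.map φ).one_mem
          neg_mem' := by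
            intro x hx
            exact (P'.map φ).inv_mem hx }
      have hAc : Nat.card A = 2 ^ j := by
        rw [← hcardA]
        exact Nat.card_congr
          { toFun := fun x => ⟨Multiplicative.ofAdd x.1, x.2⟩
            invFun := fun x => ⟨Multiplicative.toAdd x.1, x.2⟩
            left_inv := fun x => rfl
            right_inv := fun x => rfl }
      haveI : Finite A := Nat.finite_of_card_ne_zero (by rw [hAc]; positivity)
      have hc0 : c ≠ 0 := by
        rintro rfl
        rw [zero_pow ht.ne_zero] at hct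
        exact zero_ne_one hct
      have := H1.PQy.card_modEq (t := t) A (Units.mk0 c hc0) (by
        intro h1
        apply hc1
        have := congrArg Units.val h1
        simpa using this) (by
        apply Units.ext
        simpa using hct) (by
        rintro x ⟨u, hu, hux⟩
        have hu' : b⁻¹ * u * b ∈ P := conj_mem hbP hu
        refine ⟨⟨b⁻¹ * u * b, hPQ hu'⟩, hu', ?_⟩
        have h1 : f u = x := hux
        have h2 := hcf f hf u ⟨b⁻¹ * u * b, hPQ hu'⟩ rfl
        change Multiplicative.ofAdd (f _) = Multiplicative.ofAdd (c * x)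
        rw [h2, h1])
      rwa [hAc] at this
    have hj0 : j ≠ 0 := by
      rintro rfl
      apply hf0
      rw [pow_zero, Subgroup.relIndex_eq_one] at hjc
      have h1 := commutator_sup_centralizer (zpowers b) Q hbQ' hcop (Or.inl inferInstance)
      have h2 : Q ≤ φ.ker.map Q.subtype := by
        conv_lhs => rw [← h1]
        rw [sup_le_iff]
        constructor
        · intro u hu
          exact ⟨⟨u, hPQ hu⟩, hjc hu, rfl⟩
        · intro u hu
          refine ⟨⟨u, hu.1⟩, ?_, rfl⟩
          have h3 : b * u = u * b := mem_centralizer_iff.mp hu.2 b (mem_zpowers b)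
          have h4 := hcf f hf ⟨u, hu.1⟩ ⟨u, hu.1⟩ (by
            change u = b⁻¹ * u * b
            rw [mul_assoc, ← h3, inv_mul_cancel_left])
          rw [SetLike.mem_coe, hφ]
          have h5 : (c - 1) * f ⟨u, hu.1⟩ = 0 := by rw [sub_mul, one_mul, ← h4, sub_self]
          exact (mul_eq_zero.mp h5).resolve_left (sub_ne_zero.mpr hc1)
      ext u
      obtain ⟨v, hv, hvu⟩ := h2 u.2
      have : v = u := Subtype.ext hvu
      rw [← this]
      exact (hφ v).mp hv
    have hj2 := pow_dvd_lem htm hm ((Nat.pow_dvd_pow_iff_le_right (by norm_num)).mp (hjc ▸ hdvd)) hj0 hmod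
    intro u huP huN hu0
    have h1 : (N' ⊓ P').relIndex (φ.ker ⊓ P') * (φ.ker ⊓ P').relIndex P' = (N' ⊓ P').relIndex P' :=
      Subgroup.relIndex_mul_relIndex _ _ _ (inf_le_inf_right _ hN'ker) inf_le_right
    rw [Subgroup.inf_relIndex_right, Subgroup.inf_relIndex_right, hidx', hjc, hj2, htm, Nat.add_sub_cancel, ← pow_mul,
      mul_comm m 2] at h1
    have h2 : (N' ⊓ P').relIndex (φ.ker ⊓ P') = 1 := by
      have h3 : 0 < 2 ^ (2 * m) := by positivity
      exact Nat.eq_of_mul_eq_mul_right h3 (by rw [h1, one_mul])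
    rw [Subgroup.relIndex_eq_one] at h2
    have h3 : u ∈ N' ⊓ P' := h2 ⟨(hφ u).mpr hu0, huP⟩
    exact huN h3.1
  -- a point
  obtain ⟨u₀, hu₀P, hu₀N⟩ : ∃ u ∈ P, u ∉ N := by
    by_contra hcon
    push Not at hcon
    have h1 : N.relIndex P = 1 := Subgroup.relIndex_eq_one.mpr hcon
    rw [hidx, htm, Nat.add_sub_cancel, ← pow_mul] at h1
    have h2 : 1 < 2 ^ (m * 2) := Nat.one_lt_two_pow (by omega)
    omega
  set u : Q := ⟨u₀, hPQ hu₀P⟩ with hu
  have hfu := hkey f hf hf0 u hu₀P hu₀N
  refine ⟨g u / f u, ?_⟩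
  set k := f u • g + (-(g u)) • f with hk
  have hkE : E k := hlin g f hg hf _ _
  have hk0 : k u = 0 := by
    rw [hk, Pi.add_apply, Pi.smul_apply, Pi.smul_apply, smul_eq_mul, smul_eq_mul]
    ring
  have hk1 : k = 0 := by
    by_contra h1
    exact hkey k hkE h1 u hu₀P hu₀N hk0
  ext v
  have h2 := congrFun hk1 v
  rw [hk, Pi.add_apply, Pi.smul_apply, Pi.smul_apply, smul_eq_mul, smul_eq_mul, Pi.zero_apply] at h2
  rw [Pi.smul_apply, smul_eq_mul]
  field_simp
  linear_combination h2

end H1.PQ
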