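import Mathlib

/-!
# Products of permuting subgroups
-/

set_option autoImplicit false
open Pointwise

namespace H1.PermProd

variable {G : Type*} [Group G]

/-- the product of two permuting subgroups, as a subgroup -/
theorem exists_mul_eq (A B : Subgroup G) (h : (A : Set G) * (B : Set G) = (B : Set G) * (A : Set G)) :
    ∃ T : Subgroup G, (T : Set G) = (A : Set G) * (B : Set G) := by
  refine ⟨{ carrier := (A : Set G) * (B : Set G), mul_mem' := ?_, one_mem' := ?_, inv_mem' := ?_ }, rfl⟩
  · rintro x y hx hy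
    have : x * y ∈ ((A : Set G) * (B : Set G)) * ((A : Set G) * (B : Set G)) := Set.mul_mem_mul hx hy
    have h2 : ((A : Set G) * (B : Set G)) * ((A : Set G) * (B : Set G)) = (A : Set G) * (B : Set G) := by
      calc ((A : Set G) * (B : Set G)) * ((A : Set G) * (B : Set G))
          = (A : Set G) * ((B : Set G) * (A : Set G)) * (B : Set G) := by simp only [mul_assoc]
        _ = ((A : Set G) * (A : Set G)) * ((B : Set G) * (B : Set G)) := by
            rw [← h]; simp only [mul_assoc]
        _ = _ := by rw [coe_mul_coe, coe_mul_coe]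
    rw [h2] at this
    exact this
  · exact ⟨1, A.one_mem, 1, B.one_mem, one_mul 1⟩
  · rintro x hx
    obtain ⟨a, ha, b, hb, rfl⟩ := hx
    show (a * b)⁻¹ ∈ (A : Set G) * (B : Set G)
    rw [h, mul_inv_rev]
    exact Set.mul_mem_mul (B.inv_mem hb) (A.inv_mem ha)

theorem card_of_mul_eq [Finite G] {A B T : Subgroup G} (hT : (T : Set G) = (A : Set G) * (B : Set G))
    (hc : (Nat.card A).Coprime (Nat.card B)) : Nat.card T = Nat.card A * Nat.card B := by
  rw [← Nat.card_prod]
  have hmem : ∀ p : A × B, (p.1 : G) * p.2 ∈ T := by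
    intro p
    have : (p.1 : G) * p.2 ∈ (A : Set G) * (B : Set G) := Set.mul_mem_mul p.1.2 p.2.2
    rw [← hT] at this
    exact this
  refine (Nat.card_congr (Equiv.ofBijective (fun p : A × B => (⟨(p.1 : G) * p.2, hmem p⟩ : T)) ⟨?_, ?_⟩)).symm
  · have hd : A ⊓ B = ⊥ := (Subgroup.disjoint_of_coprime_natCard hc).eq_bot
    rintro ⟨a, b⟩ ⟨c, d⟩ h
    have h1 : (a : G) * b = c * d := congrArg Subtype.val h
    have h2 : (c : G)⁻¹ * a = d * (b : G)⁻¹ := by
      rw [eq_mul_inv_iff_mul_eq, mul_assoc, h1, inv_mul_cancel_left]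
    have h3 : (c : G)⁻¹ * a ∈ A ⊓ B := Subgroup.mem_inf.mpr
      ⟨A.mul_mem (A.inv_mem c.2) a.2, by rw [h2]; exact B.mul_mem d.2 (B.inv_mem b.2)⟩
    rw [hd, Subgroup.mem_bot] at h3
    have h4 : (a : G) = c := by
      rw [inv_mul_eq_one] at h3; exact h3.symm
    have h5 : (b : G) = d := by
      rw [h4] at h1; exact mul_left_cancel h1
    exact Prod.ext (Subtype.ext h4) (Subtype.ext h5)
  · rintro ⟨x, hx⟩
    have : x ∈ (A : Set G) * (B : Set G) := by rw [← hT]; exact hx
    obtain ⟨a, ha, b, hb, rfl⟩ := this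
    exact ⟨(⟨a, ha⟩, ⟨b, hb⟩), rfl⟩

/-- a product of pairwise permuting Sylow subgroups -/
theorem exists_prod_sylow [Finite G] (S : (p : Nat.Primes) → Sylow (p : ℕ) G)
    (hS : ∀ p q : Nat.Primes, (S p : Set G) * (S q : Set G) = (S q : Set G) * (S p : Set G))
    (s : Finset Nat.Primes) :
    ∃ T : Subgroup G, Nat.card T = ∏ q ∈ s, (q : ℕ) ^ (Nat.card G).factorization (q : ℕ) ∧
      ∀ r : Nat.Primes, (T : Set G) * (S r : Set G) = (S r : Set G) * (T : Set G) := by
  classical
  induction s using Finset.induction_on with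
  | empty =>
    refine ⟨⊥, by simp, fun r => ?_⟩
    rw [Subgroup.coe_bot, Set.singleton_one, one_mul, mul_one]
  | @insert q s hq ih =>
    obtain ⟨T, hT, hTc⟩ := ih
    obtain ⟨T', hT'⟩ := exists_mul_eq T (S q : Subgroup G) (hTc q)
    have : Fact (q : ℕ).Prime := ⟨q.2⟩
    refine ⟨T', ?_, ?_⟩
    · have hcS : Nat.card (S q) = (q : ℕ) ^ (Nat.card G).factorization (q : ℕ) :=
        (S q).card_eq_multiplicity
      have hcop : (Nat.card T).Coprime (Nat.card (S q : Subgroup G)) := by
        rw [hT]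
        show Nat.Coprime _ (Nat.card (S q))
        rw [hcS]
        refine Nat.Coprime.prod_left fun r hr => ?_
        refine Nat.Coprime.pow _ _ ?_
        rw [Nat.coprime_primes r.2 q.2]
        intro h
        exact hq ((Subtype.ext h : r = q) ▸ hr)
      have h1 := card_of_mul_eq hT' hcop
      rw [Finset.prod_insert hq, h1, hT, mul_comm]
      congr 1
    · intro r
      have e : ((S q : Subgroup G) : Set G) = (S q : Set G) := rfl
      calc (T' : Set G) * (S r : Set G) = (T : Set G) * ((S q : Set G) * (S r : Set G)) := by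
            rw [hT', mul_assoc, e]
        _ = ((T : Set G) * (S r : Set G)) * (S q : Set G) := by rw [hS q r, ← mul_assoc]
        _ = (S r : Set G) * ((T : Set G) * (S q : Set G)) := by rw [hTc r, mul_assoc]
        _ = _ := by rw [hT', e]

end H1.PermProd
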