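import Cfsg.Agent.Lib.H1.PQg

/-!
Fixed-point-free action of `S₃`: the configuration.
-/

set_option autoImplicit false

open Subgroup H1.Coprime2 H1.Coprime H1.StrLem H30.Wts
open scoped commutatorElement Pointwise

namespace H1.PQ

universe u

variable {Γ : Type u} [Group Γ] [Finite Γ]

theorem PQGrp.three {A C : Subgroup Γ} (h : PQGrp A C 3 2) {b : Γ} (hb : b ∈ A) (hbo : orderOf b = 2) :
    ∃ c, orderOf c = 3 ∧ C = zpowers c ∧ A = C ⊔ zpowers b ∧ b * c * b⁻¹ = c⁻¹ := by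
  classical
  have hbA : zpowers b ≤ A := by rw [zpowers_le]; exact hb
  have hbc : Nat.card (zpowers b) = 2 := by rw [Nat.card_zpowers, hbo]
  obtain ⟨b', hb'o, hbb', hAC, hconj⟩ := h.D_struct hbA hbc
  haveI : Fact (Nat.Prime 3) := ⟨Nat.prime_three⟩
  obtain ⟨c, hc⟩ := exists_prime_orderOf_dvd_card' (G := C) 3 (by rw [h.hC])
  have hco : orderOf (c : Γ) = 3 := by rw [Subgroup.orderOf_coe, hc]
  have hCc : C = zpowers (c : Γ) := by
    symm
    apply eq_of_le_card (by rw [zpowers_le]; exact c.2)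
    rw [Nat.card_zpowers, hco, h.hC]
  have hc1 : (c : Γ) ≠ 1 := by
    intro h1
    rw [h1, orderOf_one] at hco
    norm_num at hco
  refine ⟨c, hco, hCc, by rw [hAC, ← hbb'], ?_⟩
  have h1 : b * (c : Γ) * b⁻¹ ∈ zpowers (c : Γ) := by
    rw [← hCc]
    exact (Subgroup.mem_normalizer_iff.mp (h.hCn hb) _).mp c.2
  rw [← mem_powers_iff_mem_zpowers, mem_powers_iff_mem_range_orderOf, hco, Finset.mem_image] at h1
  obtain ⟨n, hn, hn2⟩ := h1
  rw [Finset.mem_range] at hn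
  interval_cases n
  · exfalso
    rw [pow_zero] at hn2
    apply hc1
    have h2 : b * (c : Γ) = b := by
      have := hn2.symm
      rw [mul_inv_eq_one] at this
      exact this
    simpa using h2
  · exfalso
    rw [pow_one] at hn2
    have h2 : (c : Γ) * b = b * c := by
      have := hn2.symm
      rw [mul_inv_eq_iff_eq_mul] at this
      exact this.symm
    have h3 := hconj c c.2 hc1
    have h4 : MulAut.conj (c : Γ) • (zpowers b) = zpowers b := by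
      apply H1.SZ.conj_smul_eq_of_mem_normalizer
      have h5 : (c : Γ) ∈ centralizer ((zpowers b : Subgroup Γ) : Set Γ) := by
        rw [mem_centralizer_iff]
        rintro _ ⟨n, rfl⟩
        have h6 : Commute (c : Γ) b := h2
        exact (h6.zpow_right n).symm
      exact Subgroup.centralizer_le_normalizer _ h5
    rw [h4, sup_idem] at h3
    have h5 := h.hA
    rw [h3, hbc] at h5
    norm_num at h5
  · have h2 : (c : Γ) ^ 3 = 1 := by rw [← hco]; exact pow_orderOf_eq_one _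
    rw [← hn2]
    symm
    rw [inv_eq_iff_mul_eq_one, ← pow_succ', h2]

/-- the trace lemma -/
theorem trace {A C : Subgroup Γ} {b c : Γ} (hAC : A = C ⊔ zpowers b) (hCc : C = zpowers c) (hc3 : c ^ 3 = 1)
    (hbc : b * c * b⁻¹ = c⁻¹) {S N : Subgroup Γ} (hAS : A ≤ normalizer (S : Set Γ)) (hcop : (Nat.card A).Coprime (Nat.card S))
    (hsolv : Group.IsSolvable S) (hfix : S ⊓ centralizer (A : Set Γ) = ⊥) (hNS : N ≤ S) (hSN : S ≤ normalizer (N : Set Γ))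
    (hAN : A ≤ normalizer (N : Set Γ)) (hab : ∀ u ∈ S, ∀ v ∈ S, u * v * u⁻¹ * v⁻¹ ∈ N) {x : Γ} (hx : x ∈ S)
    (hbx : b * x * b⁻¹ = x) : x * (c * x * c⁻¹) * (c⁻¹ * x * c) ∈ N := by
  have hbA : b ∈ A := by rw [hAC]; exact (le_sup_right : zpowers b ≤ _) (mem_zpowers b)
  have hcA : c ∈ A := by rw [hAC, hCc]; exact (le_sup_left : zpowers c ≤ _) (mem_zpowers c)
  have hx1 : c * x * c⁻¹ ∈ S := (Subgroup.mem_normalizer_iff.mp (hAS hcA) x).mp hx
  have hx2 : c⁻¹ * x * c ∈ S := conj_mem (hAS hcA) hx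
  set p := x * (c * x * c⁻¹) * (c⁻¹ * x * c) with hp
  have hpS : p ∈ S := mul_mem (mul_mem hx hx1) hx2
  have hcc : c * c = c⁻¹ := by
    rw [eq_inv_iff_mul_eq_one]
    rw [← hc3, pow_succ, pow_two]
  have hcc' : c⁻¹ * c⁻¹ = c := by
    have := congrArg (·⁻¹) hcc
    simpa [mul_inv_rev] using this
  have h1 : c * p * c⁻¹ * p⁻¹ ∈ N := by
    have e : c * p * c⁻¹ = (c * x * c⁻¹) * (c⁻¹ * x * c) * x := by
      have h2 : c * p * c⁻¹ = (c * x * c⁻¹) * ((c * c) * x * (c⁻¹ * c⁻¹)) * (c * c⁻¹ * x * (c * c⁻¹)) := by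
        rw [hp]; group
      rw [h2, hcc, hcc', mul_inv_cancel, one_mul, mul_one]
    rw [e]
    have e2 : (c * x * c⁻¹) * (c⁻¹ * x * c) * x * p⁻¹ =
        ((c * x * c⁻¹) * (c⁻¹ * x * c)) * x * ((c * x * c⁻¹) * (c⁻¹ * x * c))⁻¹ * x⁻¹ := by
      rw [hp]; group
    rw [e2]
    exact hab _ (mul_mem hx1 hx2) _ hx
  have h2 : b * p * b⁻¹ * p⁻¹ ∈ N := by
    have hb1 : b * (c * x * c⁻¹) * b⁻¹ = c⁻¹ * x * c := by
      have h3 : b * (c * x * c⁻¹) * b⁻¹ = (b * c * b⁻¹) * (b * x * b⁻¹) * (b * c * b⁻¹)⁻¹ := by group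
      rw [h3, hbc, hbx, inv_inv]
    have hb2 : b * (c⁻¹ * x * c) * b⁻¹ = c * x * c⁻¹ := by
      have h3 : b * (c⁻¹ * x * c) * b⁻¹ = (b * c * b⁻¹)⁻¹ * (b * x * b⁻¹) * (b * c * b⁻¹) := by group
      rw [h3, hbc, hbx, inv_inv]
    have e : b * p * b⁻¹ = x * (c⁻¹ * x * c) * (c * x * c⁻¹) := by
      have h3 : b * p * b⁻¹ = (b * x * b⁻¹) * (b * (c * x * c⁻¹) * b⁻¹) * (b * (c⁻¹ * x * c) * b⁻¹) := by
        rw [hp]; group
      rw [h3, hb1, hb2, hbx]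
    rw [e]
    have e2 : x * (c⁻¹ * x * c) * (c * x * c⁻¹) * p⁻¹ =
        x * ((c⁻¹ * x * c) * (c * x * c⁻¹) * (c⁻¹ * x * c)⁻¹ * (c * x * c⁻¹)⁻¹) * x⁻¹ := by
      rw [hp]
      generalize c⁻¹ * x * c = y
      generalize c * x * c⁻¹ = z
      group
    rw [e2]
    exact (Subgroup.mem_normalizer_iff.mp (hSN hx) _).mp (hab _ hx2 _ hx1)
  have h3 : A ≤ stabC N p := by
    rw [hAC, hCc, sup_le_iff, zpowers_le, zpowers_le]
    exact ⟨⟨hAN hcA, h1⟩, ⟨hAN hbA, h2⟩⟩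
  obtain ⟨d, hd, hdN⟩ := exists_fixed_of_coset_fixed A S hAS hcop (Or.inr hsolv) N hNS hSN hAN p hpS (fun a ha => (h3 ha).2)
  rw [hfix, Subgroup.mem_bot] at hd
  rw [hd, mul_one] at hdN
  have := N.inv_mem hdN
  rwa [inv_inv] at this

variable {F : Type*} [Field F] [IsAlgClosed F] {W : Type*} [AddCommGroup W] [Module F W] [FiniteDimensional F W]

structure Cfg3 (ρ : Γ →* Module.End F W) (A C S : Subgroup Γ) (s : ℕ) : Prop where
  grp : PQGrp A C 3 2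
  hs : s.Prime
  hs2 : s ≠ 2
  hs3 : s ≠ 3
  hS : IsPGroup s S
  hAS : A ≤ normalizer (S : Set Γ)
  hAF : (Nat.card A : F) ≠ 0
  hsF : (s : F) ≠ 0
  hfix : S ⊓ centralizer (A : Set Γ) = ⊥
  hW : ∀ w : W, (∀ a ∈ A, ρ a w = w) → w = 0
  faith : ∀ g ∈ S, ρ g = 1 → g = 1

namespace Cfg3

variable {ρ : Γ →* Module.End F W} {A C S : Subgroup Γ} {s : ℕ} (h : Cfg3 ρ A C S s)

include h

theorem cop : (Nat.card A).Coprime (Nat.card S) := by
  haveI := Fact.mk h.hs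
  obtain ⟨k, hk⟩ := IsPGroup.iff_card.mp h.hS
  rw [h.grp.hA, hk]
  apply Nat.Coprime.pow_right
  apply Nat.Coprime.mul_left
  · exact (Nat.coprime_primes Nat.prime_three h.hs).2 h.hs3.symm
  · exact (Nat.coprime_primes Nat.prime_two h.hs).2 h.hs2.symm

theorem solv : Group.IsSolvable S := by
  haveI := Fact.mk h.hs
  have := h.hS.isNilpotent; infer_instance

theorem cardF {Z : Subgroup Γ} (hZ : Z ≤ S) : (Nat.card Z : F) ≠ 0 := by
  haveI := Fact.mk h.hs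
  exact H1.StrLem.card_ne s h.hsF (h.hS.to_le hZ)

theorem comm_eq {K : Subgroup Γ} (hK : K ≤ S) (hAK : A ≤ normalizer (K : Set Γ)) : ⁅K, A⁆ = K := by
  have h1 := commutator_sup_centralizer A K hAK (h.cop.coprime_dvd_right (Subgroup.card_dvd_of_le hK))
    (Or.inr (isSolvable_of_le hK h.solv))
  have h2 : K ⊓ centralizer (A : Set Γ) = ⊥ := by
    rw [eq_bot_iff, ← h.hfix]
    exact inf_le_inf_right _ hK
  rwa [h2, sup_bot_eq] at h1

/-- an `A`-invariant character of an `A`-invariant subgroup of `S` is trivial. -/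
theorem char_eq_one {K : Subgroup Γ} (hK : K ≤ S) (hAK : A ≤ normalizer (K : Set Γ)) (χ : K →* Fˣ)
    (hχ : A ≤ St K χ) : χ = 1 := by
  have h1 : K ≤ kr K χ := by
    conv_lhs => rw [← h.comm_eq hK hAK]
    rw [Subgroup.commutator_le]
    intro k hk a ha
    obtain ⟨ha', ha''⟩ := hχ ha
    have hk' : a * k⁻¹ * a⁻¹ ∈ K := (Subgroup.mem_normalizer_iff.mp ha' _).mp (K.inv_mem hk)
    have e1 : ⁅k, a⁆ = k * (a * k⁻¹ * a⁻¹) := by rw [commutatorElement_def]; group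
    rw [e1, mem_kr]
    refine ⟨K.mul_mem hk hk', ?_⟩
    have h2 : (⟨k * (a * k⁻¹ * a⁻¹), K.mul_mem hk hk'⟩ : K) = ⟨k, hk⟩ * ⟨a * k⁻¹ * a⁻¹, hk'⟩ := rfl
    rw [h2, map_mul]
    have h3 := DFunLike.congr_fun ha'' ⟨a * k⁻¹ * a⁻¹, hk'⟩
    rw [cch_apply] at h3
    rw [← h3]
    have h4 : (⟨a⁻¹ * (a * k⁻¹ * a⁻¹) * a, conj_mem ha' hk'⟩ : K) = (⟨k, hk⟩ : K)⁻¹ := by
      apply Subtype.ext
      change a⁻¹ * (a * k⁻¹ * a⁻¹) * a = k⁻¹
      group
    rw [h4, map_inv, mul_inv_cancel]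
  ext k
  obtain ⟨_, h2⟩ := mem_kr.mp (h1 k.2)
  rw [h2]; rfl

omit [IsAlgClosed F] [FiniteDimensional F W] in
/-- roots of order prime to `s` -/
theorem mem_of_pow {K : Subgroup Γ} {x : Γ} (hx : x ∈ S) {n : ℕ} (hn : n.Coprime s) (hxn : x ^ n ∈ K) : x ∈ K := by
  obtain ⟨k, hk⟩ := h.hS ⟨x, hx⟩
  have hk' : x ^ s ^ k = 1 := congrArg Subtype.val hk
  exact H1.Fts.mem_of_pow_mem_of_coprime hxn (by rw [hk']; exact one_mem _) (Nat.Coprime.pow_right k hn)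

end Cfg3

end H1.PQ
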