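import Cfsg.Agent.Lib.H1.S3a

/-!
Fixed-point-free action of `S₃`: group theoretic lemmas.
-/

set_option autoImplicit false

open Subgroup H1.Coprime2 H1.Coprime H1.StrLem H30.Wts
open scoped commutatorElement Pointwise

namespace H1.PQ

universe u

variable {Γ : Type u} [Group Γ] [Finite Γ]

theorem le_of_sup_commutator {S K : Subgroup Γ} {s : ℕ} [hs : Fact s.Prime] (hS : IsPGroup s S) (hK : K ≤ S)
    (h : S ≤ K ⊔ ⁅S, S⁆) : S ≤ K := by
  have h1 : K.subgroupOf S ⊔ frattini S = ⊤ := by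
    haveI := hS.isNilpotent
    rw [eq_top_iff]
    refine le_trans ?_ (sup_le_sup_left (H1.Frat.commutator_le_frattini (G := S)) _)
    intro x _
    have h2 : (x : Γ) ∈ K ⊔ ⁅S, S⁆ := h x.2
    have h3 : (K.subgroupOf S ⊔ commutator S).map S.subtype = K ⊔ ⁅S, S⁆ := by
      rw [Subgroup.map_sup, Subgroup.map_subgroupOf_eq_of_le hK, commutator_def, Subgroup.map_commutator,
        ← MonoidHom.range_eq_map, Subgroup.range_subtype]
    rw [← h3] at h2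
    obtain ⟨y, hy, hyx⟩ := h2
    have : y = x := Subtype.ext hyx
    rwa [this] at hy
  have h2 := frattini_nongenerating h1
  rw [Subgroup.subgroupOf_eq_top] at h2
  exact h2

structure Dat (A C S : Subgroup Γ) (b c : Γ) (s : ℕ) : Prop where
  hs : s.Prime
  hs2 : s ≠ 2
  hs3 : s ≠ 3
  hS : IsPGroup s S
  hAC : A = C ⊔ zpowers b
  hCc : C = zpowers c
  hc3 : c ^ 3 = 1
  hb2 : b ^ 2 = 1
  hbc : b * c * b⁻¹ = c⁻¹
  hAS : A ≤ normalizer (S : Set Γ)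
  hcop : (Nat.card A).Coprime (Nat.card S)
  hfix : S ⊓ centralizer (A : Set Γ) = ⊥

namespace Dat

variable {A C S : Subgroup Γ} {b c : Γ} {s : ℕ} (h : Dat A C S b c s)

include h

omit [Finite Γ] in
theorem hbA : b ∈ A := by rw [h.hAC]; exact (le_sup_right : zpowers b ≤ _) (mem_zpowers b)

omit [Finite Γ] in
theorem hcA : c ∈ A := by rw [h.hAC, h.hCc]; exact (le_sup_left : zpowers c ≤ _) (mem_zpowers c)

omit [Finite Γ] in
theorem le_iff {K : Subgroup Γ} (hc : c ∈ K) (hb : b ∈ K) : A ≤ K := by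
  rw [h.hAC, h.hCc, sup_le_iff, zpowers_le, zpowers_le]; exact ⟨hc, hb⟩

theorem solv : Group.IsSolvable S := by
  haveI := Fact.mk h.hs
  have := h.hS.isNilpotent; infer_instance

omit [Finite Γ] in
theorem mem_of_pow {K : Subgroup Γ} {x : Γ} (hx : x ∈ S) {n : ℕ} (hn : n.Coprime s) (hxn : x ^ n ∈ K) : x ∈ K := by
  obtain ⟨k, hk⟩ := h.hS ⟨x, hx⟩
  have hk' : x ^ s ^ k = 1 := congrArg Subtype.val hk
  exact H1.Fts.mem_of_pow_mem_of_coprime hxn (by rw [hk']; exact one_mem _) (Nat.Coprime.pow_right k hn)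

/-- an element fixed modulo `N` lies in `N`. -/
theorem mem_of_fixed {K N : Subgroup Γ} (hKS : K ≤ S) (hAK : A ≤ normalizer (K : Set Γ)) (hNK : N ≤ K)
    (hKN : K ≤ normalizer (N : Set Γ)) (hAN : A ≤ normalizer (N : Set Γ)) {x : Γ} (hx : x ∈ K)
    (hcx : c * x * c⁻¹ * x⁻¹ ∈ N) (hbx : b * x * b⁻¹ * x⁻¹ ∈ N) : x ∈ N := by
  have h3 : A ≤ stabC N x := h.le_iff ⟨hAN h.hcA, hcx⟩ ⟨hAN h.hbA, hbx⟩
  obtain ⟨d, hd, hdN⟩ := exists_fixed_of_coset_fixed A K hAK (h.hcop.coprime_dvd_right (Subgroup.card_dvd_of_le hKS))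
    (Or.inr (isSolvable_of_le hKS h.solv)) N hNK hKN hAN x hx (fun a ha => (h3 ha).2)
  have hd1 : d = 1 := by
    have h4 : d ∈ S ⊓ centralizer (A : Set Γ) := ⟨hKS hd.1, hd.2⟩
    rwa [h.hfix, Subgroup.mem_bot] at h4
  rw [hd1, mul_one] at hdN
  have := N.inv_mem hdN
  rwa [inv_inv] at this

/-- decomposition with respect to `b` -/
theorem decomp {K L : Subgroup Γ} (hKS : K ≤ S) (hAK : A ≤ normalizer (K : Set Γ))
    (h1 : ∀ y ∈ K, y * b * y⁻¹ * b⁻¹ ∈ L) (h2 : ∀ x ∈ K, b * x * b⁻¹ = x → x ∈ L) : K ≤ L := by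
  have hbK : zpowers b ≤ normalizer (K : Set Γ) := by rw [zpowers_le]; exact hAK h.hbA
  have hcop : (Nat.card (zpowers b)).Coprime (Nat.card K) :=
    (h.hcop.coprime_dvd_left (Subgroup.card_dvd_of_le (by rw [zpowers_le]; exact h.hbA))).coprime_dvd_right
      (Subgroup.card_dvd_of_le hKS)
  have h3 := commutator_sup_centralizer (zpowers b) K hbK hcop (Or.inl inferInstance)
  rw [← h3, sup_le_iff]
  constructor
  · rw [Subgroup.commutator_le]
    intro y hy x hx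
    obtain ⟨n, rfl⟩ := mem_powers_iff_mem_zpowers.mpr hx
    rw [commutatorElement_def]
    simp only
    rcases Nat.even_or_odd' n with ⟨k, rfl | rfl⟩
    · rw [pow_mul, h.hb2, one_pow]; simp [one_mem]
    · rw [pow_add, pow_mul, h.hb2, one_pow, pow_one, one_mul]
      exact h1 y hy
  · intro x hx
    apply h2 x hx.1
    have h4 : b * x = x * b := mem_centralizer_iff.mp hx.2 b (mem_zpowers b)
    rw [h4, mul_inv_cancel_right]

/-- `C` acts trivially on `M / N₁`. -/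
theorem G1 {M N₁ : Subgroup Γ} (hMS : M ≤ S) (hAM : A ≤ normalizer (M : Set Γ)) (hSM : S ≤ normalizer (M : Set Γ))
    (hab : ∀ u ∈ M, ∀ v ∈ M, u * v = v * u) (hN : N₁ ≤ M) (hSN : S ≤ normalizer (N₁ : Set Γ))
    (hMN : M ≤ normalizer (N₁ : Set Γ)) (hc : c ∈ ka M N₁ hMN) : ∀ y ∈ S, ∀ m ∈ M, y * m * y⁻¹ * m⁻¹ ∈ N₁ := by
  classical
  haveI := Fact.mk h.hs
  have hbb : b * b = 1 := by rw [← pow_two]; exact h.hb2
  have hbi : b⁻¹ = b := inv_eq_of_mul_eq_one_left hbb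
  have hbM : b ∈ normalizer (M : Set Γ) := hAM h.hbA
  have hbS : b ∈ normalizer (S : Set Γ) := h.hAS h.hbA
  set N₂ := N₁ ⊓ MulAut.conj b • N₁ with hN₂
  have hN₂M : N₂ ≤ M := inf_le_left.trans hN
  have hmem : ∀ x, x ∈ N₂ ↔ x ∈ N₁ ∧ b⁻¹ * x * b ∈ N₁ := by
    intro x
    rw [hN₂, Subgroup.mem_inf, H1.SZ.mem_conj_smul]
  have hbN : b ∈ normalizer (N₂ : Set Γ) := by
    have key : ∀ x, x ∈ N₂ → b * x * b⁻¹ ∈ N₂ := by
      intro x hx
      rw [hmem] at hx ⊢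
      refine ⟨?_, ?_⟩
      · have := hx.2
        rw [hbi] at this ⊢
        exact this
      · have e : b⁻¹ * (b * x * b⁻¹) * b = x := by group
        rw [e]; exact hx.1
    rw [Subgroup.mem_normalizer_iff]
    intro x
    refine ⟨key x, fun hx => ?_⟩
    have := key _ hx
    have e : b * (b * x * b⁻¹) * b⁻¹ = (b * b) * x * (b * b)⁻¹ := by group
    rw [e, hbb, one_mul, inv_one, mul_one] at this
    exact this
  have hconjN : ∀ g, b⁻¹ * g * b ∈ normalizer (N₁ : Set Γ) → g ∈ normalizer (N₁ : Set Γ) → g ∈ normalizer (N₂ : Set Γ) := by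
    intro g hg1 hg2
    rw [Subgroup.mem_normalizer_iff]
    intro x
    rw [hmem, hmem, ← Subgroup.mem_normalizer_iff.mp hg2 x]
    have e : b⁻¹ * (g * x * g⁻¹) * b = (b⁻¹ * g * b) * (b⁻¹ * x * b) * (b⁻¹ * g * b)⁻¹ := by group
    rw [e, ← Subgroup.mem_normalizer_iff.mp hg1]
  have hbcb : b⁻¹ * c * b = c⁻¹ := by rw [← h.hbc, hbi]
  have hcN : c ∈ normalizer (N₂ : Set Γ) := hconjN c (by rw [hbcb]; exact inv_mem hc.2.1) hc.2.1
  have hAN : A ≤ normalizer (N₂ : Set Γ) := h.le_iff hcN hbN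
  have hSN₂ : S ≤ normalizer (N₂ : Set Γ) := fun y hy => hconjN y (hSN (conj_mem hbS hy)) (hSN hy)
  have hMN₂ : M ≤ normalizer (N₂ : Set Γ) := hMS.trans hSN₂
  have hcka : c ∈ ka M N₂ hMN₂ := by
    refine ⟨hAM h.hcA, hcN, fun m hm => ?_⟩
    rw [hmem]
    refine ⟨hc.2.2 m hm, ?_⟩
    have e : b⁻¹ * (c * m * c⁻¹ * m⁻¹) * b = (b⁻¹ * c * b) * (b⁻¹ * m * b) * (b⁻¹ * c * b)⁻¹ * (b⁻¹ * m * b)⁻¹ := by group
    rw [e, hbcb]
    exact (inv_mem hc).2.2 _ (conj_mem hbM hm)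
  have hCka : C ≤ ka M N₂ hMN₂ := by rw [h.hCc, zpowers_le]; exact hcka
  have hSC := commutator_le_ka hSM hSN₂ hCka
  set K₂ := S ⊓ ka M N₂ hMN₂ with hK₂
  have hK₂S : K₂ ≤ S := inf_le_left
  have hSK₂ : S ≤ normalizer (K₂ : Set Γ) := by
    apply H1.Coprime.le_normalizer_of_conj_mem
    intro y hy x hx
    exact ⟨S.mul_mem (S.mul_mem hy hx.1) (S.inv_mem hy), conj_mem_ka (hSM hy) (hSN₂ hy) hx.2⟩
  have hAK₂ : A ≤ normalizer (K₂ : Set Γ) := by
    apply H1.Coprime.le_normalizer_of_conj_mem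
    intro y hy x hx
    exact ⟨(Subgroup.mem_normalizer_iff.mp (h.hAS hy) x).mp hx.1, conj_mem_ka (hAM hy) (hAN hy) hx.2⟩
  -- b inverts M / N₂
  have hinv : ∀ m ∈ M, m * (b * m * b⁻¹) ∈ N₂ := by
    intro m hm
    have hm' : b * m * b⁻¹ ∈ M := (Subgroup.mem_normalizer_iff.mp hbM m).mp hm
    have hq := mul_mem hm hm'
    refine h.mem_of_fixed hMS hAM hN₂M hMN₂ hAN hq (hcka.2.2 _ hq) ?_
    have e : b * (m * (b * m * b⁻¹)) * b⁻¹ = (b * m * b⁻¹) * ((b * b) * m * (b * b)⁻¹) := by group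
    rw [e, hbb, one_mul, inv_one, mul_one, hab _ hm' _ hm, mul_inv_cancel]
    exact one_mem _
  -- elements inverted by b
  have hg : ∀ g ∈ S, b * g * b⁻¹ = g⁻¹ → g ∈ K₂ := by
    intro g hg hbg
    have h2 : g ^ 2 ∈ ka M N₂ hMN₂ := by
      refine ⟨pow_mem (hSM hg) 2, pow_mem (hSN₂ hg) 2, fun m hm => ?_⟩
      -- u = g m g⁻¹, v = g⁻¹ m g
      have hu : g * m * g⁻¹ ∈ M := (Subgroup.mem_normalizer_iff.mp (hSM hg) m).mp hm
      have hv : g⁻¹ * m * g ∈ M := conj_mem (hSM hg) hm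
      have h3 := hinv _ hu
      have e : b * (g * m * g⁻¹) * b⁻¹ = g⁻¹ * (b * m * b⁻¹) * g := by
        have : b * (g * m * g⁻¹) * b⁻¹ = (b * g * b⁻¹) * (b * m * b⁻¹) * (b * g * b⁻¹)⁻¹ := by group
        rw [this, hbg, inv_inv]
      rw [e] at h3
      have h4 : g⁻¹ * (m * (b * m * b⁻¹)) * g ∈ N₂ := conj_mem (hSN₂ hg) (hinv m hm)
      have h5 := mul_mem h3 (inv_mem h4)
      have e2 : g * m * g⁻¹ * (g⁻¹ * (b * m * b⁻¹) * g) * (g⁻¹ * (m * (b * m * b⁻¹)) * g)⁻¹ =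
          g * m * g⁻¹ * (g⁻¹ * m * g)⁻¹ := by group
      rw [e2] at h5
      have h6 := (Subgroup.mem_normalizer_iff.mp (hSN₂ hg) _).mp h5
      have e3 : g * (g * m * g⁻¹ * (g⁻¹ * m * g)⁻¹) * g⁻¹ = g ^ 2 * m * (g ^ 2)⁻¹ * m⁻¹ := by
        rw [pow_two]; group
      rwa [e3] at h6
    exact ⟨hg, h.mem_of_pow hg ((Nat.coprime_primes Nat.prime_two h.hs).2 h.hs2.symm) h2⟩
  have hSK : S ≤ K₂ := by
    refine h.decomp le_rfl h.hAS ?_ ?_
    · intro y hy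
      have hby : b * y⁻¹ * b⁻¹ ∈ S := (Subgroup.mem_normalizer_iff.mp hbS _).mp (inv_mem hy)
      have e : y * b * y⁻¹ * b⁻¹ = y * (b * y⁻¹ * b⁻¹) := by group
      rw [e]
      refine hg _ (mul_mem hy hby) ?_
      have e2 : b * (y * (b * y⁻¹ * b⁻¹)) * b⁻¹ = (b * y * b⁻¹) * ((b * b) * y⁻¹ * (b * b)⁻¹) := by group
      rw [e2, hbb, one_mul, inv_one, mul_one]
      group
    · intro x hx hbx
      refine h.mem_of_fixed le_rfl h.hAS hK₂S hSK₂ hAK₂ hx ?_ (by rw [hbx, mul_inv_cancel]; exact one_mem _)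
      have hcx : c * x * c⁻¹ ∈ S := (Subgroup.mem_normalizer_iff.mp (h.hAS h.hcA) x).mp hx
      refine ⟨S.mul_mem hcx (S.inv_mem hx), ?_⟩
      have h3 : ⁅c, x⁆ ∈ ⁅C, S⁆ := Subgroup.commutator_mem_commutator (by rw [h.hCc]; exact mem_zpowers c) hx
      rw [Subgroup.commutator_comm] at h3
      have h4 := hSC h3
      rwa [commutatorElement_def] at h4
  intro y hy m hm
  exact ((hmem _).mp ((hSK hy).2.2.2 m hm)).1

/-- `b` acts trivially on `M / N₁`. -/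
theorem G2 {M N₁ : Subgroup Γ} (hMS : M ≤ S) (hAM : A ≤ normalizer (M : Set Γ)) (hSM : S ≤ normalizer (M : Set Γ))
    (hab : ∀ u ∈ M, ∀ v ∈ M, u * v = v * u) (hN : N₁ ≤ M) (hSN : S ≤ normalizer (N₁ : Set Γ))
    (hMN : M ≤ normalizer (N₁ : Set Γ)) (hb : b ∈ ka M N₁ hMN) : ∀ y ∈ S, ∀ m ∈ M, y * m * y⁻¹ * m⁻¹ ∈ N₁ := by
  classical
  haveI := Fact.mk h.hs
  have hbb : b * b = 1 := by rw [← pow_two]; exact h.hb2
  have hbi : b⁻¹ = b := inv_eq_of_mul_eq_one_left hbb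
  have hbM : b ∈ normalizer (M : Set Γ) := hAM h.hbA
  have hbS : b ∈ normalizer (S : Set Γ) := h.hAS h.hbA
  have hcM : c ∈ normalizer (M : Set Γ) := hAM h.hcA
  have hcS : c ∈ normalizer (S : Set Γ) := h.hAS h.hcA
  have hMsolv : Group.IsSolvable M := isSolvable_of_le hMS h.solv
  have hcopM : (Nat.card A).Coprime (Nat.card M) := h.hcop.coprime_dvd_right (Subgroup.card_dvd_of_le hMS)
  have hfixM : M ⊓ centralizer (A : Set Γ) = ⊥ := by
    rw [eq_bot_iff, ← h.hfix]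
    exact inf_le_inf_right _ hMS
  have hbconj : ∀ x, b * x * b⁻¹ = x → b * (c * x * c⁻¹) * b⁻¹ = c⁻¹ * x * c := by
    intro x hbx
    have h3 : b * (c * x * c⁻¹) * b⁻¹ = (b * c * b⁻¹) * (b * x * b⁻¹) * (b * c * b⁻¹)⁻¹ := by group
    rw [h3, h.hbc, hbx, inv_inv]
  -- (*)
  have hstar : ∀ m ∈ M, b * m * b⁻¹ = m → m * (c * m * c⁻¹) * (c * m * c⁻¹) ∈ N₁ := by
    intro m hm hbm
    have h1 := trace h.hAC h.hCc h.hc3 h.hbc hAM hcopM hMsolv hfixM bot_le (by rw [normalizer_eq_top]; exact le_top)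
      (by rw [normalizer_eq_top]; exact le_top) (by
        intro u hu v hv
        rw [hab u hu v hv, Subgroup.mem_bot]; group) hm hbm
    rw [Subgroup.mem_bot] at h1
    have hcm : c * m * c⁻¹ ∈ M := (Subgroup.mem_normalizer_iff.mp hcM m).mp hm
    have hcm' : c⁻¹ * m * c ∈ M := conj_mem hcM hm
    have h2 := hb.2.2 _ hcm
    rw [hbconj m hbm] at h2
    generalize c * m * c⁻¹ = k at h1 h2 hcm ⊢
    generalize c⁻¹ * m * c = k' at h1 h2 hcm'
    have h3 : m * k = k'⁻¹ := mul_eq_one_iff_eq_inv.mp h1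
    have h4 : m * k * k = (k' * k⁻¹)⁻¹ := by
      rw [h3, mul_inv_rev, inv_inv]
      exact hab _ (inv_mem hcm') _ hcm
    rw [h4]
    exact inv_mem h2
  set K₁ := S ⊓ ka M N₁ hMN with hK₁
  have hK₁S : K₁ ≤ S := inf_le_left
  have hSK₁ : S ≤ normalizer (K₁ : Set Γ) := by
    apply H1.Coprime.le_normalizer_of_conj_mem
    intro y hy x hx
    exact ⟨S.mul_mem (S.mul_mem hy hx.1) (S.inv_mem hy), conj_mem_ka (hSM hy) (hSN hy) hx.2⟩
  have hbka : zpowers b ≤ ka M N₁ hMN := by rw [zpowers_le]; exact hb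
  have hSb := commutator_le_ka hSM hSN hbka
  have hSbK : ∀ y ∈ S, b * y * b⁻¹ * y⁻¹ ∈ K₁ := by
    intro y hy
    refine ⟨S.mul_mem ((Subgroup.mem_normalizer_iff.mp hbS y).mp hy) (S.inv_mem hy), ?_⟩
    have h3 : ⁅b, y⁆ ∈ ⁅zpowers b, S⁆ := Subgroup.commutator_mem_commutator (mem_zpowers b) hy
    rw [Subgroup.commutator_comm] at h3
    have h4 := hSb h3
    rwa [commutatorElement_def] at h4
  -- the action of `x` and `x ^ c` agree
  have hact : ∀ x ∈ S, b * x * b⁻¹ = x → x⁻¹ * (c * x * c⁻¹) ∈ K₁ := by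
    intro x hx hbx
    have hX : c * x * c⁻¹ ∈ S := (Subgroup.mem_normalizer_iff.mp hcS x).mp hx
    have hg : x⁻¹ * (c * x * c⁻¹) ∈ S := S.mul_mem (S.inv_mem hx) hX
    refine ⟨hg, hSM hg, hSN hg, ?_⟩
    set X := c * x * c⁻¹ with hXdef
    have hfixed : ∀ m ∈ M, b * m * b⁻¹ = m → (x⁻¹ * X) * m * (x⁻¹ * X)⁻¹ * m⁻¹ ∈ N₁ := by
      intro m hm hbm
      have hm' : x * m * x⁻¹ ∈ M := (Subgroup.mem_normalizer_iff.mp (hSM hx) m).mp hm
      have hXm : X * m * X⁻¹ ∈ M := (Subgroup.mem_normalizer_iff.mp (hSM hX) m).mp hm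
      have h1 := hstar (x * m * x⁻¹) hm' (by
        have : b * (x * m * x⁻¹) * b⁻¹ = (b * x * b⁻¹) * (b * m * b⁻¹) * (b * x * b⁻¹)⁻¹ := by group
        rw [this, hbx, hbm])
      have e1 : c * (x * m * x⁻¹) * c⁻¹ = X * (c * m * c⁻¹) * X⁻¹ := by rw [hXdef]; group
      rw [e1] at h1
      have h2 := (Subgroup.mem_normalizer_iff.mp (hSN hX) _).mp (hstar m hm hbm)
      have e2 : X * (m * (c * m * c⁻¹) * (c * m * c⁻¹)) * X⁻¹ =
          (X * m * X⁻¹) * (X * (c * m * c⁻¹) * X⁻¹) * (X * (c * m * c⁻¹) * X⁻¹) := by group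
      rw [e2] at h2
      have h3 := N₁.mul_mem h1 (N₁.inv_mem h2)
      have e3 : x * m * x⁻¹ * (X * (c * m * c⁻¹) * X⁻¹) * (X * (c * m * c⁻¹) * X⁻¹) *
          ((X * m * X⁻¹) * (X * (c * m * c⁻¹) * X⁻¹) * (X * (c * m * c⁻¹) * X⁻¹))⁻¹ = (x * m * x⁻¹) * (X * m * X⁻¹)⁻¹ := by
        group
      rw [e3] at h3
      have h4 : (X * m * X⁻¹) * (x * m * x⁻¹)⁻¹ ∈ N₁ := by
        have := N₁.inv_mem h3
        have e4 : ((x * m * x⁻¹) * (X * m * X⁻¹)⁻¹)⁻¹ = (X * m * X⁻¹) * (x * m * x⁻¹)⁻¹ := by group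
        rwa [e4] at this
      have h5 := conj_mem (hSN hx) h4
      have e5 : x⁻¹ * (X * m * X⁻¹ * (x * m * x⁻¹)⁻¹) * x = (x⁻¹ * X) * m * (x⁻¹ * X)⁻¹ * m⁻¹ := by group
      rwa [e5] at h5
    -- now all of M
    have hall : M ≤ stabC N₁ (x⁻¹ * X) := by
      refine h.decomp hMS hAM ?_ ?_
      · intro y hy
        have hyb : y * b * y⁻¹ * b⁻¹ ∈ N₁ := by
          have := N₁.inv_mem (hb.2.2 y hy)
          have e : (b * y * b⁻¹ * y⁻¹)⁻¹ = y * b * y⁻¹ * b⁻¹ := by group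
          rwa [e] at this
        refine ⟨N₁.le_normalizer hyb, ?_⟩
        generalize y * b * y⁻¹ * b⁻¹ = n at hyb ⊢
        have h3 := (Subgroup.mem_normalizer_iff.mp (hSN hg) _).mp (N₁.inv_mem hyb)
        have h4 := N₁.mul_mem hyb h3
        have e : n * ((x⁻¹ * X) * n⁻¹ * (x⁻¹ * X)⁻¹) = n * (x⁻¹ * X) * n⁻¹ * (x⁻¹ * X)⁻¹ := by group
        rwa [e] at h4
      · intro m hm hbm
        refine ⟨hMN hm, ?_⟩
        have h3 := N₁.inv_mem (hfixed m hm hbm)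
        have e : ((x⁻¹ * X) * m * (x⁻¹ * X)⁻¹ * m⁻¹)⁻¹ = m * (x⁻¹ * X) * m⁻¹ * (x⁻¹ * X)⁻¹ := by group
        rwa [e] at h3
    intro m hm
    have h3 := N₁.inv_mem (hall hm).2
    have e : (m * (x⁻¹ * X) * m⁻¹ * (x⁻¹ * X)⁻¹)⁻¹ = (x⁻¹ * X) * m * (x⁻¹ * X)⁻¹ * m⁻¹ := by group
    rwa [e] at h3
  -- cubes
  have hSKc : S ≤ K₁ ⊔ ⁅S, S⁆ := by
    refine h.decomp le_rfl h.hAS ?_ ?_
    · intro y hy
      apply (le_sup_left : K₁ ≤ _)
      have := K₁.inv_mem (hSbK y hy)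
      have e : (b * y * b⁻¹ * y⁻¹)⁻¹ = y * b * y⁻¹ * b⁻¹ := by group
      rwa [e] at this
    · intro x hx hbx
      have hX : c * x * c⁻¹ ∈ S := (Subgroup.mem_normalizer_iff.mp hcS x).mp hx
      have hp := trace h.hAC h.hCc h.hc3 h.hbc h.hAS h.hcop h.solv h.hfix (N := ⁅S, S⁆)
        (commutator_le_left S.le_normalizer) (le_normalizer_commutator_left S S)
        (le_normalizer_commutator h.hAS h.hAS) (fun u hu v hv => by
          rw [← commutatorElement_def]; exact Subgroup.commutator_mem_commutator hu hv) hx hbx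
      have h1 := hact x hx hbx
      have h2 := hSbK _ hX
      rw [hbconj x hbx] at h2
      set L := K₁ ⊔ ⁅S, S⁆ with hL
      have hp' := (le_sup_right : ⁅S, S⁆ ≤ L) hp
      have h1' := (le_sup_left : K₁ ≤ L) h1
      have h2' := (le_sup_left : K₁ ≤ L) h2
      have hLS : L ≤ S := sup_le hK₁S (commutator_le_left S.le_normalizer)
      have hSL : S ≤ normalizer (L : Set Γ) := le_normalizer_sup hSK₁ (le_normalizer_commutator_left S S)
      apply h.mem_of_pow hx (n := 3) ((Nat.coprime_primes Nat.prime_three h.hs).2 h.hs3.symm)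
      -- k = x⁻¹ X, k' = c⁻¹xc X⁻¹
      set X := c * x * c⁻¹ with hXd
      set X' := c⁻¹ * x * c with hX'd
      have e1 : X = x * (x⁻¹ * X) := by group
      have e2 : X' = (X' * X⁻¹) * (x * (x⁻¹ * X)) := by group
      generalize x⁻¹ * X = k at e1 e2 h1'
      generalize X' * X⁻¹ = k' at e2 h2'
      rw [e2, e1] at hp'
      -- x * (x k) * (k' * (x k)) ∈ L
      have h3 : x ^ 3 = (x * (x * k) * (k' * (x * k))) * k⁻¹ * (x⁻¹ * (k * k') * x)⁻¹ := by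
        rw [pow_succ, pow_two]; group
      rw [h3]
      exact L.mul_mem (L.mul_mem hp' (L.inv_mem h1')) (L.inv_mem (conj_mem (hSL hx) (L.mul_mem h1' h2')))
  have hSK := le_of_sup_commutator h.hS hK₁S hSKc
  intro y hy m hm
  exact (hSK hy).2.2.2 m hm

end Dat

end H1.PQ
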