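import Cfsg.Agent.Lib.H1.S3b

/-!
Fixed-point-free action of `S₃`: the configuration forces `S` to be abelian.
-/

set_option autoImplicit false

open Subgroup H1.Coprime2 H1.Coprime H1.StrLem H30.Wts
open scoped commutatorElement Pointwise

namespace H1.PQ

universe u

variable {Γ : Type u} [Group Γ] [Finite Γ] {F : Type*} [Field F] [IsAlgClosed F] {W : Type*} [AddCommGroup W] [Module F W]
  [FiniteDimensional F W]

section pairing

variable {Z S : Subgroup Γ} (hcomm : ∀ a ∈ S, ∀ b ∈ S, a * b * a⁻¹ * b⁻¹ ∈ Z) (χ : Z →* Fˣ)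

/-- the commutator pairing -/
def pr (u v : S) : Fˣ := χ ⟨u * v * (u : Γ)⁻¹ * (v : Γ)⁻¹, hcomm u u.2 v v.2⟩

omit [Finite Γ] [IsAlgClosed F] in
theorem pr_mul_right (hSZ : S ≤ centralizer (Z : Set Γ)) (u v v' : S) : pr hcomm χ u (v * v') = pr hcomm χ u v * pr hcomm χ u v' := by
  change χ _ = χ _ * χ _
  rw [← map_mul]
  congr 1
  apply Subtype.ext
  change (u : Γ) * (v * v') * (u : Γ)⁻¹ * ((v : Γ) * v')⁻¹ =
    (u * v * (u : Γ)⁻¹ * (v : Γ)⁻¹) * (u * v' * (u : Γ)⁻¹ * (v' : Γ)⁻¹)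
  have h1 : (v : Γ) * (u * v' * (u : Γ)⁻¹ * (v' : Γ)⁻¹) = (u * v' * (u : Γ)⁻¹ * (v' : Γ)⁻¹) * v :=
    (mem_centralizer_iff.mp (hSZ v.2) _ (hcomm u u.2 v' v'.2)).symm
  have h2 : (u : Γ) * (v * v') * (u : Γ)⁻¹ * ((v : Γ) * v')⁻¹ =
    (u * v * (u : Γ)⁻¹ * (v : Γ)⁻¹) * ((v : Γ) * (u * v' * (u : Γ)⁻¹ * (v' : Γ)⁻¹)) * (v : Γ)⁻¹ := by group
  rw [h2, h1]; group

omit [Finite Γ] [IsAlgClosed F] in
theorem pr_swap (u v : S) : pr hcomm χ v u = (pr hcomm χ u v)⁻¹ := by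
  change χ _ = (χ _)⁻¹
  rw [← map_inv]
  congr 1
  apply Subtype.ext
  change (v : Γ) * u * (v : Γ)⁻¹ * (u : Γ)⁻¹ = ((u : Γ) * v * (u : Γ)⁻¹ * (v : Γ)⁻¹)⁻¹
  group

omit [Finite Γ] [IsAlgClosed F] in
theorem pr_mul_left (hSZ : S ≤ centralizer (Z : Set Γ)) (u u' v : S) : pr hcomm χ (u * u') v = pr hcomm χ u v * pr hcomm χ u' v := by
  rw [pr_swap hcomm χ v, pr_mul_right hcomm χ hSZ, pr_swap hcomm χ v u, pr_swap hcomm χ v u', mul_inv]

omit [Finite Γ] [IsAlgClosed F] in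
theorem pr_of_mem {hSk : S ≤ normalizer (kr Z χ : Set Γ)} {n : Γ} (hn : n ∈ cmod S (kr Z χ) hSk) (hnS : n ∈ S) (v : S) :
    pr hcomm χ ⟨n, hnS⟩ v = 1 := by
  obtain ⟨h1, h2⟩ := mem_kr.mp ((mem_cmod.mp hn).2 v v.2)
  exact h2

omit [Finite Γ] [IsAlgClosed F] in
theorem pr_one_iff {u v : S} : pr hcomm χ u v = 1 ↔ (u : Γ) * v * (u : Γ)⁻¹ * (v : Γ)⁻¹ ∈ kr Z χ := by
  rw [mem_kr]
  constructor
  · intro h; exact ⟨hcomm u u.2 v v.2, h⟩
  · rintro ⟨_, h⟩; exact h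

end pairing

namespace Cfg3

variable {ρ : Γ →* Module.End F W} {A C S : Subgroup Γ} {s : ℕ} (h : Cfg3 ρ A C S s)

include h

/-- the data for a nontrivial proper subgroup of `A` -/
theorem exists_dat : ∃ b c : Γ, orderOf b = 2 ∧ Dat A C S b c s := by
  haveI : Fact (Nat.Prime 2) := ⟨Nat.prime_two⟩
  obtain ⟨b, hb⟩ := exists_prime_orderOf_dvd_card' (G := A) 2 (by rw [h.grp.hA]; exact dvd_mul_left _ _)
  have hbo : orderOf (b : Γ) = 2 := by rw [Subgroup.orderOf_coe, hb]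
  obtain ⟨c, hco, hCc, hAC, hbc⟩ := h.grp.three b.2 hbo
  exact ⟨b, c, hbo, h.hs, h.hs2, h.hs3, h.hS, hAC, hCc, by rw [← hco]; exact pow_orderOf_eq_one _,
    by rw [← hbo]; exact pow_orderOf_eq_one _, hbc, h.hAS, h.cop, h.hfix⟩

theorem dat_of {D : Subgroup Γ} (hD : D ≤ A) (hDt : Nat.card D = 2) :
    ∃ b c : Γ, D = zpowers b ∧ orderOf b = 2 ∧ Dat A C S b c s := by
  obtain ⟨b, hbo, hDb, hAC', _⟩ := h.grp.D_struct hD hDt
  obtain ⟨c, hco, hCc, hAC, hbc⟩ := h.grp.three (hD (by rw [hDb]; exact mem_zpowers b)) hbo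
  exact ⟨b, c, hDb, hbo, h.hs, h.hs2, h.hs3, h.hS, hAC, hCc, by rw [← hco]; exact pow_orderOf_eq_one _,
    by rw [← hbo]; exact pow_orderOf_eq_one _, hbc, h.hAS, h.cop, h.hfix⟩

/-- abelian normal subgroups are central -/
theorem central {M : Subgroup Γ} (hMS : M ≤ S) (hAM : A ≤ normalizer (M : Set Γ)) (hSM : S ≤ normalizer (M : Set Γ))
    (hab : ∀ u ∈ M, ∀ v ∈ M, u * v = v * u) : ∀ y ∈ S, ∀ m ∈ M, y * m = m * y := by
  classical
  by_contra hcon
  push Not at hcon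
  obtain ⟨y₀, hy₀, m₀, hm₀, hne₀⟩ := hcon
  have hz : y₀ * m₀ * y₀⁻¹ * m₀⁻¹ ∈ M := M.mul_mem ((Subgroup.mem_normalizer_iff.mp (hSM hy₀) _).mp hm₀) (M.inv_mem hm₀)
  have hz1 : y₀ * m₀ * y₀⁻¹ * m₀⁻¹ ≠ 1 := by
    intro h1
    rw [mul_inv_eq_one, mul_inv_eq_iff_eq_mul] at h1
    exact hne₀ h1
  have hQF := h.cardF hMS
  have hc : ∀ a ∈ commutator M, (ρ.comp M.subtype) a = 1 := by
    apply H1.ThmB.hcomm_of_ab
    intro a ha b hb
    rw [hab a ha b hb]; group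
  obtain ⟨χ, hχ, v, hv, hv0⟩ := exists_weight hQF (ρ.comp M.subtype) hc (a := ⟨_, hz⟩) (fun h1 => hz1 (h.faith _ (hMS hz) h1))
  have hχ1 : χ ≠ 1 := by rintro rfl; exact hχ rfl
  have hkQ : ∀ k ∈ S, k ∈ normalizer (M : Set Γ) := fun k hk => hSM hk
  have hcch : ∀ k (hk : k ∈ S), cch M k (hkQ k hk) χ ≠ 1 := by
    intro k hk h1
    apply hχ1
    ext a
    have hk' := (Subgroup.mem_normalizer_iff.mp (hkQ k hk) a).mp a.2
    have h2 := DFunLike.congr_fun h1 ⟨k * a * k⁻¹, hk'⟩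
    rw [cch_apply] at h2
    have e : (⟨k⁻¹ * (⟨k * a * k⁻¹, hk'⟩ : M) * k, conj_mem (hkQ k hk) hk'⟩ : M) = a := by
      apply Subtype.ext; simp only; group
    rw [e] at h2
    rw [h2]; rfl
  have hnot : ∀ k ∈ S, ∃ a ∈ A, k⁻¹ * a * k ∉ St M χ := by
    intro k hk
    by_contra hcon
    push Not at hcon
    exact hcch k hk (h.char_eq_one hMS hAM _ (fun a ha => (mem_St_cch (hkQ k hk)).mpr (hcon a ha)))
  have hne : ∀ k ∈ S, ∃ a ∈ A, a ≠ 1 ∧ k⁻¹ * a * k ∈ St M χ := by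
    intro k hk
    by_contra hcon
    push Not at hcon
    have h1 := fix_wt ρ A M hAM h.hAF hQF h.hW (cch M k (hkQ k hk) χ) (ρ k v) (map_wt ρ M k (hkQ k hk) hv) (by
      intro a ha ha'
      have h2 := (mem_St_cch (hkQ k hk)).mp ha'
      have h3 : a = 1 := by
        by_contra h4
        exact hcon a ha h4 h2
      rw [h3, map_one]; rfl)
    apply hv0
    have h2 : ρ k⁻¹ (ρ k v) = v := by
      rw [← Module.End.mul_apply, ← map_mul, inv_mul_cancel, map_one]; rfl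
    rw [← h2, h1, map_zero]
  have hE : ∀ x ∈ S, ∀ d ∈ A, d ∈ St M χ → x⁻¹ * d * x ∈ St M χ := fun x hx d hd hdU =>
    lemE A S (St M χ) h.hAS h.cop h.solv (fun D D' hD hD' h1 h2 h3 => h.grp.gen D D' hD hD' h1 h2 h3) hnot hne hx hd hdU
  set D : Subgroup Γ := A ⊓ St M χ with hD
  have hDA : D ≤ A := inf_le_left
  have hD1 : D ≠ ⊥ := by
    obtain ⟨a, ha, ha1, ha2⟩ := hne 1 (one_mem _)
    intro h1
    apply ha1
    have h2 : a ∈ D := ⟨ha, by simpa using ha2⟩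
    rwa [h1, Subgroup.mem_bot] at h2
  have hDne : D ≠ A := by
    obtain ⟨a, ha, ha2⟩ := hnot 1 (one_mem _)
    intro h1
    apply ha2
    have h2 : a ∈ D := by rw [h1]; exact ha
    simpa using h2.2
  let N : Subgroup Γ :=
    { carrier := {u | ∃ hu : u ∈ M, ∀ x (hx : x ∈ S), cch M x (hkQ x hx) χ ⟨u, hu⟩ = 1}
      one_mem' := ⟨one_mem _, fun x hx => map_one _⟩
      mul_mem' := by
        rintro a b ⟨ha, ha'⟩ ⟨hb, hb'⟩
        refine ⟨mul_mem ha hb, fun x hx => ?_⟩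
        have : (⟨a * b, mul_mem ha hb⟩ : M) = ⟨a, ha⟩ * ⟨b, hb⟩ := rfl
        rw [this, map_mul, ha' x hx, hb' x hx, one_mul]
      inv_mem' := by
        rintro a ⟨ha, ha'⟩
        refine ⟨inv_mem ha, fun x hx => ?_⟩
        have : (⟨a⁻¹, inv_mem ha⟩ : M) = (⟨a, ha⟩ : M)⁻¹ := rfl
        rw [this, map_inv, ha' x hx, inv_one] }
  have hmemN : ∀ u, u ∈ N ↔ ∃ hu : u ∈ M, ∀ x (hx : x ∈ S), cch M x (hkQ x hx) χ ⟨u, hu⟩ = 1 := fun u => Iff.rfl
  have hNM : N ≤ M := fun u hu => ((hmemN u).mp hu).1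
  have hacts : ∀ d ∈ D, ∀ u ∈ M, d * u * d⁻¹ * u⁻¹ ∈ N := by
    intro d hd u hu
    have hdQ := hAM (hDA hd)
    have hdu : d * u * d⁻¹ ∈ M := (Subgroup.mem_normalizer_iff.mp hdQ u).mp hu
    rw [hmemN]
    refine ⟨mul_mem hdu (inv_mem hu), fun x hx => ?_⟩
    have e : (⟨d * u * d⁻¹ * u⁻¹, mul_mem hdu (inv_mem hu)⟩ : M) = ⟨d * u * d⁻¹, hdu⟩ * (⟨u, hu⟩ : M)⁻¹ := rfl
    rw [e, map_mul, map_inv, mul_inv_eq_one]
    obtain ⟨h1, h2⟩ := (mem_St_cch (hkQ x hx)).mpr (hE x hx d (hDA hd) hd.2)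
    have h3 := DFunLike.congr_fun h2 ⟨d * u * d⁻¹, hdu⟩
    rw [← h3, cch_apply]
    congr 1
    apply Subtype.ext
    simp only
    group
  have hSN : S ≤ normalizer (N : Set Γ) := by
    intro y hy
    have h2 : MulAut.conj y • N ≤ N := by
      intro u hu
      obtain ⟨h3, h4⟩ := (hmemN _).mp (H1.SZ.mem_conj_smul.mp hu)
      have huQ : u ∈ M := by
        have := (Subgroup.mem_normalizer_iff.mp (hkQ y hy) _).mp h3
        have e : y * (y⁻¹ * u * y) * y⁻¹ = u := by group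
        rwa [e] at this
      refine (hmemN u).mpr ⟨huQ, fun x hx => ?_⟩
      have h5 := h4 (y⁻¹ * x) (mul_mem (inv_mem hy) hx)
      rw [cch_apply] at h5 ⊢
      rw [← h5]
      congr 1
      apply Subtype.ext
      simp only
      group
    exact H1.SZ.mem_normalizer_of_conj_smul_eq (Subgroup.eq_of_le_of_card_ge h2 (by rw [H1.SZ.card_conj_smul]))
  have hMN : M ≤ normalizer (N : Set Γ) := hMS.trans hSN
  have hDka : D ≤ ka M N hMN := fun d hd => ⟨hAM (hDA hd), le_normalizer_of_acts hNM hacts hd, hacts d hd⟩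
  have hfinal : ¬ (∀ y ∈ S, ∀ m ∈ M, y * m * y⁻¹ * m⁻¹ ∈ N) := by
    intro hcon
    obtain ⟨h3, h4⟩ := (hmemN _).mp (hcon y₀ hy₀ m₀ hm₀)
    apply hχ
    have h5 := h4 1 (one_mem _)
    rw [cch_apply] at h5
    rw [← h5]
    congr 1
    apply Subtype.ext
    simp only
    group
  apply hfinal
  rcases h.grp.cases_eq hDA hD1 hDne with hDC | hDt
  · obtain ⟨b, c, hbo, hdat⟩ := h.exists_dat
    refine hdat.G1 hMS hAM hSM hab hNM hSN hMN (hDka ?_)
    rw [hDC, hdat.hCc]; exact mem_zpowers c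
  · obtain ⟨b, c, hDb, hbo, hdat⟩ := h.dat_of hDA hDt
    refine hdat.G2 hMS hAM hSM hab hNM hSN hMN (hDka ?_)
    rw [hDb]; exact mem_zpowers b

theorem class_two : ∀ a ∈ S, ∀ b ∈ S, a * b * a⁻¹ * b⁻¹ ∈ S ⊓ centralizer (S : Set Γ) := by
  classical
  haveI := Fact.mk h.hs
  set Z := S ⊓ centralizer (S : Set Γ) with hZ
  have hnil := h.hS.isNilpotent
  obtain ⟨n, hn⟩ := (Subgroup.isNilpotent_iff_lowerCentralSeries S).mp hnil
  by_contra hcon
  have hex : ∃ k, S.lowerCentralSeries k ≤ Z := ⟨n, by rw [hn]; exact bot_le⟩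
  have hγS : ∀ k, S.lowerCentralSeries k ≤ S := by
    intro k
    have := Subgroup.lowerCentralSeries_antitone S (Nat.zero_le k)
    rwa [Subgroup.lowerCentralSeries_zero] at this
  have hγ1 : ¬ S.lowerCentralSeries 1 ≤ Z := by
    intro h1
    apply hcon
    intro a ha b hb
    apply h1
    rw [Subgroup.lowerCentralSeries_succ, Subgroup.lowerCentralSeries_zero, ← commutatorElement_def]
    exact Subgroup.commutator_mem_commutator ha hb
  set k := Nat.find hex with hk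
  have hkZ := Nat.find_spec hex
  have hk2 : 2 ≤ k := by
    by_contra hlt
    apply hγ1
    have h1 : k ≤ 1 := by omega
    exact (Subgroup.lowerCentralSeries_antitone S h1).trans hkZ
  obtain ⟨j, hj⟩ : ∃ j, k = j + 1 := ⟨k - 1, by omega⟩
  have hjZ : ¬ S.lowerCentralSeries j ≤ Z := Nat.find_min hex (by omega)
  have hkZ' : ⁅S.lowerCentralSeries j, S⁆ ≤ Z := by
    have := hkZ
    rw [← hk, hj, Subgroup.lowerCentralSeries_succ] at this
    exact this
  set M := S.lowerCentralSeries j with hM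
  have hMS : M ≤ S := hγS j
  have hnorm : ∀ i, A ≤ normalizer ((S.lowerCentralSeries i : Subgroup Γ) : Set Γ) := by
    intro i
    induction i with
    | zero => rw [Subgroup.lowerCentralSeries_zero]; exact h.hAS
    | succ i ih => rw [Subgroup.lowerCentralSeries_succ]; exact le_normalizer_commutator ih h.hAS
  have hnormS : ∀ i, S ≤ normalizer ((S.lowerCentralSeries i : Subgroup Γ) : Set Γ) := by
    intro i
    induction i with
    | zero => rw [Subgroup.lowerCentralSeries_zero]; exact S.le_normalizer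
    | succ i ih => rw [Subgroup.lowerCentralSeries_succ]; exact le_normalizer_commutator ih S.le_normalizer
  -- M centralizes [S, S]
  have hMSS : ⁅S, S⁆ ≤ centralizer (M : Set Γ) := by
    have h2 : ⁅⁅M, S⁆, S⁆ = ⊥ := by
      rw [eq_bot_iff]
      refine (Subgroup.commutator_mono hkZ' le_rfl).trans ?_
      rw [← eq_bot_iff, Subgroup.commutator_eq_bot_iff_le_centralizer]
      exact inf_le_right
    have h3 : ⁅⁅S, M⁆, S⁆ = ⊥ := by rw [Subgroup.commutator_comm S M]; exact h2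
    have h4 := Subgroup.commutator_commutator_eq_bot_of_rotate h3 h2
    exact Subgroup.commutator_eq_bot_iff_le_centralizer.1 h4
  have hMle : M ≤ ⁅S, S⁆ := by
    have h1 : 1 ≤ j := by omega
    have := Subgroup.lowerCentralSeries_antitone S h1
    rwa [Subgroup.lowerCentralSeries_succ, Subgroup.lowerCentralSeries_zero] at this
  have hab : ∀ u ∈ M, ∀ v ∈ M, u * v = v * u := by
    intro u hu v hv
    exact (mem_centralizer_iff.mp (hMSS (hMle hu)) v hv).symm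
  have hcent := h.central hMS (hnorm j) (hnormS j) hab
  apply hjZ
  intro m hm
  refine ⟨hMS hm, mem_centralizer_iff.2 ?_⟩
  intro y hy
  exact hcent y hy m hm

theorem abelian : ∀ u ∈ S, ∀ v ∈ S, u * v = v * u := by
  classical
  haveI := Fact.mk h.hs
  by_contra hcon
  push Not at hcon
  obtain ⟨a, ha, b₀, hb₀, hne₀⟩ := hcon
  have hcomm := h.class_two
  set Z := S ⊓ centralizer (S : Set Γ) with hZ
  have hZS : Z ≤ S := inf_le_left
  have hSZ : S ≤ centralizer (Z : Set Γ) := by rw [Subgroup.le_centralizer_iff]; exact inf_le_right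
  have hAZ : A ≤ normalizer (Z : Set Γ) := le_normalizer_inf h.hAS (le_normalizer_centralizer h.hAS)
  have hz1 : a * b₀ * a⁻¹ * b₀⁻¹ ≠ 1 := by
    intro h1
    rw [mul_inv_eq_one, mul_inv_eq_iff_eq_mul] at h1
    exact hne₀ h1
  have hZF := h.cardF hZS
  have hZc : ∀ c ∈ commutator Z, (ρ.comp Z.subtype) c = 1 := by
    apply H1.ThmB.hcomm_of_ab
    intro c hc d hd
    have h4 := mem_centralizer_iff.1 hd.2 c hc.1
    rw [h4]; group
  obtain ⟨χ, hχ, v, hv, hv0⟩ := exists_weight hZF (ρ.comp Z.subtype) hZc (a := ⟨_, hcomm a ha b₀ hb₀⟩)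
    (fun h1 => hz1 (h.faith _ (hZS (hcomm a ha b₀ hb₀)) h1))
  have hχ1 : χ ≠ 1 := by rintro rfl; exact hχ rfl
  set D : Subgroup Γ := A ⊓ St Z χ with hD
  have hDA : D ≤ A := inf_le_left
  have hDSt : D ≤ St Z χ := inf_le_right
  have hwt : wt (ρ.comp Z.subtype) χ ≠ ⊥ := fun h1 => hv0 ((Submodule.mem_bot F).1 (h1 ▸ hv))
  have hD1 : D ≠ ⊥ := by
    intro h1
    apply hv0
    refine fix_wt ρ A Z hAZ h.hAF hZF h.hW χ v hv (fun a ha ha' => ?_)
    have h2 : a ∈ D := ⟨ha, ha'⟩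
    rw [h1, Subgroup.mem_bot] at h2
    rw [h2, map_one]; rfl
  have hDne : D ≠ A := by
    intro h1
    exact hχ1 (h.char_eq_one hZS hAZ χ (by rw [← h1]; exact hDSt))
  have hpr := h.grp.card_prime hDA hD1 hDne
  haveI := Fact.mk hpr
  have hcard := h.grp.card_cases hDA hD1 hDne
  have hSk : S ≤ normalizer (kr Z χ : Set Γ) := le_normalizer_kr χ hSZ
  set N := cmod S (kr Z χ) hSk with hN
  have hNS : N ≤ S := cmod_le _ _ _
  have hSN : S ≤ normalizer (N : Set Γ) := fun u hu => le_normalizer_cmod _ _ _ u (S.le_normalizer hu) (hSk hu)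
  -- elements of D act trivially on S / N
  have hDN : ∀ x, D = zpowers x → x ∈ ka S N hSN := by
    intro x hDx
    have hxD : x ∈ D := by rw [hDx]; exact mem_zpowers x
    have hxo : orderOf x = Nat.card D := by rw [hDx, Nat.card_zpowers]
    have hxA : x ∈ A := hDA hxD
    have hdq : Nat.card D ≠ s := by
      rcases hcard with h1 | h1
      · rw [h1]; exact h.hs3.symm
      · rw [h1]; exact h.hs2.symm
    refine ⟨h.hAS hxA, le_normalizer_cmod _ _ _ x (h.hAS hxA) (St_le_normalizer_kr Z χ (hDSt hxD)), fun u hu => ?_⟩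
    rcases dich_wt ρ hdq h.hsF hxo S Z h.hS (h.hAS hxA) hZS hSZ hcomm χ (hDSt hxD) hwt 1 (one_pow _) (by
      intro w hw hxw
      rw [Units.val_one, one_smul] at hxw
      refine fix_wt ρ A Z hAZ h.hAF hZF h.hW χ w hw (fun a ha ha' => ?_)
      have h2 : a ∈ D := ⟨ha, ha'⟩
      rw [hDx] at h2
      have h3 : ∀ k : ℕ, ρ (x ^ k) w = w := by
        intro k
        induction k with
        | zero => rw [pow_zero, map_one]; rfl
        | succ k ih => rw [pow_succ, map_mul, Module.End.mul_apply, hxw, ih]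
      obtain ⟨n, rfl⟩ := mem_powers_iff_mem_zpowers.mpr h2
      exact h3 n) with hd | ⟨⟨m, hm, hdm⟩, -⟩
    · rw [hN, mem_cmod]
      exact ⟨mul_mem ((Subgroup.mem_normalizer_iff.mp (h.hAS hxA) u).mp hu) (inv_mem hu), fun v hv => hd u hu v hv⟩
    · exfalso
      have h5 : 5 ≤ s := by
        have := h.hs.two_le
        have h2 := h.hs2
        have h3 := h.hs3
        have h4 : s ≠ 4 := by
          rintro rfl
          exact absurd h.hs (by norm_num)
        omega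
      have h6 : s ≤ s ^ m := Nat.le_self_pow (by omega) s
      rcases hcard with h1 | h1 <;> rw [h1] at hdm <;> omega
  have hnek : a * b₀ * a⁻¹ * b₀⁻¹ ∉ kr Z χ := by
    intro h1
    obtain ⟨h2, h3⟩ := mem_kr.mp h1
    exact hχ h3
  have hZN : Z ≤ N := by
    intro z hz
    rw [hN, mem_cmod]
    refine ⟨hZS hz, fun w hw => ?_⟩
    have h6 := mem_centralizer_iff.mp (hSZ hw) _ hz
    have h7 : z * w * z⁻¹ * w⁻¹ = 1 := by rw [h6]; group
    rw [h7]; exact one_mem _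
  have hab' : ∀ u ∈ S, ∀ v ∈ S, u * v * u⁻¹ * v⁻¹ ∈ N := fun u hu v hv => hZN (hcomm u hu v hv)
  set e := pr hcomm χ with he
  have he_r := pr_mul_right hcomm χ hSZ
  have he_l := pr_mul_left hcomm χ hSZ
  have he_N : ∀ (n : Γ) (hn : n ∈ N) (v : S), e ⟨n, hNS hn⟩ v = 1 := fun n hn v => pr_of_mem hcomm χ hn (hNS hn) v
  have he_N' : ∀ (n : Γ) (hn : n ∈ N) (v : S), e v ⟨n, hNS hn⟩ = 1 := fun n hn v => by
    rw [he, pr_swap hcomm χ ⟨n, hNS hn⟩ v, ← he, he_N n hn v, inv_one]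
  -- congruence modulo N
  have he_c : ∀ (u u' v : S), (u : Γ) * (u' : Γ)⁻¹ ∈ N → e u v = e u' v := by
    intro u u' v huu
    have h1 : u = (⟨(u : Γ) * (u' : Γ)⁻¹, hNS huu⟩ : S) * u' := by apply Subtype.ext; simp
    rw [h1, he, he_l, ← he, he_N _ huu v, one_mul]
  have he_c' : ∀ (u v v' : S), (v : Γ) * (v' : Γ)⁻¹ ∈ N → e u v = e u v' := by
    intro u v v' hvv
    rw [he, pr_swap hcomm χ v u, pr_swap hcomm χ v' u, ← he, he_c v v' u hvv]
  rcases h.grp.cases_eq hDA hD1 hDne with hDC | hDt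
  · -- D = C
    obtain ⟨b, c, hbo, hdat⟩ := h.exists_dat
    have hbb : b * b = 1 := by rw [← pow_two]; exact hdat.hb2
    have hbi : b⁻¹ = b := inv_eq_of_mul_eq_one_left hbb
    have hcka := hDN c (by rw [hDC, hdat.hCc])
    have hbS : b ∈ normalizer (S : Set Γ) := h.hAS hdat.hbA
    have hcS : c ∈ normalizer (S : Set Γ) := h.hAS hdat.hcA
    -- apply G1-like argument to S / (N ⊓ N ^ b)
    set N₂ := N ⊓ MulAut.conj b • N with hN₂
    have hN₂S : N₂ ≤ S := inf_le_left.trans hNS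
    have hmem : ∀ x, x ∈ N₂ ↔ x ∈ N ∧ b⁻¹ * x * b ∈ N := by
      intro x
      rw [hN₂, Subgroup.mem_inf, H1.SZ.mem_conj_smul]
    have hbN : b ∈ normalizer (N₂ : Set Γ) := by
      have key : ∀ x, x ∈ N₂ → b * x * b⁻¹ ∈ N₂ := by
        intro x hx
        rw [hmem] at hx ⊢
        refine ⟨?_, ?_⟩
        · have := hx.2
          rw [hbi] at this ⊢
          exact this
        · have e : b⁻¹ * (b * x * b⁻¹) * b = x := by group
          rw [e]; exact hx.1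
      rw [Subgroup.mem_normalizer_iff]
      intro x
      refine ⟨key x, fun hx => ?_⟩
      have := key _ hx
      have e : b * (b * x * b⁻¹) * b⁻¹ = (b * b) * x * (b * b)⁻¹ := by group
      rw [e, hbb, one_mul, inv_one, mul_one] at this
      exact this
    have hconjN : ∀ g, b⁻¹ * g * b ∈ normalizer (N : Set Γ) → g ∈ normalizer (N : Set Γ) → g ∈ normalizer (N₂ : Set Γ) := by
      intro g hg1 hg2
      rw [Subgroup.mem_normalizer_iff]
      intro x
      rw [hmem, hmem, ← Subgroup.mem_normalizer_iff.mp hg2 x]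
      have e : b⁻¹ * (g * x * g⁻¹) * b = (b⁻¹ * g * b) * (b⁻¹ * x * b) * (b⁻¹ * g * b)⁻¹ := by group
      rw [e, ← Subgroup.mem_normalizer_iff.mp hg1]
    have hbcb : b⁻¹ * c * b = c⁻¹ := by rw [← hdat.hbc, hbi]
    have hcN : c ∈ normalizer (N₂ : Set Γ) := hconjN c (by rw [hbcb]; exact inv_mem hcka.2.1) hcka.2.1
    have hAN : A ≤ normalizer (N₂ : Set Γ) := hdat.le_iff hcN hbN
    have hSN₂ : S ≤ normalizer (N₂ : Set Γ) := fun y hy => hconjN y (hSN (conj_mem hbS hy)) (hSN hy)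
    have hinv : ∀ m ∈ S, m * (b * m * b⁻¹) ∈ N := by
      intro m hm
      have hm' : b * m * b⁻¹ ∈ S := (Subgroup.mem_normalizer_iff.mp hbS m).mp hm
      have hq := mul_mem hm hm'
      have h1 : m * (b * m * b⁻¹) ∈ N₂ := by
        refine hdat.mem_of_fixed le_rfl h.hAS hN₂S hSN₂ hAN hq ?_ ?_
        · rw [hmem]
          refine ⟨hcka.2.2 _ hq, ?_⟩
          generalize m * (b * m * b⁻¹) = w at hq ⊢
          have e : b⁻¹ * (c * w * c⁻¹ * w⁻¹) * b = (b⁻¹ * c * b) * (b⁻¹ * w * b) * (b⁻¹ * c * b)⁻¹ * (b⁻¹ * w * b)⁻¹ := by group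
          rw [e, hbcb]
          exact (inv_mem hcka).2.2 _ (conj_mem hbS hq)
        · have e : b * (m * (b * m * b⁻¹)) * b⁻¹ * (m * (b * m * b⁻¹))⁻¹ =
              (b * m * b⁻¹) * ((b * b) * m * (b * b)⁻¹) * (b * m * b⁻¹)⁻¹ * m⁻¹ := by group
          rw [e, hbb, one_mul, inv_one, mul_one]
          have h3 := hab' _ hm' _ hm
          have h4 := hcomm _ hm' _ hm
          rw [hmem]
          refine ⟨h3, hZN ?_⟩
          exact conj_mem (hAZ hdat.hbA) h4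
      exact ((hmem _).mp h1).1
    -- χ restricted to [S, S] is A-invariant
    have hKS : ⁅S, S⁆ ≤ S := commutator_le_left S.le_normalizer
    have hKZ : ⁅S, S⁆ ≤ Z := by
      rw [Subgroup.commutator_le]
      intro u hu v hv
      rw [commutatorElement_def]
      exact hcomm u hu v hv
    have hAK : A ≤ normalizer ((⁅S, S⁆ : Subgroup Γ) : Set Γ) := le_normalizer_commutator h.hAS h.hAS
    let χK : (⁅S, S⁆ : Subgroup Γ) →* Fˣ := χ.comp (Subgroup.inclusion hKZ)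
    have hA' : A ≤ St ⁅S, S⁆ χK := by
      apply hdat.le_iff
      · have hcD : c ∈ D := by rw [hDC, hdat.hCc]; exact mem_zpowers c
        obtain ⟨h1, h2⟩ := hDSt hcD
        refine ⟨hAK hdat.hcA, ?_⟩
        ext z
        exact congrArg Units.val (DFunLike.congr_fun h2 ⟨z, hKZ z.2⟩)
      · refine ⟨hAK hdat.hbA, ?_⟩
        -- subgroup of elements on which the two characters agree
        have h1 : (⊤ : Subgroup (⁅S, S⁆ : Subgroup Γ)) ≤ (cch ⁅S, S⁆ b (hAK hdat.hbA) χK).eqLocus χK := by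
          have h2 : ⁅S, S⁆ ≤ ((cch ⁅S, S⁆ b (hAK hdat.hbA) χK).eqLocus χK).map (⁅S, S⁆ : Subgroup Γ).subtype := by
            rw [Subgroup.commutator_le]
            intro u hu v hv
            refine ⟨⟨⁅u, v⁆, Subgroup.commutator_mem_commutator hu hv⟩, ?_, rfl⟩
            change cch ⁅S, S⁆ b (hAK hdat.hbA) χK _ = χK _
            rw [cch_apply]
            have hbu : b * u * b⁻¹ ∈ S := (Subgroup.mem_normalizer_iff.mp hbS u).mp hu
            have hbv : b * v * b⁻¹ ∈ S := (Subgroup.mem_normalizer_iff.mp hbS v).mp hv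
            have h3 : e ⟨b * u * b⁻¹, hbu⟩ ⟨b * v * b⁻¹, hbv⟩ = e ⟨u, hu⟩ ⟨v, hv⟩ := by
              have h4 : ∀ w : S, e ⟨b * u * b⁻¹, hbu⟩ w = (e ⟨u, hu⟩ w)⁻¹ := by
                intro w
                rw [eq_inv_iff_mul_eq_one, mul_comm]
                have h5 := he_N _ (hinv u hu) w
                have h6 : (⟨u * (b * u * b⁻¹), hNS (hinv u hu)⟩ : S) = ⟨u, hu⟩ * ⟨b * u * b⁻¹, hbu⟩ := rfl
                rw [h6, he, he_l] at h5
                exact h5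
              have h4' : ∀ w : S, e w ⟨b * v * b⁻¹, hbv⟩ = (e w ⟨v, hv⟩)⁻¹ := by
                intro w
                rw [eq_inv_iff_mul_eq_one, mul_comm]
                have h5 := he_N' _ (hinv v hv) w
                have h6 : (⟨v * (b * v * b⁻¹), hNS (hinv v hv)⟩ : S) = ⟨v, hv⟩ * ⟨b * v * b⁻¹, hbv⟩ := rfl
                rw [h6, he, he_r] at h5
                exact h5
              rw [h4, h4', inv_inv]
            have h7 : χK ⟨b⁻¹ * ⁅u, v⁆ * b, conj_mem (hAK hdat.hbA) (Subgroup.commutator_mem_commutator hu hv)⟩ =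
                e ⟨b * u * b⁻¹, hbu⟩ ⟨b * v * b⁻¹, hbv⟩ := by
              change χ _ = χ _
              congr 1
              apply Subtype.ext
              change b⁻¹ * ⁅u, v⁆ * b = (b * u * b⁻¹) * (b * v * b⁻¹) * (b * u * b⁻¹)⁻¹ * (b * v * b⁻¹)⁻¹
              have e1 : (b * u * b⁻¹) * (b * v * b⁻¹) * (b * u * b⁻¹)⁻¹ * (b * v * b⁻¹)⁻¹ = b * (u * v * u⁻¹ * v⁻¹) * b⁻¹ := by
                group
              rw [commutatorElement_def, e1, hbi]
            rw [h7, h3]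
            rfl
          intro z _
          obtain ⟨y, hy, hyz⟩ := h2 z.2
          have : y = z := Subtype.ext hyz
          rwa [this] at hy
        ext z
        exact congrArg Units.val (h1 (mem_top z))
    have h1 := h.char_eq_one hKS hAK χK hA'
    apply hχ
    have h2 : (a * b₀ * a⁻¹ * b₀⁻¹) ∈ ⁅S, S⁆ := by
      rw [← commutatorElement_def]; exact Subgroup.commutator_mem_commutator ha hb₀
    exact DFunLike.congr_fun h1 ⟨_, h2⟩
  · -- D = ⟨b⟩
    obtain ⟨b, c, hDb, hbo, hdat⟩ := h.dat_of hDA hDt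
    have hbka := hDN b hDb
    have hbS : b ∈ normalizer (S : Set Γ) := h.hAS hdat.hbA
    have hcS : c ∈ normalizer (S : Set Γ) := h.hAS hdat.hcA
    have hbconj : ∀ x, b * x * b⁻¹ = x → b * (c * x * c⁻¹) * b⁻¹ = c⁻¹ * x * c := by
      intro x hbx
      have h3 : b * (c * x * c⁻¹) * b⁻¹ = (b * c * b⁻¹) * (b * x * b⁻¹) * (b * c * b⁻¹)⁻¹ := by group
      rw [h3, hdat.hbc, hbx, inv_inv]
    have hKS : ⁅S, S⁆ ≤ S := commutator_le_left S.le_normalizer
    have hKZ : ⁅S, S⁆ ≤ Z := by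
      rw [Subgroup.commutator_le]
      intro u hu v hv
      rw [commutatorElement_def]
      exact hcomm u hu v hv
    -- step (i)
    have hstep : ∀ x (hx : x ∈ S), b * x * b⁻¹ = x → ∀ (hX : c * x * c⁻¹ ∈ S) (v : S),
        e ⟨x, hx⟩ v * e ⟨c * x * c⁻¹, hX⟩ v * e ⟨c * x * c⁻¹, hX⟩ v = 1 := by
      intro x hx hbx hX v
      have hp := trace hdat.hAC hdat.hCc hdat.hc3 hdat.hbc h.hAS h.cop h.solv h.hfix (N := ⁅S, S⁆)
        hKS (le_normalizer_commutator_left S S)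
        (le_normalizer_commutator h.hAS h.hAS) (fun u hu v hv => by
          rw [← commutatorElement_def]; exact Subgroup.commutator_mem_commutator hu hv) hx hbx
      have hX' : c⁻¹ * x * c ∈ S := conj_mem hcS hx
      have h1 := he_N _ (hZN (hKZ hp)) v
      have h2 : (⟨x * (c * x * c⁻¹) * (c⁻¹ * x * c), hNS (hZN (hKZ hp))⟩ : S) = ⟨x, hx⟩ * ⟨c * x * c⁻¹, hX⟩ * ⟨c⁻¹ * x * c, hX'⟩ := rfl
      rw [h2, he, he_l, he_l, ← he] at h1
      have h3 : e ⟨c⁻¹ * x * c, hX'⟩ v = e ⟨c * x * c⁻¹, hX⟩ v := by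
        apply he_c
        change (c⁻¹ * x * c) * (c * x * c⁻¹)⁻¹ ∈ N
        have := hbka.2.2 _ hX
        rwa [hbconj x hbx] at this
      rw [h3] at h1
      exact h1
    have hfixed : ∀ x (hx : x ∈ S) y (hy : y ∈ S), b * x * b⁻¹ = x → b * y * b⁻¹ = y → e ⟨x, hx⟩ ⟨y, hy⟩ = 1 := by
      intro x hx y hy hbx hby
      have hX : c * x * c⁻¹ ∈ S := (Subgroup.mem_normalizer_iff.mp hcS x).mp hx
      have hY : c * y * c⁻¹ ∈ S := (Subgroup.mem_normalizer_iff.mp hcS y).mp hy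
      have h1 := hstep x hx hbx hX ⟨y, hy⟩
      have h2 := hstep y hy hby hY ⟨c * x * c⁻¹, hX⟩
      rw [he, pr_swap hcomm χ ⟨c * x * c⁻¹, hX⟩ ⟨y, hy⟩, pr_swap hcomm χ ⟨c * x * c⁻¹, hX⟩ ⟨c * y * c⁻¹, hY⟩, ← he] at h2
      -- z = [x, y]
      have hz := hcomm x hx y hy
      have hZZ : ∀ u ∈ Z, ∀ v ∈ Z, u * v * u⁻¹ * v⁻¹ ∈ (⊥ : Subgroup Γ) := by
        intro u hu v hv
        rw [Subgroup.mem_bot, mem_centralizer_iff.mp (hSZ (hZS hv)) u hu]; group
      have hzb : b * (x * y * x⁻¹ * y⁻¹) * b⁻¹ = x * y * x⁻¹ * y⁻¹ := by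
        have e1 : b * (x * y * x⁻¹ * y⁻¹) * b⁻¹ = (b * x * b⁻¹) * (b * y * b⁻¹) * (b * x * b⁻¹)⁻¹ * (b * y * b⁻¹)⁻¹ := by group
        rw [e1, hbx, hby]
      have hZfix : Z ⊓ centralizer (A : Set Γ) = ⊥ := by
        rw [eq_bot_iff, ← h.hfix]
        exact inf_le_inf_right _ hZS
      have h3 := trace hdat.hAC hdat.hCc hdat.hc3 hdat.hbc hAZ (h.cop.coprime_dvd_right (Subgroup.card_dvd_of_le hZS))
        (isSolvable_of_le hZS h.solv) hZfix bot_le (by rw [normalizer_eq_top]; exact le_top)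
        (by rw [normalizer_eq_top]; exact le_top) hZZ hz hzb
      rw [Subgroup.mem_bot] at h3
      have hzc : c * (x * y * x⁻¹ * y⁻¹) * c⁻¹ ∈ Z := (Subgroup.mem_normalizer_iff.mp (hAZ hdat.hcA) _).mp hz
      have hzc' : c⁻¹ * (x * y * x⁻¹ * y⁻¹) * c ∈ Z := conj_mem (hAZ hdat.hcA) hz
      have h4 : χ ⟨x * y * x⁻¹ * y⁻¹, hz⟩ * χ ⟨c * (x * y * x⁻¹ * y⁻¹) * c⁻¹, hzc⟩ * χ ⟨c⁻¹ * (x * y * x⁻¹ * y⁻¹) * c, hzc'⟩ = 1 := by
        rw [← map_mul, ← map_mul]
        have h5 : (⟨x * y * x⁻¹ * y⁻¹, hz⟩ * ⟨c * (x * y * x⁻¹ * y⁻¹) * c⁻¹, hzc⟩ * ⟨c⁻¹ * (x * y * x⁻¹ * y⁻¹) * c, hzc'⟩ : Z) = 1 :=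
          Subtype.ext h3
        rw [h5, map_one]
      have h5 : χ ⟨c⁻¹ * (x * y * x⁻¹ * y⁻¹) * c, hzc'⟩ = χ ⟨c * (x * y * x⁻¹ * y⁻¹) * c⁻¹, hzc⟩ := by
        have hbD : b ∈ D := by rw [hDb]; exact mem_zpowers b
        obtain ⟨h6, h7⟩ := hDSt hbD
        have h8 := DFunLike.congr_fun h7 ⟨c⁻¹ * (x * y * x⁻¹ * y⁻¹) * c, hzc'⟩
        rw [← h8, cch_apply]
        congr 1
        apply Subtype.ext
        simp only
        rw [← hbconj _ hzb]
        group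
      have h6 : χ ⟨c * (x * y * x⁻¹ * y⁻¹) * c⁻¹, hzc⟩ = e ⟨c * x * c⁻¹, hX⟩ ⟨c * y * c⁻¹, hY⟩ := by
        change χ _ = χ _
        congr 1
        apply Subtype.ext
        change c * (x * y * x⁻¹ * y⁻¹) * c⁻¹ = (c * x * c⁻¹) * (c * y * c⁻¹) * (c * x * c⁻¹)⁻¹ * (c * y * c⁻¹)⁻¹
        group
      rw [h5, h6] at h4
      have h7 : χ ⟨x * y * x⁻¹ * y⁻¹, hz⟩ = e ⟨x, hx⟩ ⟨y, hy⟩ := rfl
      rw [h7] at h4
      -- now compute
      set P := e ⟨c * x * c⁻¹, hX⟩ ⟨c * y * c⁻¹, hY⟩ with hP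
      set R := e ⟨c * x * c⁻¹, hX⟩ ⟨y, hy⟩ with hR
      set T := e ⟨x, hx⟩ ⟨y, hy⟩ with hT
      -- h1 : T R R = 1, h2 : R⁻¹ P⁻¹ P⁻¹ = 1, h4 : T P P = 1
      have h8 : R = P⁻¹ * P⁻¹ := by
        have : R⁻¹ * (P⁻¹ * P⁻¹) = 1 := by rw [← mul_assoc]; exact h2
        exact (inv_mul_eq_one.mp this)
      have h9 : T = P ^ 4 := by
        rw [h8] at h1
        have : T * (P⁻¹ * P⁻¹ * (P⁻¹ * P⁻¹)) = 1 := by rw [← mul_assoc]; exact h1
        rw [mul_eq_one_iff_eq_inv.mp this]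
        simp only [mul_inv_rev, inv_inv]
        rw [pow_succ, pow_succ, pow_two]
        simp only [mul_assoc]
      have h10 : P ^ 6 = 1 := by
        rw [h9] at h4
        rw [← h4, pow_succ, pow_succ]
      have h11 : ∃ k, P ^ s ^ k = 1 := by
        obtain ⟨k, hk⟩ := h.hS ⟨c * x * c⁻¹ * (c * y * c⁻¹) * (c * x * c⁻¹)⁻¹ * (c * y * c⁻¹)⁻¹, hZS (hcomm _ hX _ hY)⟩
        refine ⟨k, ?_⟩
        change (χ _) ^ s ^ k = 1
        rw [← map_pow]
        have h12 : (⟨(c * x * c⁻¹) * (c * y * c⁻¹) * (c * x * c⁻¹)⁻¹ * (c * y * c⁻¹)⁻¹, hcomm _ hX _ hY⟩ : Z) ^ s ^ k = 1 := by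
          apply Subtype.ext
          have h13 := congrArg Subtype.val hk
          rw [SubmonoidClass.coe_pow] at h13 ⊢
          exact h13
        exact (congrArg χ h12).trans (map_one χ)
      obtain ⟨k, hk⟩ := h11
      have h12 : P = 1 := by
        have h13 := orderOf_dvd_of_pow_eq_one h10
        have h14 := orderOf_dvd_of_pow_eq_one hk
        rw [← orderOf_eq_one_iff]
        refine Nat.eq_one_of_dvd_coprimes ?_ h13 h14
        apply Nat.Coprime.pow_right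
        have : (6 : ℕ) = 2 * 3 := by norm_num
        rw [this]
        exact Nat.Coprime.mul_left ((Nat.coprime_primes Nat.prime_two h.hs).2 h.hs2.symm)
          ((Nat.coprime_primes Nat.prime_three h.hs).2 h.hs3.symm)
      rw [h9, h12, one_pow]
    have hSN' : S ≤ N := by
      refine hdat.decomp le_rfl h.hAS ?_ ?_
      · intro y hy
        have := N.inv_mem (hbka.2.2 y hy)
        have e1 : (b * y * b⁻¹ * y⁻¹)⁻¹ = y * b * y⁻¹ * b⁻¹ := by group
        rwa [e1] at this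
      · intro x hx hbx
        rw [hN, mem_cmod]
        refine ⟨hx, fun v hv => ?_⟩
        have hall : S ≤ stabC (kr Z χ) x := by
          refine hdat.decomp le_rfl h.hAS ?_ ?_
          · intro y hy
            have hyN : y * b * y⁻¹ * b⁻¹ ∈ N := by
              have := N.inv_mem (hbka.2.2 y hy)
              have e1 : (b * y * b⁻¹ * y⁻¹)⁻¹ = y * b * y⁻¹ * b⁻¹ := by group
              rwa [e1] at this
            exact ⟨hSk (hNS hyN), (mem_cmod.mp hyN).2 x hx⟩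
          · intro y hy hby
            refine ⟨hSk hy, ?_⟩
            exact (pr_one_iff hcomm χ (u := ⟨y, hy⟩) (v := ⟨x, hx⟩)).mp (hfixed y hy x hx hby hbx)
        have h1 := (kr Z χ).inv_mem (hall hv).2
        have e1 : (v * x * v⁻¹ * x⁻¹)⁻¹ = x * v * x⁻¹ * v⁻¹ := by group
        rwa [e1] at h1
    apply hnek
    have h1 := hSN' ha
    rw [hN, mem_cmod] at h1
    exact h1.2 b₀ hb₀

end Cfg3

end H1.PQ
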