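import Cfsg.Agent.Lib.H1.S3c
import Cfsg.Agent.Lib.H1.PQtow

/-!
Fixed-point-free action of `S₃`: reduction.
-/

set_option autoImplicit false

open Subgroup H1.Coprime2 H1.Coprime H1.StrLem H30.Wts H1.Fts H1.Tower
open scoped commutatorElement Pointwise

namespace H1.PQ

universe u

variable {Γ : Type u} [Group Γ] [Finite Γ]

/-- `[S, S]` centralizes `V`. -/
theorem pair {A C V S X : Subgroup Γ} {p s : ℕ} (hA : PQGrp A C 3 2) (hp : p.Prime) (hs : s.Prime)
    (hps : p ≠ s) (hV : IsPGroup p V) (hS : IsPGroup s S)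
    (hAV : A ≤ normalizer (V : Set Γ)) (hSV : S ≤ normalizer (V : Set Γ)) (hAS : A ≤ normalizer (S : Set Γ))
    (hVX : V ≤ X) (hSX : S ≤ X) (hXs : Group.IsSolvable X) (hcop : (Nat.card A).Coprime (Nat.card X))
    (hfix : X ⊓ centralizer (A : Set Γ) = ⊥) : ⁅S, S⁆ ≤ centralizer (V : Set Γ) := by
  classical
  haveI := Fact.mk hp
  haveI := Fact.mk hs
  by_cases hV1 : V = ⊥
  · intro x _
    rw [mem_centralizer_iff, hV1]
    intro y hy
    rw [SetLike.mem_coe, Subgroup.mem_bot] at hy
    rw [hy, one_mul, mul_one]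
  by_cases hS1 : S = ⊥
  · rw [hS1, Subgroup.commutator_bot_left]; exact bot_le
  have hpX : p ∣ Nat.card X := by
    obtain ⟨k, hk⟩ := IsPGroup.iff_card.mp hV
    have hk0 : k ≠ 0 := by
      rintro rfl
      rw [pow_zero, Subgroup.card_eq_one] at hk
      exact hV1 hk
    exact (dvd_pow_self p hk0).trans (hk ▸ Subgroup.card_dvd_of_le hVX)
  have hsX : s ∣ Nat.card X := by
    obtain ⟨k, hk⟩ := IsPGroup.iff_card.mp hS
    have hk0 : k ≠ 0 := by
      rintro rfl
      rw [pow_zero, Subgroup.card_eq_one] at hk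
      exact hS1 hk
    exact (dvd_pow_self s hk0).trans (hk ▸ Subgroup.card_dvd_of_le hSX)
  have hpA : (Nat.card A).Coprime p := hcop.coprime_dvd_right hpX
  have hsA : (Nat.card A).Coprime s := hcop.coprime_dvd_right hsX
  set M : Subgroup Γ := S ⊓ centralizer (V : Set Γ) with hM
  have hMS : M ≤ S := inf_le_left
  have hAM : A ≤ normalizer (M : Set Γ) := le_normalizer_inf hAS (le_normalizer_centralizer hAV)
  have hSM : S ≤ normalizer (M : Set Γ) := le_normalizer_inf S.le_normalizer (le_normalizer_centralizer hSV)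
  set Y : Subgroup Γ := normalizer (V : Set Γ) ⊓ normalizer (M : Set Γ) with hY
  have hAY : A ≤ Y := le_inf hAV hAM
  have hSY : S ≤ Y := le_inf hSV hSM
  have hMV : M ≤ centralizer (V : Set Γ) := inf_le_right
  have hVY : V ≤ Y := by
    refine le_inf V.le_normalizer ?_
    have h1 : V ≤ centralizer (M : Set Γ) := by rw [Subgroup.le_centralizer_iff]; exact hMV
    exact h1.trans (Subgroup.centralizer_le_normalizer _)
  haveI hMn : (M.subgroupOf Y).Normal := by
    rw [Subgroup.normal_subgroupOf_iff_le_normalizer (hMS.trans hSY)]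
    exact inf_le_right
  haveI hVn : (V.subgroupOf Y).Normal := by
    rw [Subgroup.normal_subgroupOf_iff_le_normalizer hVY]
    exact inf_le_left
  let M' := M.subgroupOf Y
  let Γ' := Y ⧸ M'
  let π : Y →* Γ' := QuotientGroup.mk' M'
  have hπs : Function.Surjective π := QuotientGroup.mk'_surjective _
  have hπk : ∀ y : Y, π y = 1 ↔ (y : Γ) ∈ M := fun y => QuotientGroup.eq_one_iff y
  let K := AlgebraicClosure (ZMod p)
  let W := H66.HomMod.V (V.subgroupOf Y) K
  let ρ₀ : Y →* Module.End K W := H66.HomMod.rep (V.subgroupOf Y) K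
  have hρ₀ : ∀ y ∈ M', ρ₀ y = 1 := by
    intro y hy
    ext f v
    change H66.HomMod.rep (V.subgroupOf Y) K y f (Additive.ofMul (Additive.toMul v)) = f (Additive.ofMul (Additive.toMul v))
    rw [H66.HomMod.rep_apply]
    congr 2
    apply Subtype.ext
    apply Subtype.ext
    rw [H66.HomMod.cj_coe]
    set w : V.subgroupOf Y := Additive.toMul v with hw
    have hwV : ((w : Y) : Γ) ∈ V := w.2
    have h1 : ((w : Y) : Γ) * y = y * (w : Y) := mem_centralizer_iff.mp (hMV hy) _ hwV
    change (y : Γ)⁻¹ * (w : Y) * (y : Γ) = (w : Y)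
    rw [mul_assoc, h1, inv_mul_cancel_left]
  let ρ : Γ' →* Module.End K W := QuotientGroup.lift M' ρ₀ hρ₀
  have hρ : ∀ y, ρ (π y) = ρ₀ y := fun y => QuotientGroup.lift_mk' M' hρ₀ y
  let f : Subgroup Γ → Subgroup Γ' := fun L => (L.subgroupOf Y).map π
  have hf_norm : ∀ L L' : Subgroup Γ, L ≤ normalizer (L' : Set Γ) → f L ≤ normalizer ((f L' : Subgroup Γ') : Set Γ') :=
    fun L L' h => (Subgroup.map_mono (subgroupOf_normalizer h)).trans (Subgroup.le_normalizer_map π)
  have hinjA : ∀ a ∈ A.subgroupOf Y, π a = 1 → a = 1 := by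
    intro a ha h1
    have h2 : (a : Γ) ∈ A ⊓ X := ⟨ha, hSX (hMS ((hπk a).mp h1))⟩
    rw [(Subgroup.disjoint_of_coprime_natCard hcop).eq_bot, Subgroup.mem_bot] at h2
    exact Subtype.ext h2
  have hcardA : Nat.card (f A) = Nat.card A := by
    have h1 := (hA.subgroupOf Y hAY).map π hinjA
    rw [h1.hA, hA.hA]
  have hcopL : ∀ L ≤ X, (Nat.card A).Coprime (Nat.card L) := fun L hL =>
    hcop.coprime_dvd_right (Subgroup.card_dvd_of_le hL)
  have hne0 : ∀ n : ℕ, n.Coprime p → (n : K) ≠ 0 := by
    intro n hn h0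
    have h1 := (CharP.cast_eq_zero_iff K p n).mp h0
    have h2 := Nat.dvd_gcd h1 dvd_rfl
    rw [hn] at h2
    exact hp.one_lt.ne' (Nat.dvd_one.mp h2)
  have hcfg : Cfg3 ρ (f A) (f C) (f S) s :=
    { grp := (hA.subgroupOf Y hAY).map π hinjA
      hs := hs
      hs2 := by
        rintro rfl
        have h1 : 2 ∣ Nat.card A := by rw [hA.hA]; norm_num
        have h2 := Nat.dvd_gcd h1 (dvd_refl 2)
        rw [hsA] at h2
        norm_num at h2
      hs3 := by
        rintro rfl
        have h1 : 3 ∣ Nat.card A := by rw [hA.hA]; norm_num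
        have h2 := Nat.dvd_gcd h1 (dvd_refl 3)
        rw [hsA] at h2
        norm_num at h2
      hS := (hS.comap_of_injective _ (Subgroup.subtype_injective _)).map _
      hAS := hf_norm A S hAS
      hAF := by rw [hcardA]; exact hne0 _ hpA
      hsF := hne0 s ((Nat.coprime_primes hs hp).2 hps.symm)
      hfix := by
        rw [eq_bot_iff]
        rintro _ ⟨⟨x, hx, rfl⟩, hxA⟩
        rw [Subgroup.mem_bot, hπk]
        obtain ⟨c, hc, hcM⟩ := exists_fixed_of_coset_fixed A S hAS (hcopL _ hSX) (Or.inr (isSolvable_of_le hSX hXs)) M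
          hMS hSM hAM x hx (by
            intro a ha
            have h1 := mem_centralizer_iff.mp hxA (π ⟨a, hAY ha⟩) ⟨⟨a, hAY ha⟩, ha, rfl⟩
            have h2 : π (⟨a, hAY ha⟩ * x * ⟨a, hAY ha⟩⁻¹ * x⁻¹) = 1 := by
              rw [map_mul, map_mul, map_mul, map_inv, map_inv, h1]; group
            exact (hπk _).mp h2)
        have hc1 : c = 1 := by
          have h1 : c ∈ X ⊓ centralizer (A : Set Γ) := ⟨hSX hc.1, hc.2⟩
          rwa [hfix, Subgroup.mem_bot] at h1
        rw [hc1, mul_one] at hcM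
        have := M.inv_mem hcM
        rwa [inv_inv] at this
      hW := by
        intro w hw
        refine H66.HomMod.eq_zero_of_fixed (V.subgroupOf Y) K (A.subgroupOf Y) ?_ ?_ ?_ w ?_
        · rw [(hA.subgroupOf Y hAY).hA, ← hA.hA]
          have h1 : Nat.card (V.subgroupOf Y) = Nat.card V := Nat.card_congr (Subgroup.subgroupOfEquivOfLe hVY).toEquiv
          rw [h1]
          exact hcopL V hVX
        · right
          have h1 : IsPGroup p (V.subgroupOf Y) := hV.comap_of_injective _ (Subgroup.subtype_injective _)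
          have := h1.isNilpotent
          infer_instance
        · rw [eq_bot_iff]
          rintro x ⟨hx, hxA⟩
          rw [Subgroup.mem_bot]
          apply Subtype.ext
          have h1 : (x : Γ) ∈ X ⊓ centralizer (A : Set Γ) := by
            refine ⟨hVX hx, mem_centralizer_iff.2 ?_⟩
            intro a ha
            exact congrArg Subtype.val (mem_centralizer_iff.mp hxA ⟨a, hAY ha⟩ ha)
          rwa [hfix, Subgroup.mem_bot] at h1
        · intro a ha
          have h1 := hw (π a) ⟨a, ha, rfl⟩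
          rw [hρ] at h1
          exact h1
      faith := by
        rintro _ ⟨g, hg, rfl⟩ h1
        rw [hρ] at h1
        rw [hπk]
        refine ⟨hg, mem_centralizer_iff.2 ?_⟩
        have h2 := H66.HomMod.le_centralizer (V.subgroupOf Y) K (r := p) (hV.comap_of_injective _ (Subgroup.subtype_injective _))
          (zpowers g) (by
            rw [Nat.card_zpowers]
            have h3 : orderOf g = orderOf (g : Γ) := (Subgroup.orderOf_coe g).symm
            rw [h3]
            obtain ⟨k, hk⟩ := hS ⟨g, hg⟩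
            have h4 : (g : Γ) ^ s ^ k = 1 := congrArg Subtype.val hk
            have h5 := orderOf_dvd_of_pow_eq_one h4
            exact Nat.Coprime.coprime_dvd_left h5 (Nat.Coprime.pow_left _ ((Nat.coprime_primes hs hp).2 hps.symm))) (by
            intro a ha w
            obtain ⟨n, rfl⟩ := mem_powers_iff_mem_zpowers.mpr ha
            have h3 : ρ₀ (g ^ n) = 1 := by rw [map_pow, h1, one_pow]
            exact LinearMap.congr_fun h3 w)
        have h3 := h2 (mem_zpowers g)
        intro v hv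
        exact congrArg Subtype.val (mem_centralizer_iff.mp h3 ⟨v, hVY hv⟩ hv) }
  have hab := hcfg.abelian
  refine le_trans ?_ hMV
  rw [Subgroup.commutator_le]
  intro x hx y hy
  have h1 := hab (π ⟨x, hSY hx⟩) ⟨⟨x, hSY hx⟩, hx, rfl⟩ (π ⟨y, hSY hy⟩) ⟨⟨y, hSY hy⟩, hy, rfl⟩
  have h2 : π (⁅(⟨x, hSY hx⟩ : Y), (⟨y, hSY hy⟩ : Y)⁆) = 1 := by
    rw [commutatorElement_def, map_mul, map_mul, map_mul, map_inv, map_inv, h1]; group
  exact (hπk _).mp h2

end H1.PQ
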