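import Cfsg.Agent.Lib.H1.S3d
import Cfsg.Agent.Lib.H66.SylowLe

/-!
Fixed-point-free action of `S₃`: the derived subgroup is nilpotent.
-/

set_option autoImplicit false

open Subgroup Cfsg H1.Coprime2 H1.Coprime H1.StrLem H30.Wts H1.Fts H1.Tower
open scoped commutatorElement Pointwise

namespace H1.PQ

universe u

variable {Γ : Type u} [Group Γ] [Finite Γ]

theorem commutator_le_Ft {X A C : Subgroup Γ} [hXn : X.Normal] (hA : PQGrp A C 3 2) (hXs : Group.IsSolvable X)
    (hcop : (Nat.card A).Coprime (Nat.card X)) (hfix : X ⊓ centralizer (A : Set Γ) = ⊥) : commutator X ≤ Ft X 1 := by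
  classical
  have hFt := height hA hXs hcop hfix
  set N := Ft X 1 with hN
  have hAX : A ≤ normalizer (X : Set Γ) := by rw [normalizer_eq_top]; exact le_top
  have hfit : fittingSubgroup (X ⧸ N) = ⊤ := by
    have h1 : (fittingSubgroup (X ⧸ Ft X 1)).comap (QuotientGroup.mk' (Ft X 1)) = ⊤ := by rw [← Ft_succ]; exact hFt
    have h2 := congrArg (Subgroup.map (QuotientGroup.mk' (Ft X 1))) h1
    rw [Subgroup.map_comap_eq_self_of_surjective (QuotientGroup.mk'_surjective _),
      Subgroup.map_top_of_surjective _ (QuotientGroup.mk'_surjective _)] at h2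
    exact h2
  haveI hnil : Group.IsNilpotent (X ⧸ N) := by
    have h1 := H1.Cores.isNilpotent_fittingSubgroup (G := X ⧸ N)
    rw [hfit] at h1
    exact Group.nilpotent_of_mulEquiv Subgroup.topEquiv
  -- the Sylow subgroups
  have hsyl : ∀ s : ℕ, ∀ hs : s.Prime, haveI := Fact.mk hs; ∃ P : Sylow s X, ∀ u ∈ (P : Subgroup X), ∀ v ∈ (P : Subgroup X),
      u * v * u⁻¹ * v⁻¹ ∈ N := by
    intro s hs
    haveI := Fact.mk hs
    obtain ⟨S, hSX, hAS⟩ := exists_invariant_sylow A X hAX hcop (Or.inr hXs) s
    obtain ⟨P, hP⟩ := hSX.exists_sylow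
    refine ⟨P, fun u hu v hv => ?_⟩
    have huS : (u : Γ) ∈ S := by rw [← hP]; exact ⟨u, hu, rfl⟩
    have hvS : (v : Γ) ∈ S := by rw [← hP]; exact ⟨v, hv, rfl⟩
    have hg : ((u * v * u⁻¹ * v⁻¹ : X) : Γ) ∈ ⁅S, S⁆ := by
      have := Subgroup.commutator_mem_commutator huS hvS
      rwa [commutatorElement_def] at this
    set g : X := u * v * u⁻¹ * v⁻¹ with hgdef
    have hgP : g ∈ (P : Subgroup X) := mul_mem (mul_mem (mul_mem hu hv) (inv_mem hu)) (inv_mem hv)
    have hgM : g ∈ Mq X s 1 := by
      change QuotientGroup.mk' (Ft X 1) g ∈ pCore s (X ⧸ Ft X 1)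
      obtain ⟨k, hk⟩ := P.2 ⟨g, hgP⟩
      have hk' : g ^ s ^ k = 1 := congrArg Subtype.val hk
      refine mem_pCore_of_mem_fitting (k := k) ?_ ?_
      · have h1 : QuotientGroup.mk' N g ∈ fittingSubgroup (X ⧸ N) := by rw [hfit]; exact mem_top _
        exact h1
      · rw [← map_pow, hk', map_one]
    apply inter 1 s hs g hgM
    intro D hD
    cases hD with
    | @succ i p q D₀ hD₀ h hq hpq =>
      cases h with
      | zero hp =>
        refine Subgroup.mem_sup_left ?_
        refine ⟨hgM, mem_cm.mpr ?_⟩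
        intro w hw
        haveI := Fact.mk hp
        -- V = O_p
        set V : Subgroup Γ := (Mq X p 0).map X.subtype with hV
        have hVp : IsPGroup p V := by
          apply IsPGroup.map
          apply IsPGroup.comap_of_ker_isPGroup (H1.Cores.isPGroup_pCore p)
          rw [QuotientGroup.ker_mk']
          change IsPGroup p (Ft X 0)
          rw [Ft_zero]
          exact IsPGroup.of_bot
        have hVn : ∀ x : Γ, x ∈ normalizer (V : Set Γ) := by
          intro x
          apply normalizer_char (Mq X p 0) inferInstance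
          rw [normalizer_eq_top]; exact mem_top _
        have h1 := pair (A := A) (C := C) (V := V) (S := S) (X := X) hA hp hs hpq hVp hSX.isPGroup (fun x _ => hVn x) (fun x _ => hVn x)
          hAS (Subgroup.map_subtype_le _) hSX.1 hXs hcop hfix hg
        have h2 : (w : Γ) * (g : Γ) = g * w := mem_centralizer_iff.mp h1 w ⟨w, hw, rfl⟩
        rw [Subgroup.mem_bot]
        apply Subtype.ext
        change (g : Γ) * w * (g : Γ)⁻¹ * (w : Γ)⁻¹ = 1
        rw [← h2]; group
  -- all of `X ⧸ N` is abelian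
  have hcent : ∀ x : X ⧸ N, ∀ y : X ⧸ N, x * y = y * x := by
    have key : (⊤ : Subgroup (X ⧸ N)) ≤ center (X ⧸ N) := by
      apply H66.SylowLe.le_of_forall
      intro q hq R _ hR x hx
      haveI := Fact.mk hq
      obtain ⟨kx, hkx⟩ := hR ⟨x, hx⟩
      have hkx' : x ^ q ^ kx = 1 := congrArg Subtype.val hkx
      have key2 : (⊤ : Subgroup (X ⧸ N)) ≤ centralizer {x} := by
        apply H66.SylowLe.le_of_forall
        intro r hr T _ hT y hy
        haveI := Fact.mk hr
        obtain ⟨ky, hky⟩ := hT ⟨y, hy⟩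
        have hky' : y ^ r ^ ky = 1 := congrArg Subtype.val hky
        rw [mem_centralizer_singleton_iff]
        by_cases hrq : r = q
        · subst hrq
          obtain ⟨P, hP⟩ := hsyl r hr
          let P' : Sylow r (X ⧸ N) := P.mapSurjective (QuotientGroup.mk'_surjective N)
          have hcore : ∀ z : X ⧸ N, (∃ k, z ^ r ^ k = 1) → ∃ z' ∈ (P : Subgroup X), QuotientGroup.mk' N z' = z := by
            rintro z ⟨k, hk⟩
            have h1 : z ∈ pCore r (X ⧸ N) := mem_pCore_of_mem_fitting (by rw [hfit]; exact mem_top _) hk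
            exact H1.Cores.pCore_le_sylow P' h1
          obtain ⟨x', hx', rfl⟩ := hcore x ⟨_, hkx'⟩
          obtain ⟨y', hy', rfl⟩ := hcore y ⟨_, hky'⟩
          have h1 := hP y' hy' x' hx'
          have h2 : QuotientGroup.mk' N (y' * x' * y'⁻¹ * x'⁻¹) = 1 := (QuotientGroup.eq_one_iff _).mpr h1
          rw [map_mul, map_mul, map_mul, map_inv, map_inv, mul_inv_eq_one, mul_inv_eq_iff_eq_mul] at h2
          exact h2
        · exact commute_of_nilp hrq ⟨_, hky'⟩ ⟨_, hkx'⟩
      rw [mem_center_iff]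
      intro y
      have := key2 (mem_top y)
      rw [mem_centralizer_singleton_iff] at this
      exact this
    intro x y
    exact (mem_center_iff.mp (key (mem_top x)) y).symm
  rw [_root_.commutator_def, Subgroup.commutator_le]
  intro x _ y _
  have h1 := hcent (QuotientGroup.mk' N x) (QuotientGroup.mk' N y)
  have h2 : QuotientGroup.mk' N ⁅x, y⁆ = 1 := by
    rw [commutatorElement_def, map_mul, map_mul, map_mul, map_inv, map_inv, h1]; group
  exact (QuotientGroup.eq_one_iff _).mp h2

/-- a nonabelian group of order `r t`, `t < r` -/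
theorem exists_pqgrp {A : Type*} [Group A] [Finite A] {r t : ℕ} (hr : r.Prime) (ht : t.Prime) (htr : t < r)
    (hc : Nat.card A = r * t) (hAna : ∃ a b : A, a * b ≠ b * a) : ∃ C : Subgroup A, PQGrp (⊤ : Subgroup A) C r t := by
  haveI := Fact.mk hr
  obtain ⟨b, hb⟩ := exists_prime_orderOf_dvd_card' (G := A) r (by rw [hc]; exact dvd_mul_right _ _)
  have hCc : Nat.card (zpowers b) = r := by rw [Nat.card_zpowers, hb]
  have hidx : (zpowers b).index = t := by
    have h1 := (zpowers b).card_mul_index
    rw [hCc, hc] at h1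
    exact Nat.eq_of_mul_eq_mul_left hr.pos h1
  have hmf : (Nat.card A).minFac = t := by
    rw [hc]
    apply le_antisymm (Nat.minFac_le_of_dvd ht.two_le (dvd_mul_left _ _))
    have h1 : (r * t).minFac.Prime := Nat.minFac_prime (by
      intro h2
      have := Nat.eq_one_of_mul_eq_one_right h2
      exact hr.one_lt.ne' this)
    rcases (Nat.Prime.dvd_mul h1).mp (Nat.minFac_dvd _) with h2 | h2
    · rw [(Nat.prime_dvd_prime_iff_eq h1 hr).mp h2]; exact htr.le
    · rw [(Nat.prime_dvd_prime_iff_eq h1 ht).mp h2]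
  haveI : (zpowers b).Normal := Subgroup.normal_of_index_eq_minFac_card (by rw [hidx, hmf])
  obtain ⟨x, y, hxy⟩ := hAna
  exact ⟨zpowers b, hr, ht, htr.ne', by rw [Subgroup.card_top, hc], le_top, hCc, by rw [normalizer_eq_top],
    x, mem_top _, y, mem_top _, hxy⟩

end H1.PQ
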