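import Mathlib
import Cfsg.Agent.Lib.H1.Solv

/-!
Sylow systems of finite solvable groups from Hall `p`-complements.
-/

set_option autoImplicit false

open Subgroup Cfsg
open scoped Pointwise commutatorElement

namespace H1.SylowSys

variable {G : Type*} [Group G] [Finite G]

/-- intersection of a family of `q`-complements over a finite set of primes -/
theorem index_iInf (H : ℕ → Subgroup G)
    (hH : ∀ p : ℕ, p.Prime → (H p).index = p ^ (Nat.card G).factorization p) (s : Finset ℕ)
    (hs : ∀ p ∈ s, p.Prime) :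
    (⨅ p ∈ s, H p).index = ∏ p ∈ s, p ^ (Nat.card G).factorization p := by
  classical
  induction s using Finset.induction_on with
  | empty => simp
  | insert a s ha ih =>
    rw [Finset.iInf_insert, Finset.prod_insert ha, H1.Solv.index_inf_of_coprime,
      hH a (hs a (Finset.mem_insert_self a s)), ih fun p hp => hs p (Finset.mem_insert_of_mem hp)]
    rw [hH a (hs a (Finset.mem_insert_self a s)), ih fun p hp => hs p (Finset.mem_insert_of_mem hp)]
    apply Nat.Coprime.prod_right
    intro q hq
    apply Nat.Coprime.pow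
    rw [Nat.coprime_primes (hs a (Finset.mem_insert_self a s)) (hs q (Finset.mem_insert_of_mem hq))]
    rintro rfl
    exact ha hq

theorem card_iInf (H : ℕ → Subgroup G)
    (hH : ∀ p : ℕ, p.Prime → (H p).index = p ^ (Nat.card G).factorization p) (s : Finset ℕ)
    (hs : s ⊆ (Nat.card G).primeFactors) :
    Nat.card (⨅ p ∈ s, H p : Subgroup G) =
      ∏ p ∈ (Nat.card G).primeFactors \ s, p ^ (Nat.card G).factorization p := by
  classical
  have h1 := index_iInf H hH s (fun p hp => Nat.prime_of_mem_primeFactors (hs hp))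
  have h2 := Subgroup.card_mul_index (⨅ p ∈ s, H p : Subgroup G)
  have h3 : Nat.card G = ∏ p ∈ (Nat.card G).primeFactors, p ^ (Nat.card G).factorization p :=
    (Nat.prod_factorization_pow_eq_self Nat.card_pos.ne').symm
  rw [h1] at h2
  conv_rhs at h2 => rw [h3]
  rw [← Finset.prod_sdiff hs] at h2
  refine Nat.eq_of_mul_eq_mul_right ?_ h2
  apply Finset.prod_pos
  intro p hp
  exact pow_pos (Nat.prime_of_mem_primeFactors (hs hp)).pos _

/-- two subgroups `A, B` inside `T` with `|A||B| = |T|`, `A ∩ B = 1` satisfy `AB = BA`. -/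
theorem mul_comm_of_card {A B T : Subgroup G} (hA : A ≤ T) (hB : B ≤ T)
    (hcop : (Nat.card A).Coprime (Nat.card B)) (hcard : Nat.card A * Nat.card B = Nat.card T) :
    (A : Set G) * (B : Set G) = (T : Set G) := by
  have hc : Subgroup.IsComplement' (A.subgroupOf T) (B.subgroupOf T) :=
    Subgroup.isComplement'_of_coprime
      (by rw [H1.SZ.card_subgroupOf_of_le hA, H1.SZ.card_subgroupOf_of_le hB, hcard])
      (by rw [H1.SZ.card_subgroupOf_of_le hA, H1.SZ.card_subgroupOf_of_le hB]; exact hcop)
  apply Set.Subset.antisymm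
  · rintro _ ⟨a, ha, b, hb, rfl⟩
    exact T.mul_mem (hA ha) (hB hb)
  · intro t ht
    obtain ⟨⟨⟨a, ha⟩, ⟨b, hb⟩⟩, hab⟩ := (Subgroup.isComplement'_def.mp hc).2 ⟨t, ht⟩
    exact ⟨a, ha, b, hb, congrArg Subtype.val hab⟩

theorem exists_sylow_system (hs : Group.IsSolvable G) :
    ∃ S : (p : Nat.Primes) → Sylow (p : ℕ) G,
      ∀ p q : Nat.Primes, (S p : Set G) * (S q : Set G) = (S q : Set G) * (S p : Set G) := by
  classical
  -- p-complements
  have hex : ∀ p : ℕ, ∃ H : Subgroup G, p.Prime → H.index = p ^ (Nat.card G).factorization p := by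
    intro p
    by_cases hp : p.Prime
    · set n := Nat.card G with hn
      have hn0 : n ≠ 0 := Nat.card_pos.ne'
      obtain ⟨H, hH⟩ := H1.Hall.exists_card_eq hs (n / p ^ n.factorization p) (p ^ n.factorization p)
        (by rw [Nat.div_mul_cancel (Nat.ordProj_dvd n p)])
        (by
          apply Nat.Coprime.pow_right
          exact (Nat.coprime_ordCompl hp hn0).symm)
      refine ⟨H, fun _ => ?_⟩
      have h1 := Subgroup.card_mul_index H
      rw [hH, ← hn] at h1
      have h2 : n / p ^ n.factorization p * p ^ n.factorization p = n :=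
        Nat.div_mul_cancel (Nat.ordProj_dvd n p)
      have h3 : 0 < n / p ^ n.factorization p := Nat.ordCompl_pos p hn0
      exact Nat.eq_of_mul_eq_mul_left h3 (h1.trans h2.symm)
    · exact ⟨⊥, fun h => absurd h hp⟩
  choose H hH using hex
  set π := (Nat.card G).primeFactors with hπ
  -- Sylow subgroups
  have hScard : ∀ p : Nat.Primes, Nat.card (⨅ q ∈ π.erase p, H q : Subgroup G) =
      (p : ℕ) ^ (Nat.card G).factorization p := by
    intro p
    rw [card_iInf H hH _ (Finset.erase_subset _ _)]
    by_cases hp : (p : ℕ) ∈ π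
    · have : π \ π.erase (p : ℕ) = {(p : ℕ)} := by
        ext x; simp only [Finset.mem_sdiff, Finset.mem_erase, Finset.mem_singleton]
        constructor
        · rintro ⟨h1, h2⟩; by_contra h3; exact h2 ⟨h3, h1⟩
        · rintro rfl; exact ⟨hp, fun h => h.1 rfl⟩
      rw [this, Finset.prod_singleton]
    · rw [Finset.erase_eq_of_notMem hp, Finset.sdiff_self, Finset.prod_empty]
      have : (Nat.card G).factorization p = 0 := by
        rw [← Finsupp.notMem_support_iff, Nat.support_factorization]; exact hp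
      rw [this, pow_zero]
  have hfact : ∀ p : Nat.Primes, Fact (p : ℕ).Prime := fun p => ⟨p.2⟩
  refine ⟨fun p => Sylow.ofCard (⨅ q ∈ π.erase p, H q : Subgroup G) (hScard p), ?_⟩
  intro p q
  by_cases hpq : p = q
  · rw [hpq]
  have hpq' : (p : ℕ) ≠ q := fun h => hpq (Subtype.ext h)
  have hcoe : ∀ p : Nat.Primes, ((Sylow.ofCard (⨅ q ∈ π.erase (p : ℕ), H q : Subgroup G) (hScard p) :
      Sylow (p : ℕ) G) : Set G) = ((⨅ q ∈ π.erase (p : ℕ), H q : Subgroup G) : Set G) := fun p => rfl
  rw [hcoe p, hcoe q]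
  set T := (⨅ r ∈ (π.erase (p : ℕ)).erase q, H r : Subgroup G) with hT
  have hTp : (⨅ r ∈ π.erase (p : ℕ), H r : Subgroup G) ≤ T :=
    biInf_mono (fun r hr => Finset.erase_subset _ _ hr)
  have hTq : (⨅ r ∈ π.erase (q : ℕ), H r : Subgroup G) ≤ T := by
    apply biInf_mono
    intro r hr
    have h1 := Finset.mem_erase.mp hr
    have h2 := Finset.mem_erase.mp h1.2
    exact Finset.mem_erase.mpr ⟨h1.1, h2.2⟩
  have hcop : (Nat.card (⨅ r ∈ π.erase (p : ℕ), H r : Subgroup G)).Coprime
      (Nat.card (⨅ r ∈ π.erase (q : ℕ), H r : Subgroup G)) := by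
    rw [hScard p, hScard q]
    exact Nat.Coprime.pow _ _ ((Nat.coprime_primes p.2 q.2).mpr hpq')
  have hTcard : Nat.card (⨅ r ∈ π.erase (p : ℕ), H r : Subgroup G) *
      Nat.card (⨅ r ∈ π.erase (q : ℕ), H r : Subgroup G) = Nat.card T := by
    rw [hScard p, hScard q, hT, card_iInf H hH _ ((Finset.erase_subset _ _).trans
      (Finset.erase_subset _ _))]
    have hzero : ∀ r : ℕ, r ∉ π → r ^ (Nat.card G).factorization r = 1 := by
      intro r hr
      have : (Nat.card G).factorization r = 0 := by
        rw [← Finsupp.notMem_support_iff, Nat.support_factorization]; exact hr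
      rw [this, pow_zero]
    have h1 : π \ (π.erase (p : ℕ)).erase q = π ∩ {(p : ℕ), (q : ℕ)} := by
      ext x; simp only [Finset.mem_sdiff, Finset.mem_erase, Finset.mem_inter, Finset.mem_insert,
        Finset.mem_singleton]
      constructor
      · rintro ⟨h1, h2⟩
        refine ⟨h1, ?_⟩
        by_contra h3
        push Not at h3
        exact h2 ⟨h3.2, h3.1, h1⟩
      · rintro ⟨h1, h2⟩
        refine ⟨h1, fun h3 => ?_⟩
        rcases h2 with h2 | h2
        · exact h3.2.1 h2
        · exact h3.1 h2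
    rw [h1]
    have h2 : ∏ r ∈ π ∩ {(p : ℕ), (q : ℕ)}, r ^ (Nat.card G).factorization r =
        ∏ r ∈ {(p : ℕ), (q : ℕ)}, r ^ (Nat.card G).factorization r := by
      apply Finset.prod_subset Finset.inter_subset_right
      intro r hr hr'
      apply hzero
      intro h
      exact hr' (Finset.mem_inter.mpr ⟨h, hr⟩)
    rw [h2, Finset.prod_pair hpq']
  rw [mul_comm_of_card hTp hTq hcop hTcard, mul_comm_of_card hTq hTp hcop.symm
    (by rw [mul_comm]; exact hTcard)]

end H1.SylowSys
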