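import Mathlib
import Cfsg.Agent.Lib.H1.Frat
import Cfsg.Agent.Lib.H72.PGroupCenter

/-!
Vaughan-Lee's theorem, part 1: for a finite `p`-group `G = ⟨x_0, ..., x_{d-1}⟩` and a normal subgroup
`F ≥ G'`, `|G'| ≤ ∏_k |G : C(x_k) ⟨x_j : j < k⟩ F| * |F : C_F(x_k)|`.
-/

set_option autoImplicit false

open Subgroup
open scoped Pointwise commutatorElement

namespace H1.VLa

variable {G : Type*} [Group G]

/-- the chain `⟨x_j : j < k⟩ F` -/
def Y (F : Subgroup G) (x : ℕ → G) (k : ℕ) : Subgroup G := closure (x '' Set.Iio k) ⊔ F

theorem Y_zero (F : Subgroup G) (x : ℕ → G) : Y F x 0 = F := by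
  unfold Y
  rw [show Set.Iio (0 : ℕ) = ∅ from by ext; simp, Set.image_empty, Subgroup.closure_empty, bot_sup_eq]

theorem F_le_Y (F : Subgroup G) (x : ℕ → G) (k : ℕ) : F ≤ Y F x k := le_sup_right

theorem mem_Y (F : Subgroup G) (x : ℕ → G) {j k : ℕ} (h : j < k) : x j ∈ Y F x k :=
  (le_sup_left : closure (x '' Set.Iio k) ≤ _) (subset_closure ⟨j, h, rfl⟩)

theorem Y_succ (F : Subgroup G) (x : ℕ → G) (k : ℕ) : Y F x (k + 1) = Y F x k ⊔ zpowers (x k) := by
  unfold Y
  have h : Set.Iio (k + 1) = insert k (Set.Iio k) := by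
    ext j; simp only [Set.mem_Iio, Set.mem_insert_iff]; omega
  rw [h, Set.image_insert_eq, ← Set.union_singleton, Subgroup.closure_union, ← zpowers_eq_closure,
    sup_assoc, sup_assoc, sup_comm (zpowers (x k)) F]

theorem Y_congr (F : Subgroup G) (x x' : ℕ → G) (k : ℕ) (h : ∀ j < k, x j = x' j) : Y F x k = Y F x' k := by
  unfold Y
  congr 2
  apply Set.image_congr
  intro j hj
  exact h j hj

theorem Y_map {H : Type*} [Group H] (f : G →* H) (F : Subgroup G) (x : ℕ → G) (k : ℕ) :
    (Y F x k).map f = Y (F.map f) (fun j => f (x j)) k := by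
  unfold Y
  rw [Subgroup.map_sup, MonoidHom.map_closure, Set.image_image]

/-- the factor -/
noncomputable def fac (F : Subgroup G) (x : ℕ → G) (k : ℕ) : ℕ :=
  (centralizer {x k} ⊔ Y F x k).index * (centralizer {x k}).relIndex F

/-- base case -/
theorem base [Finite G] (F : Subgroup G) (hc : commutator G ≤ F) (hF : F ≤ center G) (x : ℕ → G) (d : ℕ)
    (hx : Y F x d = ⊤) :
    Nat.card (commutator G) ≤ ∏ k ∈ Finset.range d, (centralizer {x k} ⊔ Y F x k).index := by
  have hcc : ∀ a b : G, ⁅a, b⁆ ∈ center G := fun a b => hF (hc (commutator_mem_commutator (mem_top a) (mem_top b)))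
  have hcm : ∀ a b c : G, ⁅a, b⁆ * c = c * ⁅a, b⁆ := fun a b c => (mem_center_iff.1 (hcc a b) c).symm
  -- the homs
  let φ : G → (G →* G) := fun a => MonoidHom.mk' (fun g => ⁅a, g⁆) (fun g h => by
    have h1 : ⁅a, g * h⁆ = ⁅a, g⁆ * (g * ⁅a, h⁆ * g⁻¹) := by simp only [commutatorElement_def]; group
    show ⁅a, g * h⁆ = ⁅a, g⁆ * ⁅a, h⁆
    rw [h1, ← hcm a h g, mul_inv_cancel_right])
  have hφ : ∀ a g, φ a g = ⁅a, g⁆ := fun a g => rfl
  let M : ℕ → Subgroup G := fun k => ⨆ j : Set.Iio k, (φ (x j)).range
  have hMcen : ∀ k, M k ≤ center G := by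
    intro k
    apply iSup_le
    rintro j _ ⟨g, rfl⟩
    exact hcc _ _
  have hMn : ∀ k, (M k).Normal := fun k => ⟨fun a ha g => by
    have := mem_center_iff.1 (hMcen k ha) g
    rw [this, mul_inv_cancel_right]; exact ha⟩
  have hM1 : ∀ k j g, j < k → ⁅x j, g⁆ ∈ M k := by
    intro k j g hj
    exact (le_iSup (fun j : Set.Iio k => (φ (x j)).range) ⟨j, hj⟩) ⟨g, rfl⟩
  have hMs : ∀ k, M (k + 1) = M k ⊔ (φ (x k)).range := by
    intro k
    apply le_antisymm
    · apply iSup_le
      rintro ⟨j, hj⟩
      rcases Nat.lt_succ_iff_lt_or_eq.mp hj with h | h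
      · exact (le_iSup (fun j : Set.Iio k => (φ (x j)).range) ⟨j, h⟩).trans le_sup_left
      · subst h; exact le_sup_right
    · apply sup_le
      · apply iSup_le
        rintro ⟨j, hj⟩
        exact (le_iSup (fun j : Set.Iio (k+1) => (φ (x j)).range) ⟨j, Nat.lt_succ_of_lt hj⟩)
      · exact (le_iSup (fun j : Set.Iio (k+1) => (φ (x j)).range) ⟨k, Nat.lt_succ_self k⟩)
  have hstep : ∀ k, Nat.card (M k) ≤ ∏ j ∈ Finset.range k, (centralizer {x j} ⊔ Y F x j).index := by
    intro k
    induction k with
    | zero =>
      have : M 0 = ⊥ := by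
        rw [eq_bot_iff]
        apply iSup_le
        rintro ⟨j, hj⟩
        exact absurd hj (Nat.not_lt_zero j)
      rw [this]; simp
    | succ k ih =>
      rw [Finset.prod_range_succ]
      have h1 : Nat.card (M (k + 1)) = Nat.card (M k) * (M k).relIndex (M (k + 1)) := by
        have h2 : M k ≤ M (k + 1) := by rw [hMs]; exact le_sup_left
        have h3 := Subgroup.card_mul_index ((M k).subgroupOf (M (k + 1)))
        rw [Nat.card_congr (Subgroup.subgroupOfEquivOfLe h2).toEquiv] at h3
        exact h3.symm
      rw [h1]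
      apply Nat.mul_le_mul ih
      have := hMn k
      rw [hMs, sup_comm, Subgroup.relIndex_sup_right, ← Subgroup.index_comap]
      apply Nat.le_of_dvd (Nat.pos_of_ne_zero Subgroup.index_ne_zero_of_finite)
      apply Subgroup.index_dvd_of_le
      apply sup_le
      · intro g hg
        rw [Subgroup.mem_comap, hφ]
        have : ⁅x k, g⁆ = 1 := by
          rw [commutatorElement_eq_one_iff_mul_comm]
          exact (mem_centralizer_iff.1 hg) (x k) rfl
        rw [this]; exact one_mem _
      · apply sup_le
        · rw [closure_le]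
          rintro _ ⟨j, hj, rfl⟩
          show (φ (x k)) (x j) ∈ M k
          rw [hφ, ← commutatorElement_inv]
          exact inv_mem (hM1 k j _ hj)
        · intro g hg
          rw [Subgroup.mem_comap, hφ]
          have : ⁅x k, g⁆ = 1 := by
            rw [commutatorElement_eq_one_iff_mul_comm]
            exact (mem_center_iff.1 (hF hg) (x k))
          rw [this]; exact one_mem _
  refine le_trans (Nat.card_le_card_of_injective (Subgroup.inclusion (?_ : commutator G ≤ M d))
    (Subgroup.inclusion_injective _)) (hstep d)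
  -- commutator ≤ M d
  have hn := hMn d
  have hall : ∀ y g : G, ⁅y, g⁆ ∈ M d := by
    intro y g
    have h1 : Y F x d ≤ (M d).comap (φ g) := by
      apply sup_le
      · rw [closure_le]
        rintro _ ⟨j, hj, rfl⟩
        show (φ g) (x j) ∈ M d
        rw [hφ, ← commutatorElement_inv]
        exact inv_mem (hM1 d j _ hj)
      · intro f hf
        rw [Subgroup.mem_comap, hφ]
        have : ⁅g, f⁆ = 1 := by
          rw [commutatorElement_eq_one_iff_mul_comm]
          exact (mem_center_iff.1 (hF hf) g)
        rw [this]; exact one_mem _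
    rw [hx] at h1
    have h2 := h1 (mem_top y)
    rw [Subgroup.mem_comap, hφ] at h2
    rw [← commutatorElement_inv]
    exact inv_mem h2
  rw [commutator_def, Subgroup.commutator_le]
  intro y _ g _
  exact hall y g

theorem relIndex_le_left [Finite G] {A B : Subgroup G} (K : Subgroup G) (h : A ≤ B) : B.relIndex K ≤ A.relIndex K :=
  Nat.le_of_dvd (Nat.pos_of_ne_zero (by
    unfold Subgroup.relIndex; exact Subgroup.index_ne_zero_of_finite)) (Subgroup.relIndex_dvd_of_le_left K h)

theorem p_mul_relIndex_le [Finite G] {p : ℕ} [hp : Fact p.Prime] (hG : IsPGroup p G) {A B : Subgroup G} (K : Subgroup G)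
    (h : A ≤ B) (t : G) (htK : t ∈ K) (htB : t ∈ B) (htA : t ∉ A) : p * B.relIndex K ≤ A.relIndex K := by
  have h1 : (A ⊓ K).relIndex (B ⊓ K) * (B ⊓ K).relIndex K = (A ⊓ K).relIndex K :=
    Subgroup.relIndex_mul_relIndex _ _ _ (inf_le_inf_right K h) inf_le_right
  rw [Subgroup.inf_relIndex_right, Subgroup.inf_relIndex_right] at h1
  rw [← h1]
  apply Nat.mul_le_mul_right
  have h2 : IsPGroup p (B ⊓ K : Subgroup G) := hG.to_subgroup _
  obtain ⟨n, hn⟩ := h2.index ((A ⊓ K).subgroupOf (B ⊓ K))
  have h3 : (A ⊓ K).relIndex (B ⊓ K) = p ^ n := hn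
  rw [h3]
  have hn0 : n ≠ 0 := by
    rintro rfl
    rw [pow_zero, Subgroup.relIndex_eq_one] at h3
    exact htA (h3 ⟨htB, htK⟩).1
  exact Nat.le_self_pow hn0 p

theorem main {p : ℕ} [hp : Fact p.Prime] (n : ℕ) : ∀ (G : Type*) [Group G] [Finite G] (_ : IsPGroup p G) (F : Subgroup G) (_ : F.Normal)
    (_ : commutator G ≤ F) (x : ℕ → G) (d : ℕ) (_ : closure (x '' Set.Iio d) = ⊤) (_ : Nat.card G ≤ n),
    Nat.card (commutator G) ≤ ∏ k ∈ Finset.range d, fac F x k := by
  induction n with
  | zero =>
    intro G _ _ _ F _ _ x d _ hcard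
    exact absurd hcard (Nat.not_le_of_gt Nat.card_pos)
  | succ n ih =>
    intro G _ _ hG F hFn hc x d hx hcard
    by_cases hF : F ≤ center G
    · have hb := base F hc hF x d (by unfold Y; rw [hx, top_sup_eq])
      refine hb.trans (Finset.prod_le_prod' fun k _ => ?_)
      unfold fac
      apply Nat.le_mul_of_pos_right
      apply Nat.pos_of_ne_zero
      unfold Subgroup.relIndex
      exact Subgroup.index_ne_zero_of_finite
    · -- choose h ∈ F with h central modulo center
      obtain ⟨h, hhF, hhZ, hh2⟩ : ∃ h ∈ F, h ∉ center G ∧ ∀ g : G, ⁅g, h⁆ ∈ center G := by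
        have h1 : (F.map (QuotientGroup.mk' (center G))) ≠ ⊥ := by
          intro h
          apply hF
          rwa [Subgroup.map_eq_bot_iff, QuotientGroup.ker_mk'] at h
        have hFn' : (F.map (QuotientGroup.mk' (center G))).Normal :=
          hFn.map _ (QuotientGroup.mk'_surjective _)
        have h2 := H72.PGroupCenter.normal_inf_center_ne_bot (hG.to_quotient (center G))
          (F.map (QuotientGroup.mk' (center G))) h1
        obtain ⟨⟨y, hy⟩, hy1⟩ := Subgroup.ne_bot_iff_exists_ne_one.mp h2
        obtain ⟨⟨h, hhF, rfl⟩, hyc⟩ := Subgroup.mem_inf.mp hy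
        refine ⟨h, hhF, ?_, ?_⟩
        · intro hh
          apply hy1
          apply Subtype.ext
          exact (QuotientGroup.eq_one_iff h).mpr hh
        · intro g
          rw [← QuotientGroup.eq_one_iff]
          have := mem_center_iff.1 hyc (QuotientGroup.mk' (center G) g)
          show QuotientGroup.mk' (center G) (g * h * g⁻¹ * h⁻¹) = 1
          rw [map_mul, map_mul, map_mul, map_inv, map_inv, this]
          group
      -- k
      obtain ⟨k, hkd, hk⟩ : ∃ k < d, ⁅x k, h⁆ ≠ 1 := by
        by_contra hcon
        push Not at hcon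
        apply hhZ
        have h1 : closure (x '' Set.Iio d) ≤ centralizer {h} := by
          rw [closure_le]
          rintro _ ⟨j, hj, rfl⟩
          rw [SetLike.mem_coe, mem_centralizer_iff]
          rintro y rfl
          exact (commutatorElement_eq_one_iff_mul_comm.1 (hcon j hj)).symm
        rw [hx] at h1
        rw [mem_center_iff]
        intro g
        exact ((mem_centralizer_iff.1 (h1 (mem_top g))) h rfl).symm
      set z := ⁅x k, h⁆ with hz
      have hzc : z ∈ center G := hh2 _
      have hpow : ∀ m : ℕ, ⁅x k, h ^ m⁆ = z ^ m := by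
        intro m
        induction m with
        | zero => simp
        | succ m ihm =>
          have h1 : ⁅x k, h ^ (m + 1)⁆ = ⁅x k, h ^ m⁆ * (h ^ m * ⁅x k, h⁆ * (h ^ m)⁻¹) := by
            rw [pow_succ]; simp only [commutatorElement_def]; group
          rw [h1, ihm, pow_succ, ← hz, mem_center_iff.1 hzc (h ^ m), mul_inv_cancel_right]
      -- order p power
      obtain ⟨j, hj⟩ : ∃ j, orderOf z = p ^ (j + 1) := by
        obtain ⟨m, hm⟩ := (IsPGroup.iff_orderOf.mp hG) z
        rcases m with _ | j
        · rw [pow_zero, orderOf_eq_one_iff] at hm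
          exact absurd hm hk
        · exact ⟨j, hm⟩
      set t := h ^ p ^ j with ht
      set w := z ^ p ^ j with hw
      have htw : ⁅x k, t⁆ = w := hpow _
      have hwo : orderOf w = p := by
        rw [hw, orderOf_pow' _ (pow_ne_zero _ hp.out.ne_zero), hj, pow_succ,
          Nat.gcd_eq_right (dvd_mul_right _ _), Nat.mul_div_cancel_left _ (pow_pos hp.out.pos _)]
      have hwc : w ∈ center G := pow_mem hzc _
      have htF : t ∈ F := pow_mem hhF _
      set N := zpowers w with hN
      have hNc : N ≤ center G := by rw [hN, zpowers_le]; exact hwc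
      have hNn : N.Normal := ⟨fun a ha g => by
        have := mem_center_iff.1 (hNc ha) g
        rw [this, mul_inv_cancel_right]; exact ha⟩
      have hNG : N ≤ commutator G := by
        rw [hN, zpowers_le, ← htw]
        exact commutator_mem_commutator (mem_top _) (mem_top _)
      have hNcard : Nat.card N = p := by rw [hN, Nat.card_zpowers, hwo]
      set π := QuotientGroup.mk' N with hπ
      have hπs : Function.Surjective π := QuotientGroup.mk'_surjective N
      have hcard' : Nat.card (G ⧸ N) ≤ n := by
        have h1 := Subgroup.card_eq_card_quotient_mul_card_subgroup N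
        have h2 : 0 < Nat.card (G ⧸ N) := Nat.card_pos
        have h3 := hp.out.two_le
        rw [hNcard] at h1
        nlinarith
      have hcm : commutator (G ⧸ N) = (commutator G).map π := by
        rw [commutator_def, commutator_def, Subgroup.map_commutator, Subgroup.map_top_of_surjective π hπs]
      have hIH := ih (G ⧸ N) (hG.to_quotient N) (F.map π) (hFn.map π hπs) (by rw [hcm]; exact Subgroup.map_mono hc)
        (fun j => π (x j)) d (by
          have h1 := congrArg (Subgroup.map π) hx
          rw [MonoidHom.map_closure, Set.image_image, Subgroup.map_top_of_surjective π hπs] at h1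
          exact h1) hcard'
      have hG' : Nat.card (commutator G) = p * Nat.card (commutator (G ⧸ N)) := by
        rw [hcm, ← H1.Cores.card_map_mk' N (commutator G) hNG, hNcard]
      have hcle : ∀ j, (centralizer {x j}).map π ≤ centralizer {π (x j)} := by
        rintro j _ ⟨g, hg, rfl⟩
        rw [mem_centralizer_iff]
        rintro y rfl
        rw [← map_mul, ← map_mul, (mem_centralizer_iff.1 hg) (x j) rfl]
      have hfle : ∀ j, fac (F.map π) (fun j => π (x j)) j ≤ fac F x j := by
        intro j
        unfold fac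
        apply Nat.mul_le_mul
        · have h1 : (centralizer {x j} ⊔ Y F x j).map π ≤ centralizer {π (x j)} ⊔ Y (F.map π) (fun j => π (x j)) j := by
            rw [Subgroup.map_sup, Y_map]
            exact sup_le_sup_right (hcle j) _
          have h2 := Subgroup.index_dvd_of_le h1
          have h3 := Subgroup.index_map_dvd (centralizer {x j} ⊔ Y F x j) hπs
          exact Nat.le_of_dvd (Nat.pos_of_ne_zero Subgroup.index_ne_zero_of_finite) (h2.trans h3)
        · rw [← Subgroup.relIndex_comap]
          exact relIndex_le_left _ (Subgroup.map_le_iff_le_comap.mp (hcle j))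
      have hfk : p * fac (F.map π) (fun j => π (x j)) k ≤ fac F x k := by
        unfold fac
        rw [mul_left_comm]
        apply Nat.mul_le_mul
        · have h1 : (centralizer {x k} ⊔ Y F x k).map π ≤ centralizer {π (x k)} ⊔ Y (F.map π) (fun j => π (x j)) k := by
            rw [Subgroup.map_sup, Y_map]
            exact sup_le_sup_right (hcle k) _
          have h2 := Subgroup.index_dvd_of_le h1
          have h3 := Subgroup.index_map_dvd (centralizer {x k} ⊔ Y F x k) hπs
          exact Nat.le_of_dvd (Nat.pos_of_ne_zero Subgroup.index_ne_zero_of_finite) (h2.trans h3)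
        · rw [← Subgroup.relIndex_comap]
          apply p_mul_relIndex_le hG F (Subgroup.map_le_iff_le_comap.mp (hcle k)) t htF
          · rw [Subgroup.mem_comap, mem_centralizer_iff]
            rintro y rfl
            have h1 : π ⁅x k, t⁆ = 1 := by
              rw [htw]
              exact (QuotientGroup.eq_one_iff w).mpr (mem_zpowers w)
            rw [map_commutatorElement] at h1
            exact commutatorElement_eq_one_iff_mul_comm.1 h1
          · intro hcon
            have h1 : ⁅x k, t⁆ = 1 := by
              rw [commutatorElement_eq_one_iff_mul_comm]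
              exact (mem_centralizer_iff.1 hcon) (x k) rfl
            rw [htw] at h1
            rw [h1, orderOf_one] at hwo
            exact hp.out.one_lt.ne hwo
      rw [hG']
      calc p * Nat.card (commutator (G ⧸ N)) ≤ p * ∏ j ∈ Finset.range d, fac (F.map π) (fun j => π (x j)) j :=
            Nat.mul_le_mul_left _ hIH
        _ = (p * fac (F.map π) (fun j => π (x j)) k) * ∏ j ∈ (Finset.range d).erase k, fac (F.map π) (fun j => π (x j)) j := by
            rw [mul_assoc, Finset.mul_prod_erase _ _ (Finset.mem_range.mpr hkd)]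
        _ ≤ fac F x k * ∏ j ∈ (Finset.range d).erase k, fac F x j :=
            Nat.mul_le_mul hfk (Finset.prod_le_prod' fun j _ => hfle j)
        _ = ∏ j ∈ Finset.range d, fac F x j := Finset.mul_prod_erase _ _ (Finset.mem_range.mpr hkd)

end H1.VLa
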