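import Mathlib
import Cfsg.Agent.Lib.H1.Frat

/-!
Vaughan-Lee's theorem, part 2: if `G` is a finite `p`-group and `M' ≠ G'` for every maximal subgroup `M`
then the elements `v` with `C_G(v) ≤ ⟨v⟩ Φ(G)` are not all contained in a maximal subgroup.
-/

set_option autoImplicit false

open Subgroup
open scoped Pointwise commutatorElement

namespace H1.VLb

variable {G : Type*} [Group G] {p : ℕ} [hp : Fact p.Prime]

abbrev Z (p : ℕ) := Multiplicative (ZMod p)

theorem card_Z : Nat.card (Z p) = p := by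
  have : Nat.card (Z p) = Nat.card (ZMod p) := Nat.card_congr Multiplicative.toAdd
  rw [this, Nat.card_zmod]

instance finite_Z : Finite (Z p) := Nat.finite_of_card_ne_zero (by rw [card_Z]; exact hp.out.ne_zero)

theorem mem_zpowers_Z {a b : Z p} (ha : a ≠ 1) : b ∈ zpowers a := mem_zpowers_of_prime_card card_Z ha

theorem card_eq {A : Type*} [Group A] [Finite A] (e : A →* Z p) (K : Subgroup A) (h : ∃ a ∈ K, e a ≠ 1) :
    Nat.card K = p * Nat.card (e.ker ⊓ K : Subgroup A) := by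
  obtain ⟨a, haK, ha⟩ := h
  have h1 : K.map e = ⊤ := by
    rw [eq_top_iff]
    intro b _
    have h2 : b ∈ zpowers (e a) := mem_zpowers_Z ha
    have h3 : zpowers (e a) ≤ K.map e := by
      rw [zpowers_le]; exact ⟨a, haK, rfl⟩
    exact h3 h2
  have h2 : e.ker.relIndex K = p := by
    rw [Subgroup.relIndex_ker, h1, Subgroup.card_top, card_Z]
  have h3 : (⊥ : Subgroup A).relIndex (e.ker ⊓ K) * (e.ker ⊓ K).relIndex K = (⊥ : Subgroup A).relIndex K :=
    Subgroup.relIndex_mul_relIndex _ _ _ bot_le inf_le_right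
  rw [Subgroup.relIndex_bot_left, Subgroup.relIndex_bot_left, Subgroup.inf_relIndex_right, h2] at h3
  rw [← h3, mul_comm]

theorem card_eq' {A : Type*} [Group A] [Finite A] (e : A →* Z p) (h : ∃ a, e a ≠ 1) :
    Nat.card A = p * Nat.card e.ker := by
  obtain ⟨a, ha⟩ := h
  have := card_eq e ⊤ ⟨a, mem_top a, ha⟩
  rwa [Subgroup.card_top, inf_top_eq] at this

theorem index_ker {A : Type*} [Group A] [Finite A] (e : A →* Z p) (h : ∃ a, e a ≠ 1) : e.ker.index = p := by
  have h1 := card_eq' e h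
  have h2 := Subgroup.card_mul_index e.ker
  have h3 : 0 < Nat.card e.ker := Nat.card_pos
  nlinarith [h1, h2, h3]

theorem ex_ne_one {φ : G →* Z p} (h : φ ≠ 1) : ∃ a, φ a ≠ 1 := by
  by_contra hcon
  push Not at hcon
  exact h (MonoidHom.ext hcon)

/-- a subgroup containing the kernel and an element outside is everything -/
theorem eq_top_of_ker_le {φ : G →* Z p} {K : Subgroup G} (hK : φ.ker ≤ K) {u : G} (hu : u ∈ K)
    (hu1 : φ u ≠ 1) : K = ⊤ := by
  rw [eq_top_iff]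
  intro g _
  obtain ⟨i, hi⟩ := Subgroup.mem_zpowers_iff.1 (mem_zpowers_Z (b := φ g) hu1)
  have h1 : g * (u ^ i)⁻¹ ∈ φ.ker := by
    rw [MonoidHom.mem_ker, map_mul, map_inv, map_zpow, hi, mul_inv_cancel]
  have h2 : g = (g * (u ^ i)⁻¹) * u ^ i := by group
  rw [h2]
  exact mul_mem (hK h1) (zpow_mem hu i)

theorem exists_hom [Finite G] (hG : IsPGroup p G) {M : Subgroup G} (hM : IsCoatom M) :
    ∃ φ : G →* Z p, φ ≠ 1 ∧ φ.ker = M := by
  have := hG.isNilpotent
  have hMn := H1.Frat.normal_of_isCoatom hM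
  have hi := H1.Frat.index_eq_of_isCoatom hG hM
  have hc : Nat.card (G ⧸ M) = p := by rw [← Subgroup.index_eq_card]; exact hi
  let e : (G ⧸ M) ≃* Z p := mulEquivOfPrimeCardEq (p := p) hc card_Z
  have hk : (e.toMonoidHom.comp (QuotientGroup.mk' M)).ker = M := by
    ext g
    rw [MonoidHom.mem_ker, MonoidHom.comp_apply]
    constructor
    · intro h
      have h1 : (QuotientGroup.mk' M) g = 1 := e.injective (by rw [map_one]; exact h)
      exact (QuotientGroup.eq_one_iff g).mp h1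
    · intro h
      have h1 : (QuotientGroup.mk' M) g = 1 := (QuotientGroup.eq_one_iff g).mpr h
      rw [h1, map_one]
  refine ⟨_, ?_, hk⟩
  intro h
  rw [h] at hk
  apply hM.1
  rw [← hk, MonoidHom.ker_one]

theorem exists_ne_one_of_notMem_frattini [Finite G] (hG : IsPGroup p G) {w : G} (hw : w ∉ frattini G) :
    ∃ φ : G →* Z p, φ w ≠ 1 := by
  rw [H1.Frat.mem_frattini_iff] at hw
  push Not at hw
  obtain ⟨M, hM, hwM⟩ := hw
  obtain ⟨φ, -, hk⟩ := exists_hom hG hM
  refine ⟨φ, fun h => hwM ?_⟩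
  rw [← hk]; exact h

theorem exists_hom_of_ne_top [Finite G] (hG : IsPGroup p G) {K : Subgroup G} (hK : K ≠ ⊤) :
    ∃ φ : G →* Z p, φ ≠ 1 ∧ K ≤ φ.ker := by
  obtain ⟨M, hM, hKM⟩ := (eq_top_or_exists_le_coatom K).resolve_left hK
  obtain ⟨φ, h1, h2⟩ := exists_hom hG hM
  exact ⟨φ, h1, h2 ▸ hKM⟩

/-- the preimage of the centre of `G / M'`, `M = ker φ` -/
def R (φ : G →* Z p) : Subgroup G :=
  φ.ker ⊓ (center (G ⧸ ⁅φ.ker, φ.ker⁆)).comap (QuotientGroup.mk' ⁅φ.ker, φ.ker⁆)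

theorem centralizer_le (φ : G →* Z p) {v : G} (hv : v ∈ φ.ker) (hvR : v ∉ R φ) : centralizer {v} ≤ φ.ker := by
  intro u hu
  by_contra huk
  apply hvR
  refine ⟨hv, ?_⟩
  show QuotientGroup.mk' ⁅φ.ker, φ.ker⁆ v ∈ center _
  rw [mem_center_iff]
  set π := QuotientGroup.mk' ⁅φ.ker, φ.ker⁆ with hπ
  have hK : (centralizer {π v}).comap π = ⊤ := by
    apply eq_top_of_ker_le (φ := φ) (u := u)
    · intro h hh
      rw [Subgroup.mem_comap, mem_centralizer_iff]
      rintro y rfl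
      have h1 : π ⁅v, h⁆ = 1 := (QuotientGroup.eq_one_iff _).mpr (commutator_mem_commutator hv hh)
      rw [map_commutatorElement] at h1
      exact commutatorElement_eq_one_iff_mul_comm.1 h1
    · rw [Subgroup.mem_comap, mem_centralizer_iff]
      rintro y rfl
      rw [← map_mul, ← map_mul, (mem_centralizer_iff.1 hu) v rfl]
    · exact huk
  intro y
  obtain ⟨g, rfl⟩ := QuotientGroup.mk'_surjective _ y
  have h1 : g ∈ (centralizer {π v}).comap π := by rw [hK]; exact mem_top g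
  rw [Subgroup.mem_comap, mem_centralizer_iff] at h1
  exact (h1 _ rfl).symm

theorem R_ne (φ : G →* Z p) (h : ⁅φ.ker, φ.ker⁆ ≠ commutator G) : ∃ a ∈ φ.ker, a ∉ R φ := by
  by_contra hcon
  push Not at hcon
  apply h
  apply le_antisymm (Subgroup.commutator_mono le_top le_top)
  change commutator G ≤ _
  set N := ⁅φ.ker, φ.ker⁆ with hN
  have hNk : N ≤ φ.ker := Subgroup.commutator_le_left _ _
  let ψ : G ⧸ N →* Z p := QuotientGroup.lift N φ (fun x hx => hNk hx)
  have hψ : ψ.ker ≤ center (G ⧸ N) := by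
    intro y hy
    obtain ⟨g, rfl⟩ := QuotientGroup.mk'_surjective N y
    have h1 : g ∈ φ.ker := hy
    exact (hcon g h1).2
  have hcomm := (ψ.isMulCommutative_of_isCyclic_of_ker_le_center hψ).is_comm.comm
  rw [commutator_def, Subgroup.commutator_le]
  intro a _ b _
  rw [← QuotientGroup.eq_one_iff]
  show QuotientGroup.mk' N ⁅a, b⁆ = 1
  rw [map_commutatorElement, commutatorElement_eq_one_iff_mul_comm]
  exact hcomm _ _

instance finite_D [Finite G] : Finite (G →* Z p) := Finite.of_injective (fun φ : G →* Z p => (φ : G → Z p)) DFunLike.coe_injective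

/-- two independent evaluations -/
theorem card_two [Finite G] (hG : IsPGroup p G) (φ₀ : G →* Z p) {v u : G} (hv : φ₀ v ≠ 1)
    (hu : u ∉ zpowers v ⊔ frattini G) :
    p ^ 2 * Nat.card ((MonoidHom.eval u).ker ⊓ (MonoidHom.eval v).ker : Subgroup (G →* Z p)) = Nat.card (G →* Z p) := by
  obtain ⟨i, hi⟩ := Subgroup.mem_zpowers_iff.1 (mem_zpowers_Z (b := φ₀ u) hv)
  set u' := u * (v ^ i)⁻¹ with hu'
  have hφu' : φ₀ u' = 1 := by rw [hu', map_mul, map_inv, map_zpow, hi, mul_inv_cancel]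
  have hu'f : u' ∉ frattini G := by
    intro h
    apply hu
    have h1 : u = u' * v ^ i := by rw [hu']; group
    rw [h1]
    exact mul_mem ((le_sup_right : frattini G ≤ _) h) ((le_sup_left : zpowers v ≤ _) (zpow_mem (mem_zpowers v) i))
  obtain ⟨φ₂, hφ₂⟩ := exists_ne_one_of_notMem_frattini hG hu'f
  obtain ⟨j, hj⟩ := Subgroup.mem_zpowers_iff.1 (mem_zpowers_Z (b := φ₂ v) hv)
  set φ₁ := φ₂ * (φ₀ ^ j)⁻¹ with hφ₁
  have h1v : φ₁ v = 1 := by
    rw [hφ₁, MonoidHom.mul_apply, MonoidHom.inv_apply, MonoidHom.zpow_apply, hj, mul_inv_cancel]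
  have h1u : φ₁ u' ≠ 1 := by
    rw [hφ₁, MonoidHom.mul_apply, MonoidHom.inv_apply, MonoidHom.zpow_apply, hφu', one_zpow, inv_one, mul_one]
    exact hφ₂
  have e1 := card_eq' (A := G →* Z p) (MonoidHom.eval v) ⟨φ₀, hv⟩
  have e2 := card_eq (A := G →* Z p) (MonoidHom.eval u') (MonoidHom.eval v).ker ⟨φ₁, (by show φ₁ v = 1; exact h1v), (by show φ₁ u' ≠ 1; exact h1u)⟩
  have e3 : (MonoidHom.eval u').ker ⊓ (MonoidHom.eval v).ker =
      ((MonoidHom.eval u).ker ⊓ (MonoidHom.eval v).ker : Subgroup (G →* Z p)) := by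
    ext φ
    constructor
    · rintro ⟨h1, h2⟩
      refine ⟨?_, h2⟩
      have h1' : φ u' = 1 := h1
      have h2' : φ v = 1 := h2
      show φ u = 1
      rw [hu', map_mul, map_inv, map_zpow, h2', one_zpow, inv_one, mul_one] at h1'
      exact h1'
    · rintro ⟨h1, h2⟩
      refine ⟨?_, h2⟩
      have h1' : φ u = 1 := h1
      have h2' : φ v = 1 := h2
      show φ u' = 1
      rw [hu', map_mul, map_inv, map_zpow, h2', one_zpow, inv_one, mul_one]
      exact h1'
  rw [e1, e2, e3, ← mul_assoc, sq]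

theorem orderOf_hom (φ₀ : G →* Z p) (h0 : φ₀ ≠ 1) : orderOf φ₀ = p := by
  apply orderOf_eq_prime _ h0
  ext g
  rw [MonoidHom.pow_apply, MonoidHom.one_apply]
  have h1 := pow_card_eq_one' (x := φ₀ g)
  rw [card_Z] at h1
  exact h1

theorem exists_in_ker (φ₀ φ : G →* Z p) (h0 : φ₀ ≠ 1) (h : φ ∉ zpowers φ₀) : ∃ a ∈ φ.ker, φ₀ a ≠ 1 := by
  by_contra hcon
  push Not at hcon
  apply h
  obtain ⟨t, ht⟩ := ex_ne_one h0
  have h1 : φ t ≠ 1 := fun h1 => ht (hcon t h1)
  obtain ⟨i, hi⟩ := Subgroup.mem_zpowers_iff.1 (mem_zpowers_Z (b := φ t) ht)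
  refine Subgroup.mem_zpowers_iff.2 ⟨i, ?_⟩
  have h2 : (φ₀ ^ i * φ⁻¹).ker = ⊤ := by
    apply eq_top_of_ker_le (φ := φ) (u := t)
    · intro a ha
      have ha' : φ a = 1 := ha
      rw [MonoidHom.mem_ker, MonoidHom.mul_apply, MonoidHom.inv_apply, MonoidHom.zpow_apply, hcon a ha, ha', one_zpow, inv_one, mul_one]
    · rw [MonoidHom.mem_ker, MonoidHom.mul_apply, MonoidHom.inv_apply, MonoidHom.zpow_apply, hi, mul_inv_cancel]
    · exact h1
  have h3 : φ₀ ^ i * φ⁻¹ = 1 := by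
    ext a
    have : a ∈ (φ₀ ^ i * φ⁻¹).ker := by rw [h2]; exact mem_top a
    exact this
  exact mul_inv_eq_one.mp h3

open Classical in
/-- complement counts -/
theorem card_diff [Finite G] [Fintype G] (K : Subgroup G) (φ₀ : G →* Z p) :
    (Finset.univ.filter (fun v : G => v ∈ K ∧ φ₀ v ≠ 1)).card + Nat.card (φ₀.ker ⊓ K : Subgroup G) = Nat.card K := by
  have h1 : Nat.card (φ₀.ker ⊓ K : Subgroup G) = (Finset.univ.filter (fun v : G => v ∈ K ∧ φ₀ v = 1)).card := by
    rw [Nat.card_eq_fintype_card, Fintype.card_subtype]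
    congr 1
    ext v
    simp only [Finset.mem_filter, Finset.mem_univ, true_and]
    constructor
    · rintro ⟨h1, h2⟩; exact ⟨h2, h1⟩
    · rintro ⟨h1, h2⟩; exact ⟨h2, h1⟩
  have h2 : Nat.card K = (Finset.univ.filter (fun v : G => v ∈ K)).card := by
    rw [Nat.card_eq_fintype_card, Fintype.card_subtype]
  rw [h1, h2, ← Finset.card_union_of_disjoint]
  · congr 1
    ext v
    simp only [Finset.mem_union, Finset.mem_filter, Finset.mem_univ, true_and]
    tauto
  · rw [Finset.disjoint_left]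
    intro v hv hv'
    simp only [Finset.mem_filter] at hv hv'
    exact hv.2.2 hv'.2.2

theorem ar1 {p t B g : ℕ} (hp : 1 ≤ p) (h1 : t + B = g) (h2 : g = p * B) : p * t = (p - 1) * g := by
  obtain ⟨q, rfl⟩ : ∃ q, p = q + 1 := ⟨p - 1, (Nat.sub_add_cancel hp).symm⟩
  rw [Nat.add_sub_cancel]
  have : t = q * B := by nlinarith
  rw [this, h2]; ring

theorem ar2 {p g A B c1 c2 c3 ρ : ℕ} (hp : 1 ≤ p) (e1 : g = p * A) (e2 : A = p * B) (e3 : c1 + B = A)
    (e5 : p * ρ ≤ A) (e6 : p * c2 ≤ (p - 1) * ρ) (e7 : c1 ≤ c3 + c2) : (p - 1) ^ 2 * g ≤ p ^ 3 * c3 := by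
  obtain ⟨q, rfl⟩ : ∃ q, p = q + 1 := ⟨p - 1, (Nat.sub_add_cancel hp).symm⟩
  rw [Nat.add_sub_cancel] at e6 ⊢
  have f1 : c1 = q * B := by nlinarith
  have f2 : (q + 1) ^ 2 * c2 ≤ q * A := by
    calc (q + 1) ^ 2 * c2 = (q + 1) * ((q + 1) * c2) := by ring
      _ ≤ (q + 1) * (q * ρ) := Nat.mul_le_mul_left _ e6
      _ = q * ((q + 1) * ρ) := by ring
      _ ≤ q * A := Nat.mul_le_mul_left _ e5
  have f3 : g = (q + 1) ^ 2 * B := by rw [e1, e2]; ring
  have f5 : (q + 1) ^ 2 * c1 = q * g := by rw [f1, f3]; ring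
  have f6 : q * g ≤ (q + 1) ^ 2 * c3 + q * A := by
    rw [← f5]
    calc (q + 1) ^ 2 * c1 ≤ (q + 1) ^ 2 * (c3 + c2) := Nat.mul_le_mul_left _ e7
      _ = (q + 1) ^ 2 * c3 + (q + 1) ^ 2 * c2 := by ring
      _ ≤ _ := Nat.add_le_add_left f2 _
  have f7 : (q + 1) * (q * g) ≤ (q + 1) * ((q + 1) ^ 2 * c3 + q * A) := Nat.mul_le_mul_left _ f6
  have f8 : (q + 1) * (q * A) = q * g := by rw [e1]; ring
  have f9 : (q + 1) * ((q + 1) ^ 2 * c3 + q * A) = (q + 1) ^ 3 * c3 + q * g := by rw [← f8]; ring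
  rw [f9] at f7
  have f10 : (q + 1) * (q * g) = q ^ 2 * g + q * g := by ring
  rw [f10] at f7
  omega

theorem ar3 {p g n s t X : ℕ} (hp : 2 ≤ p) (hg : 0 < g) (hT : p * t = (p - 1) * g) (hS : s + p = n)
    (h1 : s * ((p - 1) ^ 2 * g) ≤ p ^ 3 * X) (h2 : p ^ 2 * X + t * p ^ 2 ≤ t * n) : False := by
  obtain ⟨q, rfl⟩ : ∃ q, p = q + 1 := ⟨p - 1, (Nat.sub_add_cancel (by omega)).symm⟩
  have hq1 : 1 ≤ q := by omega
  rw [Nat.add_sub_cancel] at h1 hT
  have k1 : (q + 1) * ((q + 1) ^ 2 * X + t * (q + 1) ^ 2) ≤ (q + 1) * (t * n) := Nat.mul_le_mul_left _ h2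
  have k2 : s * (q ^ 2 * g) + q * g * (q + 1) ^ 2 ≤ q * g * n := by
    calc s * (q ^ 2 * g) + q * g * (q + 1) ^ 2 ≤ (q + 1) ^ 3 * X + ((q + 1) * t) * (q + 1) ^ 2 := by
          rw [hT]; exact Nat.add_le_add_right h1 _
      _ = (q + 1) * ((q + 1) ^ 2 * X + t * (q + 1) ^ 2) := by ring
      _ ≤ (q + 1) * (t * n) := k1
      _ = q * g * n := by rw [← hT]; ring
  have k3 : (q * g) * (s * q + (q + 1) ^ 2) ≤ (q * g) * n := by
    calc (q * g) * (s * q + (q + 1) ^ 2) = s * (q ^ 2 * g) + q * g * (q + 1) ^ 2 := by ring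
      _ ≤ _ := k2
  have k4 : s * q + (q + 1) ^ 2 ≤ n := Nat.le_of_mul_le_mul_left k3 (Nat.mul_pos hq1 hg)
  rw [← hS] at k4
  nlinarith

open Classical in
theorem exists_good [Finite G] (hG : IsPGroup p G)
    (hmin : ∀ φ : G →* Z p, φ ≠ 1 → ⁅φ.ker, φ.ker⁆ ≠ commutator G) (φ₀ : G →* Z p) (h0 : φ₀ ≠ 1) :
    ∃ v : G, φ₀ v ≠ 1 ∧ centralizer {v} ≤ zpowers v ⊔ frattini G := by
  by_contra hcon
  push Not at hcon
  have _ := Fintype.ofFinite G
  have _ := Fintype.ofFinite (G →* Z p)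
  let S : Finset (G →* Z p) := Finset.univ.filter (fun φ => φ ∉ zpowers φ₀)
  let T : Finset G := Finset.univ.filter (fun v => φ₀ v ≠ 1)
  let r : (G →* Z p) → G → Prop := fun φ v => v ∈ φ.ker ∧ v ∉ R φ
  have hdc := Finset.sum_card_bipartiteAbove_eq_sum_card_bipartiteBelow (s := S) (t := T) r
  set g := Nat.card G with hg
  set n := Nat.card (G →* Z p) with hn
  -- T
  have hT : p * T.card = (p - 1) * g := by
    have h1 := card_diff (⊤ : Subgroup G) φ₀
    have h2 := card_eq' φ₀ (ex_ne_one h0)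
    rw [inf_top_eq, Subgroup.card_top] at h1
    have h3 : (Finset.univ.filter (fun v : G => v ∈ (⊤ : Subgroup G) ∧ φ₀ v ≠ 1)) = T := by
      ext v; simp [T]
    rw [h3] at h1
    exact ar1 hp.out.one_lt.le h1 h2
  -- S
  have hS : S.card + p = n := by
    have h1 : Nat.card (zpowers φ₀) = p := by rw [Nat.card_zpowers, orderOf_hom φ₀ h0]
    have h2 : (Finset.univ.filter (fun φ : G →* Z p => φ ∈ zpowers φ₀)).card = p := by
      refine Eq.trans ?_ h1
      rw [Nat.card_eq_fintype_card, Fintype.card_subtype]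
    have h3 := Finset.card_filter_add_card_filter_not (s := (Finset.univ : Finset (G →* Z p))) (fun φ => φ ∈ zpowers φ₀)
    have h4 : (Finset.univ : Finset (G →* Z p)).card = n := by
      rw [Finset.card_univ, ← Nat.card_eq_fintype_card]
    show (Finset.univ.filter (fun φ => φ ∉ zpowers φ₀)).card + p = n
    omega
  -- upper bound
  have hup : ∀ v ∈ T, p ^ 2 * (S.bipartiteBelow r v).card + p ^ 2 ≤ n := by
    intro v hv
    have hv' : φ₀ v ≠ 1 := by simpa [T] using hv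
    have h1 := hcon v hv'
    rw [SetLike.not_le_iff_exists] at h1
    obtain ⟨u, huc, hus⟩ := h1
    have h2 := card_two hG φ₀ hv' hus
    have h3 : (S.bipartiteBelow r v).card + 1 ≤ Nat.card ((MonoidHom.eval u).ker ⊓ (MonoidHom.eval v).ker : Subgroup (G →* Z p)) := by
      rw [Nat.card_eq_fintype_card, Fintype.card_subtype]
      have h4 : (1 : G →* Z p) ∉ S.bipartiteBelow r v := by
        rw [Finset.mem_bipartiteBelow]
        rintro ⟨h5, -⟩
        simp only [S, Finset.mem_filter] at h5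
        exact h5.2 (one_mem _)
      rw [← Finset.card_insert_of_notMem h4]
      apply Finset.card_le_card
      intro φ hφ
      rw [Finset.mem_filter]
      refine ⟨Finset.mem_univ _, ?_⟩
      rw [Finset.mem_insert] at hφ
      rcases hφ with rfl | hφ
      · exact one_mem _
      · rw [Finset.mem_bipartiteBelow] at hφ
        obtain ⟨-, h6, h7⟩ := hφ
        exact ⟨centralizer_le φ h6 h7 huc, h6⟩
    rw [hn, ← h2]
    calc p ^ 2 * (S.bipartiteBelow r v).card + p ^ 2 = p ^ 2 * ((S.bipartiteBelow r v).card + 1) := by ring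
      _ ≤ _ := Nat.mul_le_mul_left _ h3
  -- lower bound
  have hlow : ∀ φ ∈ S, (p - 1) ^ 2 * g ≤ p ^ 3 * (T.bipartiteAbove r φ).card := by
    intro φ hφ
    have hφ' : φ ∉ zpowers φ₀ := by simpa [S] using hφ
    have hφ1 : φ ≠ 1 := by rintro rfl; exact hφ' (one_mem _)
    have e1 := card_eq' φ (ex_ne_one hφ1)
    have e2 := card_eq φ₀ φ.ker (exists_in_ker φ₀ φ h0 hφ')
    have e3 := card_diff φ.ker φ₀
    have e4 := card_diff (R φ) φ₀
    -- R
    have e5 : p * Nat.card (R φ) ≤ Nat.card φ.ker := by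
      obtain ⟨a, ha, haR⟩ := R_ne φ (hmin φ hφ1)
      have h1 : (R φ) ≤ φ.ker := inf_le_left
      have h2 : (⊥ : Subgroup G).relIndex (R φ) * (R φ).relIndex φ.ker = (⊥ : Subgroup G).relIndex φ.ker :=
        Subgroup.relIndex_mul_relIndex _ _ _ bot_le h1
      rw [Subgroup.relIndex_bot_left, Subgroup.relIndex_bot_left] at h2
      have h3 : p ≤ (R φ).relIndex φ.ker := by
        obtain ⟨m, hm⟩ := (hG.to_subgroup φ.ker).index ((R φ).subgroupOf φ.ker)
        have h4 : (R φ).relIndex φ.ker = p ^ m := hm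
        rw [h4]
        apply Nat.le_self_pow
        rintro rfl
        rw [pow_zero, Subgroup.relIndex_eq_one] at h4
        exact haR (h4 ha)
      rw [← h2, mul_comm]
      exact Nat.mul_le_mul_left _ h3
    have e6 : p * (Finset.univ.filter (fun v : G => v ∈ R φ ∧ φ₀ v ≠ 1)).card ≤ (p - 1) * Nat.card (R φ) := by
      by_cases h1 : ∃ a ∈ R φ, φ₀ a ≠ 1
      · exact (ar1 hp.out.one_lt.le e4 (card_eq φ₀ (R φ) h1)).le
      · push Not at h1
        have : (Finset.univ.filter (fun v : G => v ∈ R φ ∧ φ₀ v ≠ 1)) = ∅ := by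
          rw [Finset.filter_eq_empty_iff]
          rintro v - ⟨h3, h4⟩
          exact h4 (h1 v h3)
        rw [this]; simp
    have e7 : (Finset.univ.filter (fun v : G => v ∈ φ.ker ∧ φ₀ v ≠ 1)).card ≤
        (T.bipartiteAbove r φ).card + (Finset.univ.filter (fun v : G => v ∈ R φ ∧ φ₀ v ≠ 1)).card := by
      rw [← Finset.card_filter_add_card_filter_not (s := (Finset.univ.filter (fun v : G => v ∈ φ.ker ∧ φ₀ v ≠ 1))) (fun v => v ∉ R φ)]
      apply Nat.add_le_add
      · apply Finset.card_le_card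
        intro v hv
        simp only [Finset.mem_filter, Finset.mem_univ, true_and] at hv
        rw [Finset.mem_bipartiteAbove]
        refine ⟨?_, hv.1.1, hv.2⟩
        simp only [T, Finset.mem_filter, Finset.mem_univ, true_and]
        exact hv.1.2
      · apply Finset.card_le_card
        intro v hv
        simp only [Finset.mem_filter, Finset.mem_univ, true_and, not_not] at hv ⊢
        exact ⟨hv.2, hv.1.2⟩
    exact ar2 hp.out.one_lt.le e1 e2 e3 e5 e6 (by convert e7)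
  -- combine
  have h1 : ∑ φ ∈ S, (p - 1) ^ 2 * g ≤ ∑ φ ∈ S, p ^ 3 * (T.bipartiteAbove r φ).card := Finset.sum_le_sum hlow
  rw [Finset.sum_const, smul_eq_mul, ← Finset.mul_sum, hdc] at h1
  have h2 : ∑ v ∈ T, (p ^ 2 * (S.bipartiteBelow r v).card + p ^ 2) ≤ ∑ v ∈ T, n := Finset.sum_le_sum hup
  rw [Finset.sum_add_distrib, ← Finset.mul_sum, Finset.sum_const, Finset.sum_const, smul_eq_mul, smul_eq_mul] at h2
  exact ar3 hp.out.two_le Nat.card_pos hT hS h1 h2

end H1.VLb
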