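import Mathlib
import Cfsg.Agent.Lib.H1.VLa
import Cfsg.Agent.Lib.H1.VLb

/-!
Vaughan-Lee's theorem: a finite `p`-group of breadth `b` satisfies `|G'| ≤ p ^ (b (b + 1) / 2)`.
-/

set_option autoImplicit false

open Subgroup
open scoped Pointwise commutatorElement

namespace H1.VLc

open H1.VLa H1.VLb

variable {G : Type*} [Group G] {p : ℕ} [hp : Fact p.Prime]

theorem card_step [Finite G] (hG : IsPGroup p G) {K : Subgroup G} (hK : frattini G ≤ K) {v : G} (hv : v ∉ K) :
    Nat.card (K ⊔ zpowers v : Subgroup G) = p * Nat.card K := by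
  have := hG.isNilpotent
  have h1 : commutator G ≤ K := H1.Frat.commutator_le_frattini.trans hK
  have h2 : ∀ x : G, x ^ p ∈ K := fun x => hK (H1.Frat.pow_mem_frattini hG x)
  have h3 := H1.Frat.card_sup_zpowers_dvd h1 h2 v
  obtain ⟨c, hc⟩ := Subgroup.card_dvd_of_le (le_sup_left : K ≤ K ⊔ zpowers v)
  have hpos : 0 < Nat.card K := Nat.card_pos
  rw [hc, mul_comm p] at h3
  have h4 : c ∣ p := Nat.dvd_of_mul_dvd_mul_left hpos h3
  rcases (Nat.dvd_prime hp.out).mp h4 with h5 | h5
  · exfalso
    rw [h5, mul_one] at hc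
    have h6 : K = K ⊔ zpowers v := Subgroup.eq_of_le_of_card_ge le_sup_left hc.le
    apply hv
    rw [h6]
    exact (le_sup_right : zpowers v ≤ _) (mem_zpowers v)
  · rw [hc, h5, mul_comm]

theorem chain [Finite G] (hG : IsPGroup p G)
    (hgood : ∀ φ₀ : G →* Z p, φ₀ ≠ 1 → ∃ v : G, φ₀ v ≠ 1 ∧ centralizer {v} ≤ zpowers v ⊔ frattini G) (m : ℕ) :
    ∀ (k : ℕ) (x : ℕ → G), (∀ j < k, centralizer {x j} ≤ zpowers (x j) ⊔ frattini G) →
      (∀ j ≤ k, Nat.card (Y (frattini G) x j) = p ^ j * Nat.card (frattini G)) →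
      Nat.card G ≤ Nat.card (Y (frattini G) x k) + m →
    ∃ (d : ℕ) (x : ℕ → G), (∀ j < d, centralizer {x j} ≤ zpowers (x j) ⊔ frattini G) ∧
      (∀ j ≤ d, Nat.card (Y (frattini G) x j) = p ^ j * Nat.card (frattini G)) ∧ Y (frattini G) x d = ⊤ := by
  induction m with
  | zero =>
    intro k x h1 h2 h3
    exact ⟨k, x, h1, h2, Subgroup.eq_top_of_le_card _ (by simpa using h3)⟩
  | succ m ih =>
    intro k x h1 h2 h3
    by_cases htop : Y (frattini G) x k = ⊤
    · exact ⟨k, x, h1, h2, htop⟩
    obtain ⟨φ₀, hφ0, hle⟩ := exists_hom_of_ne_top hG htop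
    obtain ⟨v, hv, hvg⟩ := hgood φ₀ hφ0
    have hvY : v ∉ Y (frattini G) x k := fun h => hv (hle h)
    have hx' : ∀ j < k, Function.update x k v j = x j := fun j hj => Function.update_of_ne hj.ne _ _
    have hYj : ∀ j ≤ k, Y (frattini G) (Function.update x k v) j = Y (frattini G) x j := fun j hj =>
      Y_congr _ _ _ _ (fun i hi => hx' i (lt_of_lt_of_le hi hj))
    have hYs : Y (frattini G) (Function.update x k v) (k + 1) = Y (frattini G) x k ⊔ zpowers v := by
      rw [Y_succ, hYj k le_rfl, Function.update_self]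
    have hcs := card_step hG (F_le_Y (frattini G) x k) hvY
    apply ih (k + 1) (Function.update x k v)
    · intro j hj
      rcases Nat.lt_succ_iff_lt_or_eq.mp hj with h | h
      · rw [hx' j h]; exact h1 j h
      · subst h; rw [Function.update_self]; exact hvg
    · intro j hj
      rcases Nat.le_succ_iff.mp hj with h | h
      · rw [hYj j h]; exact h2 j h
      · subst h
        rw [hYs, hcs, h2 k le_rfl, pow_succ]; ring
    · rw [hYs, hcs]
      have h4 : 0 < Nat.card (Y (frattini G) x k) := Nat.card_pos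
      have h5 := hp.out.two_le
      nlinarith

theorem exp_ineq (b d : ℕ) : b * d ≤ b * (b + 1) / 2 + ∑ k ∈ Finset.range d, k := by
  have h1 : 2 * (b * (b + 1) / 2) = b * (b + 1) := Nat.mul_div_cancel' (Nat.even_mul_succ_self b).two_dvd
  have h2 := Finset.sum_range_id_mul_two d
  rcases d with _ | e
  · simp
  · rw [Nat.add_sub_cancel] at h2
    set A := b * (b + 1) / 2
    set S := ∑ k ∈ Finset.range (e + 1), k
    rcases le_or_gt b e with h | h
    · obtain ⟨t, rfl⟩ := Nat.exists_eq_add_of_le h
      nlinarith [Nat.zero_le t]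
    · obtain ⟨t, rfl⟩ := Nat.exists_eq_add_of_lt h
      nlinarith [Nat.zero_le t]

theorem final [Finite G] (hG : IsPGroup p G) (b : ℕ) (hb : ∀ x : G, (centralizer ({x} : Set G)).index ≤ p ^ b)
    {d : ℕ} {x : ℕ → G} (h1 : ∀ j < d, centralizer {x j} ≤ zpowers (x j) ⊔ frattini G)
    (h2 : ∀ j ≤ d, Nat.card (Y (frattini G) x j) = p ^ j * Nat.card (frattini G)) (h3 : Y (frattini G) x d = ⊤) :
    Nat.card (commutator G) ≤ p ^ (b * (b + 1) / 2) := by
  have := hG.isNilpotent
  have hgen : closure (x '' Set.Iio d) = ⊤ := by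
    by_contra hcon
    obtain ⟨φ, hφ, hle⟩ := exists_hom_of_ne_top hG hcon
    have h4 : Y (frattini G) x d ≤ φ.ker := by
      apply sup_le hle
      intro w hw
      have h5 : IsCoatom φ.ker := by
        constructor
        · intro h6
          apply hφ
          ext a
          have : a ∈ φ.ker := by rw [h6]; exact mem_top a
          exact this
        · intro K hK
          obtain ⟨u, huK, hu⟩ := SetLike.exists_of_lt hK
          exact eq_top_of_ker_le hK.le huK hu
      exact H1.Frat.mem_frattini_iff.1 hw _ h5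
    rw [h3] at h4
    apply hφ
    ext a
    exact h4 (mem_top a)
  have hm := main (Nat.card G) G hG (frattini G) inferInstance H1.Frat.commutator_le_frattini x d hgen le_rfl
  have hF : 0 < Nat.card (frattini G) := Nat.card_pos
  have hGc : Nat.card G = p ^ d * Nat.card (frattini G) := by
    rw [← h2 d le_rfl, h3, Subgroup.card_top]
  have hfac : ∀ k ∈ Finset.range d, fac (frattini G) x k * p ^ k ≤ p ^ b := by
    intro k hk
    have hkd : k < d := Finset.mem_range.mp hk
    set C := centralizer {x k} with hC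
    have hxC : x k ∈ C := by
      rw [hC, mem_centralizer_iff]; rintro y rfl; rfl
    have g1 : (C ⊔ Y (frattini G) x k).index ≤ (Y (frattini G) x (k + 1)).index := by
      apply Nat.le_of_dvd (Nat.pos_of_ne_zero Subgroup.index_ne_zero_of_finite)
      apply Subgroup.index_dvd_of_le
      rw [Y_succ]
      apply sup_le le_sup_right
      rw [zpowers_le]
      exact (le_sup_left : C ≤ _) hxC
    have g2 : (Y (frattini G) x (k + 1)).index * p ^ (k + 1) = p ^ d := by
      have h4 := Subgroup.card_mul_index (Y (frattini G) x (k + 1))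
      rw [h2 (k + 1) hkd, hGc] at h4
      have h5 : ((Y (frattini G) x (k + 1)).index * p ^ (k + 1)) * Nat.card (frattini G) = p ^ d * Nat.card (frattini G) := by
        rw [← h4]; ring
      exact Nat.eq_of_mul_eq_mul_right hF h5
    set Q := zpowers (x k) ⊔ frattini G with hQ
    have g3 : C.relIndex (frattini G) ≤ C.relIndex Q := by
      apply Subgroup.relIndex_le_of_le_right le_sup_right
      unfold Subgroup.relIndex
      exact Subgroup.index_ne_zero_of_finite
    have g4 : C.relIndex Q * Q.index ≤ p ^ b := by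
      rw [Subgroup.relIndex_mul_index (h1 k hkd)]
      exact hb _
    have g5 : p ^ d ≤ Q.index * p := by
      have h4 : Nat.card Q ≤ p * Nat.card (frattini G) := by
        rw [hQ, sup_comm]
        exact Nat.le_of_dvd (Nat.mul_pos hp.out.pos hF)
          (H1.Frat.card_sup_zpowers_dvd H1.Frat.commutator_le_frattini (H1.Frat.pow_mem_frattini hG) (x k))
      have h5 := Subgroup.card_mul_index Q
      rw [hGc] at h5
      have h6 : p ^ d * Nat.card (frattini G) ≤ (Q.index * p) * Nat.card (frattini G) := by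
        rw [← h5]
        calc Nat.card Q * Q.index ≤ (p * Nat.card (frattini G)) * Q.index := Nat.mul_le_mul_right _ h4
          _ = _ := by ring
      exact Nat.le_of_mul_le_mul_right h6 hF
    have hpd : 0 < p ^ d * p := Nat.mul_pos (pow_pos hp.out.pos _) hp.out.pos
    apply Nat.le_of_mul_le_mul_right _ hpd
    unfold fac
    calc (C ⊔ Y (frattini G) x k).index * C.relIndex (frattini G) * p ^ k * (p ^ d * p)
        = ((C ⊔ Y (frattini G) x k).index * p ^ (k + 1)) * (C.relIndex (frattini G) * p ^ d) := by rw [pow_succ]; ring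
      _ ≤ ((Y (frattini G) x (k + 1)).index * p ^ (k + 1)) * (C.relIndex Q * (Q.index * p)) :=
          Nat.mul_le_mul (Nat.mul_le_mul_right _ g1) (Nat.mul_le_mul g3 g5)
      _ = p ^ d * ((C.relIndex Q * Q.index) * p) := by rw [g2]; ring
      _ ≤ p ^ d * (p ^ b * p) := Nat.mul_le_mul_left _ (Nat.mul_le_mul_right _ g4)
      _ = p ^ b * (p ^ d * p) := by ring
  have hprod : (∏ k ∈ Finset.range d, fac (frattini G) x k) * p ^ (∑ k ∈ Finset.range d, k) ≤ p ^ (b * d) := by
    rw [← Finset.prod_pow_eq_pow_sum, ← Finset.prod_mul_distrib]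
    calc ∏ k ∈ Finset.range d, fac (frattini G) x k * p ^ k ≤ ∏ k ∈ Finset.range d, p ^ b := Finset.prod_le_prod' hfac
      _ = p ^ (b * d) := by rw [Finset.prod_const, Finset.card_range, pow_mul]
  have hpS : 0 < p ^ (∑ k ∈ Finset.range d, k) := pow_pos hp.out.pos _
  apply Nat.le_of_mul_le_mul_right _ hpS
  calc Nat.card (commutator G) * p ^ (∑ k ∈ Finset.range d, k)
      ≤ (∏ k ∈ Finset.range d, fac (frattini G) x k) * p ^ (∑ k ∈ Finset.range d, k) := Nat.mul_le_mul_right _ hm
    _ ≤ p ^ (b * d) := hprod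
    _ ≤ p ^ (b * (b + 1) / 2 + ∑ k ∈ Finset.range d, k) := Nat.pow_le_pow_right hp.out.pos (exp_ineq b d)
    _ = _ := pow_add _ _ _

/-- Vaughan-Lee -/
theorem vaughan_lee (n : ℕ) : ∀ (G : Type*) [Group G] [Finite G] (_ : IsPGroup p G) (b : ℕ)
    (_ : ∀ x : G, (centralizer ({x} : Set G)).index ≤ p ^ b) (_ : Nat.card G ≤ n),
    Nat.card (commutator G) ≤ p ^ (b * (b + 1) / 2) := by
  induction n with
  | zero =>
    intro G _ _ _ b _ hcard
    exact absurd hcard (Nat.not_le_of_gt Nat.card_pos)
  | succ n ih =>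
    intro G _ _ hG b hb hcard
    by_cases hmin : ∀ φ : G →* Z p, φ ≠ 1 → ⁅φ.ker, φ.ker⁆ ≠ commutator G
    · obtain ⟨d, x, h1, h2, h3⟩ := chain hG (fun φ₀ h0 => exists_good hG hmin φ₀ h0) (Nat.card G) 0 (fun _ => 1)
        (fun j hj => absurd hj (Nat.not_lt_zero j))
        (fun j hj => by
          obtain rfl : j = 0 := Nat.le_zero.mp hj
          rw [Y_zero, pow_zero, one_mul]) (Nat.le_add_left _ _)
      exact final hG b hb h1 h2 h3
    · push Not at hmin
      obtain ⟨φ, hφ, heq⟩ := hmin
      have e1 := card_eq' φ (ex_ne_one hφ)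
      have hlt : Nat.card φ.ker ≤ n := by
        have h1 : 0 < Nat.card φ.ker := Nat.card_pos
        have h2 := hp.out.two_le
        nlinarith
      have h1 := ih φ.ker (hG.to_subgroup _) b (fun x => by
        have h2 : centralizer ({x} : Set φ.ker) = (centralizer {(x : G)}).subgroupOf φ.ker := by
          ext y
          rw [mem_centralizer_iff, mem_subgroupOf, mem_centralizer_iff]
          constructor
          · rintro h _ rfl
            exact congrArg Subtype.val (h x rfl)
          · rintro h _ rfl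
            exact Subtype.ext (h _ rfl)
        rw [h2]
        refine le_trans ?_ (hb (x : G))
        rw [← Subgroup.relIndex_top_right (centralizer {(x : G)})]
        exact Subgroup.relIndex_le_of_le_right le_top (by
          unfold Subgroup.relIndex
          exact Subgroup.index_ne_zero_of_finite)) hlt
      rw [← heq, ← Subgroup.map_subtype_commutator]
      rwa [Subgroup.card_map_of_injective (Subgroup.subtype_injective _)]

end H1.VLc
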