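import Cfsg.Agent.Lib.H1.PModV
import Cfsg.Agent.Lib.H1.Crit

/-!
The section `C_p wr C_p` from an element with nonzero norm.
-/

set_option autoImplicit false

open Subgroup
open scoped commutatorElement

namespace H1.WrSec

/-- the shift -/
def sh (p : ℕ) [Fact p.Prime] : Module.End (ZMod p) (ZMod p → ZMod p) where
  toFun := fun u j => u (j + 1)
  map_add' := fun _ _ => rfl
  map_smul' := fun _ _ => rfl

theorem sh_pow (p : ℕ) [Fact p.Prime] (k : ℕ) (u : ZMod p → ZMod p) (j : ZMod p) : (sh p ^ k) u j = u (j + k) := by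
  induction k generalizing u with
  | zero => simp
  | succ k ih =>
    rw [pow_succ, Module.End.mul_apply, ih]
    change u (j + k + 1) = _
    push_cast
    rw [add_assoc]

theorem surj {p : ℕ} [hp : Fact p.Prime] (U : Submodule (ZMod p) (ZMod p → ZMod p))
    (hU : ∀ u ∈ U, sh p u ∈ U) {u₀ : ZMod p → ZMod p} (hu₀ : u₀ ∈ U) (hs : ∑ j, u₀ j ≠ 0) : U = ⊤ := by
  by_contra hne
  obtain ⟨φ, hφ0, hφ⟩ := Submodule.exists_dual_map_eq_bot_of_lt_top (lt_top_iff_ne_top.mpr hne) inferInstance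
  -- the operator on the dual
  let T : Module.End (ZMod p) (Module.Dual (ZMod p) (ZMod p → ZMod p)) :=
    { toFun := fun ψ => ψ.comp (sh p)
      map_add' := fun _ _ => rfl
      map_smul' := fun _ _ => rfl }
  have hTk : ∀ k ψ, (T ^ k) ψ = ψ.comp (sh p ^ k) := by
    intro k
    induction k with
    | zero => intro ψ; rfl
    | succ k ih =>
      intro ψ
      rw [pow_succ, Module.End.mul_apply, ih]
      change (ψ.comp (sh p)).comp (sh p ^ k) = _
      rw [LinearMap.comp_assoc, pow_succ']; rfl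
  obtain ⟨N, hNT, hN⟩ : ∃ N : Module.End (ZMod p) (Module.Dual (ZMod p) (ZMod p → ZMod p)),
      (∀ ψ, N ψ = T ψ - ψ) ∧ N ^ p = 0 := by
    refine ⟨T - 1, fun ψ => rfl, ?_⟩
    have h1 := H1.Crit.sub_one_pow' (F := ZMod p) p 1 T
    rw [pow_one] at h1
    have h2 : T ^ p = 1 := by
      refine LinearMap.ext fun ψ => ?_
      rw [hTk]
      refine LinearMap.ext fun u => ?_
      change ψ ((sh p ^ p) u) = ψ u
      congr 1
      funext j
      rw [sh_pow]; simp
    rw [h1]
    refine LinearMap.ext fun ψ => ?_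
    change (T ^ p) ψ - ψ = 0
    rw [h2]
    exact sub_self _
  have hex : ∃ k, (N ^ k) φ = 0 := ⟨p, by rw [hN]; rfl⟩
  classical
  set k := Nat.find hex with hk
  have hk0 : k ≠ 0 := by
    intro h0
    have h1 := Nat.find_spec hex
    rw [← hk, h0] at h1
    exact hφ0 h1
  obtain ⟨l, hl⟩ := Nat.exists_eq_succ_of_ne_zero hk0
  set ψ := (N ^ l) φ with hψ
  have hψ0 : ψ ≠ 0 := Nat.find_min hex (by omega)
  have hψT : T ψ = ψ := by
    have h1 := Nat.find_spec hex
    rw [← hk, hl, Nat.succ_eq_add_one, pow_succ', Module.End.mul_apply, hNT] at h1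
    exact sub_eq_zero.mp h1
  -- ψ vanishes on U
  have hU' : ∀ (m : ℕ), ∀ u ∈ U, (N ^ m) φ u = 0 := by
    intro m
    induction m with
    | zero =>
      intro u hu
      have : φ u ∈ U.map φ := Submodule.mem_map_of_mem hu
      rw [hφ, Submodule.mem_bot] at this
      exact this
    | succ m ih =>
      intro u hu
      rw [pow_succ', Module.End.mul_apply, hNT, LinearMap.sub_apply, ih u hu, sub_zero]
      change (N ^ m) φ (sh p u) = 0
      exact ih _ (hU u hu)
  -- ψ is constant on the basis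
  have hconst : ∀ j : ZMod p, ψ (Pi.single j 1) = ψ (Pi.single 0 1) := by
    have h1 : ∀ n : ℕ, ψ (Pi.single ((n : ZMod p)) 1) = ψ (Pi.single 0 1) := by
      intro n
      induction n with
      | zero => simp
      | succ n ih =>
        rw [← ih]
        conv_lhs => rw [← hψT]
        change ψ (sh p (Pi.single _ 1)) = _
        congr 1
        funext i
        change (Pi.single (((n + 1 : ℕ) : ZMod p)) 1 : ZMod p → ZMod p) (i + 1) = _
        rw [Pi.single_apply, Pi.single_apply]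
        push_cast
        simp only [add_left_inj]
    intro j
    have := h1 j.val
    rwa [ZMod.natCast_zmod_val] at this
  have hval : ∀ u : ZMod p → ZMod p, ψ u = (∑ j, u j) * ψ (Pi.single 0 1) := by
    intro u
    have h1 : u = ∑ j, (u j) • (Pi.single j (1 : ZMod p) : ZMod p → ZMod p) := by
      funext i
      rw [Finset.sum_apply]
      simp [Pi.single_apply]
    conv_lhs => rw [h1]
    rw [map_sum, Finset.sum_mul]
    refine Finset.sum_congr rfl fun j _ => ?_
    rw [map_smul, hconst, smul_eq_mul]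
  have h1 := hU' l u₀ hu₀
  rw [← hψ, hval] at h1
  rcases mul_eq_zero.mp h1 with h2 | h2
  · exact hs h2
  · apply hψ0
    refine LinearMap.ext fun u => ?_
    rw [hval, h2, mul_zero]; rfl

section main

variable {X : Type*} [Group X] {R : Subgroup X} [hRn : R.Normal] {p : ℕ} [hp : Fact p.Prime]

open H66.HomMod

/-- the coordinates -/
def ph (R : Subgroup X) [hRn : R.Normal] (p : ℕ) [hp : Fact p.Prime] (x : X) (f : V R (ZMod p)) (r : R) : ZMod p → ZMod p :=
  fun j => rep R (ZMod p) (x ^ j.val) f (Additive.ofMul r)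

theorem ph_mul (x : X) (f : V R (ZMod p)) (r s : R) : ph R p x f (r * s) = ph R p x f r + ph R p x f s := by
  funext j
  change rep R (ZMod p) (x ^ j.val) f (Additive.ofMul (r * s)) = _
  rw [ofMul_mul, map_add]; rfl

theorem rep_mod (x : X) (hxp : x ^ p ∈ R) (f : V R (ZMod p)) (m : ℕ) :
    rep R (ZMod p) (x ^ ((m : ZMod p).val)) f = rep R (ZMod p) (x ^ m) f := by
  rw [ZMod.val_natCast]
  conv_rhs => rw [← Nat.mod_add_div m p, pow_add, pow_mul, map_mul, map_pow (rep R (ZMod p)) (x ^ p),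
    H1.PModV.rep_of_mem R (ZMod p) hxp, one_pow, mul_one]

theorem ph_cj (x : X) (hxp : x ^ p ∈ R) (f : V R (ZMod p)) (r : R) :
    ph R p x f (cj R x r) = sh p (ph R p x f r) := by
  funext j
  change rep R (ZMod p) (x ^ j.val) f (Additive.ofMul (cj R x r)) = rep R (ZMod p) (x ^ (j + 1).val) f (Additive.ofMul r)
  have h1 : j + 1 = ((j.val + 1 : ℕ) : ZMod p) := by push_cast; rw [ZMod.natCast_zmod_val]
  rw [h1, rep_mod x hxp, pow_succ', map_mul]
  rfl

theorem ph_cj_mem (x : X) {s : X} (hs : s ∈ R) (f : V R (ZMod p)) (r : R) :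
    ph R p x f (cj R s r) = ph R p x f r := by
  funext j
  change rep R (ZMod p) (x ^ j.val) f (Additive.ofMul (cj R s r)) = rep R (ZMod p) (x ^ j.val) f (Additive.ofMul r)
  rw [← rep_apply, ← Module.End.mul_apply, H1.PModV.rep_of_mem R (ZMod p) hs, one_mul]

theorem ph_norm (x : X) (hxp : x ^ p ∈ R) (f : V R (ZMod p)) (r : R) (i : ZMod p) :
    ph R p x f ⟨((r : X) * x⁻¹) ^ p * x ^ p, H1.PModV.norm_mem R x r p⟩ i = ∑ j, ph R p x f r j := by
  change (rep R (ZMod p) (x ^ i.val) f) (Additive.ofMul _) = _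
  rw [← H1.PModV.norm_apply R (ZMod p) x (rep R (ZMod p) (x ^ i.val) f) r p]
  rw [AddMonoidHom.finsetSum_apply]
  have h1 : ∀ j : ℕ, (H1.PModV.qrep R (ZMod p) (QuotientGroup.mk' R x ^ j) (rep R (ZMod p) (x ^ i.val) f)) (Additive.ofMul r)
      = ph R p x f r (i + (j : ZMod p)) := by
    intro j
    rw [← map_pow, H1.PModV.qrep_mk, ← Module.End.mul_apply, ← map_mul, ← pow_add]
    change _ = rep R (ZMod p) (x ^ (i + (j : ZMod p)).val) f (Additive.ofMul r)
    have h2 : i + (j : ZMod p) = ((j + i.val : ℕ) : ZMod p) := by push_cast; rw [ZMod.natCast_zmod_val]; ring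
    rw [h2, rep_mod x hxp]
  rw [Finset.sum_congr rfl (fun j _ => h1 j)]
  rw [← Fin.sum_univ_eq_sum_range (fun j => ph R p x f r (i + (j : ZMod p))) p]
  refine Fintype.sum_bijective (fun j : Fin p => i + ((j : ℕ) : ZMod p)) ?_ _ _ (fun j => rfl)
  rw [Fintype.bijective_iff_injective_and_card]
  refine ⟨?_, by rw [Fintype.card_fin, ZMod.card]⟩
  intro a b hab
  have h3 : ((a : ℕ) : ZMod p) = ((b : ℕ) : ZMod p) := add_left_cancel hab
  rw [ZMod.natCast_eq_natCast_iff'] at h3
  rw [Nat.mod_eq_of_lt a.2, Nat.mod_eq_of_lt b.2] at h3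
  exact Fin.ext h3

/-- the hom -/
def Ph (R : Subgroup X) [hRn : R.Normal] (p : ℕ) [hp : Fact p.Prime] (x : X) (f : V R (ZMod p)) :
    R →* Multiplicative (ZMod p → ZMod p) where
  toFun := fun r => Multiplicative.ofAdd (ph R p x f r)
  map_one' := by
    have h1 := ph_mul (p := p) x f (1 : R) 1
    rw [mul_one] at h1
    have h2 : ph R p x f (1 : R) = 0 := by
      have := h1
      rwa [eq_comm, add_eq_left] at this
    rw [h2]; rfl
  map_mul' := fun a b => by rw [ph_mul]; rfl

theorem sh_injective : Function.Injective (sh p) := by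
  intro a b hab
  funext j
  have := congrFun hab (j - 1)
  change a (j - 1 + 1) = b (j - 1 + 1) at this
  simpa using this

theorem cj_cj_inv (g : X) (r : R) : cj R g (cj R g⁻¹ r) = r := by
  apply Subtype.ext
  rw [cj_coe, cj_coe]; group

theorem cj_mul (g h : X) (r : R) : cj R (g * h) r = cj R h (cj R g r) := by
  apply Subtype.ext
  rw [cj_coe, cj_coe, cj_coe]; group

/-- the stabilizer of the kernel -/
def stK (R : Subgroup X) [hRn : R.Normal] (p : ℕ) [hp : Fact p.Prime] (x : X) (f : V R (ZMod p)) : Subgroup X where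
  carrier := {g | ∀ r : R, ph R p x f r = 0 ↔ ph R p x f (cj R g r) = 0}
  one_mem' := by
    intro r
    have : cj R 1 r = r := by apply Subtype.ext; rw [cj_coe]; group
    rw [this]
  mul_mem' := by
    intro a b ha hb r
    rw [cj_mul, ← hb, ← ha]
  inv_mem' := by
    intro a ha r
    rw [ha (cj R a⁻¹ r), cj_cj_inv]

theorem stK_eq_top (x : X) (hxp : x ^ p ∈ R) (hX : R ⊔ zpowers x = ⊤) (f : V R (ZMod p)) : stK R p x f = ⊤ := by
  rw [eq_top_iff, ← hX, sup_le_iff, zpowers_le]
  constructor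
  · intro s hs r
    rw [ph_cj_mem x hs]
  · intro r
    rw [ph_cj x hxp]
    constructor
    · intro h
      rw [h, map_zero]
    · intro h
      apply sh_injective
      rw [h, map_zero]

end main

/-- the conclusion -/
def Wr (p : ℕ) (W : Type*) [Group W] : Prop :=
  ∃ (B : Subgroup W) (t : W), B.Normal ∧ IsMulCommutative B ∧ (∀ b ∈ B, b ^ p = 1) ∧ Nat.card B = p ^ p ∧
    orderOf t = p ∧ t ∉ B ∧ Nat.card W = p ^ (p + 1) ∧ Nat.card ↥(B ⊓ Subgroup.centralizer ({t} : Set W)) = p

open H66.HomMod in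
theorem exists_section {p : ℕ} [hp : Fact p.Prime] {X : Type*} [Group X] [Finite X] (R : Subgroup X) [hRn : R.Normal]
    (x : X) (hxR : x ∉ R) (hxp : x ^ p ∈ R) (hX : R ⊔ zpowers x = ⊤) (f : V R (ZMod p)) (r : R)
    (hr : f (Additive.ofMul ⟨((r : X) * x⁻¹) ^ p * x ^ p, H1.PModV.norm_mem R x r p⟩) ≠ 0) :
    ∃ (M₀ : Subgroup X) (_ : M₀.Normal), Wr p (X ⧸ M₀) := by
  classical
  set Φ := Ph R p x f with hΦ
  -- surjectivity
  have hsurj : Function.Surjective (ph R p x f) := by
    let U : AddSubgroup (ZMod p → ZMod p) :=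
      { carrier := Set.range (ph R p x f)
        zero_mem' := ⟨1, congrArg Multiplicative.toAdd (map_one Φ)⟩
        add_mem' := by
          rintro _ _ ⟨a, rfl⟩ ⟨b, rfl⟩
          exact ⟨a * b, ph_mul x f a b⟩
        neg_mem' := by
          rintro _ ⟨a, rfl⟩
          exact ⟨a⁻¹, congrArg Multiplicative.toAdd (map_inv Φ a)⟩ }
    have h1 : AddSubgroup.toZModSubmodule p U = ⊤ := by
      apply surj (u₀ := ph R p x f r)
      · rintro _ ⟨a, rfl⟩
        exact ⟨cj R x a, ph_cj x hxp f a⟩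
      · exact ⟨r, rfl⟩
      · rw [← ph_norm x hxp f r 0]
        change rep R (ZMod p) (x ^ (0 : ZMod p).val) f _ ≠ 0
        rw [ZMod.val_zero, pow_zero, map_one]
        exact hr
    intro u
    have h2 : u ∈ AddSubgroup.toZModSubmodule p U := by rw [h1]; trivial
    exact h2
  have hΦs : Function.Surjective Φ := fun u => by
    obtain ⟨a, ha⟩ := hsurj u.toAdd
    exact ⟨a, congrArg Multiplicative.ofAdd ha⟩
  set M₀ : Subgroup X := Φ.ker.map R.subtype with hM₀
  have hmem : ∀ r : R, (r : X) ∈ M₀ ↔ ph R p x f r = 0 := by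
    intro r
    rw [hM₀]
    constructor
    · rintro ⟨s, hs, hsr⟩
      rw [← Subtype.ext hsr]
      exact congrArg Multiplicative.toAdd hs
    · intro h
      exact ⟨r, congrArg Multiplicative.ofAdd h, rfl⟩
  have hM₀R : M₀ ≤ R := by rw [hM₀]; exact Subgroup.map_subtype_le _
  have hM₀n : M₀.Normal := by
    constructor
    intro n hn g
    have h1 : g⁻¹ ∈ stK R p x f := by rw [stK_eq_top x hxp hX f]; trivial
    have h2 := (h1 ⟨n, hM₀R hn⟩).mp ((hmem ⟨n, hM₀R hn⟩).mp hn)
    have h3 := (hmem _).mpr h2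
    rwa [cj_coe, inv_inv] at h3
  refine ⟨M₀, hM₀n, ?_⟩
  set π := QuotientGroup.mk' M₀ with hπ
  have hker : ∀ g, π g = 1 ↔ g ∈ M₀ := fun g => QuotientGroup.eq_one_iff g
  have hph1 : ∀ a b : R, π a = π b ↔ ph R p x f a = ph R p x f b := by
    intro a b
    rw [← mul_inv_eq_one, ← map_inv, ← map_mul, hker]
    have h1 : (a : X) * (b : X)⁻¹ = ((a * b⁻¹ : R) : X) := rfl
    rw [h1, hmem]
    have h2 : ph R p x f (a * b⁻¹) = ph R p x f a - ph R p x f b := by
      rw [ph_mul, sub_eq_add_neg]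
      congr 1
      exact congrArg Multiplicative.toAdd (map_inv Φ b)
    rw [h2, sub_eq_zero]
  -- the element w
  have hxpcj : cj R x (⟨x ^ p, hxp⟩ : R) = ⟨x ^ p, hxp⟩ := by
    apply Subtype.ext
    rw [cj_coe]
    change x⁻¹ * x ^ p * x = x ^ p
    rw [mul_assoc, ← pow_succ, pow_succ', inv_mul_cancel_left]
  have hconst : ∀ u : ZMod p → ZMod p, sh p u = u → ∀ j, u j = u 0 := by
    intro u hu
    have h1 : ∀ n : ℕ, u (n : ZMod p) = u 0 := by
      intro n
      induction n with
      | zero => simp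
      | succ n ih =>
        rw [← ih]
        conv_rhs => rw [← hu]
        change u _ = u ((n : ZMod p) + 1)
        push_cast; rfl
    intro j
    have := h1 j.val
    rwa [ZMod.natCast_zmod_val] at this
  have hxps := ph_cj x hxp f ⟨x ^ p, hxp⟩
  rw [hxpcj] at hxps
  have hxpc := hconst _ hxps.symm
  obtain ⟨w, hw⟩ := hsurj (Pi.single 0 (ph R p x f ⟨x ^ p, hxp⟩ 0))
  have htp : (((w : X) * x⁻¹) ^ p) ∈ M₀ := by
    have h1 : ((w : X) * x⁻¹) ^ p ∈ R := by
      have := R.mul_mem (H1.PModV.norm_mem R x w p) (R.inv_mem hxp)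
      rwa [mul_inv_cancel_right] at this
    have h2 : (⟨((w : X) * x⁻¹) ^ p * x ^ p, H1.PModV.norm_mem R x w p⟩ : R) = ⟨((w : X) * x⁻¹) ^ p, h1⟩ * ⟨x ^ p, hxp⟩ := rfl
    have h3 : ph R p x f ⟨((w : X) * x⁻¹) ^ p, h1⟩ = 0 := by
      funext j
      have h4 := ph_norm x hxp f w j
      rw [h2, ph_mul, hw] at h4
      rw [Finset.sum_pi_single', if_pos (Finset.mem_univ _), Pi.add_apply, hxpc j] at h4
      exact add_eq_right.mp h4
    exact (hmem ⟨_, h1⟩).mpr h3
  set t : X ⧸ M₀ := π ((w : X) * x⁻¹) with ht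
  have hwxR : (w : X) * x⁻¹ ∉ R := by
    intro h
    apply hxR
    have := R.mul_mem (R.inv_mem w.2) h
    rw [inv_mul_cancel_left] at this
    exact (R.inv_mem_iff).mp this
  have htB : t ∉ R.map π := by
    rintro ⟨s, hs, hst⟩
    apply hwxR
    have h1 : π (s⁻¹ * ((w : X) * x⁻¹)) = 1 := by
      rw [map_mul, map_inv, inv_mul_eq_one]; exact hst
    rw [hker] at h1
    have := R.mul_mem hs (hM₀R h1)
    rwa [mul_inv_cancel_left] at this
  -- the cardinality of B
  let β : (ZMod p → ZMod p) → R.map π := fun u => ⟨π (Classical.choose (hsurj u) : R), ⟨_, (Classical.choose (hsurj u)).2, rfl⟩⟩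
  have hβ : ∀ u (s : R), ph R p x f s = u → ((β u : R.map π) : X ⧸ M₀) = π s := by
    intro u s hs
    change π (Classical.choose (hsurj u) : R) = π s
    rw [hph1, hs]
    exact Classical.choose_spec (hsurj u)
  have hβinj : Function.Injective β := by
    intro u v huv
    obtain ⟨a, rfl⟩ := hsurj u
    obtain ⟨b, rfl⟩ := hsurj v
    have h1 := congrArg Subtype.val huv
    rw [hβ _ a rfl, hβ _ b rfl, hph1] at h1
    exact h1
  have hβsurj : Function.Surjective β := by
    rintro ⟨_, s, hs, rfl⟩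
    exact ⟨ph R p x f ⟨s, hs⟩, Subtype.ext (hβ _ ⟨s, hs⟩ rfl)⟩
  have hcardB : Nat.card (R.map π) = p ^ p := by
    rw [← Nat.card_congr (Equiv.ofBijective β ⟨hβinj, hβsurj⟩), Nat.card_fun, Nat.card_zmod]
  have hBn : (R.map π).Normal := hRn.map π (QuotientGroup.mk'_surjective M₀)
  have hcomm : ∀ a ∈ R.map π, ∀ b ∈ R.map π, a * b = b * a := by
    rintro _ ⟨a, ha, rfl⟩ _ ⟨b, hb, rfl⟩
    rw [← map_mul, ← map_mul]
    have h1 := (hph1 (⟨a, ha⟩ * ⟨b, hb⟩) (⟨b, hb⟩ * ⟨a, ha⟩)).mpr (by rw [ph_mul, ph_mul, add_comm])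
    exact h1
  refine ⟨R.map π, t, hBn, ⟨⟨?_⟩⟩, ?_, hcardB, ?_, htB, ?_, ?_⟩
  · rintro ⟨a, ha⟩ ⟨b, hb⟩
    exact Subtype.ext (hcomm a ha b hb)
  · rintro _ ⟨a, ha, rfl⟩
    rw [← map_pow, hker]
    have h1 : a ^ p = (((⟨a, ha⟩ : R) ^ p : R) : X) := rfl
    rw [h1, hmem]
    have h2 : ph R p x f (⟨a, ha⟩ ^ p) = p • ph R p x f ⟨a, ha⟩ := congrArg Multiplicative.toAdd (map_pow Φ _ p)
    rw [h2]
    funext j
    rw [Pi.smul_apply, nsmul_eq_mul, CharP.cast_eq_zero, zero_mul]; rfl
  · apply orderOf_eq_prime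
    · rw [ht, ← map_pow, hker]; exact htp
    · intro h
      apply htB
      rw [h]; exact one_mem _
  · have h1 : Nat.card (X ⧸ M₀) = M₀.index := rfl
    have h2 : M₀.relIndex R * R.index = M₀.index := Subgroup.relIndex_mul_index hM₀R
    have h3 : M₀.relIndex R = p ^ p := by
      have h4 : M₀.relIndex R = Nat.card (R.map π) := by
        have h5 : (M₀.subgroupOf R) = (π.comp R.subtype).ker := by
          ext ⟨a, ha⟩
          rw [MonoidHom.mem_ker]
          exact (hker a).symm
        rw [Subgroup.relIndex, h5, Subgroup.index_ker, MonoidHom.range_comp, Subgroup.range_subtype]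
      rw [h4, hcardB]
    have h4 : R.index = p := by
      have h6 : Nat.card (X ⧸ R) = p := by
        have h7 : orderOf (QuotientGroup.mk' R x) = p := by
          apply orderOf_eq_prime
          · rw [← map_pow]; exact (QuotientGroup.eq_one_iff _).mpr hxp
          · intro h; exact hxR ((QuotientGroup.eq_one_iff _).mp h)
        rw [← h7, ← Nat.card_zpowers, ← MonoidHom.map_zpowers]
        have h8 : (zpowers x).map (QuotientGroup.mk' R) = ⊤ := by
          rw [← Subgroup.map_top_of_surjective _ (QuotientGroup.mk'_surjective R), ← hX, Subgroup.map_sup]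
          have h9 : R.map (QuotientGroup.mk' R) = ⊥ := by
            rw [Subgroup.map_eq_bot_iff, QuotientGroup.ker_mk']
          rw [h9, bot_sup_eq]
        rw [h8, Subgroup.card_top]
      exact h6
    rw [h1, ← h2, h3, h4, pow_succ]
  · -- the centralizer
    have hcent : ∀ b : R, (π b ∈ (R.map π ⊓ centralizer ({t} : Set (X ⧸ M₀)))) ↔ sh p (ph R p x f b) = ph R p x f b := by
      intro b
      rw [Subgroup.mem_inf, Subgroup.mem_centralizer_singleton_iff, and_iff_right (Subgroup.mem_map_of_mem _ b.2)]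
      have h1 : ph R p x f (cj R ((w : X) * x⁻¹) (cj R x b)) = ph R p x f b := by
        rw [← cj_mul]
        have h2 : x * ((w : X) * x⁻¹) ∈ R := by rw [← mul_assoc]; exact hRn.conj_mem _ w.2 x
        rw [ph_cj_mem x h2]
      have h2 : ∀ a b : R, ph R p x f a = ph R p x f b → ph R p x f (cj R ((w : X) * x⁻¹) a) = ph R p x f (cj R ((w : X) * x⁻¹) b) := by
        intro a b hab
        rw [← hph1] at hab ⊢
        rw [cj_coe, cj_coe, map_mul, map_mul, hab, ← map_mul, ← map_mul]
      constructor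
      · intro h
        have h3 : ph R p x f (cj R ((w : X) * x⁻¹) b) = ph R p x f b := by
          rw [← hph1, cj_coe, map_mul, map_mul, map_inv, ← ht, mul_assoc, h, inv_mul_cancel_left]
        have h4 : ph R p x f (cj R x (cj R ((w : X) * x⁻¹) b)) = ph R p x f b := by
          rw [← cj_mul]
          have h5 : ((w : X) * x⁻¹) * x ∈ R := by rw [inv_mul_cancel_right]; exact w.2
          rw [ph_cj_mem x h5]
        rw [ph_cj x hxp, h3] at h4
        exact h4
      · intro h
        rw [← ph_cj x hxp] at h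
        have h3 := h2 _ _ h
        rw [h1] at h3
        rw [← hph1, cj_coe, map_mul, map_mul, map_inv, ← ht] at h3
        have h4 := congrArg (t * ·) h3
        simpa [mul_assoc] using h4.symm
    let γ : ZMod p → ↥(R.map π ⊓ centralizer ({t} : Set (X ⧸ M₀))) := fun c =>
      ⟨π (Classical.choose (hsurj (fun _ => c)) : R), (hcent _).mpr (by
        rw [Classical.choose_spec (hsurj (fun _ => c))]; rfl)⟩
    have hγ : ∀ c (s : R), ph R p x f s = (fun _ => c) → ((γ c : ↥(R.map π ⊓ centralizer ({t} : Set (X ⧸ M₀)))) : X ⧸ M₀) = π s := by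
      intro c s hs
      change π (Classical.choose (hsurj (fun _ => c)) : R) = π s
      rw [hph1, hs]
      exact Classical.choose_spec (hsurj (fun _ => c))
    rw [← Nat.card_congr (Equiv.ofBijective γ ⟨?_, ?_⟩), Nat.card_zmod]
    · intro c d hcd
      obtain ⟨a, ha⟩ := hsurj (fun _ => c)
      obtain ⟨b, hb⟩ := hsurj (fun _ => d)
      have h1 := congrArg Subtype.val hcd
      rw [hγ c a ha, hγ d b hb, hph1, ha, hb] at h1
      exact congrFun h1 0
    · rintro ⟨y, hy⟩
      obtain ⟨s, hs, hsy⟩ := hy.1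
      have h1 : sh p (ph R p x f ⟨s, hs⟩) = ph R p x f ⟨s, hs⟩ := (hcent ⟨s, hs⟩).mp (by
        change π s ∈ _
        rw [hsy]; exact hy)
      refine ⟨ph R p x f ⟨s, hs⟩ 0, Subtype.ext ?_⟩
      rw [hγ _ ⟨s, hs⟩ (funext (hconst _ h1))]
      exact hsy

theorem Wr.of_equiv {p : ℕ} {W W' : Type*} [Group W] [Group W'] (e : W ≃* W') (h : Wr p W) : Wr p W' := by
  obtain ⟨B, t, hBn, hBc, hBp, hBcard, ht, htB, hW, hcent⟩ := h
  refine ⟨B.map e.toMonoidHom, e t, hBn.map _ e.surjective, ⟨⟨?_⟩⟩, ?_, ?_, ?_, ?_, ?_, ?_⟩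
  · rintro ⟨_, a, ha, rfl⟩ ⟨_, b, hb, rfl⟩
    apply Subtype.ext
    have h1 := congrArg Subtype.val (hBc.is_comm.comm ⟨a, ha⟩ ⟨b, hb⟩)
    change a * b = b * a at h1
    change e a * e b = e b * e a
    rw [← map_mul, ← map_mul, h1]
  · rintro _ ⟨b, hb, rfl⟩
    change e b ^ p = 1
    rw [← map_pow, hBp b hb, map_one]
  · rw [← hBcard]
    exact (Nat.card_congr (B.equivMapOfInjective e.toMonoidHom e.injective).toEquiv).symm
  · rw [← ht]; exact MulEquiv.orderOf_eq e t
  · rintro ⟨b, hb, hbt⟩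
    rw [← e.injective hbt] at htB
    exact htB hb
  · rw [← hW]; exact (Nat.card_congr e.toEquiv).symm
  · rw [← hcent]
    have h1 : (B.map e.toMonoidHom ⊓ centralizer ({e t} : Set W')) = (B ⊓ centralizer ({t} : Set W)).map e.toMonoidHom := by
      ext y
      rw [Subgroup.mem_inf]
      constructor
      · rintro ⟨⟨b, hb, rfl⟩, h2⟩
        have h3 : b ∈ centralizer ({t} : Set W) := by
          rw [Subgroup.mem_centralizer_singleton_iff] at h2 ⊢
          apply e.injective
          rw [map_mul, map_mul]; exact h2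
        exact ⟨b, ⟨hb, h3⟩, rfl⟩
      · rintro ⟨b, ⟨hb, hbt⟩, rfl⟩
        refine ⟨⟨b, hb, rfl⟩, ?_⟩
        have h3 : b ∈ centralizer ({t} : Set W) := hbt
        rw [Subgroup.mem_centralizer_singleton_iff] at h3 ⊢
        change e b * e t = e t * e b
        rw [← map_mul, ← map_mul, h3]
    rw [h1]
    exact (Nat.card_congr ((B ⊓ centralizer ({t} : Set W)).equivMapOfInjective e.toMonoidHom e.injective).toEquiv).symm

end H1.WrSec
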