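import Cfsg.Agent.Lib.H1.WrSec
import Cfsg.Agent.Lib.H1.ThmB
import Cfsg.Agent.Lib.H66.PLen2
import Cfsg.Agent.Lib.H51.Involves

set_option autoImplicit false

open Subgroup Cfsg H66.PLen H66.PLen2 H1.WrSec
open scoped commutatorElement

namespace H1.WrSec2

universe u

theorem lift_pelement {p : ℕ} [hp : Fact p.Prime] {G : Type u} [Group G] [Finite G] (N : Subgroup G) [N.Normal]
    (y : G ⧸ N) {k : ℕ} (hy : y ^ p ^ k = 1) : ∃ x : G, QuotientGroup.mk' N x = y ∧ ∃ l, x ^ p ^ l = 1 := by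
  have h1 : IsPGroup p (zpowers y) := by
    obtain ⟨j, _, hj⟩ := (Nat.dvd_prime_pow hp.out).1 (orderOf_dvd_of_pow_eq_one hy)
    exact IsPGroup.of_card (n := j) (by rw [Nat.card_zpowers, hj])
  obtain ⟨S, hS⟩ := exists_pgroup_lift N _ h1
  obtain ⟨s, hs, hsy⟩ := hS (mem_zpowers y)
  refine ⟨s, hsy, ?_⟩
  obtain ⟨l, hl⟩ := S.2 ⟨s, hs⟩
  exact ⟨l, congrArg Subtype.val hl⟩

/-- the key statement: p-length > 1 gives a section. -/
theorem key {p : ℕ} [hp : Fact p.Prime] (hp2 : p ≠ 2) (hnf : ¬ ∃ k : ℕ, p = 2 ^ k + 1) {X : Type u} [Group X] [Finite X]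
    (hX : IsPSolvable p X) (hcore : pPrimeCore p X = ⊥) (x : X) (k : ℕ) (hxk : x ^ p ^ k = 1) (hxR : x ∉ pCore p X)
    (hxp : x ^ p ∈ pCore p X) : ∃ (H : Subgroup X), IsPGroup p H ∧ ∃ (M₀ : Subgroup H) (_ : M₀.Normal), Wr p (H ⧸ M₀) := by
  obtain ⟨q, hq, hqp, Q, hQ, hxQ, hzQ⟩ := H1.PModV.exists_q hX x k hxk 0 (by rwa [pow_zero, pow_one])
  haveI := Fact.mk hq
  set R := pCore p X with hR
  have hRp : IsPGroup p R := H1.Cores.isPGroup_pCore p
  set y : X ⧸ R := QuotientGroup.mk' R x with hy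
  have hyo : orderOf y = p ^ (0 + 1) := by
    rw [zero_add, pow_one]
    apply orderOf_eq_prime
    · rw [hy, ← map_pow]; exact (QuotientGroup.eq_one_iff _).mpr hxp
    · intro h; exact hxR ((QuotientGroup.eq_one_iff _).mp h)
  let K := AlgebraicClosure (ZMod p)
  have hcharK : CharP K p := charP_of_injective_algebraMap (algebraMap (ZMod p) K).injective p
  have hne : ∃ f : H66.HomMod.V R K, ∑ j ∈ Finset.range (p ^ (0 + 1)), H1.PModV.qrep R K (y ^ j) f ≠ 0 := by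
    by_contra hcon
    push Not at hcon
    have hqF : (q : K) ≠ 0 := by
      intro h
      rw [CharP.cast_eq_zero_iff K p q] at h
      exact hqp ((Nat.prime_dvd_prime_iff_eq hp.out hq).mp h).symm
    obtain ⟨_, k', hk', ⟨m, hm1, hm⟩, _⟩ := H1.ThmB.exceptional (H1.PModV.qrep R K) (p := p) (q := q) (n := 0) (Ne.symm hqp) hqF
      hyo Q hQ hxQ hzQ (by
        intro g hg h1
        apply H1.PModV.faithful K hX hcore g ?_ h1
        obtain ⟨l, hl⟩ := hQ ⟨g, hg⟩
        have h2 : g ^ q ^ l = 1 := congrArg Subtype.val hl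
        exact (((Nat.coprime_primes hq hp.out).2 hqp).pow_left l).coprime_dvd_left (orderOf_dvd_of_pow_eq_one h2)) hcon
    obtain rfl : k' = 0 := by omega
    have hm' : p - 1 = q ^ m := by simpa using hm
    have hpodd : Odd p := hp.out.odd_of_ne_two hp2
    have hq2 : q = 2 := by
      have h2 : 2 ∣ q ^ m := by
        rw [← hm']
        obtain ⟨c, hc⟩ := hpodd
        exact ⟨c, by omega⟩
      have h3 := Nat.prime_two.dvd_of_dvd_pow h2
      exact ((Nat.prime_dvd_prime_iff_eq Nat.prime_two hq).mp h3).symm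
    apply hnf
    refine ⟨m, ?_⟩
    rw [← hq2, ← hm']
    have := hp.out.one_lt
    omega
  obtain ⟨f, hf⟩ := hne
  rw [zero_add, pow_one] at hf
  -- a value
  obtain ⟨r, hr⟩ : ∃ r : R, f (Additive.ofMul ⟨((r : X) * x⁻¹) ^ p * x ^ p, H1.PModV.norm_mem R x r p⟩) ≠ 0 := by
    by_contra hcon
    push Not at hcon
    apply hf
    refine DFunLike.ext _ _ fun r => ?_
    have h1 := H1.PModV.norm_apply R K x f (Additive.toMul r) p
    rw [hcon] at h1
    exact h1
  obtain ⟨φ, hφ⟩ : ∃ φ : Module.Dual (ZMod p) K, φ (f (Additive.ofMul ⟨((r : X) * x⁻¹) ^ p * x ^ p, H1.PModV.norm_mem R x r p⟩)) ≠ 0 := by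
    by_contra hcon
    push Not at hcon
    exact hr ((Module.forall_dual_apply_eq_zero_iff (ZMod p) _).mp hcon)
  -- the group H
  set H : Subgroup X := R ⊔ zpowers x with hH
  have hxH : x ∈ H := (le_sup_right : zpowers x ≤ H) (mem_zpowers x)
  have hRH : R ≤ H := le_sup_left
  have hHp : IsPGroup p H := by
    have h1 : IsPGroup p (zpowers x) := by
      obtain ⟨j, _, hj⟩ := (Nat.dvd_prime_pow hp.out).1 (orderOf_dvd_of_pow_eq_one hxk)
      exact IsPGroup.of_card (n := j) (by rw [Nat.card_zpowers, hj])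
    exact hRp.to_sup_of_normal_left h1
  refine ⟨H, hHp, ?_⟩
  let R' : Subgroup H := R.subgroupOf H
  have hR'n : R'.Normal := inferInstance
  let g : H66.HomMod.V R' (ZMod p) := (φ.toAddMonoidHom.comp f).comp
    (MonoidHom.toAdditive (Subgroup.subgroupOfEquivOfLe hRH).toMonoidHom)
  have hx' : (⟨x, hxH⟩ : H) ^ p ∈ R' := by
    rw [Subgroup.mem_subgroupOf]; exact hxp
  refine exists_section R' (⟨x, hxH⟩ : H) ?_ hx' ?_ g ⟨⟨r, hRH r.2⟩, r.2⟩ hφ
  · intro h; exact hxR h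
  · rw [eq_top_iff]
    rintro ⟨h, hh⟩ _
    have h1 : (R' ⊔ zpowers (⟨x, hxH⟩ : H)).map H.subtype = H := by
      rw [Subgroup.map_sup, Subgroup.subgroupOf_map_subtype, MonoidHom.map_zpowers, inf_eq_left.mpr hRH]
      rfl
    obtain ⟨h', hh', hh''⟩ : h ∈ (R' ⊔ zpowers (⟨x, hxH⟩ : H)).map H.subtype := by rw [h1]; exact hh
    have h3 : h' = ⟨h, hh⟩ := Subtype.ext hh''
    rw [← h3]
    exact hh'

end H1.WrSec2
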